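import Mathlib

set_option autoImplicit false
set_option linter.unusedSectionVars false
set_option linter.style.haveILetI false
set_option linter.unusedSimpArgs false
set_option linter.unusedVariables false
set_option linter.deprecated false

namespace Cfsg.Agent.Helper3

/-- integer vectors on `Fin k` with coordinates in `al`, prescribed residues modulo 4,
prescribed total weight and prescribed coordinate sum modulo 8 -/
def Cset (al : List ℤ) (wt : ℤ → ℕ) (cls : ℕ → ℤ) (k n : ℕ) (s : ℤ) : Finset (Fin k → ℤ) :=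
  (Fintype.piFinset fun _ : Fin k => al.toFinset).filter fun y =>
    (∀ j : Fin k, y j % 4 = cls j) ∧ ∑ j, wt (y j) = n ∧ (∑ j, y j) % 8 = s

theorem mem_Cset {al : List ℤ} {wt : ℤ → ℕ} {cls : ℕ → ℤ} {k n : ℕ} {s : ℤ} (y : Fin k → ℤ) :
    y ∈ Cset al wt cls k n s ↔ (∀ j, y j ∈ al) ∧ (∀ j : Fin k, y j % 4 = cls j) ∧
      ∑ j, wt (y j) = n ∧ (∑ j, y j) % 8 = s := by
  simp [Cset, Fintype.mem_piFinset]

theorem Cset_zero_card (al : List ℤ) (wt : ℤ → ℕ) (cls : ℕ → ℤ) (n : ℕ) (s : ℤ) :
    (Cset al wt cls 0 n s).card = if n = 0 ∧ s = 0 then 1 else 0 := by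
  split_ifs with h
  · rw [Finset.card_eq_one]
    refine ⟨fun j => j.elim0, ?_⟩
    ext y
    rw [Finset.mem_singleton, mem_Cset]
    constructor
    · intro _
      funext j
      exact j.elim0
    · intro _
      refine ⟨fun j => j.elim0, fun j => j.elim0, ?_, ?_⟩
      · simp [h.1]
      · simp [h.2]
  · rw [Finset.card_eq_zero, Finset.eq_empty_iff_forall_notMem]
    intro y hy
    rw [mem_Cset] at hy
    apply h
    obtain ⟨-, -, h3, h4⟩ := hy
    simp at h3 h4
    exact ⟨h3.symm, h4.symm⟩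

theorem Cset_succ_card (al : List ℤ) (wt : ℤ → ℕ) (cls : ℕ → ℤ) (k n : ℕ) (s : ℤ)
    (hs : 0 ≤ s ∧ s < 8) :
    (Cset al wt cls (k + 1) n s).card = ∑ v ∈ al.toFinset,
      if v % 4 = cls k ∧ wt v ≤ n then (Cset al wt cls k (n - wt v) ((s - v) % 8)).card
      else 0 := by
  rw [Finset.card_eq_sum_card_fiberwise (f := fun y : Fin (k + 1) → ℤ => y (Fin.last k))
    (t := al.toFinset)]
  · apply Finset.sum_congr rfl
    intro v hv
    have hv' : v ∈ al := List.mem_toFinset.mp hv
    split_ifs with hc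
    · apply Finset.card_nbij' (fun y => Fin.init y) (fun y' => Fin.snoc y' v)
      · intro y hy
        rw [Finset.mem_coe, Finset.mem_filter, mem_Cset] at hy
        obtain ⟨⟨h1, h2, h3, h4⟩, h5⟩ := hy
        rw [Finset.mem_coe, mem_Cset]
        rw [Fin.sum_univ_castSucc] at h3 h4
        rw [h5] at h3 h4
        refine ⟨fun j => h1 _, fun j => ?_, ?_, ?_⟩
        · have := h2 (Fin.castSucc j)
          simpa [Fin.init] using this
        · have : ∑ j : Fin k, wt (Fin.init y j) = ∑ j : Fin k, wt (y (Fin.castSucc j)) := rfl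
          rw [this]
          omega
        · have : ∑ j : Fin k, Fin.init y j = ∑ j : Fin k, y (Fin.castSucc j) := rfl
          rw [this]
          omega
      · intro y' hy'
        rw [Finset.mem_coe, mem_Cset] at hy'
        obtain ⟨h1, h2, h3, h4⟩ := hy'
        show (Fin.snoc y' v : Fin (k + 1) → ℤ) ∈ _
        rw [Finset.mem_coe, Finset.mem_filter, mem_Cset]
        refine ⟨⟨?_, ?_, ?_, ?_⟩, ?_⟩
        · intro j
          refine Fin.lastCases ?_ (fun j' => ?_) j
          · rw [Fin.snoc_last]; exact hv'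
          · rw [Fin.snoc_castSucc]; exact h1 j'
        · intro j
          refine Fin.lastCases ?_ (fun j' => ?_) j
          · rw [Fin.snoc_last, Fin.val_last]; exact hc.1
          · rw [Fin.snoc_castSucc, Fin.val_castSucc]; exact h2 j'
        · rw [Fin.sum_univ_castSucc]
          simp only [Fin.snoc_castSucc, Fin.snoc_last]
          have := hc.2
          omega
        · rw [Fin.sum_univ_castSucc]
          simp only [Fin.snoc_castSucc, Fin.snoc_last]
          omega
        · simp only [Fin.snoc_last]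
      · intro y hy
        rw [Finset.mem_coe, Finset.mem_filter] at hy
        show (Fin.snoc (Fin.init y) v : Fin (k + 1) → ℤ) = y
        rw [← hy.2]
        exact Fin.snoc_init_self y
      · intro y' _
        show Fin.init (Fin.snoc y' v : Fin (k + 1) → ℤ) = y'
        exact Fin.init_snoc _ _
    · rw [Finset.card_eq_zero, Finset.eq_empty_iff_forall_notMem]
      intro y hy
      rw [Finset.mem_filter, mem_Cset] at hy
      obtain ⟨⟨h1, h2, h3, h4⟩, h5⟩ := hy
      apply hc
      constructor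
      · have := h2 (Fin.last k)
        rw [h5, Fin.val_last] at this
        exact this
      · rw [Fin.sum_univ_castSucc, h5] at h3
        omega
  · intro y hy
    rw [Finset.mem_coe, mem_Cset] at hy
    exact Finset.mem_coe.mpr (List.mem_toFinset.mpr (hy.1 _))

/-- one step of the counting table -/
def dpStep (al : List ℤ) (wt : ℤ → ℕ) (N : ℕ) (r : ℤ) (T : List (List ℕ)) : List (List ℕ) :=
  (List.range (N + 1)).map fun (n : ℕ) =>
    (List.range 8).map fun (s : ℕ) =>
      (al.map fun v =>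
        if v % 4 = r ∧ wt v ≤ n then (T.getD (n - wt v) []).getD (((s : ℤ) - v) % 8).toNat 0
        else 0).sum

/-- the initial counting table -/
def dpInit (N : ℕ) : List (List ℕ) :=
  (List.range (N + 1)).map fun (n : ℕ) =>
    (List.range 8).map fun (s : ℕ) => if n = 0 ∧ s = 0 then 1 else 0

/-- the counting table after `k` coordinates -/
def dpTbl (al : List ℤ) (wt : ℤ → ℕ) (N : ℕ) (cls : ℕ → ℤ) : ℕ → List (List ℕ)
  | 0 => dpInit N
  | k + 1 => dpStep al wt N (cls k) (dpTbl al wt N cls k)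

theorem getD_map_range {α : Type*} (f : ℕ → α) (M i : ℕ) (h : i < M) (d : α) :
    ((List.range M).map f).getD i d = f i := by
  rw [List.getD_eq_getElem _ _ (by simpa using h)]
  simp

theorem dp_correct (al : List ℤ) (hal : al.Nodup) (wt : ℤ → ℕ) (N : ℕ) (cls : ℕ → ℤ) (k : ℕ) :
    ∀ n s : ℕ, n ≤ N → s < 8 →
      (Cset al wt cls k n (s : ℤ)).card = ((dpTbl al wt N cls k).getD n []).getD s 0 := by
  induction k with
  | zero =>
    intro n s hn hs
    rw [Cset_zero_card]
    show _ = ((dpInit N).getD n []).getD s 0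
    unfold dpInit
    rw [getD_map_range _ _ _ (by omega), getD_map_range _ _ _ hs]
    simp
  | succ k ih =>
    intro n s hn hs
    rw [Cset_succ_card _ _ _ _ _ _ ⟨by positivity, by exact_mod_cast hs⟩]
    show _ = ((dpStep al wt N (cls k) (dpTbl al wt N cls k)).getD n []).getD s 0
    unfold dpStep
    rw [getD_map_range _ _ _ (by omega), getD_map_range _ _ _ hs, List.sum_toFinset _ hal]
    congr 1
    apply List.map_congr_left
    intro v _
    split_ifs with hc
    · have h1 : 0 ≤ ((s : ℤ) - v) % 8 := Int.emod_nonneg _ (by norm_num)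
      have h2 : ((s : ℤ) - v) % 8 < 8 := Int.emod_lt_of_pos _ (by norm_num)
      have := ih (n - wt v) (((s : ℤ) - v) % 8).toNat (by omega) (by omega)
      rw [Int.toNat_of_nonneg h1] at this
      exact this
    · rfl

/-- the same count on an arbitrary finite index type -/
def Fset {ι : Type*} [Fintype ι] [DecidableEq ι] (al : List ℤ) (wt : ℤ → ℕ) (r : ι → ℤ) (n : ℕ)
    (s : ℤ) : Finset (ι → ℤ) :=
  (Fintype.piFinset fun _ : ι => al.toFinset).filter fun x =>
    (∀ i, x i % 4 = r i) ∧ ∑ i, wt (x i) = n ∧ (∑ i, x i) % 8 = s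

theorem mem_Fset {ι : Type*} [Fintype ι] [DecidableEq ι] {al : List ℤ} {wt : ℤ → ℕ} {r : ι → ℤ}
    {n : ℕ} {s : ℤ} (x : ι → ℤ) :
    x ∈ Fset al wt r n s ↔ (∀ i, x i ∈ al) ∧ (∀ i, x i % 4 = r i) ∧
      ∑ i, wt (x i) = n ∧ (∑ i, x i) % 8 = s := by
  simp [Fset, Fintype.mem_piFinset]

theorem Fset_card_eq {ι : Type*} [Fintype ι] [DecidableEq ι] (al : List ℤ) (wt : ℤ → ℕ)
    (r : ι → ℤ) (n : ℕ) (s : ℤ) (k : ℕ) (e : ι ≃ Fin k) (cls : ℕ → ℤ)
    (hr : ∀ i, r i = cls (e i)) :
    (Fset al wt r n s).card = (Cset al wt cls k n s).card := by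
  apply Finset.card_nbij' (fun x => x ∘ e.symm) (fun y => y ∘ e)
  · intro x hx
    rw [Finset.mem_coe, mem_Fset] at hx
    obtain ⟨h1, h2, h3, h4⟩ := hx
    rw [Finset.mem_coe, mem_Cset]
    refine ⟨fun j => h1 _, fun j => ?_, ?_, ?_⟩
    · show x (e.symm j) % 4 = cls j
      rw [h2, hr, e.apply_symm_apply]
    · rw [← h3]
      exact Equiv.sum_comp e.symm (fun i => wt (x i))
    · rw [← h4]
      congr 1
      exact Equiv.sum_comp e.symm x
  · intro y hy
    rw [Finset.mem_coe, mem_Cset] at hy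
    obtain ⟨h1, h2, h3, h4⟩ := hy
    rw [Finset.mem_coe, mem_Fset]
    refine ⟨fun i => h1 _, fun i => ?_, ?_, ?_⟩
    · show y (e i) % 4 = r i
      rw [h2, hr]
    · rw [← h3]
      exact Equiv.sum_comp e (fun j => wt (y j))
    · rw [← h4]
      congr 1
      exact Equiv.sum_comp e y
  · intro x _
    funext i
    simp
  · intro y _
    funext j
    simp

theorem exists_equiv_fin {ι : Type*} [Fintype ι] [DecidableEq ι] (A : Finset ι) (k : ℕ)
    (hk : Fintype.card ι = k) :
    ∃ e : ι ≃ Fin k, ∀ i, ((e i : ℕ) < A.card ↔ i ∈ A) := by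
  have hle : A.card ≤ k := by rw [← hk]; exact Finset.card_le_univ A
  have h1 : Fintype.card {i // i ∈ A} = A.card := Fintype.card_coe A
  have h2 : Fintype.card {i // ¬ i ∈ A} = k - A.card := by
    rw [Fintype.card_subtype_compl, h1, hk]
  let eA : {i // i ∈ A} ≃ Fin A.card := Fintype.equivFinOfCardEq h1
  let eB : {i // ¬ i ∈ A} ≃ Fin (k - A.card) := Fintype.equivFinOfCardEq h2
  let e : ι ≃ Fin k := (Equiv.sumCompl (fun i => i ∈ A)).symm.trans
    ((Equiv.sumCongr eA eB).trans (finSumFinEquiv.trans (finCongr (by omega))))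
  refine ⟨e, fun i => ?_⟩
  by_cases hi : i ∈ A
  · have : e i = finCongr (by omega) (Fin.castAdd (k - A.card) (eA ⟨i, hi⟩)) := by
      simp [e, Equiv.sumCompl_symm_apply_of_pos, hi]
    rw [this]
    simp [hi]
  · have : e i = finCongr (by omega) (Fin.natAdd A.card (eB ⟨i, hi⟩)) := by
      simp [e, Equiv.sumCompl_symm_apply_of_neg, hi]
    rw [this]
    simp [hi]

end Cfsg.Agent.Helper3
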