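import Mathlib
import Cfsg.Agent.Helper3.LeechDP

set_option autoImplicit false
set_option linter.unusedSectionVars false
set_option linter.style.haveILetI false
set_option linter.unusedSimpArgs false
set_option linter.unusedVariables false
set_option linter.deprecated false

namespace Cfsg.Agent.Helper3

variable {ι : Type*} [Fintype ι] [DecidableEq ι]

theorem sum_pin {M : Type*} [AddCommMonoid M] (F : ι → M) (p : ι) :
    ∑ i, F i = F p + ∑ i : {i // i ≠ p}, F i.1 := by
  rw [← Finset.add_sum_erase Finset.univ F (Finset.mem_univ p)]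
  congr 1
  exact Finset.sum_subtype (Finset.univ.erase p) (by simp) F

/-- extension of a function on the complement of a point -/
def pinExt (p : ι) (a : ℤ) (x' : {i // i ≠ p} → ℤ) : ι → ℤ :=
  fun i => if h : i = p then a else x' ⟨i, h⟩

theorem pinExt_self (p : ι) (a : ℤ) (x' : {i // i ≠ p} → ℤ) : pinExt p a x' p = a := by
  simp [pinExt]

theorem pinExt_ne (p : ι) (a : ℤ) (x' : {i // i ≠ p} → ℤ) (i : ι) (h : i ≠ p) :
    pinExt p a x' i = x' ⟨i, h⟩ := by
  simp [pinExt, h]

theorem pinExt_sub (p : ι) (a : ℤ) (x' : {i // i ≠ p} → ℤ) (i : {i // i ≠ p}) :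
    pinExt p a x' i.1 = x' i := by
  rw [pinExt_ne p a x' i.1 i.2]

theorem Fset_pin (al : List ℤ) (wt : ℤ → ℕ) (r : ι → ℤ) (n : ℕ) (s : ℤ) (hs : 0 ≤ s ∧ s < 8)
    (p : ι) (a : ℤ) (P : ({i // i ≠ p} → ℤ) → Prop) [DecidablePred P] :
    ((Fset al wt r n s).filter (fun x => x p = a ∧ P (fun i => x i.1))).card =
      if a ∈ al ∧ a % 4 = r p ∧ wt a ≤ n then
        ((Fset (ι := {i // i ≠ p}) al wt (fun i => r i.1) (n - wt a) ((s - a) % 8)).filter P).card
      else 0 := by
  split_ifs with hc
  · apply Finset.card_nbij' (fun x => fun i : {i // i ≠ p} => x i.1) (fun x' => pinExt p a x')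
    · intro x hx
      rw [Finset.mem_coe, Finset.mem_filter, mem_Fset] at hx
      obtain ⟨⟨h1, h2, h3, h4⟩, h5, h6⟩ := hx
      rw [Finset.mem_coe, Finset.mem_filter, mem_Fset]
      beta_reduce
      refine ⟨⟨fun i => h1 _, fun i => h2 _, ?_, ?_⟩, h6⟩
      · have := sum_pin (fun i => wt (x i)) p
        rw [h3, h5] at this
        omega
      · have := sum_pin x p
        rw [h5] at this
        rw [this] at h4
        omega
    · intro x' hx'
      rw [Finset.mem_coe, Finset.mem_filter, mem_Fset] at hx'
      obtain ⟨⟨h1, h2, h3, h4⟩, h6⟩ := hx'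
      rw [Finset.mem_coe, Finset.mem_filter, mem_Fset]
      beta_reduce
      have e0 : (fun i : {i // i ≠ p} => pinExt p a x' i.1) = x' := funext (pinExt_sub p a x')
      refine ⟨⟨fun i => ?_, fun i => ?_, ?_, ?_⟩, pinExt_self p a x', ?_⟩
      · by_cases h : i = p
        · subst h
          rw [pinExt_self]
          exact hc.1
        · rw [pinExt_ne p a x' i h]
          exact h1 _
      · by_cases h : i = p
        · subst h
          rw [pinExt_self]
          exact hc.2.1
        · rw [pinExt_ne p a x' i h]
          exact h2 _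
      · rw [sum_pin _ p, pinExt_self]
        simp only [pinExt_sub]
        rw [h3]
        have := hc.2.2
        omega
      · rw [sum_pin _ p, pinExt_self]
        simp only [pinExt_sub]
        omega
      · rw [e0]
        exact h6
    · intro x hx
      rw [Finset.mem_coe, Finset.mem_filter] at hx
      beta_reduce
      funext i
      by_cases h : i = p
      · subst h
        rw [pinExt_self]
        exact hx.2.1.symm
      · rw [pinExt_ne p a _ i h]
    · intro x' _
      exact funext (pinExt_sub p a x')
  · rw [Finset.card_eq_zero, Finset.eq_empty_iff_forall_notMem]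
    intro x hx
    rw [Finset.mem_filter, mem_Fset] at hx
    obtain ⟨⟨h1, h2, h3, h4⟩, h5, h6⟩ := hx
    apply hc
    refine ⟨h5 ▸ h1 p, h5 ▸ h2 p, ?_⟩
    have := sum_pin (fun i => wt (x i)) p
    rw [h3, h5] at this
    omega

theorem Fset_pair (al : List ℤ) (wt : ℤ → ℕ) (r : ι → ℤ) (n : ℕ) (s : ℤ) (hs : 0 ≤ s ∧ s < 8)
    (p q : ι) (hpq : q ≠ p) (t : ℤ) :
    ((Fset al wt r n s).filter (fun x => x p + x q = t)).card =
      ∑ a ∈ al.toFinset, if a % 4 = r p ∧ wt a ≤ n then
        (if (t - a) ∈ al ∧ (t - a) % 4 = r q ∧ wt (t - a) ≤ n - wt a then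
          (Fset (ι := {j : {i // i ≠ p} // j ≠ ⟨q, hpq⟩}) al wt (fun j => r j.1.1)
            (n - wt a - wt (t - a)) (((s - a) % 8 - (t - a)) % 8)).card
        else 0) else 0 := by
  rw [Finset.card_eq_sum_card_fiberwise (f := fun x : ι → ℤ => x p) (t := al.toFinset)]
  · apply Finset.sum_congr rfl
    intro a ha
    have ha' := List.mem_toFinset.1 ha
    have e : ((Fset al wt r n s).filter (fun x => x p + x q = t)).filter (fun x => x p = a) =
        (Fset al wt r n s).filter (fun x => x p = a ∧
          (fun x' : {i // i ≠ p} → ℤ => x' ⟨q, hpq⟩ = t - a) (fun i => x i.1)) := by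
      ext x
      simp only [Finset.mem_filter]
      constructor
      · rintro ⟨⟨h1, h2⟩, h3⟩
        exact ⟨h1, h3, by omega⟩
      · rintro ⟨h1, h3, h4⟩
        exact ⟨⟨h1, by omega⟩, h3⟩
    rw [e, Fset_pin al wt r n s hs p a (fun x' => x' ⟨q, hpq⟩ = t - a)]
    have e2 : (Fset (ι := {i // i ≠ p}) al wt (fun i => r i.1) (n - wt a) ((s - a) % 8)).filter
        (fun x' => x' ⟨q, hpq⟩ = t - a) =
        (Fset (ι := {i // i ≠ p}) al wt (fun i => r i.1) (n - wt a) ((s - a) % 8)).filter
        (fun x' => x' ⟨q, hpq⟩ = t - a ∧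
          (fun _ : {j : {i // i ≠ p} // j ≠ ⟨q, hpq⟩} → ℤ => True) (fun j => x' j.1)) := by
      ext x
      simp
    have h2 := Fset_pin (ι := {i // i ≠ p}) al wt (fun i => r i.1) (n - wt a) ((s - a) % 8)
      ⟨Int.emod_nonneg _ (by norm_num), Int.emod_lt_of_pos _ (by norm_num)⟩ ⟨q, hpq⟩ (t - a)
      (fun _ => True)
    rw [e2, h2]
    rw [Finset.filter_true_of_mem (fun _ _ => trivial)]
    by_cases h1 : a % 4 = r p ∧ wt a ≤ n
    · rw [if_pos ⟨ha', h1⟩, if_pos h1]
    · rw [if_neg (fun h => h1 h.2), if_neg h1]
  · intro x hx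
    rw [Finset.mem_coe, Finset.mem_filter, mem_Fset] at hx
    exact Finset.mem_coe.2 (List.mem_toFinset.2 (hx.1.1 p))

/-- the count on any index type with a two-valued residue pattern -/
theorem Fset_dp {κ : Type*} [Fintype κ] [DecidableEq κ] (al : List ℤ) (hal : al.Nodup)
    (wt : ℤ → ℕ) (N : ℕ) (A : Finset κ) (u v : ℤ) (k : ℕ) (hk : Fintype.card κ = k) (n : ℕ)
    (hn : n ≤ N) (s : ℕ) (hs : s < 8) :
    (Fset al wt (fun i => if i ∈ A then u else v) n (s : ℤ)).card =
      ((dpTbl al wt N (fun j => if j < A.card then u else v) k).getD n []).getD s 0 := by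
  obtain ⟨e, he⟩ := exists_equiv_fin A k hk
  have hr : ∀ i, (if i ∈ A then u else v) = (fun j : ℕ => if j < A.card then u else v) (e i) := by
    intro i
    by_cases hi : i ∈ A
    · rw [if_pos hi]
      show u = if (e i : ℕ) < A.card then u else v
      rw [if_pos ((he i).mpr hi)]
    · rw [if_neg hi]
      show v = if (e i : ℕ) < A.card then u else v
      rw [if_neg (fun h => hi ((he i).mp h))]
  rw [Fset_card_eq al wt _ n _ k e (fun j => if j < A.card then u else v) hr]
  exact dp_correct al hal wt N _ k n s hn hs

theorem card_ne (p : ι) : Fintype.card {i // i ≠ p} = Fintype.card ι - 1 := by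
  rw [Fintype.card_subtype_compl, Fintype.card_subtype_eq]

/-- grouping a sum over a list according to a key -/
theorem sum_by_key {κ : Type*} [DecidableEq κ] (key : ℕ → κ) (g : κ → ℕ) (keys : List κ)
    (hk : keys.Nodup) (l : List ℕ) (hl : ∀ x ∈ l, key x ∈ keys) :
    (l.map (fun x => g (key x))).sum =
      (keys.map (fun k => (l.filter (fun x => key x = k)).length * g k)).sum := by
  induction l with
  | nil => simp
  | cons x l ih =>
    have ih' := ih (fun y hy => hl y (List.mem_cons_of_mem _ hy))
    rw [List.map_cons, List.sum_cons, ih']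
    have hx := hl x List.mem_cons_self
    have key_sum : ∀ (ks : List κ), ks.Nodup → key x ∈ ks →
        (ks.map (fun k => ((x :: l).filter (fun y => key y = k)).length * g k)).sum =
          g (key x) + (ks.map (fun k => (l.filter (fun y => key y = k)).length * g k)).sum := by
      intro ks
      induction ks with
      | nil => intro _ h; simp at h
      | cons k ks ihk =>
        intro hnd hmem
        rw [List.nodup_cons] at hnd
        rw [List.map_cons, List.sum_cons, List.map_cons, List.sum_cons]
        by_cases hkx : key x = k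
        · have hnot : key x ∉ ks := hkx ▸ hnd.1
          have e1 : (ks.map (fun k => ((x :: l).filter (fun y => key y = k)).length * g k)).sum =
              (ks.map (fun k => (l.filter (fun y => key y = k)).length * g k)).sum := by
            congr 1
            apply List.map_congr_left
            intro k' hk'
            have : key x ≠ k' := fun h => hnot (h ▸ hk')
            simp [List.filter_cons, this]
          rw [e1]
          simp [List.filter_cons, hkx, add_mul]
          ring
        · have hmem' : key x ∈ ks := by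
            rcases List.mem_cons.1 hmem with h | h
            · exact absurd h hkx
            · exact h
          rw [ihk hnd.2 hmem']
          simp [List.filter_cons, hkx]
          ring
    rw [key_sum keys hk hx]

end Cfsg.Agent.Helper3
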