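import Mathlib
import Cfsg.Agent.Helper28.Leech
import Cfsg.Agent.Helper3.Golay
import Cfsg.Agent.Helper3.LeechDP

set_option autoImplicit false
set_option linter.unusedSectionVars false
set_option linter.style.haveILetI false
set_option linter.unusedSimpArgs false
set_option linter.unusedVariables false
set_option linter.deprecated false

namespace Cfsg.Agent.Helper3

open Cfsg

/-- residue pattern of the fibre of parity `m` and code word `c` -/
def lres (m : ℤ) (c : ℕ) : GolayPt → ℤ := fun i => if i ∈ gSup c then (m + 2) % 4 else m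

/-- residue pattern on `Fin 24` -/
def lcls (a : ℕ) (m : ℤ) : ℕ → ℤ := fun j => if j < a then (m + 2) % 4 else m

/-- lattice vectors with coordinates in `al` and total weight `n` -/
def leechSel (al : List ℤ) (wt : ℤ → ℕ) (n : ℕ) : Set (GolayPt → ℤ) :=
  {x | x ∈ leechLattice ∧ (∀ i, x i ∈ al) ∧ ∑ i, wt (x i) = n}

theorem mem_gSup (c : ℕ) (i : GolayPt) : i ∈ gSup c ↔ c.testBit (gIdx i) = true := by
  simp [gSup]

theorem mem_leech_iff_fibre (x : GolayPt → ℤ) :
    x ∈ leechLattice ↔ ∃ m : ℤ, (m = 0 ∨ m = 1) ∧ ∃ c ∈ gCode,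
      (∀ i, x i % 4 = lres m c i) ∧ (∑ i, x i) % 8 = 4 * m := by
  constructor
  · intro hx
    rw [Helper28.Leech.mem_leechLattice_iff] at hx
    have hx' := hx
    obtain ⟨m₀, h1, h2, -⟩ := hx
    have hm : m₀ % 2 = 0 ∨ m₀ % 2 = 1 := by omega
    have h3 := Helper28.Leech.res_mem hx' (m₀ % 2 + 2)
    obtain ⟨c, hc, hcw⟩ := (mem_golayCode_iff _).1 h3
    have key : ∀ i, (x i % 4 = (m₀ % 2 + 2) % 4) ↔ i ∈ gSup c := by
      intro i
      have h4 := congrFun hcw i
      unfold Helper28.Code.ofSet gDec at h4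
      rw [mem_gSup]
      have h5 : i ∈ Helper28.Leech.res x (m₀ % 2 + 2) ↔ x i % 4 = (m₀ % 2 + 2) % 4 := by
        rw [Helper28.Leech.mem_res]; rfl
      rw [← h5]
      by_cases h6 : i ∈ Helper28.Leech.res x (m₀ % 2 + 2) <;>
        by_cases h7 : c.testBit (gIdx i) = true <;> simp [h6, h7] at h4 ⊢
    refine ⟨m₀ % 2, hm, c, hc, fun i => ?_, ?_⟩
    · unfold lres
      have h1i : x i % 2 = m₀ % 2 := h1 i
      by_cases hi : i ∈ gSup c
      · rw [if_pos hi]
        exact (key i).mpr hi
      · rw [if_neg hi]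
        have h8 : ¬ (x i % 4 = (m₀ % 2 + 2) % 4) := fun h => hi ((key i).mp h)
        omega
    · have h2' : (∑ i, x i) % 8 = (4 * m₀) % 8 := h2
      omega
  · rintro ⟨m, hm, c, hc, hres, hsum⟩
    rw [Helper28.Leech.mem_leechLattice_iff, Helper28.Leech.mem_leechSet_iff]
    refine ⟨m + 2, fun i => ?_, ?_, ?_⟩
    · have := hres i
      unfold lres at this
      show x i % 2 = (m + 2) % 2
      split_ifs at this <;> omega
    · show (∑ i, x i) % 8 = (4 * (m + 2)) % 8
      omega
    · have h3 : Helper28.Code.ofSet (Helper28.Leech.res x (m + 2)) = gDec c := by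
        funext i
        unfold Helper28.Code.ofSet gDec
        have h5 : i ∈ Helper28.Leech.res x (m + 2) ↔ x i % 4 = (m + 2) % 4 := by
          rw [Helper28.Leech.mem_res]; rfl
        have h6 : x i % 4 = (m + 2) % 4 ↔ c.testBit (gIdx i) = true := by
          rw [← mem_gSup]
          have := hres i
          unfold lres at this
          split_ifs at this with h7
          · exact ⟨fun _ => h7, fun _ => this⟩
          · constructor
            · intro h8; omega
            · intro h8; exact absurd h8 h7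
        by_cases h7 : c.testBit (gIdx i) = true
        · rw [if_pos (h5.mpr (h6.mpr h7)), if_pos h7]
        · rw [if_neg (fun h => h7 (h6.mp (h5.mp h))), if_neg h7]
      rw [h3]
      exact gDec_mem hc

theorem leechSel_eq (al : List ℤ) (wt : ℤ → ℕ) (n : ℕ) :
    leechSel al wt n = ↑((({0, 1} : Finset ℤ) ×ˢ gCode.toFinset).biUnion
      (fun p => Fset al wt (lres p.1 p.2) n (4 * p.1))) := by
  ext x
  simp only [leechSel, Set.mem_setOf_eq, Finset.coe_biUnion, Set.mem_iUnion, Finset.mem_coe,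
    Finset.mem_product, Finset.mem_insert, Finset.mem_singleton, List.mem_toFinset, mem_Fset,
    exists_prop, Prod.exists]
  constructor
  · rintro ⟨hx, hal, hw⟩
    obtain ⟨m, hm, c, hc, hres, hsum⟩ := (mem_leech_iff_fibre x).mp hx
    exact ⟨m, c, ⟨hm, hc⟩, hal, hres, hw, hsum⟩
  · rintro ⟨m, c, ⟨hm, hc⟩, hal, hres, hw, hsum⟩
    exact ⟨(mem_leech_iff_fibre x).mpr ⟨m, hm, c, hc, hres, hsum⟩, hal, hw⟩

theorem lres_inj (m m' : ℤ) (hm : m = 0 ∨ m = 1) (hm' : m' = 0 ∨ m' = 1) (c c' : ℕ)
    (hc : c ∈ gCode) (hc' : c' ∈ gCode) (h : ∀ i, lres m c i = lres m' c' i) :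
    m = m' ∧ c = c' := by
  have h0 : m = m' := by
    have := h none
    unfold lres at this
    split_ifs at this <;> omega
  subst h0
  refine ⟨rfl, gSup_injOn (gCode_lt' hc) (gCode_lt' hc') ?_⟩
  ext i
  have := h i
  unfold lres at this
  split_ifs at this with h1 h2 h2
  · exact ⟨fun _ => h2, fun _ => h1⟩
  · omega
  · omega
  · exact ⟨fun h3 => absurd h3 h1, fun h3 => absurd h3 h2⟩

theorem leechSel_ncard (al : List ℤ) (wt : ℤ → ℕ) (n : ℕ) :
    (leechSel al wt n).ncard = ∑ p ∈ ({0, 1} : Finset ℤ) ×ˢ gCode.toFinset,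
      (Fset al wt (lres p.1 p.2) n (4 * p.1)).card := by
  rw [leechSel_eq, Set.ncard_coe_finset, Finset.card_biUnion]
  intro p hp q hq hpq
  show Disjoint (Fset al wt (lres p.1 p.2) n (4 * p.1)) (Fset al wt (lres q.1 q.2) n (4 * q.1))
  rw [Finset.disjoint_left]
  intro x hx hx'
  rw [mem_Fset] at hx hx'
  apply hpq
  simp only [Finset.mem_coe, Finset.mem_product, Finset.mem_insert, Finset.mem_singleton,
    List.mem_toFinset] at hp hq
  have := lres_inj p.1 q.1 hp.1 hq.1 p.2 q.2 hp.2 hq.2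
    (fun i => (hx.2.1 i).symm.trans (hx'.2.1 i))
  exact Prod.ext this.1 this.2

theorem leechSel_finite (al : List ℤ) (wt : ℤ → ℕ) (n : ℕ) : (leechSel al wt n).Finite := by
  rw [leechSel_eq]
  exact Finset.finite_toSet _

theorem fibre_card (al : List ℤ) (hal : al.Nodup) (wt : ℤ → ℕ) (N n : ℕ) (hn : n ≤ N) (m : ℕ)
    (hm : m ≤ 1) (c : ℕ) :
    (Fset al wt (lres (m : ℤ) c) n (4 * (m : ℤ))).card =
      ((dpTbl al wt N (lcls (pc24 c) m) 24).getD n []).getD (4 * m) 0 := by
  obtain ⟨e, he⟩ := exists_equiv_fin (gSup c) 24 Helper28.Leech.card_pts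
  have hr : ∀ i, lres (m : ℤ) c i = lcls (pc24 c) m (e i) := by
    intro i
    unfold lres lcls
    rw [← card_gSup]
    by_cases hi : i ∈ gSup c
    · rw [if_pos hi, if_pos ((he i).mpr hi)]
    · rw [if_neg hi, if_neg (fun h => hi ((he i).mp h))]
  rw [Fset_card_eq al wt _ n _ 24 e (lcls (pc24 c) m) hr]
  have := dp_correct al hal wt N (lcls (pc24 c) m) 24 n (4 * m) hn (by omega)
  push_cast at this
  exact this

set_option maxRecDepth 100000 in
theorem gCode_w0 : (gCode.filter (fun x => pc24 x == 0)).length = 1 := by decide +kernel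

set_option maxRecDepth 100000 in
theorem gCode_w16 : (gCode.filter (fun x => pc24 x == 16)).length = 759 := by decide +kernel

set_option maxRecDepth 100000 in
theorem gCode_w24 : (gCode.filter (fun x => pc24 x == 24)).length = 1 := by decide +kernel

theorem sum_by_weight (g : ℕ → ℕ) (l : List ℕ)
    (h : ∀ x ∈ l, pc24 x = 0 ∨ pc24 x = 8 ∨ pc24 x = 12 ∨ pc24 x = 16 ∨ pc24 x = 24) :
    (l.map (fun c => g (pc24 c))).sum =
      (l.filter (fun x => pc24 x == 0)).length * g 0 +
      (l.filter (fun x => pc24 x == 8)).length * g 8 +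
      (l.filter (fun x => pc24 x == 12)).length * g 12 +
      (l.filter (fun x => pc24 x == 16)).length * g 16 +
      (l.filter (fun x => pc24 x == 24)).length * g 24 := by
  induction l with
  | nil => simp
  | cons x l ih =>
    have ih' := ih (fun y hy => h y (List.mem_cons_of_mem _ hy))
    rw [List.map_cons, List.sum_cons, ih']
    rcases h x List.mem_cons_self with h1 | h1 | h1 | h1 | h1 <;>
      simp [List.filter_cons, h1, add_mul] <;> ring

theorem gCode_sum (g : ℕ → ℕ) :
    ∑ c ∈ gCode.toFinset, g (pc24 c) = g 0 + 759 * g 8 + 2576 * g 12 + 759 * g 16 + g 24 := by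
  rw [List.sum_toFinset _ gCode_nodup, sum_by_weight g gCode, gCode_w0, gCode_w8, gCode_w12,
    gCode_w16, gCode_w24, one_mul, one_mul]
  intro x hx
  have := List.all_eq_true.1 gCode_weights x hx
  simpa using this

/-- the main counting formula -/
theorem leechSel_count (al : List ℤ) (hal : al.Nodup) (wt : ℤ → ℕ) (n : ℕ) :
    (leechSel al wt n).ncard =
      (((dpTbl al wt n (lcls 0 0) 24).getD n []).getD 0 0 +
        759 * ((dpTbl al wt n (lcls 8 0) 24).getD n []).getD 0 0 +
        2576 * ((dpTbl al wt n (lcls 12 0) 24).getD n []).getD 0 0 +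
        759 * ((dpTbl al wt n (lcls 16 0) 24).getD n []).getD 0 0 +
        ((dpTbl al wt n (lcls 24 0) 24).getD n []).getD 0 0) +
      (((dpTbl al wt n (lcls 0 1) 24).getD n []).getD 4 0 +
        759 * ((dpTbl al wt n (lcls 8 1) 24).getD n []).getD 4 0 +
        2576 * ((dpTbl al wt n (lcls 12 1) 24).getD n []).getD 4 0 +
        759 * ((dpTbl al wt n (lcls 16 1) 24).getD n []).getD 4 0 +
        ((dpTbl al wt n (lcls 24 1) 24).getD n []).getD 4 0) := by
  rw [leechSel_ncard, Finset.sum_product]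
  rw [Finset.sum_pair (by norm_num : (0 : ℤ) ≠ 1)]
  have h0 : ∀ c : ℕ, (Fset al wt (lres (0 : ℤ) c) n (4 * (0 : ℤ))).card =
      ((dpTbl al wt n (lcls (pc24 c) 0) 24).getD n []).getD 0 0 := by
    intro c
    have := fibre_card al hal wt n n le_rfl 0 (by norm_num) c
    simpa using this
  have h1 : ∀ c : ℕ, (Fset al wt (lres (1 : ℤ) c) n (4 * (1 : ℤ))).card =
      ((dpTbl al wt n (lcls (pc24 c) 1) 24).getD n []).getD 4 0 := by
    intro c
    have := fibre_card al hal wt n n le_rfl 1 (by norm_num) c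
    simpa using this
  simp only [h0, h1]
  rw [gCode_sum (fun a => ((dpTbl al wt n (lcls a 0) 24).getD n []).getD 0 0),
    gCode_sum (fun a => ((dpTbl al wt n (lcls a 1) 24).getD n []).getD 4 0)]

end Cfsg.Agent.Helper3
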