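import Mathlib
import Cfsg.Agent.Helper3.LeechCount

set_option autoImplicit false
set_option linter.unusedSectionVars false
set_option linter.style.haveILetI false
set_option linter.unusedSimpArgs false
set_option linter.unusedVariables false
set_option linter.deprecated false

namespace Cfsg.Agent.Helper3

open Cfsg

/-- all integers of absolute value at most 8 -/
def alFull : List ℤ := [-8, -7, -6, -5, -4, -3, -2, -1, 0, 1, 2, 3, 4, 5, 6, 7, 8]

/-- the square of an integer, as a natural number -/
def sqw (v : ℤ) : ℕ := v.natAbs ^ 2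

theorem sqNorm_eq_cast (x : GolayPt → ℤ) : sqNorm x = ((∑ i, sqw (x i) : ℕ) : ℤ) := by
  unfold sqNorm sqw
  push_cast
  apply Finset.sum_congr rfl
  intro i _
  rw [sq_abs]

theorem coord_bound (x : GolayPt → ℤ) (N : ℤ) (hN : N ≤ 64) (h : sqNorm x = N) (i : GolayPt) :
    -8 ≤ x i ∧ x i ≤ 8 := by
  have h1 : (x i) ^ 2 ≤ sqNorm x :=
    Finset.single_le_sum (f := fun j => (x j) ^ 2) (fun j _ => sq_nonneg _) (Finset.mem_univ i)
  constructor <;> nlinarith

theorem mem_alFull (v : ℤ) : v ∈ alFull ↔ -8 ≤ v ∧ v ≤ 8 := by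
  simp only [alFull, List.mem_cons, List.not_mem_nil, or_false]
  omega

theorem norm_set_eq (N : ℕ) (hN : N ≤ 64) :
    {x : GolayPt → ℤ | x ∈ leechLattice ∧ sqNorm x = (N : ℤ)} = leechSel alFull sqw N := by
  ext x
  simp only [Set.mem_setOf_eq, leechSel]
  constructor
  · rintro ⟨hx, hn⟩
    refine ⟨hx, fun i => ?_, ?_⟩
    · rw [mem_alFull]
      exact coord_bound x N (by exact_mod_cast hN) hn i
    · rw [sqNorm_eq_cast] at hn
      exact_mod_cast hn
  · rintro ⟨hx, -, hn⟩
    refine ⟨hx, ?_⟩
    rw [sqNorm_eq_cast, hn]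

theorem alFull_nodup : alFull.Nodup := by decide

set_option maxRecDepth 100000 in
theorem leech_count_32 :
    {x : GolayPt → ℤ | x ∈ leechLattice ∧ sqNorm x = 32}.ncard = 196560 := by
  have h := norm_set_eq 32 (by norm_num)
  simp only [Nat.cast_ofNat] at h
  rw [h, leechSel_count alFull alFull_nodup sqw 32]
  decide +kernel

set_option maxRecDepth 100000 in
theorem leech_count_48 :
    {x : GolayPt → ℤ | x ∈ leechLattice ∧ sqNorm x = 48}.ncard = 16773120 := by
  have h := norm_set_eq 48 (by norm_num)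
  simp only [Nat.cast_ofNat] at h
  rw [h, leechSel_count alFull alFull_nodup sqw 48]
  decide +kernel

set_option maxRecDepth 100000 in
theorem leech_count_64 :
    {x : GolayPt → ℤ | x ∈ leechLattice ∧ sqNorm x = 64}.ncard = 398034000 := by
  have h := norm_set_eq 64 (by norm_num)
  simp only [Nat.cast_ofNat] at h
  rw [h, leechSel_count alFull alFull_nodup sqw 64]
  decide +kernel

end Cfsg.Agent.Helper3
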