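import Mathlib
import Cfsg.Agent.Helper3.LeechNorm

set_option autoImplicit false
set_option linter.unusedSectionVars false
set_option linter.style.haveILetI false
set_option linter.unusedSimpArgs false
set_option linter.unusedVariables false
set_option linter.deprecated false

namespace Cfsg.Agent.Helper3

open Cfsg

/-- residues modulo 8 -/
def alRes : List ℤ := [0, 1, 2, 3, 4, 5, 6, 7]

theorem mem_alRes (v : ℤ) : v ∈ alRes ↔ 0 ≤ v ∧ v < 8 := by
  simp only [alRes, List.mem_cons, List.not_mem_nil, or_false]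
  omega

/-- reduction modulo 8 -/
def red8 : (GolayPt → ℤ) →+ (GolayPt → ZMod 8) := (Int.castAddHom (ZMod 8)).compLeft GolayPt

theorem red8_apply (x : GolayPt → ℤ) (i : GolayPt) : red8 x i = ((x i : ℤ) : ZMod 8) := rfl

theorem red8_surj : Function.Surjective red8 := by
  intro y
  refine ⟨fun i => ((y i).val : ℤ), ?_⟩
  ext i
  rw [red8_apply]
  simp

theorem red8_ker_le : red8.ker ≤ leechLattice := by
  intro x hx
  rw [AddMonoidHom.mem_ker] at hx
  have h8 : ∀ i, (8 : ℤ) ∣ x i := by
    intro i
    have := congrFun hx i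
    rw [red8_apply] at this
    exact (ZMod.intCast_zmod_eq_zero_iff_dvd _ 8).1 this
  rw [mem_leech_iff_fibre]
  refine ⟨0, Or.inl rfl, 0, by decide +kernel, fun i => ?_, ?_⟩
  · unfold lres
    have hi : i ∉ gSup 0 := by
      rw [mem_gSup]
      simp
    rw [if_neg hi]
    have := h8 i
    omega
  · have h : (8 : ℤ) ∣ ∑ i, x i := Finset.dvd_sum (fun i _ => h8 i)
    omega

/-- reducing a lattice vector modulo 8 stays in the lattice -/
theorem mod8_mem (x : GolayPt → ℤ) (hx : x ∈ leechLattice) :
    (fun i => x i % 8) ∈ leechLattice := by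
  rw [mem_leech_iff_fibre] at hx ⊢
  obtain ⟨m, hm, c, hc, h1, h2⟩ := hx
  refine ⟨m, hm, c, hc, fun i => ?_, ?_⟩
  · have := h1 i
    show x i % 8 % 4 = lres m c i
    rw [← this]
    omega
  · rw [← h2]
    rw [← Finset.sum_int_mod]

theorem red8_image :
    red8 '' (leechLattice : Set (GolayPt → ℤ)) = red8 '' (leechSel alRes (fun _ => 0) 0) := by
  ext y
  constructor
  · rintro ⟨x, hx, rfl⟩
    refine ⟨fun i => x i % 8, ⟨mod8_mem x hx, fun i => ?_, by simp⟩, ?_⟩
    · rw [mem_alRes]
      constructor
      · exact Int.emod_nonneg _ (by norm_num)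
      · exact Int.emod_lt_of_pos _ (by norm_num)
    · ext i
      rw [red8_apply, red8_apply]
      exact ZMod.intCast_mod (x i) 8
  · rintro ⟨x, hx, rfl⟩
    exact ⟨x, hx.1, rfl⟩

theorem red8_injOn : Set.InjOn red8 (leechSel alRes (fun _ => 0) 0) := by
  intro x hx y hy hxy
  ext i
  have h := congrFun hxy i
  rw [red8_apply, red8_apply, ZMod.intCast_eq_intCast_iff] at h
  have hx1 := (mem_alRes _).1 (hx.2.1 i)
  have hy1 := (mem_alRes _).1 (hy.2.1 i)
  have h' : x i % 8 = y i % 8 := h
  omega

theorem alRes_nodup : alRes.Nodup := by decide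

set_option maxRecDepth 100000 in
theorem leechSel_res_card : (leechSel alRes (fun _ => 0) 0).ncard = 2 ^ 36 := by
  rw [leechSel_count alRes alRes_nodup (fun _ => 0) 0]
  decide +kernel

theorem leech_index_eq : leechLattice.index = 2 ^ 36 := by
  have h1 : (leechLattice.map red8).index = leechLattice.index :=
    AddSubgroup.index_map_eq _ red8_surj red8_ker_le
  have h2 : (leechLattice.map red8).index * Nat.card (leechLattice.map red8) =
      Nat.card (GolayPt → ZMod 8) := AddSubgroup.index_mul_card _
  have h3 : Nat.card (GolayPt → ZMod 8) = 8 ^ 24 := by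
    rw [Nat.card_fun, Nat.card_eq_fintype_card, Nat.card_eq_fintype_card,
      Helper28.Leech.card_pts, ZMod.card]
  have h4 : Nat.card (leechLattice.map red8) = 2 ^ 36 := by
    have : Nat.card (leechLattice.map red8) =
        ((leechLattice.map red8 : AddSubgroup (GolayPt → ZMod 8)) : Set (GolayPt → ZMod 8)).ncard :=
      Nat.card_coe_set_eq _
    rw [this, AddSubgroup.coe_map, red8_image, Set.ncard_image_of_injOn red8_injOn,
      leechSel_res_card]
  rw [← h1]
  rw [h3, h4] at h2
  have h5 : (8 : ℕ) ^ 24 = 2 ^ 36 * 2 ^ 36 := by norm_num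
  rw [h5] at h2
  exact Nat.eq_of_mul_eq_mul_right (by positivity) h2

end Cfsg.Agent.Helper3
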