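import Mathlib
import Cfsg.Agent.Helper28.CoAut
import Cfsg.Agent.Helper28.LeechGolay
import Cfsg.Agent.Helper3.M24Chain
import Cfsg.Agent.Helper3.LeechIndex
import Cfsg.Prelude.Def_SporadicCombinatorics

set_option autoImplicit false
set_option linter.unusedSectionVars false
set_option linter.style.haveILetI false
set_option linter.unusedSimpArgs false
set_option linter.unusedVariables false
set_option linter.deprecated false

namespace Cfsg.Agent.Helper3

open Cfsg Cfsg.Agent.Helper28.Code Cfsg.Agent.Helper28.Leech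

/-- `s e_i` is in the lattice when `8 ∣ s` -/
theorem single_mem (i : GolayPt) (s : ℤ) (hs : (8 : ℤ) ∣ s) :
    (Pi.single i s : GolayPt → ℤ) ∈ leechLattice := by
  apply red8_ker_le
  rw [AddMonoidHom.mem_ker]
  ext j
  rw [red8_apply]
  by_cases h : j = i
  · subst h
    rw [Pi.single_eq_same]
    exact (ZMod.intCast_zmod_eq_zero_iff_dvd _ 8).2 hs
  · rw [Pi.single_eq_of_ne h]
    simp

/-- the lattice vector `8 e_i` -/
def E8 (i : GolayPt) : leechLattice := ⟨Pi.single i 8, single_mem i 8 (dvd_refl _)⟩

theorem E8_apply (i k : GolayPt) : ((E8 i : leechLattice) : GolayPt → ℤ) k = if k = i then 8 else 0 := by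
  show (Pi.single i (8 : ℤ) : GolayPt → ℤ) k = _
  rw [Pi.single_apply]

theorem co0_map_zero (g : Equiv.Perm leechLattice) (hg : g ∈ Co0) : g 0 = 0 := by
  have h := hg.1 0 0
  rw [add_zero] at h
  have h2 : g 0 + 0 = g 0 + g 0 := by rw [add_zero]; exact h
  exact (add_left_cancel h2).symm

theorem co0_map_neg (g : Equiv.Perm leechLattice) (hg : g ∈ Co0) (v : leechLattice) :
    g (-v) = -g v := by
  have h := hg.1 (-v) v
  rw [neg_add_cancel, co0_map_zero g hg] at h
  exact eq_neg_of_add_eq_zero_left h.symm

/-- linearity of a lattice automorphism in terms of the vectors `8 e_i` -/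
theorem co0_linear (g : Equiv.Perm leechLattice) (hg : g ∈ Co0) (v : leechLattice) (k : GolayPt) :
    8 * ((g v : leechLattice) : GolayPt → ℤ) k =
      ∑ i, (v : GolayPt → ℤ) i * ((g (E8 i) : leechLattice) : GolayPt → ℤ) k := by
  let G : leechLattice →+ leechLattice := AddMonoidHom.mk' g hg.1
  have hG : ∀ w, G w = g w := fun w => rfl
  have h1 : (8 : ℤ) • v = ∑ i, (v : GolayPt → ℤ) i • E8 i := by
    apply Subtype.ext
    funext j
    rw [AddSubgroup.val_finset_sum]
    simp only [AddSubgroup.coe_zsmul, Finset.sum_apply, Pi.smul_apply, smul_eq_mul, E8_apply]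
    rw [Finset.sum_eq_single j]
    · rw [if_pos rfl]; ring
    · intro b _ hb
      rw [if_neg (Ne.symm hb), mul_zero]
    · intro h
      exact absurd (Finset.mem_univ j) h
  have h2 : G ((8 : ℤ) • v) = (8 : ℤ) • G v := map_zsmul G 8 v
  have h3 : G (∑ i, (v : GolayPt → ℤ) i • E8 i) = ∑ i, (v : GolayPt → ℤ) i • G (E8 i) := by
    rw [map_sum]
    apply Finset.sum_congr rfl
    intro i _
    exact map_zsmul G _ _
  rw [h1, h3] at h2
  have h4 := congrArg (fun w : leechLattice => (w : GolayPt → ℤ) k) h2
  simp only [hG] at h4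
  rw [AddSubgroup.val_finset_sum] at h4
  simp only [AddSubgroup.coe_zsmul, Finset.sum_apply, Pi.smul_apply, smul_eq_mul] at h4
  exact h4.symm

/-- negation as an automorphism -/
def negAut : Equiv.Perm leechLattice := Equiv.neg leechLattice

theorem negAut_apply (v : leechLattice) : negAut v = -v := rfl

theorem negAut_mem : negAut ∈ Co0 := by
  refine ⟨fun v w => neg_add v w, fun v => ?_⟩
  show sqNorm (-(v : GolayPt → ℤ)) = _
  exact Helper28.Leech.sqNorm_neg _

theorem sqNorm_E8 (i : GolayPt) : sqNorm ((E8 i : leechLattice) : GolayPt → ℤ) = 64 := by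
  unfold sqNorm
  rw [Finset.sum_eq_single i]
  · rw [E8_apply, if_pos rfl]; norm_num
  · intro b _ hb
    rw [E8_apply, if_neg hb]; norm_num
  · intro h
    exact absurd (Finset.mem_univ i) h

theorem signAut_E8 (o : Finset GolayPt) (ho : ofSet o ∈ golayCode) (i : GolayPt) (hio : i ∈ o) :
    signAut o ho (E8 i) = -E8 i := by
  apply Subtype.ext
  funext k
  rw [signAut_apply]
  show _ = -((E8 i : leechLattice) : GolayPt → ℤ) k
  rw [E8_apply]
  by_cases hk : k = i
  · subst hk
    rw [if_pos hio, if_pos rfl]
  · rw [if_neg hk]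
    split_ifs <;> simp

theorem permAut_E8 (σ : Equiv.Perm GolayPt) (hσ : σ ∈ M24) (i : GolayPt) :
    permAut σ hσ (E8 (σ i)) = E8 i := by
  apply Subtype.ext
  funext k
  rw [permAut_apply, E8_apply, E8_apply]
  by_cases hk : k = i
  · subst hk
    rw [if_pos rfl, if_pos rfl]
  · rw [if_neg hk, if_neg (fun h => hk (σ.injective h))]

theorem exists_M24_none (i : GolayPt) : ∃ σ ∈ M24, σ none = i := by
  by_cases hi : i = none
  · exact ⟨1, M24.one_mem, by rw [hi]; rfl⟩
  · obtain ⟨σ, hσ, h1, -⟩ := exists_M24_pair i none hi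
    exact ⟨σ, hσ, h1⟩

theorem center_cases (z : Equiv.Perm leechLattice) (hz : z ∈ Co0)
    (hc : ∀ g ∈ Co0, g * z = z * g) : z = 1 ∨ z = negAut := by
  have h1 : ∀ i j, j ≠ i → ((z (E8 i) : leechLattice) : GolayPt → ℤ) j = 0 := by
    intro i j hji
    obtain ⟨o, ho, -, hio, hjo⟩ := exists_octad_sep j i hji
    have hcomm := hc (signAut o ho) (signAut_mem o ho)
    have h := congrArg
      (fun f : Equiv.Perm leechLattice => ((f (E8 i) : leechLattice) : GolayPt → ℤ) j) hcomm
    simp only [Equiv.Perm.mul_apply] at h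
    rw [signAut_E8 o ho i hio, co0_map_neg z hz, signAut_apply, if_neg hjo] at h
    have h3 : ((-(z (E8 i)) : leechLattice) : GolayPt → ℤ) j =
        -((z (E8 i) : leechLattice) : GolayPt → ℤ) j := rfl
    rw [h3] at h
    omega
  have h2 : ∀ i, ((z (E8 i) : leechLattice) : GolayPt → ℤ) i = 8 ∨
      ((z (E8 i) : leechLattice) : GolayPt → ℤ) i = -8 := by
    intro i
    have hn := hz.2 (E8 i)
    rw [sqNorm_E8] at hn
    unfold sqNorm at hn
    rw [Finset.sum_eq_single i] at hn
    · have h5 : (((z (E8 i) : leechLattice) : GolayPt → ℤ) i - 8) *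
          (((z (E8 i) : leechLattice) : GolayPt → ℤ) i + 8) = 0 := by nlinarith
      rcases mul_eq_zero.mp h5 with h6 | h6
      · left; omega
      · right; omega
    · intro b _ hb
      rw [h1 i b hb]; norm_num
    · intro h
      exact absurd (Finset.mem_univ i) h
  have h3 : ∀ i, ((z (E8 i) : leechLattice) : GolayPt → ℤ) i =
      ((z (E8 none) : leechLattice) : GolayPt → ℤ) none := by
    intro i
    obtain ⟨σ, hσ, hσi⟩ := exists_M24_none i
    have hcomm := hc (permAut σ hσ) (permAut_mem σ hσ)
    have h := congrArg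
      (fun f : Equiv.Perm leechLattice => ((f (E8 i) : leechLattice) : GolayPt → ℤ) none) hcomm
    simp only [Equiv.Perm.mul_apply] at h
    have h4 : permAut σ hσ (E8 i) = E8 none := by
      rw [← hσi]; exact permAut_E8 σ hσ none
    rw [h4, permAut_apply, hσi] at h
    exact h
  have h4 : ∀ (v : leechLattice) (k : GolayPt), 8 * ((z v : leechLattice) : GolayPt → ℤ) k =
      (v : GolayPt → ℤ) k * ((z (E8 none) : leechLattice) : GolayPt → ℤ) none := by
    intro v k
    rw [co0_linear z hz v k, Finset.sum_eq_single k]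
    · rw [h3 k]
    · intro b _ hb
      rw [h1 b k (Ne.symm hb), mul_zero]
    · intro h
      exact absurd (Finset.mem_univ k) h
  rcases h2 none with h5 | h5
  · left
    apply Equiv.ext
    intro v
    apply Subtype.ext
    funext k
    have := h4 v k
    rw [h5] at this
    show ((z v : leechLattice) : GolayPt → ℤ) k = (v : GolayPt → ℤ) k
    omega
  · right
    apply Equiv.ext
    intro v
    apply Subtype.ext
    funext k
    have := h4 v k
    rw [h5] at this
    show ((z v : leechLattice) : GolayPt → ℤ) k = -(v : GolayPt → ℤ) k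
    omega

theorem co0_center_card : Nat.card (Subgroup.center Co0) = 2 := by
  have hneg1 : (1 : Co0) ≠ ⟨negAut, negAut_mem⟩ := by
    intro h
    have h' := congrArg
      (fun g : Co0 => ((g.1 (E8 none) : leechLattice) : GolayPt → ℤ) none) h
    have e1 : (((1 : Co0).1 (E8 none) : leechLattice) : GolayPt → ℤ) none = 8 := by
      show ((E8 none : leechLattice) : GolayPt → ℤ) none = 8
      rw [E8_apply, if_pos rfl]
    have e2 : (((⟨negAut, negAut_mem⟩ : Co0).1 (E8 none) : leechLattice) : GolayPt → ℤ) none
        = -8 := by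
      show -((E8 none : leechLattice) : GolayPt → ℤ) none = -8
      rw [E8_apply, if_pos rfl]
    simp only [e1, e2] at h'
    omega
  have hset : (Subgroup.center Co0 : Set Co0) = {1, ⟨negAut, negAut_mem⟩} := by
    ext z
    simp only [SetLike.mem_coe, Set.mem_insert_iff, Set.mem_singleton_iff,
      Subgroup.mem_center_iff]
    constructor
    · intro h
      have := center_cases z.1 z.2 (fun g hg => congrArg Subtype.val (h ⟨g, hg⟩))
      rcases this with h1 | h1
      · left; exact Subtype.ext h1
      · right; exact Subtype.ext h1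
    · rintro (rfl | rfl)
      · intro g; simp
      · intro g
        apply Subtype.ext
        apply Equiv.ext
        intro v
        show g.1 (negAut v) = negAut (g.1 v)
        exact co0_map_neg g.1 g.2 v
  have hc : Nat.card (Subgroup.center Co0) = (Subgroup.center Co0 : Set Co0).ncard :=
    Nat.card_coe_set_eq _
  rw [hc, hset, Set.ncard_pair hneg1]

end Cfsg.Agent.Helper3
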