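import Mathlib
import Cfsg.Agent.Helper3.LeechMono
import Cfsg.Agent.Helper3.GolayLemmas
import Cfsg.Prelude.Def_Spor_Conway

set_option autoImplicit false
set_option linter.unusedSectionVars false
set_option linter.style.haveILetI false
set_option linter.unusedSimpArgs false
set_option linter.unusedVariables false
set_option linter.deprecated false

namespace Cfsg.Agent.Helper3

open Cfsg Cfsg.Agent.Helper28.Code Cfsg.Agent.Helper28.Leech
open scoped Pointwise

/-- the monomial automorphism attached to a permutation of the code's group and a code set -/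
def monoAut (σ : Equiv.Perm GolayPt) (hσ : σ ∈ M24) (c : Finset GolayPt)
    (hc : ofSet c ∈ golayCode) : Equiv.Perm leechLattice :=
  signAut c hc * permAut σ⁻¹ (M24.inv_mem hσ)

theorem monoAut_mem (σ : Equiv.Perm GolayPt) (hσ : σ ∈ M24) (c : Finset GolayPt)
    (hc : ofSet c ∈ golayCode) : monoAut σ hσ c hc ∈ Co0 :=
  Co0.mul_mem (signAut_mem c hc) (permAut_mem _ _)

theorem monoAut_apply (σ : Equiv.Perm GolayPt) (hσ : σ ∈ M24) (c : Finset GolayPt)
    (hc : ofSet c ∈ golayCode) (v : leechLattice) :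
    ((monoAut σ hσ c hc v : leechLattice) : GolayPt → ℤ) = signedPerm σ c (v : GolayPt → ℤ) := by
  funext i
  rfl

theorem signedPerm_single (σ : Equiv.Perm GolayPt) (c : Finset GolayPt) (i : GolayPt) (s : ℤ) :
    signedPerm σ c (Pi.single i s) = Pi.single (σ i) (if σ i ∈ c then -s else s) := by
  funext k
  unfold signedPerm
  by_cases hk : k = σ i
  · subst hk
    rw [Pi.single_eq_same, Equiv.symm_apply_apply, Pi.single_eq_same]
  · have h1 : σ.symm k ≠ i := fun h => hk (by rw [← h]; simp)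
    rw [Pi.single_eq_of_ne hk, Pi.single_eq_of_ne h1]
    simp

/-- the vector with entries 2 on a code set -/
theorem two_mem (b : Finset GolayPt) (hb : ofSet b ∈ golayCode) :
    (fun i => if i ∈ b then (2 : ℤ) else 0) ∈ leechLattice := by
  rw [mem_leechLattice_iff, mem_leechSet_iff]
  refine ⟨0, fun i => ?_, ?_, ?_⟩
  · show (if i ∈ b then (2 : ℤ) else 0) ≡ 0 [ZMOD 2]
    split_ifs <;> decide
  · have hsum : ∑ i : GolayPt, (if i ∈ b then (2 : ℤ) else 0) = 2 * (b.card : ℤ) := by
      rw [Finset.sum_ite_mem, Finset.univ_inter]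
      simp [mul_comm]
    rw [mul_zero, Int.modEq_zero_iff_dvd, hsum]
    have h4 := golay_H1 (ofSet b) hb
    rw [norm_eq, supp_ofSet] at h4
    obtain ⟨t, ht⟩ := h4
    exact ⟨t, by rw [ht]; push_cast; ring⟩
  · have hres : res (fun i => if i ∈ b then (2 : ℤ) else 0) 0 = bᶜ := by
      ext k
      rw [mem_res, Finset.mem_compl]
      show (if k ∈ b then (2 : ℤ) else 0) ≡ 0 [ZMOD 4] ↔ k ∉ b
      by_cases hk : k ∈ b
      · rw [if_pos hk]
        exact ⟨fun h => absurd h (by decide), fun h => absurd hk h⟩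
      · rw [if_neg hk]
        exact ⟨fun _ => hk, fun _ => by decide⟩
    rw [hres, ofSet_compl]
    exact golayCode.add_mem one_mem hb

/-- the vector `(-3, 1, ..., 1)` -/
theorem w0_mem : (fun i : GolayPt => if i = none then (-3 : ℤ) else 1) ∈ leechLattice := by
  rw [mem_leechLattice_iff]
  refine Cfsg.Spor.mem_leechSet_of_const_mod_four _ 1 1 (by decide) (fun i => ?_) ?_
  · show (if i = none then (-3 : ℤ) else 1) ≡ 1 [ZMOD 4]
    split_ifs <;> decide
  · rw [Fintype.sum_option]
    simp only [if_true, reduceCtorEq, if_false, Finset.sum_const, Finset.card_univ, ZMod.card,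
      smul_eq_mul]
    decide

theorem cross_stab_mono (g : Equiv.Perm leechLattice) (hg : g ∈ Co0)
    (hst : ∀ v : leechLattice, (v : GolayPt → ℤ) ∈ stdCross →
      ((g v : leechLattice) : GolayPt → ℤ) ∈ stdCross) :
    ∃ σ ∈ M24, ∃ c : Finset GolayPt, ofSet c ∈ golayCode ∧ ∀ v : leechLattice,
      ((g v : leechLattice) : GolayPt → ℤ) = signedPerm σ c (v : GolayPt → ℤ) := by
  have hE : ∀ i, ((E8 i : leechLattice) : GolayPt → ℤ) ∈ stdCross :=
    fun i => ⟨i, 8, Or.inl rfl, rfl⟩
  have hgE := fun i => hst (E8 i) (hE i)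
  choose τ s hs hτ using hgE
  have hinj : Function.Injective τ := by
    intro i j hij
    by_contra hne
    have h1 := hτ i
    have h2 := hτ j
    rw [hij] at h1
    have hss : s i = s j ∨ s i = -s j := by
      rcases hs i with hi | hi <;> rcases hs j with hj | hj <;> omega
    rcases hss with h | h
    · have h3 : g (E8 i) = g (E8 j) := Subtype.ext (by rw [h1, h2, h])
      have h4 : ((E8 i : leechLattice) : GolayPt → ℤ) i = ((E8 j : leechLattice) : GolayPt → ℤ) i := by
        rw [g.injective h3]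
      rw [E8_apply, E8_apply, if_pos rfl, if_neg hne] at h4
      omega
    · have h3 : g (E8 i) = g (-E8 j) := by
        rw [co0_map_neg g hg]
        apply Subtype.ext
        show ((g (E8 i) : leechLattice) : GolayPt → ℤ) = -((g (E8 j) : leechLattice) : GolayPt → ℤ)
        rw [h1, h2, h, Pi.single_neg]
      have h4 : ((E8 i : leechLattice) : GolayPt → ℤ) i =
          -((E8 j : leechLattice) : GolayPt → ℤ) i := by
        rw [g.injective h3]
        rfl
      rw [E8_apply, E8_apply, if_pos rfl, if_neg hne] at h4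
      omega
  let σ : Equiv.Perm GolayPt := Equiv.ofBijective τ ((Finite.injective_iff_bijective).1 hinj)
  have hσ_apply : ∀ i, σ i = τ i := fun i => rfl
  have hform : ∀ (v : leechLattice) (k : GolayPt), 8 * ((g v : leechLattice) : GolayPt → ℤ) k =
      (v : GolayPt → ℤ) (σ.symm k) * s (σ.symm k) := by
    intro v k
    rw [co0_linear g hg v k, Finset.sum_eq_single (σ.symm k)]
    · rw [hτ (σ.symm k)]
      have : τ (σ.symm k) = k := σ.apply_symm_apply k
      rw [this, Pi.single_eq_same]
    · intro b _ hb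
      have hk : k ≠ τ b := by
        intro hk
        apply hb
        rw [hk, ← hσ_apply, Equiv.symm_apply_apply]
      rw [hτ b, Pi.single_eq_of_ne hk, mul_zero]
    · intro h
      exact absurd (Finset.mem_univ _) h
  let c : Finset GolayPt := Finset.univ.filter (fun k => s (σ.symm k) = -8)
  have hc_mem : ∀ k, k ∈ c ↔ s (σ.symm k) = -8 := fun k => by
    simp only [c, Finset.mem_filter, Finset.mem_univ, true_and]
  have hgv : ∀ v : leechLattice,
      ((g v : leechLattice) : GolayPt → ℤ) = signedPerm σ c (v : GolayPt → ℤ) := by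
    intro v
    funext k
    unfold signedPerm
    have h := hform v k
    by_cases hk : k ∈ c
    · rw [if_pos hk]
      rw [(hc_mem k).1 hk] at h
      omega
    · rw [if_neg hk]
      have h8 : s (σ.symm k) = 8 := by
        rcases hs (σ.symm k) with h' | h'
        · exact h'
        · exact absurd ((hc_mem k).2 h') hk
      rw [h8] at h
      omega
  have hσ : σ ∈ M24 := by
    rw [MulAction.mem_stabilizer_set_iff_smul_set_subset (Set.toFinite _)]
    rintro _ ⟨b, hb, rfl⟩
    rw [Helper28.Code.mem_supports_iff] at hb ⊢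
    have hu := hgv ⟨_, two_mem b hb⟩
    have hmem := res_mem ((mem_leechLattice_iff _).1 (g ⟨_, two_mem b hb⟩).2) 2
    have hres : res ((g ⟨_, two_mem b hb⟩ : leechLattice) : GolayPt → ℤ) 2 = σ • b := by
      ext k
      rw [mem_res, hu, ← Finset.inv_smul_mem_iff]
      show (if k ∈ c then -(if σ.symm k ∈ b then (2 : ℤ) else 0)
        else (if σ.symm k ∈ b then (2 : ℤ) else 0)) ≡ 2 [ZMOD 4] ↔ σ.symm k ∈ b
      by_cases h1 : k ∈ c <;> by_cases h2 : σ.symm k ∈ b <;> simp only [h1, h2, if_true, if_false]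
      · exact ⟨fun _ => trivial, fun _ => by decide⟩
      · exact ⟨fun h => absurd h (by decide), fun h => absurd h not_false⟩
      · exact ⟨fun _ => trivial, fun _ => by decide⟩
      · exact ⟨fun h => absurd h (by decide), fun h => absurd h not_false⟩
    rw [hres] at hmem
    exact hmem
  have hc : ofSet c ∈ golayCode := by
    have hu := hgv ⟨_, w0_mem⟩
    have hmem := res_mem ((mem_leechLattice_iff _).1 (g ⟨_, w0_mem⟩).2) 3
    have hres : res ((g ⟨_, w0_mem⟩ : leechLattice) : GolayPt → ℤ) 3 = c := by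
      ext k
      rw [mem_res, hu]
      show (if k ∈ c then -(if σ.symm k = none then (-3 : ℤ) else 1)
        else (if σ.symm k = none then (-3 : ℤ) else 1)) ≡ 3 [ZMOD 4] ↔ k ∈ c
      by_cases h1 : k ∈ c <;> by_cases h2 : σ.symm k = none <;>
        simp only [h1, h2, if_true, if_false]
      · exact ⟨fun _ => trivial, fun _ => by decide⟩
      · exact ⟨fun _ => trivial, fun _ => by decide⟩
      · exact ⟨fun h => absurd h (by decide), fun h => absurd h not_false⟩
      · exact ⟨fun h => absurd h (by decide), fun h => absurd h not_false⟩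
    rw [hres] at hmem
    exact hmem
  exact ⟨σ, hσ, c, hc, hgv⟩

theorem supports_card : Nat.card ↥(supports (golayCode : Set (GolayPt → ZMod 2))) = 4096 := by
  rw [Nat.card_coe_set_eq]
  unfold supports
  rw [Set.ncard_image_of_injective _ supp_injective, ← Nat.card_coe_set_eq]
  exact golayCode_natCard

theorem monoAut_stab (σ : Equiv.Perm GolayPt) (hσ : σ ∈ M24) (c : Finset GolayPt)
    (hc : ofSet c ∈ golayCode) (v : leechLattice) (hv : (v : GolayPt → ℤ) ∈ stdCross) :
    ((monoAut σ hσ c hc v : leechLattice) : GolayPt → ℤ) ∈ stdCross := by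
  obtain ⟨i, s, hs, hv'⟩ := hv
  rw [monoAut_apply, hv', signedPerm_single]
  refine ⟨σ i, _, ?_, rfl⟩
  split_ifs <;> rcases hs with h | h <;> rw [h] <;> norm_num

theorem cross_stab_card : Nat.card {g : ↥Co0 // ∀ v : ↥leechLattice,
    (v : GolayPt → ℤ) ∈ stdCross → ((g • v : ↥leechLattice) : GolayPt → ℤ) ∈ stdCross} =
      4096 * 244823040 := by
  let Φ : ↥M24 × ↥(supports (golayCode : Set (GolayPt → ZMod 2))) →
      {g : ↥Co0 // ∀ v : ↥leechLattice, (v : GolayPt → ℤ) ∈ stdCross →
        ((g • v : ↥leechLattice) : GolayPt → ℤ) ∈ stdCross} :=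
    fun p => ⟨⟨monoAut p.1.1 p.1.2 p.2.1 ((Helper28.Code.mem_supports_iff _ _).1 p.2.2),
      monoAut_mem p.1.1 p.1.2 p.2.1 ((Helper28.Code.mem_supports_iff _ _).1 p.2.2)⟩,
      fun v hv => monoAut_stab p.1.1 p.1.2 p.2.1 ((Helper28.Code.mem_supports_iff _ _).1 p.2.2)
        v hv⟩
  have hΦ : ∀ p (v : leechLattice), (((Φ p).1.1 v : leechLattice) : GolayPt → ℤ) =
      signedPerm p.1.1 p.2.1 (v : GolayPt → ℤ) := fun p v =>
    monoAut_apply p.1.1 p.1.2 p.2.1 ((Helper28.Code.mem_supports_iff _ _).1 p.2.2) v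
  have hinj : Function.Injective Φ := by
    rintro ⟨⟨σ, hσ⟩, ⟨c, hc⟩⟩ ⟨⟨σ', hσ'⟩, ⟨c', hc'⟩⟩ h
    have key : ∀ i, signedPerm σ c (Pi.single i 8) = signedPerm σ' c' (Pi.single i 8) := by
      intro i
      have h1 := hΦ ⟨⟨σ, hσ⟩, ⟨c, hc⟩⟩ (E8 i)
      have h2 := hΦ ⟨⟨σ', hσ'⟩, ⟨c', hc'⟩⟩ (E8 i)
      rw [h] at h1
      exact h1.symm.trans h2
    simp only [signedPerm_single] at key
    have hσσ : σ = σ' := by
      apply Equiv.ext
      intro i
      by_contra hne
      have := congrFun (key i) (σ i)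
      rw [Pi.single_eq_same, Pi.single_eq_of_ne hne] at this
      split_ifs at this <;> omega
    subst hσσ
    have hcc : c = c' := by
      ext k
      have := congrFun (key (σ.symm k)) k
      simp only [Equiv.apply_symm_apply, Pi.single_eq_same] at this
      by_cases h1 : k ∈ c <;> by_cases h2 : k ∈ c' <;> simp [h1, h2] at this ⊢
    subst hcc
    rfl
  have hsurj : Function.Surjective Φ := by
    rintro ⟨⟨g, hg⟩, hst⟩
    obtain ⟨σ, hσ, c, hc, hgv⟩ := cross_stab_mono g hg (fun v hv => hst v hv)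
    refine ⟨⟨⟨σ, hσ⟩, ⟨c, (Helper28.Code.mem_supports_iff _ _).2 hc⟩⟩, ?_⟩
    apply Subtype.ext
    apply Subtype.ext
    apply Equiv.ext
    intro v
    apply Subtype.ext
    show (((Φ ⟨⟨σ, hσ⟩, ⟨c, (Helper28.Code.mem_supports_iff _ _).2 hc⟩⟩).1.1 v : leechLattice) :
      GolayPt → ℤ) = ((g v : leechLattice) : GolayPt → ℤ)
    rw [hgv v]
    exact hΦ _ v
  rw [← Nat.card_congr (Equiv.ofBijective Φ ⟨hinj, hsurj⟩), Nat.card_prod, M24_card, supports_card]

theorem cross_stab_result : (∀ g : ↥Co0, (∀ v : ↥leechLattice, (v : GolayPt → ℤ) ∈ stdCross →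
      ((g • v : ↥leechLattice) : GolayPt → ℤ) ∈ stdCross) →
      ∃ f ∈ golayMonomialMaps, ∀ v : ↥leechLattice,
        ((g • v : ↥leechLattice) : GolayPt → ℤ) = f (v : GolayPt → ℤ)) ∧
    Nat.card {g : ↥Co0 // (∀ v : ↥leechLattice, (v : GolayPt → ℤ) ∈ stdCross →
      ((g • v : ↥leechLattice) : GolayPt → ℤ) ∈ stdCross)} = 4096 * 244823040 := by
  refine ⟨?_, cross_stab_card⟩
  rintro ⟨g, hg⟩ hst
  obtain ⟨σ, hσ, c, hc, hgv⟩ := cross_stab_mono g hg (fun v hv => hst v hv)
  exact ⟨signedPerm σ c, ⟨σ, hσ, c, (Helper28.Code.mem_supports_iff _ _).2 hc, rfl⟩,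
    fun v => hgv v⟩

end Cfsg.Agent.Helper3
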