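import Mathlib
import Cfsg.Agent.Helper3.LeechMono2
import Cfsg.Agent.S0433

set_option autoImplicit false
set_option linter.unusedSectionVars false
set_option linter.style.haveILetI false
set_option linter.unusedSimpArgs false
set_option linter.unusedVariables false
set_option linter.deprecated false

namespace Cfsg.Agent.Helper3

open Cfsg Cfsg.Agent.Helper28.Leech

/-- the point of a given index (inverse of `gIdx`) -/
def gPt (k : ℕ) : GolayPt := if k = 23 then none else some (k : ZMod 23)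

/-- the six tetrads of a sextet, as lists of point indices -/
def tetTab : List (List ℕ) :=
  [[0, 1, 2, 23], [3, 5, 14, 17], [8, 11, 12, 18], [9, 10, 15, 20], [6, 7, 19, 21], [4, 13, 16, 22]]

/-- tetrad number of a point index -/
def tetOf (k : ℕ) : ℕ :=
  [0, 0, 0, 1, 5, 1, 4, 4, 2, 3, 3, 2, 2, 5, 1, 3, 5, 1, 2, 4, 3, 4, 5, 0].getD k 0

/-- position of a point index inside its tetrad -/
def posOf (k : ℕ) : ℕ :=
  [0, 1, 2, 0, 0, 1, 0, 1, 0, 0, 1, 1, 2, 1, 2, 2, 2, 3, 3, 2, 3, 3, 3, 3].getD k 0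

/-- the tetrad coordinates of a point -/
def tetE : GolayPt ≃ Fin 6 × Fin 4 where
  toFun i := (Fin.ofNat 6 (tetOf (gIdx i)), Fin.ofNat 4 (posOf (gIdx i)))
  invFun p := gPt ((tetTab.getD p.1 []).getD p.2 0)
  left_inv := by decide
  right_inv := by decide

/-- sign attached to a tetrad: `-1` on the first tetrad -/
def tsg (t : Fin 6) : ℤ := if t = 0 then -1 else 1

theorem tsg_sq (t : Fin 6) : tsg t * tsg t = 1 := by
  unfold tsg
  split_ifs <;> norm_num

/-- twice the automorphism `ξ`: a linear map of the ambient integer vectors -/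
def xi2 (x : GolayPt → ℤ) : GolayPt → ℤ := fun i =>
  tsg (tetE i).1 * (2 * x i - (x (tetE.symm ((tetE i).1, 0)) + x (tetE.symm ((tetE i).1, 1)) +
    x (tetE.symm ((tetE i).1, 2)) + x (tetE.symm ((tetE i).1, 3))))

theorem xi2_add (x y : GolayPt → ℤ) : xi2 (x + y) = xi2 x + xi2 y := by
  funext i
  simp only [xi2, Pi.add_apply]
  ring

theorem xi2_neg (x : GolayPt → ℤ) : xi2 (-x) = -xi2 x := by
  funext i
  simp only [xi2, Pi.neg_apply]
  ring

theorem xi2_smul (a : ℤ) (x : GolayPt → ℤ) : xi2 (a • x) = a • xi2 x := by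
  funext i
  simp only [xi2, Pi.smul_apply, smul_eq_mul]
  ring

theorem xi2_zero : xi2 0 = 0 := by
  funext i
  simp [xi2]

theorem xi2_symm (x : GolayPt → ℤ) (t : Fin 6) (r : Fin 4) :
    xi2 x (tetE.symm (t, r)) = tsg t * (2 * x (tetE.symm (t, r)) -
      (x (tetE.symm (t, 0)) + x (tetE.symm (t, 1)) + x (tetE.symm (t, 2)) +
        x (tetE.symm (t, 3)))) := by
  unfold xi2
  rw [Equiv.apply_symm_apply]

theorem xi2_xi2 (x : GolayPt → ℤ) : xi2 (xi2 x) = (4 : ℤ) • x := by
  funext i
  have h := tsg_sq (tetE i).1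
  show xi2 (xi2 x) i = 4 * x i
  have e : xi2 (xi2 x) i = tsg (tetE i).1 * (2 * xi2 x i -
      (xi2 x (tetE.symm ((tetE i).1, 0)) + xi2 x (tetE.symm ((tetE i).1, 1)) +
        xi2 x (tetE.symm ((tetE i).1, 2)) + xi2 x (tetE.symm ((tetE i).1, 3)))) := rfl
  rw [e, xi2_symm, xi2_symm, xi2_symm, xi2_symm]
  have e2 : xi2 x i = tsg (tetE i).1 * (2 * x i - (x (tetE.symm ((tetE i).1, 0)) +
      x (tetE.symm ((tetE i).1, 1)) + x (tetE.symm ((tetE i).1, 2)) +
        x (tetE.symm ((tetE i).1, 3)))) := rfl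
  rw [e2]
  linear_combination (4 * x i) * h

theorem sqNorm_xi2 (x : GolayPt → ℤ) : sqNorm (xi2 x) = 4 * sqNorm x := by
  unfold sqNorm
  rw [← Equiv.sum_comp tetE.symm (fun i => xi2 x i ^ 2),
    ← Equiv.sum_comp tetE.symm (fun i => x i ^ 2), Fintype.sum_prod_type, Fintype.sum_prod_type,
    Finset.mul_sum]
  apply Finset.sum_congr rfl
  intro t _
  rw [Fin.sum_univ_four, Fin.sum_univ_four, xi2_symm, xi2_symm, xi2_symm, xi2_symm]
  have h := tsg_sq t
  linear_combination (4 * (x (tetE.symm (t, 0)) ^ 2 + x (tetE.symm (t, 1)) ^ 2 +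
    x (tetE.symm (t, 2)) ^ 2 + x (tetE.symm (t, 3)) ^ 2)) * h

/-- the vector `(-3, 1, ..., 1)` -/
def lw0 : GolayPt → ℤ := fun i => if i = none then -3 else 1

theorem lw0_mem : lw0 ∈ leechLattice := w0_mem

/-- the bit mask of the coordinates in the residue class `m + 2` modulo 4 -/
def lmask (y : GolayPt → ℤ) (m : ℤ) : ℕ :=
  (List.range 24).foldl
    (fun acc k => if y (gPt k) % 4 = (m + 2) % 4 then acc ||| (1 <<< k) else acc) 0

/-- Boolean test for lattice membership -/
def ltest (y : GolayPt → ℤ) : Bool :=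
  gCode.contains (lmask y (y none % 2)) &&
  decide (∀ i : GolayPt, y i % 4 =
    if (lmask y (y none % 2)).testBit (gIdx i) then (y none % 2 + 2) % 4 else y none % 2) &&
  decide ((∑ i, y i) % 8 = 4 * (y none % 2))

theorem ltest_sound (y : GolayPt → ℤ) (h : ltest y = true) : y ∈ leechLattice := by
  unfold ltest at h
  simp only [Bool.and_eq_true, decide_eq_true_eq] at h
  obtain ⟨⟨h1, h2⟩, h3⟩ := h
  rw [mem_leech_iff_fibre]
  refine ⟨y none % 2, by omega, lmask y (y none % 2), by simpa using h1, fun i => ?_, h3⟩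
  unfold lres
  rw [h2 i]
  by_cases hb : (lmask y (y none % 2)).testBit (gIdx i) = true
  · rw [if_pos hb, if_pos ((mem_gSup _ _).2 hb)]
  · rw [if_neg hb, if_neg (fun hh => hb ((mem_gSup _ _).1 hh))]

/-- Boolean test for membership in twice the lattice -/
def ltest2 (y : GolayPt → ℤ) : Bool :=
  decide (∀ i : GolayPt, y i % 2 = 0) && ltest (fun i => y i / 2)

theorem ltest2_sound (y : GolayPt → ℤ) (h : ltest2 y = true) :
    ∃ z ∈ leechLattice, (2 : ℤ) • z = y := by
  unfold ltest2 at h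
  simp only [Bool.and_eq_true, decide_eq_true_eq] at h
  refine ⟨fun i => y i / 2, ltest_sound _ h.2, ?_⟩
  funext i
  have := h.1 i
  show 2 * (y i / 2) = y i
  omega

/-- lattice vectors with all coordinates divisible by 4 (after helper12's proof of S1567) -/
theorem four_gen (M : AddSubgroup (GolayPt → ℤ))
    (hd : ∀ i, (Pi.single i 4 - Pi.single none 4 : GolayPt → ℤ) ∈ M)
    (h8' : (Pi.single none 8 : GolayPt → ℤ) ∈ M)
    (x : GolayPt → ℤ) (hx : x ∈ leechLattice) (h4 : ∀ i, (4 : ℤ) ∣ x i) : x ∈ M := by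
  have h8 : (8 : ℤ) ∣ ∑ i, x i := by
    rw [mem_leech_iff_fibre] at hx
    obtain ⟨m, hm, c, hc, h1, h2⟩ := hx
    have hm0 : m = 0 := by
      rcases hm with h | h
      · exact h
      · exfalso
        have h3 := h1 none
        have h5 := h4 none
        unfold lres at h3
        rw [h] at h3
        split_ifs at h3 <;> omega
    rw [hm0] at h2
    omega
  choose y hy using h4
  have hsum : ∑ i, x i = 4 * ∑ i, y i := by
    rw [Finset.mul_sum]
    exact Finset.sum_congr rfl (fun i _ => hy i)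
  obtain ⟨t, ht⟩ : ∃ t, ∑ i, y i = 2 * t := by
    obtain ⟨k, hk⟩ := h8
    exact ⟨k, by omega⟩
  have e : x = ∑ i, y i • (Pi.single i 4 - Pi.single none 4 : GolayPt → ℤ) +
      t • (Pi.single none 8 : GolayPt → ℤ) := by
    funext k
    simp only [Pi.add_apply, Finset.sum_apply, Pi.smul_apply, Pi.sub_apply, Pi.single_apply,
      smul_eq_mul, mul_sub, Finset.sum_sub_distrib, mul_ite, mul_zero, Finset.sum_ite_eq,
      Finset.mem_univ, if_true]
    by_cases hk : k = none
    · simp only [hk, if_true]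
      rw [← Finset.sum_mul, ht, hy none]
      ring
    · simp only [hk, if_false, Finset.sum_const_zero]
      rw [hy k]; ring
  rw [e]
  refine M.add_mem (M.sum_mem (fun i _ => M.zsmul_mem (hd i) _)) ?_
  exact M.zsmul_mem h8' _

theorem gBasis_sub : ∀ m ∈ gBasis, m ∈ gCode := by decide +kernel

theorem sign_bit_mem (m : ℕ) (hm : m ∈ gCode) (x : GolayPt → ℤ) (hx : x ∈ leechLattice) :
    (fun i => if m.testBit (gIdx i) then -x i else x i) ∈ leechLattice := by
  have h := Cfsg.Agent.S0433.result (gSup m) ((mem_supports_iff _).2 ⟨m, hm, rfl⟩) x hx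
  have e : (fun i => if m.testBit (gIdx i) then -x i else x i) =
      (fun i => if i ∈ gSup m then -x i else x i) := by
    funext i
    by_cases hb : m.testBit (gIdx i) = true
    · rw [if_pos hb, if_pos ((mem_gSup _ _).2 hb)]
    · rw [if_neg hb, if_neg (fun hh => hb ((mem_gSup _ _).1 hh))]
  rw [e]
  exact h

/-- vectors in `M` realising the residue pattern of every code word -/
theorem span_res (M : AddSubgroup (GolayPt → ℤ)) (ms : List ℕ)
    (h : ∀ m ∈ ms, ∃ u ∈ M, u ∈ leechLattice ∧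
      ∀ i, u i % 4 = if m.testBit (gIdx i) then 2 else 0) :
    ∀ n ∈ spanList ms, ∃ u ∈ M, u ∈ leechLattice ∧
      ∀ i, u i % 4 = if n.testBit (gIdx i) then 2 else 0 := by
  induction ms with
  | nil =>
    intro n hn
    simp only [spanList, List.mem_singleton] at hn
    subst hn
    exact ⟨0, M.zero_mem, leechLattice.zero_mem, fun i => by simp⟩
  | cons m ms ih =>
    intro n hn
    simp only [spanList, List.mem_append, List.mem_map] at hn
    have ih' := ih (fun m' hm' => h m' (List.mem_cons_of_mem _ hm'))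
    rcases hn with hn | ⟨y, hy, rfl⟩
    · exact ih' n hn
    · obtain ⟨u1, hu1, hu1L, hu1r⟩ := ih' y hy
      obtain ⟨u2, hu2, hu2L, hu2r⟩ := h m List.mem_cons_self
      refine ⟨u1 + u2, M.add_mem hu1 hu2, leechLattice.add_mem hu1L hu2L, fun i => ?_⟩
      have e1 := hu1r i
      have e2 := hu2r i
      rw [Nat.testBit_xor]
      show (u1 i + u2 i) % 4 = _
      cases hy1 : y.testBit (gIdx i) <;> cases hm1 : m.testBit (gIdx i) <;>
        simp only [hy1, hm1, if_true, if_false, Bool.false_eq_true] at e1 e2 ⊢ <;>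
        simp <;> omega

theorem leech_le_of_gens (M : AddSubgroup (GolayPt → ℤ))
    (hd : ∀ i, (Pi.single i 4 - Pi.single none 4 : GolayPt → ℤ) ∈ M)
    (h8 : (Pi.single none 8 : GolayPt → ℤ) ∈ M)
    (hw0 : lw0 ∈ M)
    (hb : ∀ m ∈ gBasis, (fun i => if m.testBit (gIdx i) then -lw0 i else lw0 i) ∈ M) :
    leechLattice ≤ M := by
  have hres : ∀ n ∈ gCode, ∃ u ∈ M, u ∈ leechLattice ∧
      ∀ i, u i % 4 = if n.testBit (gIdx i) then 2 else 0 := by
    apply span_res M gBasis
    intro m hm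
    refine ⟨lw0 - (fun i => if m.testBit (gIdx i) then -lw0 i else lw0 i),
      M.sub_mem hw0 (hb m hm),
      leechLattice.sub_mem lw0_mem (sign_bit_mem m (gBasis_sub m hm) lw0 lw0_mem), fun i => ?_⟩
    show (lw0 i - (if m.testBit (gIdx i) then -lw0 i else lw0 i)) % 4 = _
    unfold lw0
    split_ifs <;> norm_num
  have heven : ∀ x ∈ leechLattice, (∀ i, (2 : ℤ) ∣ x i) → x ∈ M := by
    intro x hx h2
    have hx' := hx
    rw [mem_leech_iff_fibre] at hx'
    obtain ⟨m, hm, c, hc, h1, -⟩ := hx'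
    have hm0 : m = 0 := by
      rcases hm with h | h
      · exact h
      · exfalso
        have h3 := h1 none
        have h5 := h2 none
        unfold lres at h3
        rw [h] at h3
        split_ifs at h3 <;> omega
    subst hm0
    obtain ⟨u, hu, huL, hur⟩ := hres c hc
    have hy : x - u ∈ M := by
      apply four_gen M hd h8 _ (leechLattice.sub_mem hx huL)
      intro i
      have e1 := h1 i
      have e2 := hur i
      unfold lres at e1
      show (4 : ℤ) ∣ x i - u i
      by_cases hb' : c.testBit (gIdx i) = true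
      · rw [if_pos ((mem_gSup _ _).2 hb')] at e1
        rw [if_pos hb'] at e2
        omega
      · rw [if_neg (fun hh => hb' ((mem_gSup _ _).1 hh))] at e1
        rw [if_neg hb'] at e2
        omega
    have := M.add_mem hy hu
    rwa [sub_add_cancel] at this
  intro x hx
  have hx' := hx
  rw [mem_leech_iff_fibre] at hx'
  obtain ⟨m, hm, c, hc, h1, -⟩ := hx'
  rcases hm with h | h
  · apply heven x hx
    intro i
    have e1 := h1 i
    unfold lres at e1
    rw [h] at e1
    split_ifs at e1 <;> omega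
  · have hy : x - lw0 ∈ M := by
      apply heven _ (leechLattice.sub_mem hx lw0_mem)
      intro i
      have e1 := h1 i
      unfold lres at e1
      rw [h] at e1
      show (2 : ℤ) ∣ x i - lw0 i
      unfold lw0
      split_ifs at e1 ⊢ <;> omega
    have := M.add_mem hy hw0
    rwa [sub_add_cancel] at this

/-- `xi2` as an additive map -/
def xi2Hom : (GolayPt → ℤ) →+ (GolayPt → ℤ) where
  toFun := xi2
  map_zero' := xi2_zero
  map_add' := xi2_add

/-- the vectors mapped by `xi2` into twice the lattice -/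
def xiOK : AddSubgroup (GolayPt → ℤ) where
  carrier := {x | ∃ z ∈ leechLattice, (2 : ℤ) • z = xi2 x}
  zero_mem' := ⟨0, leechLattice.zero_mem, by rw [xi2_zero, smul_zero]⟩
  add_mem' := by
    rintro x y ⟨z1, hz1, h1⟩ ⟨z2, hz2, h2⟩
    exact ⟨z1 + z2, leechLattice.add_mem hz1 hz2, by rw [xi2_add, smul_add, h1, h2]⟩
  neg_mem' := by
    rintro x ⟨z1, hz1, h1⟩
    exact ⟨-z1, leechLattice.neg_mem hz1, by rw [xi2_neg, smul_neg, h1]⟩

theorem mem_xiOK_of_test (x : GolayPt → ℤ) (h : ltest2 (xi2 x) = true) : x ∈ xiOK :=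
  ltest2_sound _ h

set_option maxRecDepth 100000 in
theorem xi_gen1 : ∀ i : GolayPt,
    ltest2 (xi2 (Pi.single i 4 - Pi.single none 4 : GolayPt → ℤ)) = true := by
  decide +kernel

set_option maxRecDepth 100000 in
theorem xi_gen2 : ltest2 (xi2 (Pi.single none 8 : GolayPt → ℤ)) = true := by
  decide +kernel

set_option maxRecDepth 100000 in
theorem xi_gen3 : ltest2 (xi2 lw0) = true := by
  decide +kernel

set_option maxRecDepth 100000 in
theorem xi_gen4 : ∀ m ∈ gBasis,
    ltest2 (xi2 (fun i => if m.testBit (gIdx i) then -lw0 i else lw0 i)) = true := by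
  decide +kernel

theorem leech_le_xiOK : leechLattice ≤ xiOK :=
  leech_le_of_gens xiOK (fun i => mem_xiOK_of_test _ (xi_gen1 i)) (mem_xiOK_of_test _ xi_gen2)
    (mem_xiOK_of_test _ xi_gen3) (fun m hm => mem_xiOK_of_test _ (xi_gen4 m hm))

/-- the map `ξ` on integer vectors -/
def xiFun (x : GolayPt → ℤ) : GolayPt → ℤ := fun i => xi2 x i / 2

theorem xiFun_spec (x : GolayPt → ℤ) (hx : x ∈ leechLattice) :
    xiFun x ∈ leechLattice ∧ (2 : ℤ) • xiFun x = xi2 x := by
  obtain ⟨z, hz, h⟩ := leech_le_xiOK hx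
  have e : xiFun x = z := by
    funext i
    unfold xiFun
    rw [← h]
    show (2 * z i) / 2 = z i
    omega
  rw [e]
  exact ⟨hz, h⟩

theorem xiFun_xiFun (x : GolayPt → ℤ) (hx : x ∈ leechLattice) : xiFun (xiFun x) = x := by
  obtain ⟨h1, h2⟩ := xiFun_spec x hx
  obtain ⟨h3, h4⟩ := xiFun_spec (xiFun x) h1
  have h5 : (2 : ℤ) • xi2 (xiFun x) = (4 : ℤ) • x := by
    rw [← xi2_smul, h2, xi2_xi2]
  funext i
  have e4 := congrFun h4 i
  have e5 := congrFun h5 i
  simp only [Pi.smul_apply, smul_eq_mul] at e4 e5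
  omega

/-- `ξ` as a permutation of the lattice -/
def xiAut : Equiv.Perm leechLattice where
  toFun v := ⟨xiFun v, (xiFun_spec v v.2).1⟩
  invFun v := ⟨xiFun v, (xiFun_spec v v.2).1⟩
  left_inv v := Subtype.ext (xiFun_xiFun v v.2)
  right_inv v := Subtype.ext (xiFun_xiFun v v.2)

theorem xiAut_apply (v : leechLattice) :
    ((xiAut v : leechLattice) : GolayPt → ℤ) = xiFun (v : GolayPt → ℤ) := rfl

theorem sqNorm_two_zsmul (z : GolayPt → ℤ) : sqNorm ((2 : ℤ) • z) = 4 * sqNorm z := by
  unfold sqNorm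
  rw [Finset.mul_sum]
  apply Finset.sum_congr rfl
  intro i _
  simp only [Pi.smul_apply, smul_eq_mul]
  ring

theorem xiAut_mem : xiAut ∈ Co0 := by
  refine ⟨fun v w => ?_, fun v => ?_⟩
  · apply Subtype.ext
    show xiFun ((v : GolayPt → ℤ) + (w : GolayPt → ℤ)) =
      xiFun (v : GolayPt → ℤ) + xiFun (w : GolayPt → ℤ)
    have h1 := (xiFun_spec _ v.2).2
    have h2 := (xiFun_spec _ w.2).2
    have h3 := (xiFun_spec _ (leechLattice.add_mem v.2 w.2)).2
    rw [xi2_add, ← h1, ← h2, ← smul_add] at h3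
    funext i
    have := congrFun h3 i
    simp only [Pi.smul_apply, smul_eq_mul, Pi.add_apply] at this ⊢
    omega
  · show sqNorm (xiFun (v : GolayPt → ℤ)) = sqNorm (v : GolayPt → ℤ)
    have h1 := (xiFun_spec _ v.2).2
    have h2 := sqNorm_xi2 (v : GolayPt → ℤ)
    rw [← h1, sqNorm_two_zsmul] at h2
    omega

end Cfsg.Agent.Helper3
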