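import Mathlib
import Cfsg.Agent.Helper3.LeechXi
import Cfsg.Agent.Helper3.LeechNorm
import Cfsg.Agent.Helper3.M24Trans

set_option autoImplicit false
set_option linter.unusedSectionVars false
set_option linter.style.haveILetI false
set_option linter.unusedSimpArgs false
set_option linter.unusedVariables false
set_option linter.deprecated false

namespace Cfsg.Agent.Helper3

open Cfsg Cfsg.Agent.Helper28.Leech
open scoped Pointwise

/-- alphabets of the three shapes of minimal vectors -/
def alA : List ℤ := [-4, 0, 4]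
def alB : List ℤ := [-2, 0, 2]
def alC : List ℤ := [-3, -1, 1, 3]

theorem mem_alA (v : ℤ) : v ∈ alA ↔ v = -4 ∨ v = 0 ∨ v = 4 := by
  simp only [alA, List.mem_cons, List.not_mem_nil, or_false]

theorem mem_alB (v : ℤ) : v ∈ alB ↔ v = -2 ∨ v = 0 ∨ v = 2 := by
  simp only [alB, List.mem_cons, List.not_mem_nil, or_false]

theorem mem_alC (v : ℤ) : v ∈ alC ↔ v = -3 ∨ v = -1 ∨ v = 1 ∨ v = 3 := by
  simp only [alC, List.mem_cons, List.not_mem_nil, or_false]

set_option maxRecDepth 100000 in
theorem count_A : (leechSel alA sqw 32).ncard = 1104 := by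
  rw [leechSel_count alA (by decide) sqw 32]
  decide +kernel

set_option maxRecDepth 100000 in
theorem count_B : (leechSel alB sqw 32).ncard = 97152 := by
  rw [leechSel_count alB (by decide) sqw 32]
  decide +kernel

set_option maxRecDepth 100000 in
theorem count_C : (leechSel alC sqw 32).ncard = 98304 := by
  rw [leechSel_count alC (by decide) sqw 32]
  decide +kernel

theorem min_alphabet (x : GolayPt → ℤ) (hx : x ∈ leechLattice) (hn : sqNorm x = 32) :
    (∀ i, x i ∈ alA) ∨ (∀ i, x i ∈ alB) ∨ (∀ i, x i ∈ alC) := by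
  have hS := norm_set_eq 32 (by norm_num)
  simp only [Nat.cast_ofNat] at hS
  have hsubA : leechSel alA sqw 32 ⊆ leechSel alFull sqw 32 := by
    rintro y ⟨h1, h2, h3⟩
    refine ⟨h1, fun i => ?_, h3⟩
    have := (mem_alA _).1 (h2 i)
    rw [mem_alFull]; omega
  have hsubB : leechSel alB sqw 32 ⊆ leechSel alFull sqw 32 := by
    rintro y ⟨h1, h2, h3⟩
    refine ⟨h1, fun i => ?_, h3⟩
    have := (mem_alB _).1 (h2 i)
    rw [mem_alFull]; omega
  have hsubC : leechSel alC sqw 32 ⊆ leechSel alFull sqw 32 := by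
    rintro y ⟨h1, h2, h3⟩
    refine ⟨h1, fun i => ?_, h3⟩
    have := (mem_alC _).1 (h2 i)
    rw [mem_alFull]; omega
  have hdAB : Disjoint (leechSel alA sqw 32) (leechSel alB sqw 32) := by
    rw [Set.disjoint_left]
    rintro y ⟨h1, h2, h3⟩ ⟨-, h2', -⟩
    have h0 : ∀ i, sqw (y i) = 0 := by
      intro i
      have a1 := (mem_alA _).1 (h2 i)
      have a2 := (mem_alB _).1 (h2' i)
      have : y i = 0 := by omega
      rw [this]; rfl
    rw [Finset.sum_congr rfl (fun i _ => h0 i)] at h3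
    simp at h3
  have hdC : Disjoint (leechSel alA sqw 32 ∪ leechSel alB sqw 32) (leechSel alC sqw 32) := by
    rw [Set.disjoint_left]
    rintro y hy ⟨-, h2', -⟩
    have a2 := (mem_alC _).1 (h2' none)
    rcases hy with ⟨-, h2, -⟩ | ⟨-, h2, -⟩
    · have a1 := (mem_alA _).1 (h2 none)
      omega
    · have a1 := (mem_alB _).1 (h2 none)
      omega
  have hcard : (leechSel alFull sqw 32).ncard ≤
      (leechSel alA sqw 32 ∪ leechSel alB sqw 32 ∪ leechSel alC sqw 32).ncard := by
    rw [Set.ncard_union_eq hdC ((leechSel_finite _ _ _).union (leechSel_finite _ _ _))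
      (leechSel_finite _ _ _), Set.ncard_union_eq hdAB (leechSel_finite _ _ _)
      (leechSel_finite _ _ _), count_A, count_B, count_C, ← hS, leech_count_32]
  have hU := Set.eq_of_subset_of_ncard_le
    (Set.union_subset (Set.union_subset hsubA hsubB) hsubC) hcard (leechSel_finite _ _ _)
  have hxU : x ∈ leechSel alA sqw 32 ∪ leechSel alB sqw 32 ∪ leechSel alC sqw 32 := by
    rw [hU, ← hS]
    exact ⟨hx, hn⟩
  rcases hxU with (h | h) | h
  · exact Or.inl h.2.1
  · exact Or.inr (Or.inl h.2.1)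
  · exact Or.inr (Or.inr h.2.1)

/-- equivalence under the automorphism group -/
def coRel (v w : leechLattice) : Prop := ∃ g ∈ Co0, g v = w

theorem coRel_refl (v : leechLattice) : coRel v v := ⟨1, Co0.one_mem, rfl⟩

theorem coRel_symm {v w : leechLattice} (h : coRel v w) : coRel w v := by
  obtain ⟨g, hg, rfl⟩ := h
  exact ⟨g⁻¹, Co0.inv_mem hg, by simp⟩

theorem coRel_trans {u v w : leechLattice} (h1 : coRel u v) (h2 : coRel v w) : coRel u w := by
  obtain ⟨g, hg, rfl⟩ := h1
  obtain ⟨g', hg', rfl⟩ := h2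
  exact ⟨g' * g, Co0.mul_mem hg' hg, rfl⟩

theorem coRel_norm {v w : leechLattice} (h : coRel v w) :
    sqNorm (w : GolayPt → ℤ) = sqNorm (v : GolayPt → ℤ) := by
  obtain ⟨g, hg, rfl⟩ := h
  exact hg.2 v

set_option maxRecDepth 100000 in
theorem v0_test : ltest (Pi.single none 4 + Pi.single (some 0) 4 : GolayPt → ℤ) = true := by
  decide +kernel

/-- the reference minimal vector `(4, 4, 0, ..., 0)` -/
def v0 : leechLattice := ⟨Pi.single none 4 + Pi.single (some 0) 4, ltest_sound _ v0_test⟩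

theorem shapeA_form (x : GolayPt → ℤ) (hA : ∀ i, x i ∈ alA) (hn : sqNorm x = 32) :
    ∃ i j, i ≠ j ∧ ∃ a b : ℤ, (a = 4 ∨ a = -4) ∧ (b = 4 ∨ b = -4) ∧
      x = Pi.single i a + Pi.single j b := by
  classical
  have hsq : ∀ i, x i ^ 2 = if x i ≠ 0 then (16 : ℤ) else 0 := by
    intro i
    rcases (mem_alA _).1 (hA i) with h | h | h <;> rw [h] <;> norm_num
  have hcard : (Finset.univ.filter (fun i => x i ≠ 0)).card = 2 := by
    unfold sqNorm at hn
    rw [Finset.sum_congr rfl (fun i _ => hsq i), ← Finset.sum_filter, Finset.sum_const,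
      nsmul_eq_mul] at hn
    have : ((Finset.univ.filter (fun i => x i ≠ 0)).card : ℤ) = 2 := by omega
    exact_mod_cast this
  obtain ⟨i, j, hij, hZ⟩ := Finset.card_eq_two.1 hcard
  have hmem : ∀ k, x k ≠ 0 ↔ k = i ∨ k = j := by
    intro k
    have : k ∈ Finset.univ.filter (fun i => x i ≠ 0) ↔ k ∈ ({i, j} : Finset GolayPt) := by
      rw [hZ]
    simpa using this
  have hval : ∀ k, x k ≠ 0 → (x k = 4 ∨ x k = -4) := by
    intro k hk
    rcases (mem_alA _).1 (hA k) with h | h | h
    · exact Or.inr h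
    · exact absurd h hk
    · exact Or.inl h
  refine ⟨i, j, hij, x i, x j, hval i ((hmem i).2 (Or.inl rfl)), hval j ((hmem j).2 (Or.inr rfl)),
    ?_⟩
  funext k
  simp only [Pi.add_apply, Pi.single_apply]
  by_cases h1 : k = i
  · subst h1
    rw [if_pos rfl, if_neg hij, add_zero]
  · by_cases h2 : k = j
    · subst h2
      rw [if_neg h1, if_pos rfl, zero_add]
    · rw [if_neg h1, if_neg h2, add_zero]
      by_contra h
      rcases (hmem k).1 h with h' | h'
      · exact h1 h'
      · exact h2 h'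

theorem sign_pair (o : Finset GolayPt) (ho : Helper28.Code.ofSet o ∈ golayCode) (p q : GolayPt)
    (hp : p ∈ o) (hq : q ∉ o) (a b : ℤ) (v : leechLattice)
    (hv : (v : GolayPt → ℤ) = Pi.single p a + Pi.single q b) :
    ((signAut o ho v : leechLattice) : GolayPt → ℤ) = Pi.single p (-a) + Pi.single q b := by
  funext k
  rw [signAut_apply, hv]
  simp only [Pi.add_apply, Pi.single_apply]
  have hpq : p ≠ q := fun h => hq (h ▸ hp)
  by_cases h1 : k = p
  · subst h1
    simp [hp, hpq]
  · by_cases h2 : k = q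
    · subst h2
      simp [hq, h1]
    · simp [h1, h2]

theorem relA (i j : GolayPt) (hij : i ≠ j) (a b : ℤ) (ha : a = 4 ∨ a = -4) (hb : b = 4 ∨ b = -4)
    (v : leechLattice) (hv : (v : GolayPt → ℤ) = Pi.single i a + Pi.single j b) : coRel v v0 := by
  obtain ⟨σ, hσ, hσi, hσj⟩ := exists_M24_pair i j hij
  have h1 : ((permAut σ hσ v : leechLattice) : GolayPt → ℤ) =
      Pi.single none a + Pi.single (some 0) b := by
    funext k
    rw [permAut_apply, hv]
    simp only [Pi.add_apply, Pi.single_apply]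
    have e1 : σ k = i ↔ k = none := by
      rw [← hσi]; exact σ.injective.eq_iff
    have e2 : σ k = j ↔ k = some 0 := by
      rw [← hσj]; exact σ.injective.eq_iff
    simp only [e1, e2]
  have r1 : coRel v (permAut σ hσ v) := ⟨_, permAut_mem σ hσ, rfl⟩
  -- fix the sign of the first entry
  have step1 : ∃ w : leechLattice, coRel v w ∧
      (w : GolayPt → ℤ) = Pi.single none 4 + Pi.single (some 0) b := by
    rcases ha with ha | ha
    · exact ⟨_, r1, by rw [h1, ha]⟩
    · obtain ⟨o, ho, -, hno, h0o⟩ := exists_octad_sep (some 0) none (by decide)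
      refine ⟨signAut o ho (permAut σ hσ v), coRel_trans r1 ⟨_, signAut_mem o ho, rfl⟩, ?_⟩
      rw [sign_pair o ho none (some 0) hno h0o a b _ h1, ha]
      norm_num
  obtain ⟨w, hw1, hw2⟩ := step1
  have step2 : ∃ w' : leechLattice, coRel v w' ∧
      (w' : GolayPt → ℤ) = Pi.single none 4 + Pi.single (some 0) 4 := by
    rcases hb with hb | hb
    · exact ⟨w, hw1, by rw [hw2, hb]⟩
    · obtain ⟨o, ho, -, h0o, hno⟩ := exists_octad_sep none (some 0) (by decide)
      refine ⟨signAut o ho w, coRel_trans hw1 ⟨_, signAut_mem o ho, rfl⟩, ?_⟩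
      have hw2' : (w : GolayPt → ℤ) = Pi.single (some 0) b + Pi.single none 4 := by
        rw [hw2, add_comm]
      rw [sign_pair o ho (some 0) none h0o hno b 4 _ hw2', hb, add_comm]
      norm_num
  obtain ⟨w', hw1', hw2'⟩ := step2
  have : w' = v0 := Subtype.ext hw2'
  rw [← this]
  exact hw1'

theorem relA' (v : leechLattice) (hn : sqNorm (v : GolayPt → ℤ) = 32)
    (hA : ∀ i, (v : GolayPt → ℤ) i ∈ alA) : coRel v v0 := by
  obtain ⟨i, j, hij, a, b, ha, hb, hv⟩ := shapeA_form _ hA hn
  exact relA i j hij a b ha hb v hv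

/-- the octad formed by the first two tetrads -/
def oStar : Finset GolayPt := Finset.univ.filter (fun i => tetOf (gIdx i) ≤ 1)

theorem mem_oStar (i : GolayPt) : i ∈ oStar ↔ tetOf (gIdx i) ≤ 1 := by
  simp [oStar]

set_option maxRecDepth 100000 in
theorem oStar_mask_mem : 8536111 ∈ gCode := by decide +kernel

theorem oStar_eq : oStar = gSup 8536111 := by
  ext i
  rw [mem_oStar, mem_gSup]
  revert i
  decide

theorem oStar_octad : oStar ∈ octads := by
  rw [Helper28.Octads.mem_oct]
  refine ⟨(Helper28.Code.mem_supports_iff golayCode _).1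
    ((mem_supports_iff _).2 ⟨8536111, oStar_mask_mem, oStar_eq⟩), ?_⟩
  rw [oStar_eq, card_gSup]
  decide

theorem oStar_cases : ∀ k : GolayPt, k ∈ oStar → k = gPt 0 ∨ k = gPt 1 ∨ k = gPt 2 ∨ k = gPt 23 ∨
    k = gPt 3 ∨ k = gPt 5 ∨ k = gPt 14 ∨ k = gPt 17 := by
  intro k hk
  rw [mem_oStar] at hk
  revert k
  decide

theorem oStar_pts : gPt 0 ∈ oStar ∧ gPt 1 ∈ oStar ∧ gPt 2 ∈ oStar ∧ gPt 23 ∈ oStar ∧
    gPt 3 ∈ oStar ∧ gPt 5 ∈ oStar ∧ gPt 14 ∈ oStar ∧ gPt 17 ∈ oStar := by
  simp only [mem_oStar]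
  decide

/-- the vector with entries `±2` on `oStar` prescribed by eight sign bits -/
def yv (b0 b1 b2 b3 b4 b5 b6 b7 : Bool) : GolayPt → ℤ := fun k =>
  if k = gPt 0 then (if b0 then -2 else 2) else if k = gPt 1 then (if b1 then -2 else 2) else
  if k = gPt 2 then (if b2 then -2 else 2) else if k = gPt 23 then (if b3 then -2 else 2) else
  if k = gPt 3 then (if b4 then -2 else 2) else if k = gPt 5 then (if b5 then -2 else 2) else
  if k = gPt 14 then (if b6 then -2 else 2) else if k = gPt 17 then (if b7 then -2 else 2) else 0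

set_option maxRecDepth 100000 in
theorem shapeB_key : ∀ b0 b1 b2 b3 b4 b5 b6 b7 : Bool,
    (∑ k : GolayPt, yv b0 b1 b2 b3 b4 b5 b6 b7 k) % 8 = 0 →
    (∀ k : GolayPt, xiFun (yv b0 b1 b2 b3 b4 b5 b6 b7) k ∈ alA) ∨
    (∀ k : GolayPt, xiFun (fun i => if (5279).testBit (gIdx i) then -(yv b0 b1 b2 b3 b4 b5 b6 b7) i
      else yv b0 b1 b2 b3 b4 b5 b6 b7 i) k ∈ alA) := by
  decide +kernel

theorem even_sum (y : GolayPt → ℤ) (hy : y ∈ leechLattice) (i : GolayPt) (h2 : (2 : ℤ) ∣ y i) :
    (∑ k, y k) % 8 = 0 := by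
  rw [mem_leech_iff_fibre] at hy
  obtain ⟨m, hm, c, hc, h1, h2'⟩ := hy
  have hm0 : m = 0 := by
    rcases hm with h | h
    · exact h
    · exfalso
      have h3 := h1 i
      unfold lres at h3
      rw [h] at h3
      split_ifs at h3 <;> omega
  rw [h2', hm0]
  norm_num

set_option maxRecDepth 100000 in
theorem c1_mem : 5279 ∈ gCode := by decide +kernel

theorem c1_code : Helper28.Code.ofSet (gSup 5279) ∈ golayCode :=
  (Helper28.Code.mem_supports_iff golayCode _).1 ((mem_supports_iff _).2 ⟨5279, c1_mem, rfl⟩)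

theorem signAut_bits (n : ℕ) (hn : Helper28.Code.ofSet (gSup n) ∈ golayCode) (v : leechLattice) :
    ((signAut (gSup n) hn v : leechLattice) : GolayPt → ℤ) =
      fun i => if n.testBit (gIdx i) then -(v : GolayPt → ℤ) i else (v : GolayPt → ℤ) i := by
  funext i
  rw [signAut_apply]
  by_cases hb : n.testBit (gIdx i) = true
  · rw [if_pos ((mem_gSup _ _).2 hb), if_pos hb]
  · rw [if_neg (fun hh => hb ((mem_gSup _ _).1 hh)), if_neg hb]

theorem shapeB_rel (y : leechLattice)
    (hO : ∀ k, k ∈ oStar → ((y : GolayPt → ℤ) k = 2 ∨ (y : GolayPt → ℤ) k = -2))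
    (hO' : ∀ k, k ∉ oStar → (y : GolayPt → ℤ) k = 0) :
    ∃ g ∈ Co0, ∀ k, ((g y : leechLattice) : GolayPt → ℤ) k ∈ alA := by
  obtain ⟨p0, p1, p2, p3, p4, p5, p6, p7⟩ := oStar_pts
  have hsum : (∑ k, (y : GolayPt → ℤ) k) % 8 = 0 :=
    even_sum _ y.2 (gPt 0) (by rcases hO _ p0 with h | h <;> rw [h] <;> norm_num)
  have hy : (y : GolayPt → ℤ) = yv (decide ((y : GolayPt → ℤ) (gPt 0) = -2)) (decide ((y : GolayPt → ℤ) (gPt 1) = -2)) (decide ((y : GolayPt → ℤ) (gPt 2) = -2)) (decide ((y : GolayPt → ℤ) (gPt 23) = -2)) (decide ((y : GolayPt → ℤ) (gPt 3) = -2)) (decide ((y : GolayPt → ℤ) (gPt 5) = -2)) (decide ((y : GolayPt → ℤ) (gPt 14) = -2)) (decide ((y : GolayPt → ℤ) (gPt 17) = -2)) := by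
    funext k
    unfold yv
    by_cases h0 : k = gPt 0
    · rw [if_pos h0, h0]
      rcases hO _ p0 with h | h <;> simp [h]
    rw [if_neg h0]
    by_cases h1 : k = gPt 1
    · rw [if_pos h1, h1]
      rcases hO _ p1 with h | h <;> simp [h]
    rw [if_neg h1]
    by_cases h2 : k = gPt 2
    · rw [if_pos h2, h2]
      rcases hO _ p2 with h | h <;> simp [h]
    rw [if_neg h2]
    by_cases h3 : k = gPt 23
    · rw [if_pos h3, h3]
      rcases hO _ p3 with h | h <;> simp [h]
    rw [if_neg h3]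
    by_cases h4 : k = gPt 3
    · rw [if_pos h4, h4]
      rcases hO _ p4 with h | h <;> simp [h]
    rw [if_neg h4]
    by_cases h5 : k = gPt 5
    · rw [if_pos h5, h5]
      rcases hO _ p5 with h | h <;> simp [h]
    rw [if_neg h5]
    by_cases h6 : k = gPt 14
    · rw [if_pos h6, h6]
      rcases hO _ p6 with h | h <;> simp [h]
    rw [if_neg h6]
    by_cases h7 : k = gPt 17
    · rw [if_pos h7, h7]
      rcases hO _ p7 with h | h <;> simp [h]
    rw [if_neg h7]
    apply hO'
    intro hk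
    rcases oStar_cases k hk with h | h | h | h | h | h | h | h <;> contradiction
  generalize decide ((y : GolayPt → ℤ) (gPt 0) = -2) = b0 at hy
  generalize decide ((y : GolayPt → ℤ) (gPt 1) = -2) = b1 at hy
  generalize decide ((y : GolayPt → ℤ) (gPt 2) = -2) = b2 at hy
  generalize decide ((y : GolayPt → ℤ) (gPt 23) = -2) = b3 at hy
  generalize decide ((y : GolayPt → ℤ) (gPt 3) = -2) = b4 at hy
  generalize decide ((y : GolayPt → ℤ) (gPt 5) = -2) = b5 at hy
  generalize decide ((y : GolayPt → ℤ) (gPt 14) = -2) = b6 at hy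
  generalize decide ((y : GolayPt → ℤ) (gPt 17) = -2) = b7 at hy
  rw [hy] at hsum
  rcases shapeB_key _ _ _ _ _ _ _ _ hsum with h | h
  · refine ⟨xiAut, xiAut_mem, fun k => ?_⟩
    rw [xiAut_apply, hy]
    exact h k
  · refine ⟨xiAut * signAut (gSup 5279) c1_code, Co0.mul_mem xiAut_mem (signAut_mem _ c1_code),
      fun k => ?_⟩
    rw [Equiv.Perm.mul_apply, xiAut_apply, signAut_bits, hy]
    exact h k

theorem relB (x : leechLattice) (hn : sqNorm (x : GolayPt → ℤ) = 32)
    (hB : ∀ i, (x : GolayPt → ℤ) i ∈ alB) : coRel x v0 := by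
  classical
  have hx := x.2
  rw [mem_leech_iff_fibre] at hx
  obtain ⟨m, hm, c, hc, h1, -⟩ := hx
  have hm0 : m = 0 := by
    rcases hm with h | h
    · exact h
    · exfalso
      have h3 := h1 none
      have h4 := (mem_alB _).1 (hB none)
      unfold lres at h3
      rw [h] at h3
      split_ifs at h3 <;> omega
  subst hm0
  have hZ : ∀ i, (x : GolayPt → ℤ) i ≠ 0 ↔ i ∈ gSup c := by
    intro i
    have h3 := h1 i
    have h4 := (mem_alB _).1 (hB i)
    unfold lres at h3
    by_cases hi : i ∈ gSup c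
    · rw [if_pos hi] at h3
      exact ⟨fun _ => hi, fun _ => by omega⟩
    · rw [if_neg hi] at h3
      exact ⟨fun h => by omega, fun h => absurd h hi⟩
  have hsq : ∀ i, (x : GolayPt → ℤ) i ^ 2 = if i ∈ gSup c then (4 : ℤ) else 0 := by
    intro i
    have h4 := (mem_alB _).1 (hB i)
    by_cases hi : i ∈ gSup c
    · rw [if_pos hi]
      have := (hZ i).2 hi
      rcases h4 with h | h | h
      · rw [h]; norm_num
      · exact absurd h this
      · rw [h]; norm_num
    · rw [if_neg hi]
      have : (x : GolayPt → ℤ) i = 0 := by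
        by_contra h
        exact hi ((hZ i).1 h)
      rw [this]; norm_num
  have hcard : (gSup c).card = 8 := by
    unfold sqNorm at hn
    rw [Finset.sum_congr rfl (fun i _ => hsq i), Finset.sum_ite_mem, Finset.univ_inter,
      Finset.sum_const, nsmul_eq_mul] at hn
    have : ((gSup c).card : ℤ) = 8 := by omega
    exact_mod_cast this
  have hoct : gSup c ∈ octads := by
    rw [Helper28.Octads.mem_oct]
    exact ⟨(Helper28.Code.mem_supports_iff golayCode _).1 ((mem_supports_iff _).2 ⟨c, hc, rfl⟩),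
      hcard⟩
  obtain ⟨g, hg⟩ := octad_trans oStar (gSup c) oStar_octad hoct
  have hmem : ∀ k, (g : Equiv.Perm GolayPt) k ∈ gSup c ↔ k ∈ oStar := by
    intro k
    rw [← hg]
    exact Finset.smul_mem_smul_finset_iff (g : Equiv.Perm GolayPt)
  have r1 : coRel x (permAut (g : Equiv.Perm GolayPt) g.2 x) := ⟨_, permAut_mem _ g.2, rfl⟩
  have hyO : ∀ k, k ∈ oStar →
      (((permAut (g : Equiv.Perm GolayPt) g.2 x : leechLattice) : GolayPt → ℤ) k = 2 ∨
        ((permAut (g : Equiv.Perm GolayPt) g.2 x : leechLattice) : GolayPt → ℤ) k = -2) := by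
    intro k hk
    rw [permAut_apply]
    have h6 := (hZ (g.1 k)).2 ((hmem k).2 hk)
    rcases (mem_alB _).1 (hB (g.1 k)) with h | h | h
    · exact Or.inr h
    · exact absurd h h6
    · exact Or.inl h
  have hyO' : ∀ k, k ∉ oStar →
      ((permAut (g : Equiv.Perm GolayPt) g.2 x : leechLattice) : GolayPt → ℤ) k = 0 := by
    intro k hk
    rw [permAut_apply]
    by_contra h
    exact hk ((hmem k).1 ((hZ _).1 h))
  obtain ⟨g', hg', hA⟩ := shapeB_rel _ hyO hyO'
  have r2 : coRel (permAut (g : Equiv.Perm GolayPt) g.2 x)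
      (g' (permAut (g : Equiv.Perm GolayPt) g.2 x)) := ⟨g', hg', rfl⟩
  have hn' : sqNorm ((g' (permAut (g : Equiv.Perm GolayPt) g.2 x) : leechLattice) : GolayPt → ℤ)
      = 32 := by
    rw [coRel_norm r2, coRel_norm r1, hn]
  exact coRel_trans r1 (coRel_trans r2 (relA' _ hn' hA))

/-- `(-3, 1, ..., 1)` as a lattice vector -/
def w0L : leechLattice := ⟨lw0, lw0_mem⟩

theorem sqNorm_lw0 : sqNorm lw0 = 32 := by
  unfold sqNorm lw0
  rw [Fintype.sum_option]
  simp

set_option maxRecDepth 100000 in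
theorem shapeC_key : ∀ k : GolayPt,
    xiFun (fun i => if (5279).testBit (gIdx i) then -lw0 i else lw0 i) k ∈ alB := by
  decide +kernel

theorem w0_rel : coRel w0L v0 := by
  have r1 : coRel w0L (signAut (gSup 5279) c1_code w0L) := ⟨_, signAut_mem _ _, rfl⟩
  have r2 : coRel (signAut (gSup 5279) c1_code w0L)
      (xiAut (signAut (gSup 5279) c1_code w0L)) := ⟨_, xiAut_mem, rfl⟩
  have hB : ∀ k, ((xiAut (signAut (gSup 5279) c1_code w0L) : leechLattice) : GolayPt → ℤ) k
      ∈ alB := by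
    intro k
    rw [xiAut_apply, signAut_bits]
    exact shapeC_key k
  have hn : sqNorm ((xiAut (signAut (gSup 5279) c1_code w0L) : leechLattice) : GolayPt → ℤ)
      = 32 := by
    rw [coRel_norm r2, coRel_norm r1]
    exact sqNorm_lw0
  exact coRel_trans r1 (coRel_trans r2 (relB _ hn hB))

theorem relC (x : leechLattice) (hn : sqNorm (x : GolayPt → ℤ) = 32)
    (hC : ∀ i, (x : GolayPt → ℤ) i ∈ alC) : coRel x v0 := by
  classical
  have hsq : ∀ i, (x : GolayPt → ℤ) i ^ 2 =
      1 + if ((x : GolayPt → ℤ) i = 3 ∨ (x : GolayPt → ℤ) i = -3) then (8 : ℤ) else 0 := by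
    intro i
    rcases (mem_alC _).1 (hC i) with h | h | h | h <;> rw [h] <;> norm_num
  have hcard : (Finset.univ.filter
      (fun i => (x : GolayPt → ℤ) i = 3 ∨ (x : GolayPt → ℤ) i = -3)).card = 1 := by
    unfold sqNorm at hn
    rw [Finset.sum_congr rfl (fun i _ => hsq i), Finset.sum_add_distrib, Finset.sum_const,
      Finset.card_univ, Helper28.Leech.card_pts, ← Finset.sum_filter, Finset.sum_const,
      nsmul_eq_mul, nsmul_eq_mul] at hn
    have : ((Finset.univ.filter
        (fun i => (x : GolayPt → ℤ) i = 3 ∨ (x : GolayPt → ℤ) i = -3)).card : ℤ) = 1 := by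
      push_cast at hn
      omega
    exact_mod_cast this
  obtain ⟨i0, hi0⟩ := Finset.card_eq_one.1 hcard
  have h3 : ∀ k, ((x : GolayPt → ℤ) k = 3 ∨ (x : GolayPt → ℤ) k = -3) ↔ k = i0 := by
    intro k
    have : k ∈ Finset.univ.filter
        (fun i => (x : GolayPt → ℤ) i = 3 ∨ (x : GolayPt → ℤ) i = -3) ↔
        k ∈ ({i0} : Finset GolayPt) := by rw [hi0]
    simpa using this
  obtain ⟨σ, hσ, hσi⟩ := exists_M24_none i0
  have r1 : coRel x (permAut σ hσ x) := ⟨_, permAut_mem σ hσ, rfl⟩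
  have hy0 : ((permAut σ hσ x : leechLattice) : GolayPt → ℤ) none = 3 ∨
      ((permAut σ hσ x : leechLattice) : GolayPt → ℤ) none = -3 := by
    rw [permAut_apply, hσi]
    exact (h3 i0).2 rfl
  have hy1 : ∀ k, k ≠ none → (((permAut σ hσ x : leechLattice) : GolayPt → ℤ) k = 1 ∨
      ((permAut σ hσ x : leechLattice) : GolayPt → ℤ) k = -1) := by
    intro k hk
    rw [permAut_apply]
    have hne : σ k ≠ i0 := by
      rw [← hσi]
      exact fun h => hk (σ.injective h)
    have := mt (h3 (σ k)).1 hne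
    rcases (mem_alC _).1 (hC (σ k)) with h | h | h | h
    · exact absurd (Or.inr h) this
    · exact Or.inr h
    · exact Or.inl h
    · exact absurd (Or.inl h) this
  have hyL := (permAut σ hσ x).2
  rw [mem_leech_iff_fibre] at hyL
  obtain ⟨m, hm, c, hc, h1, -⟩ := hyL
  have hm1 : m = 1 := by
    rcases hm with h | h
    · exfalso
      have e := h1 none
      unfold lres at e
      rw [h] at e
      rcases hy0 with h' | h' <;> rw [h'] at e <;> split_ifs at e <;> omega
    · exact h
  subst hm1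
  have hcc : Helper28.Code.ofSet (gSup c) ∈ golayCode :=
    (Helper28.Code.mem_supports_iff golayCode _).1 ((mem_supports_iff _).2 ⟨c, hc, rfl⟩)
  have hyw : permAut σ hσ x = signAut (gSup c) hcc w0L := by
    apply Subtype.ext
    funext k
    rw [signAut_apply]
    show _ = if k ∈ gSup c then -lw0 k else lw0 k
    have e := h1 k
    unfold lres at e
    unfold lw0
    by_cases hk : k = none
    · subst hk
      rw [if_pos rfl]
      by_cases hkc : none ∈ gSup c
      · rw [if_pos hkc] at e ⊢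
        rcases hy0 with h' | h' <;> rw [h'] at e ⊢ <;> omega
      · rw [if_neg hkc] at e ⊢
        rcases hy0 with h' | h' <;> rw [h'] at e ⊢ <;> omega
    · rw [if_neg hk]
      by_cases hkc : k ∈ gSup c
      · rw [if_pos hkc] at e ⊢
        rcases hy1 k hk with h' | h' <;> rw [h'] at e ⊢ <;> omega
      · rw [if_neg hkc] at e ⊢
        rcases hy1 k hk with h' | h' <;> rw [h'] at e ⊢ <;> omega
  have r2 : coRel w0L (permAut σ hσ x) := ⟨_, signAut_mem _ hcc, hyw.symm⟩
  exact coRel_trans r1 (coRel_trans (coRel_symm r2) w0_rel)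

theorem min_rel (v : leechLattice) (hn : sqNorm (v : GolayPt → ℤ) = 32) : coRel v v0 := by
  rcases min_alphabet _ v.2 hn with h | h | h
  · exact relA' v hn h
  · exact relB v hn h
  · exact relC v hn h

theorem co0_trans_min (v w : leechLattice) (hv : sqNorm (v : GolayPt → ℤ) = 32)
    (hw : sqNorm (w : GolayPt → ℤ) = 32) : ∃ g : Co0, g • v = w := by
  obtain ⟨g, hg, h⟩ := coRel_trans (min_rel v hv) (coRel_symm (min_rel w hw))
  exact ⟨⟨g, hg⟩, h⟩

end Cfsg.Agent.Helper3
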