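import Mathlib
import Cfsg.Agent.Helper3.LeechPin
import Cfsg.Agent.Helper3.LeechTrans

set_option autoImplicit false
set_option linter.unusedSectionVars false
set_option linter.style.haveILetI false
set_option linter.unusedSimpArgs false
set_option linter.unusedVariables false
set_option linter.deprecated false

namespace Cfsg.Agent.Helper3

open Cfsg Cfsg.Agent.Helper28.Leech

/-- lattice vectors selected by alphabet, total weight, and the sum of the coordinates at `∞`
and `0` -/
def pairSel (al : List ℤ) (wt : ℤ → ℕ) (n : ℕ) (t : ℤ) : Set (GolayPt → ℤ) :=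
  {x | x ∈ leechLattice ∧ (∀ i, x i ∈ al) ∧ ∑ i, wt (x i) = n ∧ x none + x (some 0) = t}

theorem pairSel_eq (al : List ℤ) (wt : ℤ → ℕ) (n : ℕ) (t : ℤ) :
    pairSel al wt n t = ↑((({0, 1} : Finset ℤ) ×ˢ gCode.toFinset).biUnion
      (fun p => (Fset al wt (lres p.1 p.2) n (4 * p.1)).filter
        (fun x => x none + x (some 0) = t))) := by
  ext x
  simp only [pairSel, Set.mem_setOf_eq, Finset.coe_biUnion, Set.mem_iUnion, Finset.mem_coe,
    Finset.mem_product, Finset.mem_insert, Finset.mem_singleton, List.mem_toFinset,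
    Finset.mem_filter, mem_Fset, exists_prop, Prod.exists]
  constructor
  · rintro ⟨hx, hal, hw, ht⟩
    obtain ⟨m, hm, c, hc, hres, hsum⟩ := (mem_leech_iff_fibre x).mp hx
    exact ⟨m, c, ⟨hm, hc⟩, ⟨hal, hres, hw, hsum⟩, ht⟩
  · rintro ⟨m, c, ⟨hm, hc⟩, ⟨hal, hres, hw, hsum⟩, ht⟩
    exact ⟨(mem_leech_iff_fibre x).mpr ⟨m, hm, c, hc, hres, hsum⟩, hal, hw, ht⟩

theorem pairSel_ncard (al : List ℤ) (wt : ℤ → ℕ) (n : ℕ) (t : ℤ) :
    (pairSel al wt n t).ncard = ∑ p ∈ ({0, 1} : Finset ℤ) ×ˢ gCode.toFinset,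
      ((Fset al wt (lres p.1 p.2) n (4 * p.1)).filter
        (fun x => x none + x (some 0) = t)).card := by
  rw [pairSel_eq, Set.ncard_coe_finset, Finset.card_biUnion]
  intro p hp q hq hpq
  show Disjoint ((Fset al wt (lres p.1 p.2) n (4 * p.1)).filter _)
    ((Fset al wt (lres q.1 q.2) n (4 * q.1)).filter _)
  rw [Finset.disjoint_left]
  intro x hx hx'
  rw [Finset.mem_filter, mem_Fset] at hx hx'
  apply hpq
  simp only [Finset.mem_coe, Finset.mem_product, Finset.mem_insert, Finset.mem_singleton,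
    List.mem_toFinset] at hp hq
  have := lres_inj p.1 q.1 hp.1 hq.1 p.2 q.2 hp.2 hq.2
    (fun i => (hx.1.2.1 i).symm.trans (hx'.1.2.1 i))
  exact Prod.ext this.1 this.2

/-- the summand for one fibre -/
def pairG (al : List ℤ) (wt : ℤ → ℕ) (n : ℕ) (t : ℤ) (m : ℕ) (w : ℕ) (b23 b0 : Bool) : ℕ :=
  (al.map fun a =>
    if a % 4 = (if b23 = true then ((m : ℤ) + 2) % 4 else (m : ℤ)) ∧ wt a ≤ n then
      (if (t - a) ∈ al ∧ (t - a) % 4 = (if b0 = true then ((m : ℤ) + 2) % 4 else (m : ℤ)) ∧
          wt (t - a) ≤ n - wt a then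
        ((dpTbl al wt n
          (lcls (w - (if b23 = true then 1 else 0) - (if b0 = true then 1 else 0)) m) 22).getD
            (n - wt a - wt (t - a)) []).getD (((4 * (m : ℤ) - a) % 8 - (t - a)) % 8).toNat 0
      else 0)
    else 0).sum

theorem lres_none (m : ℤ) (c : ℕ) :
    lres m c none = if c.testBit 23 = true then (m + 2) % 4 else m := by
  unfold lres
  by_cases h : c.testBit 23 = true
  · rw [if_pos ((mem_gSup _ _).2 h), if_pos h]
  · rw [if_neg (fun hh => h ((mem_gSup _ _).1 hh)), if_neg h]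

theorem lres_zero (m : ℤ) (c : ℕ) :
    lres m c (some 0) = if c.testBit 0 = true then (m + 2) % 4 else m := by
  unfold lres
  by_cases h : c.testBit 0 = true
  · rw [if_pos ((mem_gSup _ _).2 h), if_pos h]
  · rw [if_neg (fun hh => h ((mem_gSup _ _).1 hh)), if_neg h]

/-- the point `0` as a point different from `∞` -/
abbrev z0 : {i : GolayPt // i ≠ none} := ⟨some 0, Option.some_ne_none 0⟩

/-- the 22 points other than `∞` and `0` -/
abbrev Rest22 : Type := {j : {i : GolayPt // i ≠ none} // j ≠ z0}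

theorem card_rest (c : ℕ) :
    (Finset.univ.filter (fun j : Rest22 => j.1.1 ∈ gSup c)).card =
      pc24 c - (if c.testBit 23 = true then 1 else 0) - (if c.testBit 0 = true then 1 else 0) := by
  have h1 := sum_pin (fun i : GolayPt => if i ∈ gSup c then (1 : ℕ) else 0) none
  have h2 := sum_pin (fun i : {i : GolayPt // i ≠ none} => if i.1 ∈ gSup c then (1 : ℕ) else 0) z0
  beta_reduce at h1 h2
  have h3 : ∑ i : GolayPt, (if i ∈ gSup c then (1 : ℕ) else 0) = pc24 c := by
    rw [Finset.sum_ite_mem, Finset.univ_inter, Finset.sum_const, smul_eq_mul, mul_one, card_gSup]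
  have h4 : ∑ j : Rest22, (if j.1.1 ∈ gSup c then (1 : ℕ) else 0) =
      (Finset.univ.filter (fun j : Rest22 => j.1.1 ∈ gSup c)).card := by
    rw [Finset.card_filter]
  have e1 : (none : GolayPt) ∈ gSup c ↔ c.testBit 23 = true := mem_gSup c none
  have e2 : (z0 : GolayPt) ∈ gSup c ↔ c.testBit 0 = true := mem_gSup c (some 0)
  have h5 : pc24 c = (if c.testBit 23 = true then 1 else 0) +
      ((if c.testBit 0 = true then 1 else 0) +
        (Finset.univ.filter (fun j : Rest22 => j.1.1 ∈ gSup c)).card) := by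
    rw [← h3, h1, h2, h4]
    simp only [e1, e2]
  rw [h5]
  omega

theorem card_rest22 : Fintype.card Rest22 = 22 := by
  rw [card_ne, card_ne, card_pts]

theorem pair_fibre (al : List ℤ) (hal : al.Nodup) (wt : ℤ → ℕ) (n : ℕ) (t : ℤ) (m : ℕ)
    (hm : m ≤ 1) (c : ℕ) :
    ((Fset al wt (lres (m : ℤ) c) n (4 * (m : ℤ))).filter
      (fun x => x none + x (some 0) = t)).card =
      pairG al wt n t m (pc24 c) (c.testBit 23) (c.testBit 0) := by
  rw [Fset_pair al wt (lres (m : ℤ) c) n (4 * (m : ℤ)) ⟨by positivity, by omega⟩ none (some 0)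
    (Option.some_ne_none 0) t, List.sum_toFinset _ hal]
  unfold pairG
  congr 1
  apply List.map_congr_left
  intro a ha
  rw [lres_none, lres_zero]
  by_cases h1 : a % 4 = (if c.testBit 23 = true then ((m : ℤ) + 2) % 4 else (m : ℤ)) ∧ wt a ≤ n
  · rw [if_pos h1, if_pos h1]
    by_cases h2 : (t - a) ∈ al ∧
        (t - a) % 4 = (if c.testBit 0 = true then ((m : ℤ) + 2) % 4 else (m : ℤ)) ∧
        wt (t - a) ≤ n - wt a
    · rw [if_pos h2, if_pos h2]
      have hfun : (fun j : Rest22 =>
          lres (m : ℤ) c j.1.1) =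
          (fun j : Rest22 =>
            if j ∈ Finset.univ.filter
            (fun j : Rest22 =>
              j.1.1 ∈ gSup c) then ((m : ℤ) + 2) % 4 else (m : ℤ)) := by
        funext j
        unfold lres
        simp only [Finset.mem_filter, Finset.mem_univ, true_and]
      show (Fset (ι := Rest22) al wt (fun j => lres (m : ℤ) c j.1.1) _ _).card = _
      rw [hfun]
      have hnn : 0 ≤ ((4 * (m : ℤ) - a) % 8 - (t - a)) % 8 := Int.emod_nonneg _ (by norm_num)
      have hlt : ((4 * (m : ℤ) - a) % 8 - (t - a)) % 8 < 8 := Int.emod_lt_of_pos _ (by norm_num)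
      have hcast : ((4 * (m : ℤ) - a) % 8 - (t - a)) % 8 =
          (((((4 * (m : ℤ) - a) % 8 - (t - a)) % 8).toNat : ℕ) : ℤ) :=
        (Int.toNat_of_nonneg hnn).symm
      have hdp := Fset_dp al hal wt n (Finset.univ.filter
        (fun j : Rest22 => j.1.1 ∈ gSup c))
        (((m : ℤ) + 2) % 4) (m : ℤ) 22 card_rest22 (n - wt a - wt (t - a)) (by omega)
        (((4 * (m : ℤ) - a) % 8 - (t - a)) % 8).toNat (by omega)
      rw [← hcast] at hdp
      rw [hdp, card_rest]
      rfl
    · rw [if_neg h2, if_neg h2]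
  · rw [if_neg h1, if_neg h1]

/-- the pattern code of a code word: weight + 32·[bit 23] + 64·[bit 0] -/
def ckey (c : ℕ) : ℕ :=
  pc24 c + (if c.testBit 23 = true then 32 else 0) + (if c.testBit 0 = true then 64 else 0)

/-- the pattern codes -/
def keyList : List ℕ := [0, 8, 12, 16, 40, 44, 48, 72, 76, 80, 104, 108, 112, 120]

/-- pattern codes with their multiplicities -/
def keyCnt : List (ℕ × ℕ) :=
  [(0, 1), (8, 330), (12, 616), (16, 77), (40, 176), (44, 672), (48, 176), (72, 176), (76, 672),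
    (80, 176), (104, 77), (108, 616), (112, 330), (120, 1)]

set_option maxRecDepth 100000 in
theorem keyCnt_ok : keyList.map
    (fun κ => (κ, ((gCode.map ckey).filter (fun k => k = κ)).length)) = keyCnt := by
  decide +kernel

set_option maxRecDepth 100000 in
theorem ckey_mem : ∀ c ∈ gCode, ckey c ∈ keyList := by decide +kernel

theorem keyList_nodup : keyList.Nodup := by decide

set_option maxRecDepth 100000 in
theorem gCode_key_sum (g : ℕ → ℕ) :
    (gCode.map (fun c => g (ckey c))).sum = (keyCnt.map (fun p => p.2 * g p.1)).sum := by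
  have h1 := sum_by_key ckey g keyList keyList_nodup gCode ckey_mem
  have h2 : keyCnt.map (fun p => p.2 * g p.1) =
      keyList.map (fun k => (gCode.filter (fun x => ckey x = k)).length * g k) := by
    rw [← keyCnt_ok, List.map_map]
    apply List.map_congr_left
    intro k _
    show ((gCode.map ckey).filter (fun y => y = k)).length * g k =
      (gCode.filter (fun x => ckey x = k)).length * g k
    rw [List.filter_map, List.length_map]
    rfl
  rw [h1, h2]

theorem pc24_le (c : ℕ) : pc24 c ≤ 24 := by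
  unfold pc24
  exact (List.length_filter_le _ _).trans (by simp)

/-- the summand for one pattern code -/
def pairG' (al : List ℤ) (wt : ℤ → ℕ) (n : ℕ) (t : ℤ) (m : ℕ) (κ : ℕ) : ℕ :=
  pairG al wt n t m (κ % 32) (decide (κ / 32 % 2 = 1)) (decide (κ / 64 = 1))

theorem pairG_key (al : List ℤ) (wt : ℤ → ℕ) (n : ℕ) (t : ℤ) (m : ℕ) (c : ℕ) :
    pairG al wt n t m (pc24 c) (c.testBit 23) (c.testBit 0) = pairG' al wt n t m (ckey c) := by
  have h := pc24_le c
  unfold pairG'
  have e1 : ckey c % 32 = pc24 c := by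
    unfold ckey
    split_ifs <;> omega
  have e2 : decide (ckey c / 32 % 2 = 1) = c.testBit 23 := by
    unfold ckey
    cases h23 : c.testBit 23 <;> cases h0 : c.testBit 0 <;> simp <;> omega
  have e3 : decide (ckey c / 64 = 1) = c.testBit 0 := by
    unfold ckey
    cases h23 : c.testBit 23 <;> cases h0 : c.testBit 0 <;> simp <;> omega
  rw [e1, e2, e3]

theorem pairSel_count (al : List ℤ) (hal : al.Nodup) (wt : ℤ → ℕ) (n : ℕ) (t : ℤ) :
    (pairSel al wt n t).ncard =
      (keyCnt.map (fun p => p.2 * pairG' al wt n t 0 p.1)).sum +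
      (keyCnt.map (fun p => p.2 * pairG' al wt n t 1 p.1)).sum := by
  rw [pairSel_ncard, Finset.sum_product, Finset.sum_pair (by norm_num : (0 : ℤ) ≠ 1)]
  have h0 : ∀ c : ℕ, ((Fset al wt (lres (0 : ℤ) c) n (4 * (0 : ℤ))).filter
      (fun x => x none + x (some 0) = t)).card = pairG' al wt n t 0 (ckey c) := by
    intro c
    have := pair_fibre al hal wt n t 0 (by norm_num) c
    rw [pairG_key] at this
    simp only [Nat.cast_zero] at this
    exact this
  have h1 : ∀ c : ℕ, ((Fset al wt (lres (1 : ℤ) c) n (4 * (1 : ℤ))).filter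
      (fun x => x none + x (some 0) = t)).card = pairG' al wt n t 1 (ckey c) := by
    intro c
    have := pair_fibre al hal wt n t 1 (by norm_num) c
    rw [pairG_key] at this
    simp only [Nat.cast_one] at this
    exact this
  simp only [h0, h1]
  rw [List.sum_toFinset _ gCode_nodup, List.sum_toFinset _ gCode_nodup,
    gCode_key_sum (fun κ => pairG' al wt n t 0 κ), gCode_key_sum (fun κ => pairG' al wt n t 1 κ)]

theorem dot_v0 (w : GolayPt → ℤ) :
    dotInt (v0 : GolayPt → ℤ) w = 4 * (w none + w (some 0)) := by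
  show dotInt (Pi.single none 4 + Pi.single (some 0) 4) w = _
  unfold dotInt
  simp only [Pi.add_apply, add_mul, Finset.sum_add_distrib, Pi.single_apply, ite_mul, zero_mul,
    Finset.sum_ite_eq', Finset.mem_univ, if_true]
  ring

theorem census_v0_set (d t : ℤ) (hd : d = 4 * t) :
    {w : GolayPt → ℤ | w ∈ leechLattice ∧ sqNorm w = 32 ∧ dotInt (v0 : GolayPt → ℤ) w = d} =
      pairSel alFull sqw 32 t := by
  have hS := norm_set_eq 32 (by norm_num)
  simp only [Nat.cast_ofNat] at hS
  ext w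
  constructor
  · rintro ⟨hw, hn, hdot⟩
    have hw' : w ∈ leechSel alFull sqw 32 := by
      rw [← hS]; exact ⟨hw, hn⟩
    refine ⟨hw, hw'.2.1, hw'.2.2, ?_⟩
    rw [dot_v0] at hdot
    omega
  · rintro ⟨hw, hal, hsum, ht⟩
    have hw' : w ∈ {x : GolayPt → ℤ | x ∈ leechLattice ∧ sqNorm x = 32} := by
      rw [hS]; exact ⟨hw, hal, hsum⟩
    refine ⟨hw, hw'.2, ?_⟩
    rw [dot_v0]
    omega

set_option maxRecDepth 100000 in
theorem census_v0_a : (pairSel alFull sqw 32 (-4)).ncard = 4600 := by
  rw [pairSel_count alFull alFull_nodup sqw 32 (-4)]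
  decide +kernel

set_option maxRecDepth 100000 in
theorem census_v0_b : (pairSel alFull sqw 32 (-2)).ncard = 47104 := by
  rw [pairSel_count alFull alFull_nodup sqw 32 (-2)]
  decide +kernel

set_option maxRecDepth 100000 in
theorem census_v0_c : (pairSel alFull sqw 32 0).ncard = 93150 := by
  rw [pairSel_count alFull alFull_nodup sqw 32 0]
  decide +kernel

theorem co0_dot (g : Equiv.Perm leechLattice) (hg : g ∈ Co0) (x y : leechLattice) :
    dotInt ((g x : leechLattice) : GolayPt → ℤ) ((g y : leechLattice) : GolayPt → ℤ) =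
      dotInt (x : GolayPt → ℤ) (y : GolayPt → ℤ) := by
  have h1 := hg.2 (x + y)
  rw [hg.1, AddSubgroup.coe_add, AddSubgroup.coe_add, Helper28.Leech.sqNorm_add,
    Helper28.Leech.sqNorm_add, hg.2 x, hg.2 y] at h1
  omega

theorem census_transfer (v : leechLattice) (g : Equiv.Perm leechLattice) (hg : g ∈ Co0) (d : ℤ) :
    {w : GolayPt → ℤ | w ∈ leechLattice ∧ sqNorm w = 32 ∧
      dotInt (v : GolayPt → ℤ) w = d}.ncard =
    {w : GolayPt → ℤ | w ∈ leechLattice ∧ sqNorm w = 32 ∧
      dotInt ((g v : leechLattice) : GolayPt → ℤ) w = d}.ncard := by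
  have key : ∀ u : leechLattice,
      {w : GolayPt → ℤ | w ∈ leechLattice ∧ sqNorm w = 32 ∧ dotInt (u : GolayPt → ℤ) w = d} =
      Subtype.val '' {w : leechLattice | sqNorm (w : GolayPt → ℤ) = 32 ∧
        dotInt (u : GolayPt → ℤ) (w : GolayPt → ℤ) = d} := by
    intro u
    ext w
    constructor
    · rintro ⟨hw, h1, h2⟩
      exact ⟨⟨w, hw⟩, ⟨h1, h2⟩, rfl⟩
    · rintro ⟨w', ⟨h1, h2⟩, rfl⟩
      exact ⟨w'.2, h1, h2⟩
  rw [key v, key (g v), Set.ncard_image_of_injective _ Subtype.val_injective,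
    Set.ncard_image_of_injective _ Subtype.val_injective]
  have himg : {w : leechLattice | sqNorm (w : GolayPt → ℤ) = 32 ∧
      dotInt ((g v : leechLattice) : GolayPt → ℤ) (w : GolayPt → ℤ) = d} =
      g '' {w : leechLattice | sqNorm (w : GolayPt → ℤ) = 32 ∧
        dotInt (v : GolayPt → ℤ) (w : GolayPt → ℤ) = d} := by
    ext w
    constructor
    · rintro ⟨h1, h2⟩
      refine ⟨g.symm w, ⟨?_, ?_⟩, by simp⟩
      · rw [← hg.2 (g.symm w)]
        simpa using h1
      · rw [← co0_dot g hg]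
        simpa using h2
    · rintro ⟨w', ⟨h1, h2⟩, rfl⟩
      exact ⟨by rw [hg.2]; exact h1, by rw [co0_dot g hg]; exact h2⟩
  rw [himg, Set.ncard_image_of_injective _ g.injective]

theorem census_result (v : GolayPt → ℤ) (hv : v ∈ leechLattice) (hvn : sqNorm v = 32) (d t : ℤ)
    (hd : d = 4 * t) :
    {w : GolayPt → ℤ | w ∈ leechLattice ∧ sqNorm w = 32 ∧ dotInt v w = d}.ncard =
      (pairSel alFull sqw 32 t).ncard := by
  obtain ⟨g, hg, h⟩ := min_rel ⟨v, hv⟩ hvn
  have h2 := census_transfer ⟨v, hv⟩ g hg d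
  rw [h] at h2
  rw [← census_v0_set d t hd]
  exact h2

end Cfsg.Agent.Helper3
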