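import Mathlib
import Cfsg.Agent.Helper3.LeechIndex
import Cfsg.Agent.Helper28.LeechGolay
import Cfsg.Agent.S1588
import Cfsg.Prelude.Def_SporadicCombinatorics

set_option autoImplicit false
set_option linter.unusedSectionVars false
set_option linter.style.haveILetI false
set_option linter.unusedSimpArgs false
set_option linter.unusedVariables false
set_option linter.deprecated false

namespace Cfsg.Agent.Helper3

open Cfsg Matrix

/-- the lattice as a `ℤ`-submodule -/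
abbrev LL : Submodule ℤ (GolayPt → ℤ) := AddSubgroup.toIntSubmodule leechLattice

theorem eight_smul_mem (x : GolayPt → ℤ) : (8 : ℤ) • x ∈ leechLattice := by
  apply red8_ker_le
  rw [AddMonoidHom.mem_ker]
  ext i
  rw [red8_apply]
  simp only [Pi.smul_apply, smul_eq_mul, Int.cast_mul, Pi.zero_apply]
  have : ((8 : ℤ) : ZMod 8) = 0 := by decide
  rw [this, zero_mul]

theorem LL_finrank : Module.finrank ℤ LL = 24 := by
  apply le_antisymm
  · have := Submodule.finrank_le LL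
    rw [Module.finrank_fintype_fun_eq_card, Helper28.Leech.card_pts] at this
    exact this
  · let f : (GolayPt → ℤ) →ₗ[ℤ] LL :=
      LinearMap.codRestrict LL ((8 : ℤ) • LinearMap.id) (fun x => eight_smul_mem x)
    have hf : Function.Injective f := by
      intro x y hxy
      have h := congrArg (fun v : LL => (v : GolayPt → ℤ)) hxy
      simp only [f, LinearMap.codRestrict_apply, LinearMap.smul_apply, LinearMap.id_apply] at h
      ext i
      have hi : (8 : ℤ) * x i = 8 * y i := congrFun h i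
      omega
    have := LinearMap.finrank_le_finrank_of_injective hf
    rw [Module.finrank_fintype_fun_eq_card, Helper28.Leech.card_pts] at this
    exact this

/-- a basis of the lattice -/
noncomputable def lb : Module.Basis (Fin 24) ℤ LL := Module.finBasisOfFinrankEq ℤ LL LL_finrank

/-- the lattice vector with given coordinates -/
noncomputable def lvec (x : Fin 24 → ℤ) : GolayPt → ℤ := ((lb.equivFun.symm x : LL) : GolayPt → ℤ)

theorem lvec_mem (x : Fin 24 → ℤ) : lvec x ∈ leechLattice := (lb.equivFun.symm x).2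

theorem lvec_add (x y : Fin 24 → ℤ) : lvec (x + y) = lvec x + lvec y := by
  unfold lvec
  rw [map_add]
  rfl

theorem lvec_sub (x y : Fin 24 → ℤ) : lvec (x - y) = lvec x - lvec y := by
  unfold lvec
  rw [map_sub]
  rfl

theorem lvec_smul (a : ℤ) (x : Fin 24 → ℤ) : lvec (a • x) = a • lvec x := by
  unfold lvec
  rw [map_smul]
  rfl

theorem lvec_zero : lvec 0 = 0 := by
  unfold lvec
  rw [map_zero]
  rfl

theorem lvec_inj : Function.Injective lvec := by
  intro x y h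
  unfold lvec at h
  exact lb.equivFun.symm.injective (Subtype.ext h)

theorem lvec_surj (v : GolayPt → ℤ) (hv : v ∈ leechLattice) : ∃ x, lvec x = v := by
  refine ⟨lb.equivFun ⟨v, hv⟩, ?_⟩
  unfold lvec
  rw [LinearEquiv.symm_apply_apply]

theorem dotInt_symm (x y : GolayPt → ℤ) : dotInt x y = dotInt y x := by
  unfold dotInt
  apply Finset.sum_congr rfl
  intro i _
  ring

theorem sqNorm_eq_dot (x : GolayPt → ℤ) : sqNorm x = dotInt x x := by
  unfold sqNorm dotInt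
  apply Finset.sum_congr rfl
  intro i _
  ring

theorem dot_dvd (x y : GolayPt → ℤ) (hx : x ∈ leechLattice) (hy : y ∈ leechLattice) :
    (8 : ℤ) ∣ dotInt x y := by
  have h1 := Helper28.Leech.leech_dvd (x + y) (add_mem hx hy)
  have h2 := Helper28.Leech.leech_dvd x hx
  have h3 := Helper28.Leech.leech_dvd y hy
  rw [Helper28.Leech.sqNorm_add] at h1
  omega

/-- the Gram matrix of the basis, at the customary scale -/
noncomputable def lB : Matrix (Fin 24) (Fin 24) ℤ :=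
  fun i j => dotInt ((lb i : LL) : GolayPt → ℤ) ((lb j : LL) : GolayPt → ℤ) / 8

theorem lvec_eq (x : Fin 24 → ℤ) : lvec x = ∑ i, x i • ((lb i : LL) : GolayPt → ℤ) := by
  unfold lvec
  rw [Module.Basis.equivFun_symm_apply]
  simp only [Submodule.coe_sum, Submodule.coe_smul]

theorem dot_lvec (x y : Fin 24 → ℤ) : dotInt (lvec x) (lvec y) = 8 * (x ⬝ᵥ (lB *ᵥ y)) := by
  rw [lvec_eq, lvec_eq]
  unfold dotInt dotProduct mulVec dotProduct
  simp only [Finset.sum_apply, Pi.smul_apply, smul_eq_mul]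
  have hB : ∀ i j, 8 * lB i j =
      ∑ p, ((lb i : LL) : GolayPt → ℤ) p * ((lb j : LL) : GolayPt → ℤ) p :=
    fun i j => Int.mul_ediv_cancel' (dot_dvd _ _ (lb i).2 (lb j).2)
  rw [Finset.mul_sum]
  simp_rw [Finset.sum_mul_sum]
  rw [Finset.sum_comm]
  apply Finset.sum_congr rfl
  intro i _
  rw [Finset.mul_sum, Finset.mul_sum, Finset.sum_comm]
  apply Finset.sum_congr rfl
  intro j _
  rw [show 8 * (x i * (lB i j * y j)) = x i * y j * (8 * lB i j) by ring, hB, Finset.mul_sum]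
  apply Finset.sum_congr rfl
  intro p _
  ring

theorem sq_lvec (x : Fin 24 → ℤ) : sqNorm (lvec x) = 8 * (x ⬝ᵥ (lB *ᵥ x)) := by
  rw [sqNorm_eq_dot, dot_lvec]

theorem lB_symm : lB.IsSymm := by
  ext i j
  rw [Matrix.transpose_apply]
  unfold lB
  rw [dotInt_symm]

theorem lvec_ne_zero (x : Fin 24 → ℤ) (hx : x ≠ 0) : lvec x ≠ 0 :=
  fun h => hx (lvec_inj (h.trans lvec_zero.symm))

theorem lB_pos (x : Fin 24 → ℤ) (hx : x ≠ 0) : 0 < x ⬝ᵥ (lB *ᵥ x) := by
  have h2 := Helper28.Leech.leech_min_norm _ (lvec_mem x) (lvec_ne_zero x hx)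
  rw [sq_lvec] at h2
  omega

theorem lB_even (x : Fin 24 → ℤ) : (2 : ℤ) ∣ x ⬝ᵥ (lB *ᵥ x) := by
  have := Helper28.Leech.leech_dvd _ (lvec_mem x)
  rw [sq_lvec] at this
  omega

theorem lB_ne2 (x : Fin 24 → ℤ) : x ⬝ᵥ (lB *ᵥ x) ≠ 2 := by
  intro h
  by_cases hx : x = 0
  · subst hx
    simp at h
  · have h2 := Helper28.Leech.leech_min_norm _ (lvec_mem x) (lvec_ne_zero x hx)
    rw [sq_lvec, h] at h2
    omega

theorem lB_count (N : ℤ) : {x : Fin 24 → ℤ | x ⬝ᵥ (lB *ᵥ x) = N}.ncard =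
    {v : GolayPt → ℤ | v ∈ leechLattice ∧ sqNorm v = 8 * N}.ncard := by
  rw [← Set.ncard_image_of_injective _ lvec_inj]
  congr 1
  ext v
  constructor
  · rintro ⟨x, hx, rfl⟩
    have hx' : x ⬝ᵥ (lB *ᵥ x) = N := hx
    exact ⟨lvec_mem x, by rw [sq_lvec, hx']⟩
  · rintro ⟨hv, hn⟩
    obtain ⟨x, rfl⟩ := lvec_surj v hv
    refine ⟨x, ?_, rfl⟩
    rw [sq_lvec] at hn
    show x ⬝ᵥ (lB *ᵥ x) = N
    omega

theorem lB_h4 : {x : Fin 24 → ℤ | x ⬝ᵥ (lB *ᵥ x) = 4}.ncard = 196560 := by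
  rw [lB_count, show (8 : ℤ) * 4 = 32 by norm_num]
  exact leech_count_32

theorem lB_h6 : {x : Fin 24 → ℤ | x ⬝ᵥ (lB *ᵥ x) = 6}.ncard = 16773120 := by
  rw [lB_count, show (8 : ℤ) * 6 = 48 by norm_num]
  exact leech_count_48

theorem lB_h8 : {x : Fin 24 → ℤ | x ⬝ᵥ (lB *ᵥ x) = 8}.ncard = 398034000 := by
  rw [lB_count, show (8 : ℤ) * 8 = 64 by norm_num]
  exact leech_count_64

theorem lvec_cong (x y : Fin 24 → ℤ) :
    (∃ z ∈ leechLattice, lvec x - lvec y = 2 • z) ↔ ∀ i, (2 : ℤ) ∣ (x - y) i := by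
  constructor
  · rintro ⟨z, hz, h⟩
    obtain ⟨z', rfl⟩ := lvec_surj z hz
    have h' : lvec (x - y) = lvec (z' + z') := by
      rw [lvec_sub, lvec_add, h, two_nsmul]
    have := lvec_inj h'
    intro i
    rw [this]
    exact ⟨z' i, by simp only [Pi.add_apply]; ring⟩
  · intro h
    choose z hz using h
    refine ⟨lvec z, lvec_mem z, ?_⟩
    rw [← lvec_sub, two_nsmul, ← lvec_add]
    congr 1
    ext i
    rw [hz i]
    simp only [Pi.add_apply]
    ring

theorem cross_card (x : GolayPt → ℤ) (hx : x ∈ leechLattice) (hxn : sqNorm x = 64) :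
    (cross x).ncard = 48 := by
  obtain ⟨x', rfl⟩ := lvec_surj x hx
  have hx8 : x' ⬝ᵥ (lB *ᵥ x') = 8 := by
    rw [sq_lvec] at hxn
    omega
  have key := Cfsg.Agent.S1588.result lB lB_symm lB_pos lB_even lB_ne2 lB_h4 lB_h6 lB_h8 x' hx8
  rw [← key, ← Set.ncard_image_of_injective _ lvec_inj]
  congr 1
  ext v
  unfold cross
  constructor
  · rintro ⟨hv, hn, hz⟩
    obtain ⟨y, rfl⟩ := lvec_surj v hv
    refine ⟨y, ⟨?_, (lvec_cong x' y).1 hz⟩, rfl⟩
    rw [hxn, sq_lvec] at hn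
    omega
  · rintro ⟨y, ⟨hy, hc⟩, rfl⟩
    refine ⟨lvec_mem y, ?_, (lvec_cong x' y).2 hc⟩
    rw [hxn, sq_lvec, hy]
    norm_num

/-- under the vector counts, every class modulo 2 contains a vector of norm at most 8 -/
theorem classes_cover (B : Matrix (Fin 24) (Fin 24) ℤ) (hsymm : B.IsSymm)
    (hpos : ∀ x : Fin 24 → ℤ, x ≠ 0 → 0 < x ⬝ᵥ (B *ᵥ x))
    (heven : ∀ x : Fin 24 → ℤ, (2 : ℤ) ∣ x ⬝ᵥ (B *ᵥ x))
    (h2 : ∀ x : Fin 24 → ℤ, x ⬝ᵥ (B *ᵥ x) ≠ 2)
    (h4 : {x : Fin 24 → ℤ | x ⬝ᵥ (B *ᵥ x) = 4}.ncard = 196560)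
    (h6 : {x : Fin 24 → ℤ | x ⬝ᵥ (B *ᵥ x) = 6}.ncard = 16773120)
    (h8 : {x : Fin 24 → ℤ | x ⬝ᵥ (B *ᵥ x) = 8}.ncard = 398034000) (x : Fin 24 → ℤ) :
    ∃ v : Fin 24 → ℤ, v ⬝ᵥ (B *ᵥ v) ≤ 8 ∧ ∀ i, (2 : ℤ) ∣ (x - v) i := by
  classical
  have hf4 : {x : Fin 24 → ℤ | x ⬝ᵥ (B *ᵥ x) = 4}.Finite :=
    Set.finite_of_ncard_ne_zero (by rw [h4]; norm_num)
  have hf6 : {x : Fin 24 → ℤ | x ⬝ᵥ (B *ᵥ x) = 6}.Finite :=
    Set.finite_of_ncard_ne_zero (by rw [h6]; norm_num)
  have hf8 : {x : Fin 24 → ℤ | x ⬝ᵥ (B *ᵥ x) = 8}.Finite :=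
    Set.finite_of_ncard_ne_zero (by rw [h8]; norm_num)
  have hc4 : hf4.toFinset.card = 196560 := by rw [← Set.ncard_eq_toFinset_card _ hf4, h4]
  have hc6 : hf6.toFinset.card = 16773120 := by rw [← Set.ncard_eq_toFinset_card _ hf6, h6]
  have hc8 : hf8.toFinset.card = 398034000 := by rw [← Set.ncard_eq_toFinset_card _ hf8, h8]
  have hm4 : ∀ v, v ∈ hf4.toFinset ↔ v ⬝ᵥ (B *ᵥ v) = 4 := fun v => by
    rw [Set.Finite.mem_toFinset]; rfl
  have hm6 : ∀ v, v ∈ hf6.toFinset ↔ v ⬝ᵥ (B *ᵥ v) = 6 := fun v => by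
    rw [Set.Finite.mem_toFinset]; rfl
  have hm8 : ∀ v, v ∈ hf8.toFinset ↔ v ⬝ᵥ (B *ᵥ v) = 8 := fun v => by
    rw [Set.Finite.mem_toFinset]; rfl
  -- reduction modulo 2
  let φ : (Fin 24 → ℤ) → (Fin 24 → ZMod 2) := fun v i => ((v i : ℤ) : ZMod 2)
  have hφ : ∀ u v : Fin 24 → ℤ, φ u = φ v ↔ ∀ i, (2 : ℤ) ∣ (u - v) i := by
    intro u v
    constructor
    · intro h i
      have := congrFun h i
      have h' : ((v i : ℤ) : ZMod 2) = ((u i : ℤ) : ZMod 2) := this.symm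
      rw [ZMod.intCast_eq_intCast_iff_dvd_sub] at h'
      exact h'
    · intro h
      funext i
      have h' : ((v i : ℤ) : ZMod 2) = ((u i : ℤ) : ZMod 2) := by
        rw [ZMod.intCast_eq_intCast_iff_dvd_sub]
        exact h i
      exact h'.symm
  have hneg : ∀ v : Fin 24 → ℤ, (-v) ⬝ᵥ (B *ᵥ (-v)) = v ⬝ᵥ (B *ᵥ v) := by
    intro v
    simp [Matrix.mulVec_neg]
  have hP : ∀ u v : Fin 24 → ℤ, u ⬝ᵥ (B *ᵥ u) + v ⬝ᵥ (B *ᵥ v) ≤ 14 → φ u = φ v →
      v = u ∨ v = -u := fun u v hle h => Cfsg.Agent.S1588.pair_small B hsymm hpos heven h2 u v hle ((hφ u v).mp h)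
  have hPn : ∀ u v : Fin 24 → ℤ, u ⬝ᵥ (B *ᵥ u) + v ⬝ᵥ (B *ᵥ v) ≤ 14 → φ u = φ v →
      v ⬝ᵥ (B *ᵥ v) = u ⬝ᵥ (B *ᵥ u) := by
    intro u v hle h
    rcases hP u v hle h with h1 | h1
    · rw [h1]
    · rw [h1, hneg]
  have h0 : (0 : Fin 24 → ℤ) ⬝ᵥ (B *ᵥ 0) = 0 := by simp
  -- fibre bounds
  have hb4 : hf4.toFinset.card ≤ 2 * (hf4.toFinset.image φ).card := by
    refine Finset.card_le_mul_card_image _ 2 ?_
    intro c hc
    obtain ⟨v₀, hv₀, rfl⟩ := Finset.mem_image.mp hc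
    refine le_trans (Finset.card_le_card (t := {v₀, -v₀}) ?_) Finset.card_le_two
    intro v hv
    rw [Finset.mem_filter] at hv
    have hv4 := (hm4 v).mp hv.1
    have hv₀4 := (hm4 v₀).mp hv₀
    rcases hP v₀ v (by rw [hv4, hv₀4]; norm_num) hv.2.symm with h1 | h1
    · rw [h1]; exact Finset.mem_insert_self _ _
    · rw [h1]; exact Finset.mem_insert_of_mem (Finset.mem_singleton_self _)
  have hb6 : hf6.toFinset.card ≤ 2 * (hf6.toFinset.image φ).card := by
    refine Finset.card_le_mul_card_image _ 2 ?_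
    intro c hc
    obtain ⟨v₀, hv₀, rfl⟩ := Finset.mem_image.mp hc
    refine le_trans (Finset.card_le_card (t := {v₀, -v₀}) ?_) Finset.card_le_two
    intro v hv
    rw [Finset.mem_filter] at hv
    have hv6 := (hm6 v).mp hv.1
    have hv₀6 := (hm6 v₀).mp hv₀
    rcases hP v₀ v (by rw [hv6, hv₀6]; norm_num) hv.2.symm with h1 | h1
    · rw [h1]; exact Finset.mem_insert_self _ _
    · rw [h1]; exact Finset.mem_insert_of_mem (Finset.mem_singleton_self _)
  have hfib8 : ∀ c ∈ hf8.toFinset.image φ, (hf8.toFinset.filter (fun v => φ v = c)).card ≤ 48 := by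
    intro c hc
    refine Cfsg.Agent.S1588.card_le_48 B _ ?_ ?_
    · intro v hv
      rw [Finset.mem_filter] at hv
      rw [(hm8 v).mp hv.1]; norm_num
    · intro v hv v' hv'
      rw [Finset.mem_filter] at hv hv'
      exact Cfsg.Agent.S1587.result B hsymm hpos heven h2 v v' ((hm8 v).mp hv.1) ((hm8 v').mp hv'.1)
        ((hφ v v').mp (hv.2.trans hv'.2.symm))
  have hb8 : hf8.toFinset.card ≤ 48 * (hf8.toFinset.image φ).card :=
    Finset.card_le_mul_card_image _ 48 hfib8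
  -- disjointness of the images
  have hd04 : φ 0 ∉ hf4.toFinset.image φ := by
    intro hc
    obtain ⟨v, hv, hv'⟩ := Finset.mem_image.mp hc
    have := hPn 0 v (by rw [h0, (hm4 v).mp hv]; norm_num) hv'.symm
    rw [h0, (hm4 v).mp hv] at this; omega
  have hd06 : φ 0 ∉ hf6.toFinset.image φ := by
    intro hc
    obtain ⟨v, hv, hv'⟩ := Finset.mem_image.mp hc
    have := hPn 0 v (by rw [h0, (hm6 v).mp hv]; norm_num) hv'.symm
    rw [h0, (hm6 v).mp hv] at this; omega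
  have hd08 : φ 0 ∉ hf8.toFinset.image φ := by
    intro hc
    obtain ⟨v, hv, hv'⟩ := Finset.mem_image.mp hc
    have := hPn 0 v (by rw [h0, (hm8 v).mp hv]; norm_num) hv'.symm
    rw [h0, (hm8 v).mp hv] at this; omega
  have hd46 : Disjoint (hf4.toFinset.image φ) (hf6.toFinset.image φ) := by
    rw [Finset.disjoint_left]
    intro c hc4' hc6'
    obtain ⟨u, hu, rfl⟩ := Finset.mem_image.mp hc4'
    obtain ⟨v, hv, hv'⟩ := Finset.mem_image.mp hc6'
    have := hPn u v (by rw [(hm4 u).mp hu, (hm6 v).mp hv]; norm_num) hv'.symm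
    rw [(hm4 u).mp hu, (hm6 v).mp hv] at this; omega
  have hd48 : Disjoint (hf4.toFinset.image φ) (hf8.toFinset.image φ) := by
    rw [Finset.disjoint_left]
    intro c hc4' hc8'
    obtain ⟨u, hu, rfl⟩ := Finset.mem_image.mp hc4'
    obtain ⟨v, hv, hv'⟩ := Finset.mem_image.mp hc8'
    have := hPn u v (by rw [(hm4 u).mp hu, (hm8 v).mp hv]; norm_num) hv'.symm
    rw [(hm4 u).mp hu, (hm8 v).mp hv] at this; omega
  have hd68 : Disjoint (hf6.toFinset.image φ) (hf8.toFinset.image φ) := by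
    rw [Finset.disjoint_left]
    intro c hc6' hc8'
    obtain ⟨u, hu, rfl⟩ := Finset.mem_image.mp hc6'
    obtain ⟨v, hv, hv'⟩ := Finset.mem_image.mp hc8'
    have := hPn u v (by rw [(hm6 u).mp hu, (hm8 v).mp hv]; norm_num) hv'.symm
    rw [(hm6 u).mp hu, (hm8 v).mp hv] at this; omega
  -- the union is everything
  have hU : ((({φ 0} : Finset (Fin 24 → ZMod 2)) ∪ hf4.toFinset.image φ) ∪ hf6.toFinset.image φ ∪
      hf8.toFinset.image φ) = Finset.univ := by
    apply Finset.eq_univ_of_card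
    rw [Finset.card_union_of_disjoint, Finset.card_union_of_disjoint, Finset.card_union_of_disjoint,
      Finset.card_singleton]
    rotate_left
    · rw [Finset.disjoint_singleton_left]; exact hd04
    · rw [Finset.disjoint_union_left, Finset.disjoint_singleton_left]; exact ⟨hd06, hd46⟩
    · rw [Finset.disjoint_union_left, Finset.disjoint_union_left, Finset.disjoint_singleton_left]
      exact ⟨⟨hd08, hd48⟩, hd68⟩
    have hle : ((({φ 0} : Finset (Fin 24 → ZMod 2)) ∪ hf4.toFinset.image φ) ∪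
        hf6.toFinset.image φ ∪ hf8.toFinset.image φ).card ≤ 2 ^ 24 := by
      refine le_trans (Finset.card_le_univ _) ?_
      rw [Fintype.card_fun, ZMod.card, Fintype.card_fin]
    rw [Finset.card_union_of_disjoint, Finset.card_union_of_disjoint, Finset.card_union_of_disjoint,
      Finset.card_singleton] at hle
    rotate_left
    · rw [Finset.disjoint_singleton_left]; exact hd04
    · rw [Finset.disjoint_union_left, Finset.disjoint_singleton_left]; exact ⟨hd06, hd46⟩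
    · rw [Finset.disjoint_union_left, Finset.disjoint_union_left, Finset.disjoint_singleton_left]
      exact ⟨⟨hd08, hd48⟩, hd68⟩
    rw [Fintype.card_fun, ZMod.card, Fintype.card_fin]
    rw [hc4] at hb4
    rw [hc6] at hb6
    rw [hc8] at hb8
    norm_num at hle ⊢
    omega
  have hxU : φ x ∈ ((({φ 0} : Finset (Fin 24 → ZMod 2)) ∪ hf4.toFinset.image φ) ∪
      hf6.toFinset.image φ ∪ hf8.toFinset.image φ) := by
    rw [hU]; exact Finset.mem_univ _
  rw [Finset.mem_union, Finset.mem_union, Finset.mem_union, Finset.mem_singleton] at hxU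
  rcases hxU with ((h | h) | h) | h
  · exact ⟨0, by rw [h0]; norm_num, (hφ x 0).mp h⟩
  · obtain ⟨v, hv, hv'⟩ := Finset.mem_image.mp h
    exact ⟨v, by rw [(hm4 v).mp hv]; norm_num, (hφ x v).mp hv'.symm⟩
  · obtain ⟨v, hv, hv'⟩ := Finset.mem_image.mp h
    exact ⟨v, by rw [(hm6 v).mp hv]; norm_num, (hφ x v).mp hv'.symm⟩
  · obtain ⟨v, hv, hv'⟩ := Finset.mem_image.mp h
    exact ⟨v, by rw [(hm8 v).mp hv], (hφ x v).mp hv'.symm⟩

theorem mod_two_rep (x : GolayPt → ℤ) (hx : x ∈ leechLattice) :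
    ∃ y ∈ leechLattice, sqNorm y ≤ 64 ∧ ∃ z ∈ leechLattice, x - y = 2 • z := by
  obtain ⟨x', rfl⟩ := lvec_surj x hx
  obtain ⟨v, hv, hc⟩ := classes_cover lB lB_symm lB_pos lB_even lB_ne2 lB_h4 lB_h6 lB_h8 x'
  refine ⟨lvec v, lvec_mem v, ?_, (lvec_cong x' v).2 hc⟩
  rw [sq_lvec]
  omega

end Cfsg.Agent.Helper3
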