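import Mathlib
import Cfsg.Agent.Helper3.LeechTrans

set_option autoImplicit false
set_option linter.unusedSectionVars false
set_option linter.style.haveILetI false
set_option linter.unusedSimpArgs false
set_option linter.unusedVariables false
set_option linter.deprecated false

namespace Cfsg.Agent.Helper3

open Cfsg Cfsg.Agent.Helper28.Leech
open scoped Pointwise

/-- four-fold transitivity of `M24`, anchored at the points of the first tetrad -/
theorem M24_four (a b c d : GolayPt) (hab : a ≠ b) (hac : a ≠ c) (had : a ≠ d) (hbc : b ≠ c)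
    (hbd : b ≠ d) (hcd : c ≠ d) :
    ∃ σ ∈ M24, σ (gPt 0) = a ∧ σ (gPt 1) = b ∧ σ (gPt 2) = c ∧ σ (gPt 23) = d := by
  classical
  have hcard : ({a, b, c, d} : Finset GolayPt).card < (Finset.univ : Finset GolayPt).card := by
    have h1 : ({a, b, c, d} : Finset GolayPt).card ≤ 4 := Finset.card_le_four
    have h2 : (Finset.univ : Finset GolayPt).card = 24 := by
      rw [Finset.card_univ]; exact Helper28.Leech.card_pts
    omega
  obtain ⟨e, -, he⟩ := Finset.exists_mem_notMem_of_card_lt_card hcard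
  simp only [Finset.mem_insert, Finset.mem_singleton, not_or] at he
  obtain ⟨hea, heb, hec, hed⟩ := he
  obtain ⟨g, hg, hmap⟩ := listTrans5 [d, a, b, c, e] (by
    simp only [List.nodup_cons, List.mem_cons, List.not_mem_nil, or_false, not_or,
      List.nodup_nil, and_true, not_false_eq_true]
    exact ⟨⟨had.symm, hbd.symm, hcd.symm, Ne.symm hed⟩, ⟨hab, hac, Ne.symm hea⟩,
      ⟨hbc, Ne.symm heb⟩, Ne.symm hec⟩) rfl
  simp only [List.map_cons, List.map_nil, List.cons.injEq, and_true] at hmap
  obtain ⟨h1, h2, h3, h4, h5⟩ := hmap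
  exact ⟨g, hg, h2, h3, h4, h1⟩

theorem sq_le_norm (x : GolayPt → ℤ) (i : GolayPt) : x i ^ 2 ≤ sqNorm x := by
  unfold sqNorm
  exact Finset.single_le_sum (f := fun i => x i ^ 2) (fun j _ => sq_nonneg _) (Finset.mem_univ i)

theorem bound6 (x : GolayPt → ℤ) (hn : sqNorm x = 48) (i : GolayPt) : -6 ≤ x i ∧ x i ≤ 6 := by
  have h := sq_le_norm x i
  rw [hn] at h
  constructor <;> nlinarith

/-- `(5, 1, ..., 1)` -/
def u5 : GolayPt → ℤ := fun i => if i = none then 5 else 1

/-- `(-3, -3, -3, 1, ..., 1)` -/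
def u3 : GolayPt → ℤ := fun i => if i = gPt 0 ∨ i = gPt 1 ∨ i = gPt 2 then -3 else 1

set_option maxRecDepth 100000 in
theorem u5_test : ltest u5 = true := by decide +kernel

set_option maxRecDepth 100000 in
theorem u3_test : ltest u3 = true := by decide +kernel

def u5L : leechLattice := ⟨u5, ltest_sound _ u5_test⟩

def u3L : leechLattice := ⟨u3, ltest_sound _ u3_test⟩

theorem sqNorm_u5 : sqNorm u5 = 48 := by
  unfold sqNorm u5
  rw [Fintype.sum_option]
  simp

theorem odd_rel (x : leechLattice) (hn : sqNorm (x : GolayPt → ℤ) = 48)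
    (hodd : (x : GolayPt → ℤ) none % 2 = 1) :
    coRel x u3L ∨ (coRel x u5L ∧ ∀ i, (x : GolayPt → ℤ) i ≠ 3 ∧ (x : GolayPt → ℤ) i ≠ -3) := by
  classical
  have hx := x.2
  rw [mem_leech_iff_fibre] at hx
  obtain ⟨m, hm, c, hc, h1, -⟩ := hx
  have hm1 : m = 1 := by
    rcases hm with h | h
    · exfalso
      have e := h1 none
      unfold lres at e
      rw [h] at e
      split_ifs at e <;> omega
    · exact h
  subst hm1
  have hcc : Helper28.Code.ofSet (gSup c) ∈ golayCode :=
    (Helper28.Code.mem_supports_iff golayCode _).1 ((mem_supports_iff _).2 ⟨c, hc, rfl⟩)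
  obtain ⟨y, hy⟩ : ∃ y : leechLattice, y = signAut (gSup c) hcc x := ⟨_, rfl⟩
  have r1 : coRel x y := ⟨_, signAut_mem _ hcc, hy.symm⟩
  have hyn : sqNorm (y : GolayPt → ℤ) = 48 := by rw [coRel_norm r1, hn]
  have hy4 : ∀ i, (y : GolayPt → ℤ) i % 4 = 1 := by
    intro i
    rw [hy, signAut_apply]
    have e := h1 i
    unfold lres at e
    by_cases hi : i ∈ gSup c
    · rw [if_pos hi] at e ⊢; omega
    · rw [if_neg hi] at e ⊢; omega
  have hyv : ∀ i, (y : GolayPt → ℤ) i = 1 ∨ (y : GolayPt → ℤ) i = -3 ∨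
      (y : GolayPt → ℤ) i = 5 := by
    intro i
    have := bound6 _ hyn i
    have := hy4 i
    omega
  have hsq : ∀ i, (y : GolayPt → ℤ) i ^ 2 = 1 + ((if (y : GolayPt → ℤ) i = -3 then (8 : ℤ) else 0)
      + (if (y : GolayPt → ℤ) i = 5 then (24 : ℤ) else 0)) := by
    intro i
    rcases hyv i with h | h | h <;> rw [h] <;> norm_num
  have hcount : ((Finset.univ.filter (fun i => (y : GolayPt → ℤ) i = -3)).card : ℤ) +
      3 * ((Finset.univ.filter (fun i => (y : GolayPt → ℤ) i = 5)).card : ℤ) = 3 := by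
    have := hyn
    unfold sqNorm at this
    rw [Finset.sum_congr rfl (fun i _ => hsq i), Finset.sum_add_distrib, Finset.sum_add_distrib,
      Finset.sum_const, Finset.card_univ, Helper28.Leech.card_pts, ← Finset.sum_filter,
      ← Finset.sum_filter, Finset.sum_const, Finset.sum_const, nsmul_eq_mul, nsmul_eq_mul,
      nsmul_eq_mul] at this
    push_cast at this
    omega
  have hxy : ∀ i, (x : GolayPt → ℤ) i = (y : GolayPt → ℤ) i ∨
      (x : GolayPt → ℤ) i = -(y : GolayPt → ℤ) i := by
    intro i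
    rw [hy, signAut_apply]
    by_cases hi : i ∈ gSup c
    · rw [if_pos hi]; right; ring
    · rw [if_neg hi]; left; rfl
  have hA : ((Finset.univ.filter (fun i => (y : GolayPt → ℤ) i = -3)).card = 3 ∧
      (Finset.univ.filter (fun i => (y : GolayPt → ℤ) i = 5)).card = 0) ∨
      ((Finset.univ.filter (fun i => (y : GolayPt → ℤ) i = -3)).card = 0 ∧
      (Finset.univ.filter (fun i => (y : GolayPt → ℤ) i = 5)).card = 1) := by omega
  rcases hA with ⟨hA3, hB0⟩ | ⟨hA0, hB1⟩
  · left
    obtain ⟨a, b, d, hab, had, hbd, hS⟩ := Finset.card_eq_three.1 hA3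
    have hmem : ∀ k, (y : GolayPt → ℤ) k = -3 ↔ k = a ∨ k = b ∨ k = d := by
      intro k
      have : k ∈ Finset.univ.filter (fun i => (y : GolayPt → ℤ) i = -3) ↔
          k ∈ ({a, b, d} : Finset GolayPt) := by rw [hS]
      simpa using this
    have hno5 : ∀ k, (y : GolayPt → ℤ) k ≠ 5 := by
      intro k hk
      have : k ∈ Finset.univ.filter (fun i => (y : GolayPt → ℤ) i = 5) := by simp [hk]
      rw [Finset.card_eq_zero.1 hB0] at this
      exact absurd this (Finset.notMem_empty _)
    have hcard : ({a, b, d} : Finset GolayPt).card < (Finset.univ : Finset GolayPt).card := by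
      have h1 : ({a, b, d} : Finset GolayPt).card ≤ 3 := Finset.card_le_three
      have h2 : (Finset.univ : Finset GolayPt).card = 24 := by
        rw [Finset.card_univ]; exact Helper28.Leech.card_pts
      omega
    obtain ⟨e, -, he⟩ := Finset.exists_mem_notMem_of_card_lt_card hcard
    simp only [Finset.mem_insert, Finset.mem_singleton, not_or] at he
    obtain ⟨hea, heb, hed⟩ := he
    obtain ⟨σ, hσ, h0, h1', h2, -⟩ := M24_four a b d e hab had (Ne.symm hea) hbd (Ne.symm heb)
      (Ne.symm hed)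
    have r2 : coRel y (permAut σ hσ y) := ⟨_, permAut_mem σ hσ, rfl⟩
    have hyu : permAut σ hσ y = u3L := by
      apply Subtype.ext
      funext k
      rw [permAut_apply]
      show _ = if k = gPt 0 ∨ k = gPt 1 ∨ k = gPt 2 then -3 else 1
      have e1 : σ k = a ↔ k = gPt 0 := by rw [← h0]; exact σ.injective.eq_iff
      have e2 : σ k = b ↔ k = gPt 1 := by rw [← h1']; exact σ.injective.eq_iff
      have e3 : σ k = d ↔ k = gPt 2 := by rw [← h2]; exact σ.injective.eq_iff
      by_cases hk : k = gPt 0 ∨ k = gPt 1 ∨ k = gPt 2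
      · rw [if_pos hk]
        exact (hmem _).2 (by rw [e1, e2, e3]; exact hk)
      · rw [if_neg hk]
        have h3 : (y : GolayPt → ℤ) (σ k) ≠ -3 := fun h =>
          hk (by rw [← e1, ← e2, ← e3]; exact (hmem _).1 h)
        rcases hyv (σ k) with h | h | h
        · exact h
        · exact absurd h h3
        · exact absurd h (hno5 _)
    rw [← hyu]
    exact coRel_trans r1 r2
  · right
    obtain ⟨i0, hi0⟩ := Finset.card_eq_one.1 hB1
    have hmem : ∀ k, (y : GolayPt → ℤ) k = 5 ↔ k = i0 := by
      intro k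
      have : k ∈ Finset.univ.filter (fun i => (y : GolayPt → ℤ) i = 5) ↔
          k ∈ ({i0} : Finset GolayPt) := by rw [hi0]
      simpa using this
    have hno3 : ∀ k, (y : GolayPt → ℤ) k ≠ -3 := by
      intro k hk
      have : k ∈ Finset.univ.filter (fun i => (y : GolayPt → ℤ) i = -3) := by simp [hk]
      rw [Finset.card_eq_zero.1 hA0] at this
      exact absurd this (Finset.notMem_empty _)
    obtain ⟨σ, hσ, hσi⟩ := exists_M24_none i0
    refine ⟨?_, ?_⟩
    · have r2 : coRel y (permAut σ hσ y) := ⟨_, permAut_mem σ hσ, rfl⟩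
      have hyu : permAut σ hσ y = u5L := by
        apply Subtype.ext
        funext k
        rw [permAut_apply]
        show _ = if k = none then 5 else 1
        have e1 : σ k = i0 ↔ k = none := by rw [← hσi]; exact σ.injective.eq_iff
        by_cases hk : k = none
        · rw [if_pos hk]; exact (hmem _).2 (e1.2 hk)
        · rw [if_neg hk]
          have h5 : (y : GolayPt → ℤ) (σ k) ≠ 5 := fun h => hk (e1.1 ((hmem _).1 h))
          rcases hyv (σ k) with h | h | h
          · exact h
          · exact absurd h (hno3 _)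
          · exact absurd h h5
      rw [← hyu]
      exact coRel_trans r1 r2
    · intro i
      have h7 := hxy i
      have h8 := hno3 i
      rcases hyv i with h | h | h <;> omega

set_option maxRecDepth 100000 in
theorem xi_u5_val : xiFun u5 (gPt 0) = 3 := by decide +kernel

set_option maxRecDepth 100000 in
theorem xi_u5_odd : xiFun u5 none % 2 = 1 := by decide +kernel

theorem u5_u3 : coRel u5L u3L := by
  have r : coRel u5L (xiAut u5L) := ⟨_, xiAut_mem, rfl⟩
  have hn : sqNorm ((xiAut u5L : leechLattice) : GolayPt → ℤ) = 48 := by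
    rw [coRel_norm r]; exact sqNorm_u5
  have hodd : ((xiAut u5L : leechLattice) : GolayPt → ℤ) none % 2 = 1 := by
    rw [xiAut_apply]; exact xi_u5_odd
  rcases odd_rel _ hn hodd with h | ⟨-, h⟩
  · exact coRel_trans r h
  · exfalso
    have := (h (gPt 0)).1
    rw [xiAut_apply] at this
    exact this xi_u5_val

theorem xi2_none (y : GolayPt → ℤ) :
    xi2 y none = -(2 * y none - (y (gPt 0) + y (gPt 1) + y (gPt 2) + y none)) := by
  have h1 : tetE none = (0, 3) := by decide
  have h2 : tetE.symm (0, 0) = gPt 0 := by decide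
  have h3 : tetE.symm (0, 1) = gPt 1 := by decide
  have h4 : tetE.symm (0, 2) = gPt 2 := by decide
  have h5 : tetE.symm (0, 3) = none := by decide
  unfold xi2
  rw [h1]
  show tsg 0 * (2 * y none - (y (tetE.symm (0, 0)) + y (tetE.symm (0, 1)) +
    y (tetE.symm (0, 2)) + y (tetE.symm (0, 3)))) = _
  rw [h2, h3, h4, h5]
  have : tsg 0 = -1 := by decide
  rw [this]
  ring

set_option maxRecDepth 100000 in
theorem gCode_wt : ∀ c ∈ gCode, pc24 c = 0 ∨ 3 ≤ pc24 c := by decide +kernel

theorem even_to_odd (x : leechLattice) (hn : sqNorm (x : GolayPt → ℤ) = 48)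
    (hev : (x : GolayPt → ℤ) none % 2 = 0) :
    ∃ g ∈ Co0, ((g x : leechLattice) : GolayPt → ℤ) none % 2 = 1 := by
  classical
  have hx := x.2
  rw [mem_leech_iff_fibre] at hx
  obtain ⟨m, hm, c, hc, h1, hsum⟩ := hx
  have hm0 : m = 0 := by
    rcases hm with h | h
    · exact h
    · exfalso
      have e := h1 none
      unfold lres at e
      rw [h] at e
      split_ifs at e <;> omega
  subst hm0
  have hS : ∀ i, (x : GolayPt → ℤ) i % 4 = if i ∈ gSup c then 2 else 0 := by
    intro i
    have e := h1 i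
    unfold lres at e
    by_cases hi : i ∈ gSup c
    · rw [if_pos hi] at e ⊢; omega
    · rw [if_neg hi] at e ⊢; omega
  have hcard := card_gSup c
  have hub : 4 * ((gSup c).card : ℤ) ≤ 48 := by
    have h4 : ∀ i, (if i ∈ gSup c then (4 : ℤ) else 0) ≤ (x : GolayPt → ℤ) i ^ 2 := by
      intro i
      by_cases hi : i ∈ gSup c
      · rw [if_pos hi]
        have e := hS i
        rw [if_pos hi] at e
        have : (x : GolayPt → ℤ) i ≤ -2 ∨ 2 ≤ (x : GolayPt → ℤ) i := by omega
        rcases this with h | h <;> nlinarith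
      · rw [if_neg hi]; positivity
    have h5 := Finset.sum_le_sum (fun i _ => h4 i) (s := Finset.univ)
    rw [Finset.sum_ite_mem, Finset.univ_inter, Finset.sum_const, nsmul_eq_mul] at h5
    unfold sqNorm at hn
    linarith
  have hne : pc24 c ≠ 0 := by
    intro h0
    have hemp : gSup c = ∅ := Finset.card_eq_zero.1 (by rw [hcard, h0])
    have h4 : ∀ i, (x : GolayPt → ℤ) i % 4 = 0 := by
      intro i
      have e := hS i
      rw [hemp] at e
      simpa using e
    have h32 : ∀ i, (32 : ℤ) ∣ 4 * (x : GolayPt → ℤ) i - (x : GolayPt → ℤ) i ^ 2 := by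
      intro i
      obtain ⟨z, hz⟩ : (4 : ℤ) ∣ (x : GolayPt → ℤ) i := Int.dvd_of_emod_eq_zero (h4 i)
      rw [hz]
      have h2 : (2 : ℤ) ∣ z * (1 - z) := by
        rcases Int.even_or_odd z with h | h
        · exact (h.mul_right _).two_dvd
        · have h' : Even (1 - z) := by
            obtain ⟨k, hk⟩ := h
            exact ⟨-k, by rw [hk]; ring⟩
          exact (h'.mul_left _).two_dvd
      obtain ⟨t, ht⟩ := h2
      exact ⟨t, by linear_combination 16 * ht⟩
    have hs32 : (32 : ℤ) ∣ ∑ i, (4 * (x : GolayPt → ℤ) i - (x : GolayPt → ℤ) i ^ 2) :=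
      Finset.dvd_sum (fun i _ => h32 i)
    rw [Finset.sum_sub_distrib, ← Finset.mul_sum] at hs32
    unfold sqNorm at hn
    rw [hn] at hs32
    omega
  have h3 : 2 < (gSup c).card := by
    rcases gCode_wt c hc with h | h
    · exact absurd h hne
    · omega
  obtain ⟨a, ha, b, hb, d, hd, hab, had, hbd⟩ := Finset.two_lt_card.1 h3
  have hlt : (gSup c).card < (Finset.univ : Finset GolayPt).card := by
    have h2 : (Finset.univ : Finset GolayPt).card = 24 := by
      rw [Finset.card_univ]; exact Helper28.Leech.card_pts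
    have : ((gSup c).card : ℤ) ≤ 12 := by linarith
    omega
  obtain ⟨e, -, he⟩ := Finset.exists_mem_notMem_of_card_lt_card hlt
  have hae : a ≠ e := fun h => he (h ▸ ha)
  have hbe : b ≠ e := fun h => he (h ▸ hb)
  have hde : d ≠ e := fun h => he (h ▸ hd)
  obtain ⟨σ, hσ, h0, h1', h2, h23⟩ := M24_four a b d e hab had hae hbd hbe hde
  refine ⟨xiAut * permAut σ hσ, Co0.mul_mem xiAut_mem (permAut_mem σ hσ), ?_⟩
  rw [Equiv.Perm.mul_apply, xiAut_apply]
  unfold xiFun
  rw [xi2_none]
  simp only [permAut_apply]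
  have hn' : σ none = e := h23
  rw [h0, h1', h2, hn']
  have ea := hS a
  have eb := hS b
  have ed := hS d
  have ee := hS e
  rw [if_pos ha] at ea
  rw [if_pos hb] at eb
  rw [if_pos hd] at ed
  rw [if_neg he] at ee
  omega

theorem rel48 (x : leechLattice) (hn : sqNorm (x : GolayPt → ℤ) = 48) : coRel x u3L := by
  have key : ∀ z : leechLattice, sqNorm (z : GolayPt → ℤ) = 48 →
      (z : GolayPt → ℤ) none % 2 = 1 → coRel z u3L := by
    intro z hz ho
    rcases odd_rel z hz ho with h | ⟨h, -⟩
    · exact h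
    · exact coRel_trans h u5_u3
  by_cases hp : (x : GolayPt → ℤ) none % 2 = 1
  · exact key x hn hp
  · obtain ⟨g, hg, hodd⟩ := even_to_odd x hn (by omega)
    have r : coRel x (g x) := ⟨g, hg, rfl⟩
    exact coRel_trans r (key _ (by rw [coRel_norm r, hn]) hodd)

theorem co0_trans_48 (v w : leechLattice) (hv : sqNorm (v : GolayPt → ℤ) = 48)
    (hw : sqNorm (w : GolayPt → ℤ) = 48) : ∃ g : Co0, g • v = w := by
  obtain ⟨g, hg, h⟩ := coRel_trans (rel48 v hv) (coRel_symm (rel48 w hw))
  exact ⟨⟨g, hg⟩, h⟩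

end Cfsg.Agent.Helper3
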