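import Mathlib
import Cfsg.Agent.Helper3.LeechCensus
import Cfsg.Agent.Helper3.LeechT48

set_option autoImplicit false
set_option linter.unusedSectionVars false
set_option linter.style.haveILetI false
set_option linter.unusedSimpArgs false
set_option linter.unusedVariables false
set_option linter.deprecated false

namespace Cfsg.Agent.Helper3

open Cfsg Cfsg.Agent.Helper28.Leech
open scoped Pointwise

/-- lattice vectors of a given norm, as a set of the subtype -/
def normSet (N : ℤ) : Set leechLattice := {v | sqNorm (v : GolayPt → ℤ) = N}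

theorem normSet_finite (N : ℕ) (hN : N ≤ 64) : (normSet (N : ℤ)).Finite := by
  have h : ({x : GolayPt → ℤ | x ∈ leechLattice ∧ sqNorm x = (N : ℤ)}).Finite := by
    rw [norm_set_eq N hN]; exact leechSel_finite _ _ _
  have e : normSet (N : ℤ) =
      Subtype.val ⁻¹' {x : GolayPt → ℤ | x ∈ leechLattice ∧ sqNorm x = (N : ℤ)} := by
    ext v
    constructor
    · intro hv; exact ⟨v.2, hv⟩
    · intro hv; exact hv.2
  rw [e]
  exact h.preimage (Set.injOn_of_injective Subtype.val_injective)

theorem normSet_ncard (N : ℤ) :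
    (normSet N).ncard = {x : GolayPt → ℤ | x ∈ leechLattice ∧ sqNorm x = N}.ncard := by
  have e : {x : GolayPt → ℤ | x ∈ leechLattice ∧ sqNorm x = N} = Subtype.val '' normSet N := by
    ext w
    constructor
    · rintro ⟨hw, h1⟩; exact ⟨⟨w, hw⟩, h1, rfl⟩
    · rintro ⟨w', h1, rfl⟩; exact ⟨w'.2, h1⟩
  rw [e, Set.ncard_image_of_injective _ Subtype.val_injective]

theorem double_count {α β : Type*} (s : Finset α) (t : Finset β) (R : α → β → Prop)
    [∀ a b, Decidable (R a b)] (n m : ℕ)
    (h1 : ∀ a ∈ s, (t.filter (fun b => R a b)).card = n)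
    (h2 : ∀ b ∈ t, (s.filter (fun a => R a b)).card = m) :
    s.card * n = t.card * m := by
  have h := Finset.sum_card_bipartiteAbove_eq_sum_card_bipartiteBelow (s := s) (t := t) R
  have e1 : ∑ a ∈ s, (t.bipartiteAbove R a).card = s.card * n := by
    have h1' : ∀ a ∈ s, (t.bipartiteAbove R a).card = n := h1
    rw [Finset.sum_congr rfl h1', Finset.sum_const, smul_eq_mul]
  have e2 : ∑ b ∈ t, (s.bipartiteBelow R b).card = t.card * m := by
    have h2' : ∀ b ∈ t, (s.bipartiteBelow R b).card = m := h2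
    rw [Finset.sum_congr rfl h2', Finset.sum_const, smul_eq_mul]
  rw [← e1, ← e2, h]

theorem co0_sub (g : Equiv.Perm leechLattice) (hg : g ∈ Co0) (x y : leechLattice) :
    g (x - y) = g x - g y := by
  have h := hg.1 (x - y) y
  rw [sub_add_cancel] at h
  rw [h, add_sub_cancel_right]

/-- the number of ways of writing a vector as a sum of two minimal vectors -/
noncomputable def pairCount (u : leechLattice) : ℕ :=
  {v : leechLattice | sqNorm (v : GolayPt → ℤ) = 32 ∧
    sqNorm ((u : GolayPt → ℤ) - (v : GolayPt → ℤ)) = 32}.ncard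

theorem pairCount_co0 (g : Equiv.Perm leechLattice) (hg : g ∈ Co0) (u : leechLattice) :
    pairCount (g u) = pairCount u := by
  unfold pairCount
  have himg : {v : leechLattice | sqNorm (v : GolayPt → ℤ) = 32 ∧
      sqNorm (((g u : leechLattice) : GolayPt → ℤ) - (v : GolayPt → ℤ)) = 32} =
      g '' {v : leechLattice | sqNorm (v : GolayPt → ℤ) = 32 ∧
        sqNorm ((u : GolayPt → ℤ) - (v : GolayPt → ℤ)) = 32} := by
    ext w
    constructor
    · rintro ⟨h1, h2⟩
      refine ⟨g.symm w, ⟨?_, ?_⟩, by simp⟩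
      · rw [← hg.2 (g.symm w)]
        simpa using h1
      · rw [← AddSubgroup.coe_sub, ← hg.2 (u - g.symm w), co0_sub g hg, AddSubgroup.coe_sub]
        simpa using h2
    · rintro ⟨w', ⟨h1, h2⟩, rfl⟩
      refine ⟨by rw [hg.2]; exact h1, ?_⟩
      rw [← AddSubgroup.coe_sub, ← co0_sub g hg, hg.2, AddSubgroup.coe_sub]
      exact h2
  rw [himg, Set.ncard_image_of_injective _ g.injective]

theorem fibre_47104 (b : leechLattice) (hb : sqNorm (b : GolayPt → ℤ) = 32) :
    {a : leechLattice | sqNorm (a : GolayPt → ℤ) = 48 ∧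
      sqNorm ((a : GolayPt → ℤ) - (b : GolayPt → ℤ)) = 32}.ncard = 47104 := by
  have h1 := census_result (b : GolayPt → ℤ) b.2 hb (-8) (-2) (by norm_num)
  rw [census_v0_b] at h1
  have e1 : {w : GolayPt → ℤ | w ∈ leechLattice ∧ sqNorm w = 32 ∧
      dotInt (b : GolayPt → ℤ) w = -8} =
      Subtype.val '' {w : leechLattice | sqNorm (w : GolayPt → ℤ) = 32 ∧
        dotInt (b : GolayPt → ℤ) (w : GolayPt → ℤ) = -8} := by
    ext w
    constructor
    · rintro ⟨hw, h2, h3⟩; exact ⟨⟨w, hw⟩, ⟨h2, h3⟩, rfl⟩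
    · rintro ⟨w', ⟨h2, h3⟩, rfl⟩; exact ⟨w'.2, h2, h3⟩
  rw [e1, Set.ncard_image_of_injective _ Subtype.val_injective] at h1
  have e2 : {a : leechLattice | sqNorm (a : GolayPt → ℤ) = 48 ∧
      sqNorm ((a : GolayPt → ℤ) - (b : GolayPt → ℤ)) = 32} =
      (fun w : leechLattice => w + b) '' {w : leechLattice | sqNorm (w : GolayPt → ℤ) = 32 ∧
        dotInt (b : GolayPt → ℤ) (w : GolayPt → ℤ) = -8} := by
    ext a
    have key : sqNorm (a : GolayPt → ℤ) = sqNorm (b : GolayPt → ℤ) +
        sqNorm ((a : GolayPt → ℤ) - (b : GolayPt → ℤ)) +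
        2 * dotInt (b : GolayPt → ℤ) ((a : GolayPt → ℤ) - (b : GolayPt → ℤ)) := by
      rw [← Helper28.Leech.sqNorm_add, add_sub_cancel]
    constructor
    · rintro ⟨h2, h3⟩
      refine ⟨a - b, ⟨?_, ?_⟩, by simp⟩
      · rw [AddSubgroup.coe_sub]; exact h3
      · rw [AddSubgroup.coe_sub]
        rw [h2, hb, h3] at key
        omega
    · rintro ⟨w, ⟨h2, h3⟩, rfl⟩
      have e3 : ((w + b : leechLattice) : GolayPt → ℤ) - (b : GolayPt → ℤ) =
          (w : GolayPt → ℤ) := by
        rw [AddSubgroup.coe_add, add_sub_cancel_right]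
      have key' : sqNorm ((w + b : leechLattice) : GolayPt → ℤ) = sqNorm (b : GolayPt → ℤ) +
          sqNorm (w : GolayPt → ℤ) + 2 * dotInt (b : GolayPt → ℤ) (w : GolayPt → ℤ) := by
        rw [← Helper28.Leech.sqNorm_add, AddSubgroup.coe_add, add_comm]
      refine ⟨?_, ?_⟩
      · rw [key', hb, h2, h3]; norm_num
      · rw [e3]; exact h2
  rw [e2, Set.ncard_image_of_injective _ (add_left_injective b)]
  exact h1

theorem count552 (u : leechLattice) (hu : sqNorm (u : GolayPt → ℤ) = 48) :
    pairCount u = 552 := by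
  classical
  have hf3 := normSet_finite 48 (by norm_num)
  have hf2 := normSet_finite 32 (by norm_num)
  simp only [Nat.cast_ofNat] at hf3 hf2
  have hc3 : hf3.toFinset.card = 16773120 := by
    rw [← Set.ncard_eq_toFinset_card _ hf3, normSet_ncard, leech_count_48]
  have hc2 : hf2.toFinset.card = 196560 := by
    rw [← Set.ncard_eq_toFinset_card _ hf2, normSet_ncard, leech_count_32]
  have h1 : ∀ a ∈ hf3.toFinset, (hf2.toFinset.filter (fun b : leechLattice =>
      sqNorm ((a : GolayPt → ℤ) - (b : GolayPt → ℤ)) = 32)).card = pairCount u := by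
    intro a ha
    have ha' : sqNorm (a : GolayPt → ℤ) = 48 := (Set.Finite.mem_toFinset hf3).1 ha
    obtain ⟨g, hg⟩ := co0_trans_48 a u ha' hu
    have e : u = (g : Equiv.Perm leechLattice) a := hg.symm
    rw [e, pairCount_co0 _ g.2]
    unfold pairCount
    rw [← Set.ncard_coe_finset]
    congr 1
    ext v
    simp only [Finset.coe_filter, Set.Finite.mem_toFinset, Set.mem_setOf_eq, normSet]
  have h2 : ∀ b ∈ hf2.toFinset, (hf3.toFinset.filter (fun a : leechLattice =>
      sqNorm ((a : GolayPt → ℤ) - (b : GolayPt → ℤ)) = 32)).card = 47104 := by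
    intro b hb
    have hb' : sqNorm (b : GolayPt → ℤ) = 32 := (Set.Finite.mem_toFinset hf2).1 hb
    rw [← fibre_47104 b hb', ← Set.ncard_coe_finset]
    congr 1
    ext v
    simp only [Finset.coe_filter, Set.Finite.mem_toFinset, Set.mem_setOf_eq, normSet]
  have h := double_count hf3.toFinset hf2.toFinset
    (fun a b : leechLattice => sqNorm ((a : GolayPt → ℤ) - (b : GolayPt → ℤ)) = 32) _ _ h1 h2
  rw [hc3, hc2] at h
  omega

end Cfsg.Agent.Helper3
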