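import Mathlib
import Cfsg.Agent.Helper3.LeechT48

set_option autoImplicit false
set_option linter.unusedSectionVars false
set_option linter.style.haveILetI false
set_option linter.unusedSimpArgs false
set_option linter.unusedVariables false
set_option linter.deprecated false

namespace Cfsg.Agent.Helper3

open Cfsg Cfsg.Agent.Helper28.Leech
open scoped Pointwise

/-- sign of a flip bit -/
def sg (b : Bool) : ℤ := if b then -1 else 1

set_option maxRecDepth 100000 in
theorem sign_pattern : ∀ b0 b1 b2 b3 : Bool, ∃ c ∈ gCode,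
    c.testBit 0 = b0 ∧ c.testBit 1 = b1 ∧ c.testBit 2 = b2 ∧ c.testBit 23 = b3 := by
  decide +kernel

theorem sign_val (c : ℕ) (hcc : Helper28.Code.ofSet (gSup c) ∈ golayCode) (v : leechLattice)
    (k : GolayPt) (n : ℕ) (hk : gIdx k = n) (b : Bool) (hb : c.testBit n = b) :
    ((signAut (gSup c) hcc v : leechLattice) : GolayPt → ℤ) k = sg b * (v : GolayPt → ℤ) k := by
  rw [signAut_bits]
  show (if c.testBit (gIdx k) then _ else _) = _
  rw [hk, hb]
  cases b <;> simp [sg]

theorem xi2_tet0 (y : GolayPt → ℤ) (i : GolayPt) (hi : (tetE i).1 = 0) :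
    xi2 y i = -(2 * y i - (y (gPt 0) + y (gPt 1) + y (gPt 2) + y none)) := by
  have h2 : tetE.symm (0, 0) = gPt 0 := by decide
  have h3 : tetE.symm (0, 1) = gPt 1 := by decide
  have h4 : tetE.symm (0, 2) = gPt 2 := by decide
  have h5 : tetE.symm (0, 3) = none := by decide
  unfold xi2
  rw [hi, h2, h3, h4, h5]
  have : tsg 0 = -1 := by decide
  rw [this]
  ring

/-- move four chosen points to the first tetrad, flip chosen signs, and apply `ξ` -/
theorem tet_move (x : leechLattice) (a b d e : GolayPt) (hab : a ≠ b) (had : a ≠ d) (hae : a ≠ e)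
    (hbd : b ≠ d) (hbe : b ≠ e) (hde : d ≠ e) (b0 b1 b2 b3 : Bool) :
    ∃ g ∈ Co0, ∀ y0 y1 y2 y3 : ℤ, y0 = sg b0 * (x : GolayPt → ℤ) a →
      y1 = sg b1 * (x : GolayPt → ℤ) b → y2 = sg b2 * (x : GolayPt → ℤ) d →
      y3 = sg b3 * (x : GolayPt → ℤ) e →
      (2 * ((g x : leechLattice) : GolayPt → ℤ) (gPt 0) = -(2 * y0 - (y0 + y1 + y2 + y3)) ∧
       2 * ((g x : leechLattice) : GolayPt → ℤ) (gPt 1) = -(2 * y1 - (y0 + y1 + y2 + y3)) ∧
       2 * ((g x : leechLattice) : GolayPt → ℤ) (gPt 2) = -(2 * y2 - (y0 + y1 + y2 + y3)) ∧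
       2 * ((g x : leechLattice) : GolayPt → ℤ) none = -(2 * y3 - (y0 + y1 + y2 + y3))) := by
  obtain ⟨σ, hσ, h0, h1, h2, h23⟩ := M24_four a b d e hab had hae hbd hbe hde
  obtain ⟨c, hc, hc0, hc1, hc2, hc3⟩ := sign_pattern b0 b1 b2 b3
  have hcc : Helper28.Code.ofSet (gSup c) ∈ golayCode :=
    (Helper28.Code.mem_supports_iff golayCode _).1 ((mem_supports_iff _).2 ⟨c, hc, rfl⟩)
  refine ⟨xiAut * (signAut (gSup c) hcc * permAut σ hσ),
    Co0.mul_mem xiAut_mem (Co0.mul_mem (signAut_mem _ hcc) (permAut_mem σ hσ)), ?_⟩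
  intro y0 y1 y2 y3 e0 e1 e2 e3
  have hn : σ none = e := h23
  have v0 : ((signAut (gSup c) hcc (permAut σ hσ x) : leechLattice) : GolayPt → ℤ) (gPt 0) = y0 := by
    rw [sign_val c hcc _ (gPt 0) 0 (by decide) b0 hc0, permAut_apply, h0, e0]
  have v1 : ((signAut (gSup c) hcc (permAut σ hσ x) : leechLattice) : GolayPt → ℤ) (gPt 1) = y1 := by
    rw [sign_val c hcc _ (gPt 1) 1 (by decide) b1 hc1, permAut_apply, h1, e1]
  have v2 : ((signAut (gSup c) hcc (permAut σ hσ x) : leechLattice) : GolayPt → ℤ) (gPt 2) = y2 := by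
    rw [sign_val c hcc _ (gPt 2) 2 (by decide) b2 hc2, permAut_apply, h2, e2]
  have v3 : ((signAut (gSup c) hcc (permAut σ hσ x) : leechLattice) : GolayPt → ℤ) none = y3 := by
    rw [sign_val c hcc _ none 23 (by decide) b3 hc3, permAut_apply, hn, e3]
  have hx2 : ∀ i, 2 * ((xiAut (signAut (gSup c) hcc (permAut σ hσ x)) : leechLattice) :
      GolayPt → ℤ) i =
      xi2 ((signAut (gSup c) hcc (permAut σ hσ x) : leechLattice) : GolayPt → ℤ) i := by
    intro i
    rw [xiAut_apply]
    have := congrFun (xiFun_spec _ (signAut (gSup c) hcc (permAut σ hσ x)).2).2 i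
    simpa [Pi.smul_apply, smul_eq_mul] using this
  simp only [Equiv.Perm.mul_apply]
  refine ⟨?_, ?_, ?_, ?_⟩
  · rw [hx2, xi2_tet0 _ _ (by decide), v0, v1, v2, v3]
  · rw [hx2, xi2_tet0 _ _ (by decide), v0, v1, v2, v3]
  · rw [hx2, xi2_tet0 _ _ (by decide), v0, v1, v2, v3]
  · rw [hx2, xi2_tet0 _ _ (by decide), v0, v1, v2, v3]

/-- some automorphism produces a coordinate `±8` -/
def hasEight (x : leechLattice) : Prop :=
  ∃ g ∈ Co0, ∃ i, ((g x : leechLattice) : GolayPt → ℤ) i = 8 ∨
    ((g x : leechLattice) : GolayPt → ℤ) i = -8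

theorem hasEight_of_rel {x y : leechLattice} (h : coRel x y) (hy : hasEight y) : hasEight x := by
  obtain ⟨g, hg, rfl⟩ := h
  obtain ⟨g', hg', i, hi⟩ := hy
  exact ⟨g' * g, Co0.mul_mem hg' hg, i, hi⟩

theorem bound8 (x : GolayPt → ℤ) (hn : sqNorm x = 64) (i : GolayPt) : -8 ≤ x i ∧ x i ≤ 8 := by
  have h := sq_le_norm x i
  rw [hn] at h
  constructor <;> nlinarith

/-- a fibre description of even vectors -/
theorem even_fibre (x : GolayPt → ℤ) (hx : x ∈ leechLattice) (i0 : GolayPt) (h0 : x i0 % 2 = 0) :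
    ∃ c ∈ gCode, ∀ i, x i % 4 = if i ∈ gSup c then 2 else 0 := by
  rw [mem_leech_iff_fibre] at hx
  obtain ⟨m, hm, c, hc, h1, -⟩ := hx
  have hm0 : m = 0 := by
    rcases hm with h | h
    · exact h
    · exfalso
      have e := h1 i0
      unfold lres at e
      rw [h] at e
      split_ifs at e <;> omega
  subst hm0
  refine ⟨c, hc, fun i => ?_⟩
  have e := h1 i
  unfold lres at e
  by_cases hi : i ∈ gSup c
  · rw [if_pos hi] at e ⊢; omega
  · rw [if_neg hi] at e ⊢; omega

set_option maxRecDepth 100000 in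
theorem gCode_wt8 : ∀ c ∈ gCode, pc24 c = 0 ∨ 8 ≤ pc24 c := by decide +kernel

theorem two_le_norm (x : GolayPt → ℤ) (i j : GolayPt) (hij : i ≠ j) :
    x i ^ 2 + x j ^ 2 ≤ sqNorm x := by
  classical
  unfold sqNorm
  have h := Finset.sum_le_sum_of_subset_of_nonneg (Finset.subset_univ ({i, j} : Finset GolayPt))
    (f := fun k => x k ^ 2) (fun k _ _ => sq_nonneg _)
  rw [Finset.sum_pair hij] at h
  exact h

theorem fourth_four (x : GolayPt → ℤ) (hx : x ∈ leechLattice) (hn : sqNorm x = 64)
    (a b c : GolayPt) (hab : a ≠ b) (hac : a ≠ c) (hbc : b ≠ c) (ha : x a = 4 ∨ x a = -4)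
    (hb : x b = 4 ∨ x b = -4) (hc : x c = 4 ∨ x c = -4) :
    ∃ d, d ≠ a ∧ d ≠ b ∧ d ≠ c ∧ (x d = 4 ∨ x d = -4) := by
  classical
  obtain ⟨w, hw, hS⟩ := even_fibre x hx a (by rcases ha with h | h <;> rw [h] <;> norm_num)
  have hsqa : x a ^ 2 = 16 := by rcases ha with h | h <;> rw [h] <;> norm_num
  have hsqb : x b ^ 2 = 16 := by rcases hb with h | h <;> rw [h] <;> norm_num
  have hsqc : x c ^ 2 = 16 := by rcases hc with h | h <;> rw [h] <;> norm_num
  have hma : x a % 4 = 0 := by rcases ha with h | h <;> rw [h] <;> norm_num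
  have hmb : x b % 4 = 0 := by rcases hb with h | h <;> rw [h] <;> norm_num
  have hmc : x c % 4 = 0 := by rcases hc with h | h <;> rw [h] <;> norm_num
  have hc3 : ({a, b, c} : Finset GolayPt).card = 3 := by
    rw [Finset.card_insert_of_notMem, Finset.card_insert_of_notMem, Finset.card_singleton]
    · simpa using hbc
    · simp [hab, hac]
  have hn' := hn
  unfold sqNorm at hn'
  have h1 : ∀ i, (if i ∈ ({a, b, c} : Finset GolayPt) then (16 : ℤ) else 0) +
      (if i ∈ gSup w then (4 : ℤ) else 0) ≤ x i ^ 2 := by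
    intro i
    have e := hS i
    by_cases hi : i ∈ gSup w
    · rw [if_pos hi] at e
      have hni : i ∉ ({a, b, c} : Finset GolayPt) := by
        intro h
        simp only [Finset.mem_insert, Finset.mem_singleton] at h
        rcases h with rfl | rfl | rfl <;> omega
      rw [if_neg hni, if_pos hi]
      have : x i ≤ -2 ∨ 2 ≤ x i := by omega
      rcases this with h | h <;> nlinarith
    · rw [if_neg hi, add_zero]
      by_cases hi2 : i ∈ ({a, b, c} : Finset GolayPt)
      · rw [if_pos hi2]
        simp only [Finset.mem_insert, Finset.mem_singleton] at hi2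
        rcases hi2 with rfl | rfl | rfl
        · rw [hsqa]
        · rw [hsqb]
        · rw [hsqc]
      · rw [if_neg hi2]; positivity
  have h2 := Finset.sum_le_sum (fun i _ => h1 i) (s := Finset.univ)
  rw [Finset.sum_add_distrib, Finset.sum_ite_mem, Finset.sum_ite_mem, Finset.univ_inter,
    Finset.univ_inter, Finset.sum_const, Finset.sum_const, nsmul_eq_mul, nsmul_eq_mul, hc3,
    hn'] at h2
  have hcard := card_gSup w
  have hw0 : pc24 w = 0 := by
    rcases gCode_wt8 w hw with h | h
    · exact h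
    · exfalso
      have : (8 : ℤ) ≤ ((gSup w).card : ℤ) := by rw [hcard]; exact_mod_cast h
      push_cast at h2
      linarith
  have hemp : gSup w = ∅ := Finset.card_eq_zero.1 (by rw [hcard, hw0])
  have h4 : ∀ i, x i % 4 = 0 := by
    intro i
    have e := hS i
    rw [hemp] at e
    simpa using e
  by_contra hcon
  push Not at hcon
  have h5 : ∀ i, i ∉ ({a, b, c} : Finset GolayPt) → x i = 0 := by
    intro i hi
    have hi' := hi
    simp only [Finset.mem_insert, Finset.mem_singleton, not_or] at hi'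
    have h6 := hcon i hi'.1 hi'.2.1 hi'.2.2
    have h7 : ∀ j, (if j ∈ ({a, b, c} : Finset GolayPt) then (16 : ℤ) else 0) +
        (if j = i then x i ^ 2 else 0) ≤ x j ^ 2 := by
      intro j
      by_cases hj : j = i
      · subst hj
        rw [if_neg hi, if_pos rfl, zero_add]
      · rw [if_neg hj, add_zero]
        by_cases hj2 : j ∈ ({a, b, c} : Finset GolayPt)
        · rw [if_pos hj2]
          simp only [Finset.mem_insert, Finset.mem_singleton] at hj2
          rcases hj2 with rfl | rfl | rfl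
          · rw [hsqa]
          · rw [hsqb]
          · rw [hsqc]
        · rw [if_neg hj2]; positivity
    have h8 := Finset.sum_le_sum (fun j _ => h7 j) (s := Finset.univ)
    rw [Finset.sum_add_distrib, Finset.sum_ite_mem, Finset.univ_inter, Finset.sum_const,
      nsmul_eq_mul, Finset.sum_ite_eq', if_pos (Finset.mem_univ _), hc3, hn'] at h8
    have h9 := h4 i
    have h10 : x i ^ 2 ≤ 16 := by push_cast at h8; linarith
    have h11 : -4 ≤ x i ∧ x i ≤ 4 := by constructor <;> nlinarith
    omega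
  have h10 : ∀ i, x i ^ 2 = if i ∈ ({a, b, c} : Finset GolayPt) then (16 : ℤ) else 0 := by
    intro i
    by_cases hi : i ∈ ({a, b, c} : Finset GolayPt)
    · rw [if_pos hi]
      simp only [Finset.mem_insert, Finset.mem_singleton] at hi
      rcases hi with rfl | rfl | rfl
      · exact hsqa
      · exact hsqb
      · exact hsqc
    · rw [if_neg hi, h5 i hi]; norm_num
  rw [Finset.sum_congr rfl (fun i _ => h10 i), Finset.sum_ite_mem, Finset.univ_inter,
    Finset.sum_const, nsmul_eq_mul, hc3] at hn'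
  norm_num at hn'

theorem four4_rel (x : leechLattice) (hn : sqNorm (x : GolayPt → ℤ) = 64) (a b c : GolayPt)
    (hab : a ≠ b) (hac : a ≠ c) (hbc : b ≠ c)
    (ha : (x : GolayPt → ℤ) a = 4 ∨ (x : GolayPt → ℤ) a = -4)
    (hb : (x : GolayPt → ℤ) b = 4 ∨ (x : GolayPt → ℤ) b = -4)
    (hc : (x : GolayPt → ℤ) c = 4 ∨ (x : GolayPt → ℤ) c = -4) : hasEight x := by
  obtain ⟨d, hda, hdb, hdc, hd⟩ := fourth_four _ x.2 hn a b c hab hac hbc ha hb hc
  obtain ⟨g, hg, hmove⟩ := tet_move x a b c d hab hac (Ne.symm hda) hbc (Ne.symm hdb) (Ne.symm hdc)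
    (decide ((x : GolayPt → ℤ) a = -4)) (decide ((x : GolayPt → ℤ) b = -4))
    (decide ((x : GolayPt → ℤ) c = -4)) (decide ((x : GolayPt → ℤ) d = 4))
  obtain ⟨-, -, -, h3⟩ := hmove 4 4 4 (-4) (by rcases ha with h | h <;> simp [sg, h])
    (by rcases hb with h | h <;> simp [sg, h]) (by rcases hc with h | h <;> simp [sg, h])
    (by rcases hd with h | h <;> simp [sg, h])
  refine ⟨g, hg, none, Or.inl ?_⟩
  omega

theorem six_rel (x : leechLattice) (hn : sqNorm (x : GolayPt → ℤ) = 64) (p : GolayPt)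
    (hp : (x : GolayPt → ℤ) p = 6 ∨ (x : GolayPt → ℤ) p = -6) : hasEight x := by
  classical
  obtain ⟨w, hw, hS⟩ := even_fibre _ x.2 p (by rcases hp with h | h <;> rw [h] <;> norm_num)
  have hpS : p ∈ gSup w := by
    by_contra h
    have e := hS p
    rw [if_neg h] at e
    rcases hp with h' | h' <;> rw [h'] at e <;> omega
  have hcard := card_gSup w
  have h8 : 8 ≤ (gSup w).card := by
    rcases gCode_wt8 w hw with h | h
    · exfalso
      have : gSup w = ∅ := Finset.card_eq_zero.1 (by rw [hcard, h])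
      rw [this] at hpS
      exact absurd hpS (Finset.notMem_empty _)
    · rw [hcard]; exact h
  have h3 : 2 < ((gSup w).erase p).card := by
    rw [Finset.card_erase_of_mem hpS]; omega
  obtain ⟨q1, hq1, q2, hq2, q3, hq3, h12, h13, h23⟩ := Finset.two_lt_card.1 h3
  have hp2 : (x : GolayPt → ℤ) p ^ 2 = 36 := by rcases hp with h' | h' <;> rw [h'] <;> norm_num
  have hval : ∀ q, q ∈ (gSup w).erase p →
      ((x : GolayPt → ℤ) q = 2 ∨ (x : GolayPt → ℤ) q = -2) := by
    intro q hq
    obtain ⟨hqp, hqS⟩ := Finset.mem_erase.1 hq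
    have e := hS q
    rw [if_pos hqS] at e
    have h := two_le_norm (x : GolayPt → ℤ) p q (Ne.symm hqp)
    rw [hn] at h
    have : -5 ≤ (x : GolayPt → ℤ) q ∧ (x : GolayPt → ℤ) q ≤ 5 := by constructor <;> nlinarith
    omega
  have hq1p := (Finset.mem_erase.1 hq1).1
  have hq2p := (Finset.mem_erase.1 hq2).1
  have hq3p := (Finset.mem_erase.1 hq3).1
  obtain ⟨g, hg, hmove⟩ := tet_move x p q1 q2 q3 (Ne.symm hq1p) (Ne.symm hq2p) (Ne.symm hq3p)
    h12 h13 h23 (decide ((x : GolayPt → ℤ) p = -6)) (decide ((x : GolayPt → ℤ) q1 = -2))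
    (decide ((x : GolayPt → ℤ) q2 = -2)) (decide ((x : GolayPt → ℤ) q3 = -2))
  obtain ⟨-, m1, m2, m3⟩ := hmove 6 2 2 2 (by rcases hp with h | h <;> simp [sg, h])
    (by rcases hval q1 hq1 with h | h <;> simp [sg, h])
    (by rcases hval q2 hq2 with h | h <;> simp [sg, h])
    (by rcases hval q3 hq3 with h | h <;> simp [sg, h])
  have r : coRel x (g x) := ⟨g, hg, rfl⟩
  apply hasEight_of_rel r
  apply four4_rel (g x) (by rw [coRel_norm r, hn]) (gPt 1) (gPt 2) none (by decide) (by decide)
    (by decide)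
  · left; omega
  · left; omega
  · left; omega

theorem odd_rel64 (x : leechLattice) (hn : sqNorm (x : GolayPt → ℤ) = 64)
    (hodd : (x : GolayPt → ℤ) none % 2 = 1) : hasEight x := by
  classical
  have hx := x.2
  rw [mem_leech_iff_fibre] at hx
  obtain ⟨m, hm, c, hc, h1, -⟩ := hx
  have hm1 : m = 1 := by
    rcases hm with h | h
    · exfalso
      have e := h1 none
      unfold lres at e
      rw [h] at e
      split_ifs at e <;> omega
    · exact h
  subst hm1
  have hcc : Helper28.Code.ofSet (gSup c) ∈ golayCode :=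
    (Helper28.Code.mem_supports_iff golayCode _).1 ((mem_supports_iff _).2 ⟨c, hc, rfl⟩)
  obtain ⟨y, hy⟩ : ∃ y : leechLattice, y = signAut (gSup c) hcc x := ⟨_, rfl⟩
  have r1 : coRel x y := ⟨_, signAut_mem _ hcc, hy.symm⟩
  have hyn : sqNorm (y : GolayPt → ℤ) = 64 := by rw [coRel_norm r1, hn]
  have hy4 : ∀ i, (y : GolayPt → ℤ) i % 4 = 1 := by
    intro i
    rw [hy, signAut_apply]
    have e := h1 i
    unfold lres at e
    by_cases hi : i ∈ gSup c
    · rw [if_pos hi] at e ⊢; omega
    · rw [if_neg hi] at e ⊢; omega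
  have hyv : ∀ i, (y : GolayPt → ℤ) i = 1 ∨ (y : GolayPt → ℤ) i = -3 ∨
      (y : GolayPt → ℤ) i = 5 ∨ (y : GolayPt → ℤ) i = -7 := by
    intro i
    have := bound8 _ hyn i
    have := hy4 i
    omega
  have hsq : ∀ i, (y : GolayPt → ℤ) i ^ 2 = 1 + ((if (y : GolayPt → ℤ) i = -3 then (8 : ℤ) else 0)
      + ((if (y : GolayPt → ℤ) i = 5 then (24 : ℤ) else 0) +
        (if (y : GolayPt → ℤ) i = -7 then (48 : ℤ) else 0))) := by
    intro i
    rcases hyv i with h | h | h | h <;> rw [h] <;> norm_num
  have hcount : ((Finset.univ.filter (fun i => (y : GolayPt → ℤ) i = -3)).card : ℤ) +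
      3 * ((Finset.univ.filter (fun i => (y : GolayPt → ℤ) i = 5)).card : ℤ) +
      6 * ((Finset.univ.filter (fun i => (y : GolayPt → ℤ) i = -7)).card : ℤ) = 5 := by
    have := hyn
    unfold sqNorm at this
    rw [Finset.sum_congr rfl (fun i _ => hsq i), Finset.sum_add_distrib, Finset.sum_add_distrib,
      Finset.sum_add_distrib, Finset.sum_const, Finset.card_univ, Helper28.Leech.card_pts,
      ← Finset.sum_filter, ← Finset.sum_filter, ← Finset.sum_filter, Finset.sum_const,
      Finset.sum_const, Finset.sum_const, nsmul_eq_mul, nsmul_eq_mul, nsmul_eq_mul,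
      nsmul_eq_mul] at this
    push_cast at this
    omega
  have hA : ((Finset.univ.filter (fun i => (y : GolayPt → ℤ) i = -3)).card = 5 ∧
      (Finset.univ.filter (fun i => (y : GolayPt → ℤ) i = 5)).card = 0 ∧
      (Finset.univ.filter (fun i => (y : GolayPt → ℤ) i = -7)).card = 0) ∨
      ((Finset.univ.filter (fun i => (y : GolayPt → ℤ) i = -3)).card = 2 ∧
      (Finset.univ.filter (fun i => (y : GolayPt → ℤ) i = 5)).card = 1 ∧
      (Finset.univ.filter (fun i => (y : GolayPt → ℤ) i = -7)).card = 0) := by omega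
  apply hasEight_of_rel r1
  rcases hA with ⟨hA5, -, -⟩ | ⟨hA2, hB1, hC0⟩
  · have h3 : 2 < (Finset.univ.filter (fun i => (y : GolayPt → ℤ) i = -3)).card := by
      rw [hA5]; norm_num
    obtain ⟨p1, hp1, p2, hp2, p3, hp3, h12, h13, h23⟩ := Finset.two_lt_card.1 h3
    have hlt : ({p1, p2, p3} : Finset GolayPt).card <
        (Finset.univ.filter (fun i => (y : GolayPt → ℤ) i = -3)).card := by
      have := Finset.card_le_three (a := p1) (b := p2) (c := p3)
      omega
    obtain ⟨p4, hp4, hp4n⟩ := Finset.exists_mem_notMem_of_card_lt_card hlt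
    simp only [Finset.mem_insert, Finset.mem_singleton, not_or] at hp4n
    have hv : ∀ p ∈ Finset.univ.filter (fun i => (y : GolayPt → ℤ) i = -3),
        (y : GolayPt → ℤ) p = -3 := fun p hp => (Finset.mem_filter.1 hp).2
    obtain ⟨g, hg, hmove⟩ := tet_move y p1 p2 p3 p4 h12 h13 (Ne.symm hp4n.1) h23
      (Ne.symm hp4n.2.1) (Ne.symm hp4n.2.2) true false false false
    obtain ⟨m0, -, -, -⟩ := hmove 3 (-3) (-3) (-3) (by rw [hv p1 hp1]; simp [sg])
      (by rw [hv p2 hp2]; simp [sg]) (by rw [hv p3 hp3]; simp [sg]) (by rw [hv p4 hp4]; simp [sg])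
    have r : coRel y (g y) := ⟨g, hg, rfl⟩
    apply hasEight_of_rel r
    exact six_rel (g y) (by rw [coRel_norm r, hyn]) (gPt 0) (Or.inr (by omega))
  · obtain ⟨p, hpB⟩ := Finset.card_eq_one.1 hB1
    obtain ⟨q, r', hqr, hAq⟩ := Finset.card_eq_two.1 hA2
    have hyp : (y : GolayPt → ℤ) p = 5 := by
      have : p ∈ Finset.univ.filter (fun i => (y : GolayPt → ℤ) i = 5) := by rw [hpB]; simp
      exact (Finset.mem_filter.1 this).2
    have hyq : (y : GolayPt → ℤ) q = -3 := by
      have : q ∈ Finset.univ.filter (fun i => (y : GolayPt → ℤ) i = -3) := by rw [hAq]; simp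
      exact (Finset.mem_filter.1 this).2
    have hyr : (y : GolayPt → ℤ) r' = -3 := by
      have : r' ∈ Finset.univ.filter (fun i => (y : GolayPt → ℤ) i = -3) := by rw [hAq]; simp
      exact (Finset.mem_filter.1 this).2
    have hcard : ({p, q, r'} : Finset GolayPt).card < (Finset.univ : Finset GolayPt).card := by
      have h1 : ({p, q, r'} : Finset GolayPt).card ≤ 3 := Finset.card_le_three
      have h2 : (Finset.univ : Finset GolayPt).card = 24 := by
        rw [Finset.card_univ]; exact Helper28.Leech.card_pts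
      omega
    obtain ⟨t, -, ht⟩ := Finset.exists_mem_notMem_of_card_lt_card hcard
    simp only [Finset.mem_insert, Finset.mem_singleton, not_or] at ht
    have hyt : (y : GolayPt → ℤ) t = 1 := by
      rcases hyv t with h | h | h | h
      · exact h
      · exfalso
        have : t ∈ Finset.univ.filter (fun i => (y : GolayPt → ℤ) i = -3) := by simp [h]
        rw [hAq] at this
        simp only [Finset.mem_insert, Finset.mem_singleton] at this
        rcases this with h' | h'
        · exact ht.2.1 h'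
        · exact ht.2.2 h'
      · exfalso
        have : t ∈ Finset.univ.filter (fun i => (y : GolayPt → ℤ) i = 5) := by simp [h]
        rw [hpB] at this
        exact ht.1 (Finset.mem_singleton.1 this)
      · exfalso
        have : t ∈ Finset.univ.filter (fun i => (y : GolayPt → ℤ) i = -7) := by simp [h]
        rw [Finset.card_eq_zero.1 hC0] at this
        exact absurd this (Finset.notMem_empty _)
    have hpq : p ≠ q := fun h => by rw [h] at hyp; omega
    have hpr : p ≠ r' := fun h => by rw [h] at hyp; omega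
    obtain ⟨g, hg, hmove⟩ := tet_move y p q r' t hpq hpr (Ne.symm ht.1) hqr (Ne.symm ht.2.1)
      (Ne.symm ht.2.2) true false false false
    obtain ⟨-, -, -, m3⟩ := hmove (-5) (-3) (-3) 1 (by rw [hyp]; simp [sg])
      (by rw [hyq]; simp [sg]) (by rw [hyr]; simp [sg]) (by rw [hyt]; simp [sg])
    have r : coRel y (g y) := ⟨g, hg, rfl⟩
    apply hasEight_of_rel r
    exact six_rel (g y) (by rw [coRel_norm r, hyn]) none (Or.inr (by omega))

theorem even_rel64 (x : leechLattice) (hn : sqNorm (x : GolayPt → ℤ) = 64)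
    (hev : (x : GolayPt → ℤ) none % 2 = 0) : hasEight x := by
  classical
  obtain ⟨w, hw, hS⟩ := even_fibre _ x.2 none hev
  have hcard := card_gSup w
  rcases gCode_wt8 w hw with h0 | h8
  · have hemp : gSup w = ∅ := Finset.card_eq_zero.1 (by rw [hcard, h0])
    have h4 : ∀ i, (x : GolayPt → ℤ) i % 4 = 0 := by
      intro i
      have e := hS i
      rw [hemp] at e
      simpa using e
    by_cases h8 : ∃ i, (x : GolayPt → ℤ) i = 8 ∨ (x : GolayPt → ℤ) i = -8
    · obtain ⟨i, hi⟩ := h8
      exact ⟨1, Co0.one_mem, i, hi⟩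
    · push_neg at h8
      have hv : ∀ i, (x : GolayPt → ℤ) i = 0 ∨ (x : GolayPt → ℤ) i = 4 ∨
          (x : GolayPt → ℤ) i = -4 := by
        intro i
        have := bound8 _ hn i
        have := h4 i
        have := h8 i
        omega
      have hsq : ∀ i, (x : GolayPt → ℤ) i ^ 2 = if (x : GolayPt → ℤ) i ≠ 0 then (16 : ℤ) else 0 := by
        intro i
        rcases hv i with h | h | h <;> rw [h] <;> norm_num
      have hZ : (Finset.univ.filter (fun i => (x : GolayPt → ℤ) i ≠ 0)).card = 4 := by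
        have hn' := hn
        unfold sqNorm at hn'
        rw [Finset.sum_congr rfl (fun i _ => hsq i), ← Finset.sum_filter, Finset.sum_const,
          nsmul_eq_mul] at hn'
        have : ((Finset.univ.filter (fun i => (x : GolayPt → ℤ) i ≠ 0)).card : ℤ) = 4 := by omega
        exact_mod_cast this
      obtain ⟨a, ha, b, hb, c, hc, hab, hac, hbc⟩ := Finset.two_lt_card.1
        (by rw [hZ]; norm_num : 2 < (Finset.univ.filter (fun i => (x : GolayPt → ℤ) i ≠ 0)).card)
      have hval : ∀ k, k ∈ Finset.univ.filter (fun i => (x : GolayPt → ℤ) i ≠ 0) →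
          ((x : GolayPt → ℤ) k = 4 ∨ (x : GolayPt → ℤ) k = -4) := by
        intro k hk
        have hk' := (Finset.mem_filter.1 hk).2
        rcases hv k with h | h | h
        · exact absurd h hk'
        · exact Or.inl h
        · exact Or.inr h
      exact four4_rel x hn a b c hab hac hbc (hval a ha) (hval b hb) (hval c hc)
  · have hub : 4 * ((gSup w).card : ℤ) ≤ 64 := by
      have h4 : ∀ i, (if i ∈ gSup w then (4 : ℤ) else 0) ≤ (x : GolayPt → ℤ) i ^ 2 := by
        intro i
        by_cases hi : i ∈ gSup w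
        · rw [if_pos hi]
          have e := hS i
          rw [if_pos hi] at e
          have : (x : GolayPt → ℤ) i ≤ -2 ∨ 2 ≤ (x : GolayPt → ℤ) i := by omega
          rcases this with h | h <;> nlinarith
        · rw [if_neg hi]; positivity
      have h5 := Finset.sum_le_sum (fun i _ => h4 i) (s := Finset.univ)
      rw [Finset.sum_ite_mem, Finset.univ_inter, Finset.sum_const, nsmul_eq_mul] at h5
      have hn' := hn
      unfold sqNorm at hn'
      linarith
    have h3 : 2 < (gSup w).card := by rw [hcard]; omega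
    obtain ⟨a, ha, b, hb, d, hd, hab, had, hbd⟩ := Finset.two_lt_card.1 h3
    have hlt : (gSup w).card < (Finset.univ : Finset GolayPt).card := by
      have h2 : (Finset.univ : Finset GolayPt).card = 24 := by
        rw [Finset.card_univ]; exact Helper28.Leech.card_pts
      have : ((gSup w).card : ℤ) ≤ 16 := by linarith
      omega
    obtain ⟨e, -, he⟩ := Finset.exists_mem_notMem_of_card_lt_card hlt
    have hae : a ≠ e := fun h => he (h ▸ ha)
    have hbe : b ≠ e := fun h => he (h ▸ hb)
    have hde : d ≠ e := fun h => he (h ▸ hd)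
    obtain ⟨g, hg, hmove⟩ := tet_move x a b d e hab had hae hbd hbe hde false false false false
    obtain ⟨-, -, -, m3⟩ := hmove ((x : GolayPt → ℤ) a) ((x : GolayPt → ℤ) b)
      ((x : GolayPt → ℤ) d) ((x : GolayPt → ℤ) e) (by simp [sg]) (by simp [sg]) (by simp [sg])
      (by simp [sg])
    have r : coRel x (g x) := ⟨g, hg, rfl⟩
    apply hasEight_of_rel r
    apply odd_rel64 (g x) (by rw [coRel_norm r, hn])
    have ea := hS a
    have eb := hS b
    have ed := hS d
    have ee := hS e
    rw [if_pos ha] at ea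
    rw [if_pos hb] at eb
    rw [if_pos hd] at ed
    rw [if_neg he] at ee
    omega

theorem rel64 (x : leechLattice) (hn : sqNorm (x : GolayPt → ℤ) = 64) : coRel x (E8 none) := by
  have h : hasEight x := by
    by_cases hp : (x : GolayPt → ℤ) none % 2 = 1
    · exact odd_rel64 x hn hp
    · exact even_rel64 x hn (by omega)
  obtain ⟨g, hg, i, hi⟩ := h
  have r : coRel x (g x) := ⟨g, hg, rfl⟩
  have hn' : sqNorm ((g x : leechLattice) : GolayPt → ℤ) = 64 := by rw [coRel_norm r, hn]
  have hi2 : ((g x : leechLattice) : GolayPt → ℤ) i ^ 2 = 64 := by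
    rcases hi with h | h <;> rw [h] <;> norm_num
  have hz : ∀ j, j ≠ i → ((g x : leechLattice) : GolayPt → ℤ) j = 0 := by
    intro j hj
    have h2 := two_le_norm ((g x : leechLattice) : GolayPt → ℤ) i j (Ne.symm hj)
    rw [hn', hi2] at h2
    have h3 : ((g x : leechLattice) : GolayPt → ℤ) j ^ 2 = 0 :=
      le_antisymm (by linarith) (sq_nonneg _)
    exact pow_eq_zero_iff (by norm_num) |>.1 h3
  obtain ⟨σ, hσ, hσi⟩ := exists_M24_none i
  have r2 : coRel (g x) (permAut σ hσ (g x)) := ⟨_, permAut_mem σ hσ, rfl⟩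
  have hval : ∀ k, ((permAut σ hσ (g x) : leechLattice) : GolayPt → ℤ) k =
      if k = none then ((g x : leechLattice) : GolayPt → ℤ) i else 0 := by
    intro k
    rw [permAut_apply]
    by_cases hk : k = none
    · rw [if_pos hk, hk, hσi]
    · rw [if_neg hk]
      apply hz
      rw [← hσi]
      exact fun h => hk (σ.injective h)
  rcases hi with h8 | h8
  · have e : permAut σ hσ (g x) = E8 none := by
      apply Subtype.ext
      funext k
      rw [hval, E8_apply, h8]
    rw [← e]
    exact coRel_trans r r2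
  · have e : negAut (permAut σ hσ (g x)) = E8 none := by
      apply Subtype.ext
      funext k
      rw [negAut_apply]
      show -((permAut σ hσ (g x) : leechLattice) : GolayPt → ℤ) k = _
      rw [hval, E8_apply, h8]
      split_ifs <;> norm_num
    rw [← e]
    exact coRel_trans r (coRel_trans r2 ⟨_, negAut_mem, rfl⟩)

theorem co0_trans_64 (v w : leechLattice) (hv : sqNorm (v : GolayPt → ℤ) = 64)
    (hw : sqNorm (w : GolayPt → ℤ) = 64) : ∃ g : Co0, g • v = w := by
  obtain ⟨g, hg, h⟩ := coRel_trans (rel64 v hv) (coRel_symm (rel64 w hw))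
  exact ⟨⟨g, hg⟩, h⟩

end Cfsg.Agent.Helper3
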