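import Mathlib
import Cfsg.Agent.Helper3.LeechT64
import Cfsg.Agent.Helper3.LeechDC
import Cfsg.Agent.Helper3.LeechCross

set_option autoImplicit false
set_option linter.unusedSectionVars false
set_option linter.style.haveILetI false
set_option linter.unusedSimpArgs false
set_option linter.unusedVariables false
set_option linter.deprecated false

namespace Cfsg.Agent.Helper3

open Cfsg Cfsg.Agent.Helper28.Leech
open scoped Pointwise

/-- stabilising the standard cross -/
def crossP (g : Co0) : Prop :=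
  ∀ v : leechLattice, (v : GolayPt → ℤ) ∈ stdCross →
    ((g • v : leechLattice) : GolayPt → ℤ) ∈ stdCross

theorem stdCross_ncard : stdCross.ncard = 48 := by
  have e : stdCross = (fun p : GolayPt × Bool =>
      (Pi.single p.1 (if p.2 then (8 : ℤ) else -8) : GolayPt → ℤ)) '' Set.univ := by
    ext y
    constructor
    · rintro ⟨i, s, hs, rfl⟩
      rcases hs with rfl | rfl
      · exact ⟨(i, true), trivial, by simp⟩
      · exact ⟨(i, false), trivial, by simp⟩
    · rintro ⟨⟨i, b⟩, -, rfl⟩
      refine ⟨i, _, ?_, rfl⟩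
      cases b <;> simp
  rw [e, Set.ncard_image_of_injective, Set.ncard_univ, Nat.card_prod, Nat.card_eq_fintype_card,
    card_pts, Nat.card_eq_fintype_card, Fintype.card_bool]
  rintro ⟨i, b⟩ ⟨j, b'⟩ h
  simp only at h
  have hi : i = j := by
    by_contra hne
    have := congrFun h i
    rw [Pi.single_eq_same, Pi.single_eq_of_ne hne] at this
    cases b <;> simp at this
  subst hi
  have := congrFun h i
  rw [Pi.single_eq_same, Pi.single_eq_same] at this
  cases b <;> cases b' <;> simp_all

set_option maxRecDepth 100000 in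
theorem zero_gCode : (0 : ℕ) ∈ gCode := by decide +kernel

theorem four_pair_mem (i j : GolayPt) (a b : ℤ) (ha : (4 : ℤ) ∣ a) (hb : (4 : ℤ) ∣ b)
    (hab : (8 : ℤ) ∣ a + b) : (Pi.single i a + Pi.single j b : GolayPt → ℤ) ∈ leechLattice := by
  classical
  rw [mem_leech_iff_fibre]
  refine ⟨0, Or.inl rfl, 0, zero_gCode, fun k => ?_, ?_⟩
  · have hk : k ∉ gSup 0 := by
      rw [mem_gSup]; simp
    unfold lres
    rw [if_neg hk]
    simp only [Pi.add_apply, Pi.single_apply]
    obtain ⟨a', rfl⟩ := ha
    obtain ⟨b', rfl⟩ := hb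
    split_ifs <;> omega
  · rw [Finset.sum_congr rfl (fun k _ => Pi.add_apply _ _ k), Finset.sum_add_distrib,
      Finset.sum_pi_single', Finset.sum_pi_single', if_pos (Finset.mem_univ _),
      if_pos (Finset.mem_univ _)]
    obtain ⟨t, ht⟩ := hab
    omega

theorem sqNorm_single (i : GolayPt) (s : ℤ) : sqNorm (Pi.single i s : GolayPt → ℤ) = s ^ 2 := by
  classical
  unfold sqNorm
  rw [Finset.sum_eq_single i]
  · rw [Pi.single_eq_same]
  · intro b _ hb
    rw [Pi.single_eq_of_ne hb]; norm_num
  · intro h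
    exact absurd (Finset.mem_univ i) h

theorem stdCross_sub : stdCross ⊆ cross (Pi.single none 8 : GolayPt → ℤ) := by
  rintro y ⟨i, s, hs, rfl⟩
  refine ⟨single_mem i s (by rcases hs with rfl | rfl <;> norm_num), ?_, ?_⟩
  · rw [sqNorm_single, sqNorm_single]
    rcases hs with rfl | rfl <;> norm_num
  · rcases hs with rfl | rfl
    · refine ⟨Pi.single none 4 + Pi.single i (-4), four_pair_mem none i 4 (-4) (by norm_num)
        (by norm_num) (by norm_num), ?_⟩
      funext k
      simp only [Pi.sub_apply, Pi.add_apply, Pi.smul_apply, Pi.single_apply, smul_eq_mul,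
        nsmul_eq_mul]
      split_ifs <;> norm_num
    · refine ⟨Pi.single none 4 + Pi.single i 4, four_pair_mem none i 4 4 (by norm_num)
        (by norm_num) (by norm_num), ?_⟩
      funext k
      simp only [Pi.sub_apply, Pi.add_apply, Pi.smul_apply, Pi.single_apply, smul_eq_mul,
        nsmul_eq_mul]
      split_ifs <;> norm_num

theorem cross_eq : cross (Pi.single none 8 : GolayPt → ℤ) = stdCross := by
  have hc := cross_card (Pi.single none 8 : GolayPt → ℤ) (single_mem none 8 (dvd_refl _))
    (by rw [sqNorm_single]; norm_num)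
  have hfin : (cross (Pi.single none 8 : GolayPt → ℤ)).Finite :=
    Set.finite_of_ncard_ne_zero (by rw [hc]; norm_num)
  exact (Set.eq_of_subset_of_ncard_le stdCross_sub (by rw [hc, stdCross_ncard]) hfin).symm

theorem stab_crossP (g : Co0) (hfix : g • E8 none = E8 none) : crossP g := by
  intro v hv
  rw [← cross_eq] at hv ⊢
  obtain ⟨hvL, hvn, z, hz, hzeq⟩ := hv
  have hg := g.2
  refine ⟨(g • v).2, ?_, (((g : Equiv.Perm leechLattice) ⟨z, hz⟩ : leechLattice) : GolayPt → ℤ),
    ((g : Equiv.Perm leechLattice) ⟨z, hz⟩).2, ?_⟩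
  · show sqNorm (((g : Equiv.Perm leechLattice) v : leechLattice) : GolayPt → ℤ) = _
    rw [hg.2 v]; exact hvn
  · have h1 : E8 none - v = (⟨z, hz⟩ : leechLattice) + ⟨z, hz⟩ := by
      apply Subtype.ext
      rw [AddSubgroup.coe_sub, AddSubgroup.coe_add]
      show Pi.single none 8 - (v : GolayPt → ℤ) = z + z
      rw [hzeq, two_smul]
    have h2 := congrArg (g : Equiv.Perm leechLattice) h1
    rw [co0_sub _ hg, hg.1] at h2
    have hfix' : (g : Equiv.Perm leechLattice) (E8 none) = E8 none := hfix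
    rw [hfix'] at h2
    have h3 := congrArg Subtype.val h2
    rw [AddSubgroup.coe_sub, AddSubgroup.coe_add] at h3
    rw [two_smul]
    exact h3

theorem perm_crossP (σ : Equiv.Perm GolayPt) (hσ : σ ∈ M24) :
    crossP ⟨permAut σ hσ, permAut_mem σ hσ⟩ := by
  rintro v ⟨i, s, hs, hvi⟩
  refine ⟨σ.symm i, s, hs, ?_⟩
  funext k
  show ((permAut σ hσ v : leechLattice) : GolayPt → ℤ) k = _
  rw [permAut_apply, hvi, Pi.single_apply, Pi.single_apply]
  have : σ k = i ↔ k = σ.symm i := by rw [Equiv.eq_symm_apply]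
  simp only [this]

theorem neg_crossP : crossP ⟨negAut, negAut_mem⟩ := by
  rintro v ⟨i, s, hs, hvi⟩
  refine ⟨i, -s, by rcases hs with rfl | rfl <;> norm_num, ?_⟩
  show -(v : GolayPt → ℤ) = _
  rw [hvi, Pi.single_neg]

theorem crossP_mul (g h : Co0) (hg : crossP g) (hh : crossP h) : crossP (g * h) := by
  intro v hv
  rw [mul_smul]
  exact hg _ (hh v hv)

theorem exists_crossP (u : leechLattice) (hu : (u : GolayPt → ℤ) ∈ stdCross) :
    ∃ h : Co0, crossP h ∧ h • E8 none = u := by
  obtain ⟨i, s, hs, hui⟩ := hu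
  obtain ⟨τ, hτ, hτi⟩ := exists_M24_none i
  have hσ : τ⁻¹ ∈ M24 := M24.inv_mem hτ
  have hval : ((permAut τ⁻¹ hσ (E8 none) : leechLattice) : GolayPt → ℤ) = Pi.single i 8 := by
    funext k
    rw [permAut_apply, E8_apply, Pi.single_apply]
    have : τ⁻¹ k = none ↔ k = i := by
      rw [← hτi]
      constructor
      · intro h
        rw [← h]; simp
      · intro h
        rw [h]; simp
    simp only [this]
  rcases hs with rfl | rfl
  · refine ⟨⟨permAut τ⁻¹ hσ, permAut_mem _ hσ⟩, perm_crossP _ hσ, ?_⟩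
    apply Subtype.ext
    show ((permAut τ⁻¹ hσ (E8 none) : leechLattice) : GolayPt → ℤ) = _
    rw [hval, hui]
  · refine ⟨⟨negAut, negAut_mem⟩ * ⟨permAut τ⁻¹ hσ, permAut_mem _ hσ⟩,
      crossP_mul _ _ neg_crossP (perm_crossP _ hσ), ?_⟩
    apply Subtype.ext
    show -((permAut τ⁻¹ hσ (E8 none) : leechLattice) : GolayPt → ℤ) = _
    rw [hval, hui, Pi.single_neg]

open Classical in
/-- a chosen monomial automorphism taking `8 e_∞` to a given vector of the standard cross -/
noncomputable def crossRep (u : leechLattice) : Co0 :=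
  if hu : (u : GolayPt → ℤ) ∈ stdCross then Classical.choose (exists_crossP u hu) else 1

theorem crossRep_spec (u : leechLattice) (hu : (u : GolayPt → ℤ) ∈ stdCross) :
    crossP (crossRep u) ∧ crossRep u • E8 none = u := by
  unfold crossRep
  rw [dif_pos hu]
  exact Classical.choose_spec (exists_crossP u hu)

theorem E8_std : ((E8 none : leechLattice) : GolayPt → ℤ) ∈ stdCross := ⟨none, 8, Or.inl rfl, rfl⟩

noncomputable def crossEquiv : {g : Co0 // crossP g} ≃
    {u : leechLattice // (u : GolayPt → ℤ) ∈ stdCross} × MulAction.stabilizer Co0 (E8 none) where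
  toFun g := (⟨g.1 • E8 none, g.2 (E8 none) E8_std⟩,
    ⟨(crossRep (g.1 • E8 none))⁻¹ * g.1, by
      rw [MulAction.mem_stabilizer_iff, mul_smul, inv_smul_eq_iff]
      exact ((crossRep_spec _ (g.2 (E8 none) E8_std)).2).symm⟩)
  invFun p := ⟨crossRep p.1.1 * p.2.1,
    crossP_mul _ _ (crossRep_spec _ p.1.2).1 (stab_crossP _ p.2.2)⟩
  left_inv g := by
    apply Subtype.ext
    show crossRep (g.1 • E8 none) * ((crossRep (g.1 • E8 none))⁻¹ * g.1) = g.1
    rw [mul_inv_cancel_left]
  right_inv p := by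
    have e : (crossRep p.1.1 * p.2.1) • E8 none = p.1.1 := by
      rw [mul_smul]
      have h1 : (p.2.1 : Co0) • E8 none = E8 none := p.2.2
      rw [h1]
      exact (crossRep_spec _ p.1.2).2
    apply Prod.ext
    · apply Subtype.ext
      exact e
    · apply Subtype.ext
      show (crossRep ((crossRep p.1.1 * p.2.1) • E8 none))⁻¹ * (crossRep p.1.1 * p.2.1) = p.2.1
      rw [e, inv_mul_cancel_left]

theorem stdCross_sub_card : Nat.card {u : leechLattice // (u : GolayPt → ℤ) ∈ stdCross} = 48 := by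
  rw [← stdCross_ncard, ← Nat.card_coe_set_eq]
  apply Nat.card_congr
  refine Equiv.ofBijective (fun u => ⟨(u.1 : GolayPt → ℤ), u.2⟩) ⟨?_, ?_⟩
  · intro u u' h
    apply Subtype.ext
    apply Subtype.ext
    have h' : (⟨(u.1 : GolayPt → ℤ), u.2⟩ : stdCross) = ⟨(u'.1 : GolayPt → ℤ), u'.2⟩ := h
    exact Subtype.mk.inj h'
  · rintro ⟨y, hy⟩
    have hyL : y ∈ leechLattice := by
      obtain ⟨i, s, hs, rfl⟩ := hy
      exact single_mem i s (by rcases hs with rfl | rfl <;> norm_num)
    exact ⟨⟨⟨y, hyL⟩, hy⟩, rfl⟩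

theorem co0_card : Nat.card Co0 = 8315553613086720000 := by
  have h1 := Subgroup.card_mul_index (MulAction.stabilizer Co0 (E8 none))
  rw [MulAction.index_stabilizer] at h1
  have horb : MulAction.orbit Co0 (E8 none) = normSet 64 := by
    ext v
    constructor
    · rintro ⟨g, rfl⟩
      show sqNorm (((g : Equiv.Perm leechLattice) (E8 none) : leechLattice) : GolayPt → ℤ) = 64
      rw [g.2.2]
      exact sqNorm_E8 none
    · intro hv
      obtain ⟨g, hg⟩ := co0_trans_64 (E8 none) v (sqNorm_E8 none) hv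
      exact ⟨g, hg⟩
  rw [horb, normSet_ncard, leech_count_64] at h1
  have h2 := Nat.card_congr crossEquiv
  rw [Nat.card_prod, stdCross_sub_card] at h2
  have h3 : Nat.card {g : Co0 // crossP g} = 4096 * 244823040 := cross_stab_card
  rw [h3] at h2
  have key : ∀ S C : ℕ, S * 398034000 = C → 4096 * 244823040 = 48 * S →
      C = 8315553613086720000 := by
    intro S C e1 e2
    omega
  exact key _ _ h1 h2

end Cfsg.Agent.Helper3
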