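import Mathlib
import Cfsg.Agent.Helper3.LeechOrder
import Cfsg.Agent.Helper3.LeechCensus

set_option autoImplicit false
set_option linter.unusedSectionVars false
set_option linter.style.haveILetI false
set_option linter.unusedSimpArgs false
set_option linter.unusedVariables false
set_option linter.deprecated false

namespace Cfsg.Agent.Helper3

open Cfsg Cfsg.Agent.Helper28.Leech
open scoped Pointwise

/-- tetrad move, uniform in the vector -/
theorem tet_move' (a b d e : GolayPt) (hab : a ≠ b) (had : a ≠ d) (hae : a ≠ e)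
    (hbd : b ≠ d) (hbe : b ≠ e) (hde : d ≠ e) (b0 b1 b2 b3 : Bool) :
    ∃ g ∈ Co0, ∀ x : leechLattice, ∀ y0 y1 y2 y3 : ℤ, y0 = sg b0 * (x : GolayPt → ℤ) a →
      y1 = sg b1 * (x : GolayPt → ℤ) b → y2 = sg b2 * (x : GolayPt → ℤ) d →
      y3 = sg b3 * (x : GolayPt → ℤ) e →
      (2 * ((g x : leechLattice) : GolayPt → ℤ) (gPt 0) = -(2 * y0 - (y0 + y1 + y2 + y3)) ∧
       2 * ((g x : leechLattice) : GolayPt → ℤ) (gPt 1) = -(2 * y1 - (y0 + y1 + y2 + y3)) ∧
       2 * ((g x : leechLattice) : GolayPt → ℤ) (gPt 2) = -(2 * y2 - (y0 + y1 + y2 + y3)) ∧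
       2 * ((g x : leechLattice) : GolayPt → ℤ) none = -(2 * y3 - (y0 + y1 + y2 + y3))) := by
  obtain ⟨σ, hσ, h0, h1, h2, h23⟩ := M24_four a b d e hab had hae hbd hbe hde
  obtain ⟨c, hc, hc0, hc1, hc2, hc3⟩ := sign_pattern b0 b1 b2 b3
  have hcc : Helper28.Code.ofSet (gSup c) ∈ golayCode :=
    (Helper28.Code.mem_supports_iff golayCode _).1 ((mem_supports_iff _).2 ⟨c, hc, rfl⟩)
  refine ⟨xiAut * (signAut (gSup c) hcc * permAut σ hσ),
    Co0.mul_mem xiAut_mem (Co0.mul_mem (signAut_mem _ hcc) (permAut_mem σ hσ)), ?_⟩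
  intro x y0 y1 y2 y3 e0 e1 e2 e3
  have hn : σ none = e := h23
  have v0 : ((signAut (gSup c) hcc (permAut σ hσ x) : leechLattice) : GolayPt → ℤ) (gPt 0) = y0 := by
    rw [sign_val c hcc _ (gPt 0) 0 (by decide) b0 hc0, permAut_apply, h0, e0]
  have v1 : ((signAut (gSup c) hcc (permAut σ hσ x) : leechLattice) : GolayPt → ℤ) (gPt 1) = y1 := by
    rw [sign_val c hcc _ (gPt 1) 1 (by decide) b1 hc1, permAut_apply, h1, e1]
  have v2 : ((signAut (gSup c) hcc (permAut σ hσ x) : leechLattice) : GolayPt → ℤ) (gPt 2) = y2 := by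
    rw [sign_val c hcc _ (gPt 2) 2 (by decide) b2 hc2, permAut_apply, h2, e2]
  have v3 : ((signAut (gSup c) hcc (permAut σ hσ x) : leechLattice) : GolayPt → ℤ) none = y3 := by
    rw [sign_val c hcc _ none 23 (by decide) b3 hc3, permAut_apply, hn, e3]
  have hx2 : ∀ i, 2 * ((xiAut (signAut (gSup c) hcc (permAut σ hσ x)) : leechLattice) :
      GolayPt → ℤ) i =
      xi2 ((signAut (gSup c) hcc (permAut σ hσ x) : leechLattice) : GolayPt → ℤ) i := by
    intro i
    rw [xiAut_apply]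
    have := congrFun (xiFun_spec _ (signAut (gSup c) hcc (permAut σ hσ x)).2).2 i
    simpa [Pi.smul_apply, smul_eq_mul] using this
  simp only [Equiv.Perm.mul_apply]
  refine ⟨?_, ?_, ?_, ?_⟩
  · rw [hx2, xi2_tet0 _ _ (by decide), v0, v1, v2, v3]
  · rw [hx2, xi2_tet0 _ _ (by decide), v0, v1, v2, v3]
  · rw [hx2, xi2_tet0 _ _ (by decide), v0, v1, v2, v3]
  · rw [hx2, xi2_tet0 _ _ (by decide), v0, v1, v2, v3]

theorem v0_apply (k : GolayPt) : (v0 : GolayPt → ℤ) k =
    (if k = none then 4 else 0) + (if k = gPt 0 then 4 else 0) := by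
  show (Pi.single none 4 + Pi.single (some 0) 4 : GolayPt → ℤ) k = _
  rw [Pi.add_apply, Pi.single_apply, Pi.single_apply]
  rfl

/-- outside two coordinates carrying the whole norm, a vector vanishes -/
theorem eq_of_two (x : GolayPt → ℤ) (N : ℤ) (hn : sqNorm x = N) (i j : GolayPt) (hij : i ≠ j)
    (h : x i ^ 2 + x j ^ 2 = N) : ∀ k, k ≠ i → k ≠ j → x k = 0 := by
  classical
  intro k hki hkj
  have h3 : x i ^ 2 + x j ^ 2 + x k ^ 2 ≤ sqNorm x := by
    unfold sqNorm
    have hsub := Finset.sum_le_sum_of_subset_of_nonneg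
      (Finset.subset_univ ({i, j, k} : Finset GolayPt)) (f := fun l => x l ^ 2)
      (fun l _ _ => sq_nonneg _)
    rw [Finset.sum_insert (by simp [hij, Ne.symm hki]), Finset.sum_pair (Ne.symm hkj)] at hsub
    linarith
  have h0 : x k ^ 2 = 0 := le_antisymm (by linarith) (sq_nonneg _)
  exact pow_eq_zero_iff (by norm_num) |>.1 h0

theorem v0_norm : sqNorm (v0 : GolayPt → ℤ) = 32 := by
  show sqNorm (Pi.single none 4 + Pi.single (some 0) 4 : GolayPt → ℤ) = 32
  rw [Helper28.Leech.sqNorm_add, sqNorm_single, sqNorm_single]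
  unfold dotInt
  rw [Finset.sum_eq_zero]
  · norm_num
  · intro k _
    rw [Pi.single_apply, Pi.single_apply]
    split_ifs with h1 h2
    · rw [h1] at h2; exact absurd h2 (by decide)
    · ring
    · ring
    · ring

/-- a tetrad move through `∞` and `0` fixing `v0` -/
theorem stab_move (a b : GolayPt) (hab : a ≠ b) (ha0 : a ≠ gPt 0) (han : a ≠ none)
    (hb0 : b ≠ gPt 0) (hbn : b ≠ none) (β1 β2 β1' β2' : Bool) :
    ∃ g ∈ Co0, g v0 = v0 ∧ ∀ x : leechLattice, ∀ y0 y1 y2 y3 : ℤ,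
      y0 = (x : GolayPt → ℤ) (gPt 0) → y1 = sg β1 * (x : GolayPt → ℤ) a →
      y2 = sg β2 * (x : GolayPt → ℤ) b → y3 = -(x : GolayPt → ℤ) none →
      (2 * ((g x : leechLattice) : GolayPt → ℤ) (gPt 0) = 2 * y0 - (y0 + y1 + y2 + y3) ∧
       2 * ((g x : leechLattice) : GolayPt → ℤ) (gPt 1) =
        sg β1' * -(2 * y1 - (y0 + y1 + y2 + y3)) ∧
       2 * ((g x : leechLattice) : GolayPt → ℤ) (gPt 2) =
        sg β2' * -(2 * y2 - (y0 + y1 + y2 + y3)) ∧
       2 * ((g x : leechLattice) : GolayPt → ℤ) none = -(2 * y3 - (y0 + y1 + y2 + y3))) := by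
  obtain ⟨g1, hg1, hmove⟩ := tet_move' (gPt 0) a b none (Ne.symm ha0) (Ne.symm hb0) (by decide)
    hab han hbn false β1 β2 true
  obtain ⟨c, hc, hc0, hc1, hc2, hc3⟩ := sign_pattern true β1' β2' false
  have hcc : Helper28.Code.ofSet (gSup c) ∈ golayCode :=
    (Helper28.Code.mem_supports_iff golayCode _).1 ((mem_supports_iff _).2 ⟨c, hc, rfl⟩)
  have key : ∀ x : leechLattice, ∀ y0 y1 y2 y3 : ℤ,
      y0 = (x : GolayPt → ℤ) (gPt 0) → y1 = sg β1 * (x : GolayPt → ℤ) a →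
      y2 = sg β2 * (x : GolayPt → ℤ) b → y3 = -(x : GolayPt → ℤ) none →
      (2 * (((signAut (gSup c) hcc * g1) x : leechLattice) : GolayPt → ℤ) (gPt 0) =
        2 * y0 - (y0 + y1 + y2 + y3) ∧
       2 * (((signAut (gSup c) hcc * g1) x : leechLattice) : GolayPt → ℤ) (gPt 1) =
        sg β1' * -(2 * y1 - (y0 + y1 + y2 + y3)) ∧
       2 * (((signAut (gSup c) hcc * g1) x : leechLattice) : GolayPt → ℤ) (gPt 2) =
        sg β2' * -(2 * y2 - (y0 + y1 + y2 + y3)) ∧
       2 * (((signAut (gSup c) hcc * g1) x : leechLattice) : GolayPt → ℤ) none =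
        -(2 * y3 - (y0 + y1 + y2 + y3))) := by
    intro x y0 y1 y2 y3 e0 e1 e2 e3
    obtain ⟨m0, m1, m2, m3⟩ := hmove x y0 y1 y2 y3 (by rw [e0]; simp [sg]) e1 e2
      (by rw [e3]; simp [sg])
    simp only [Equiv.Perm.mul_apply]
    refine ⟨?_, ?_, ?_, ?_⟩
    · rw [sign_val c hcc _ (gPt 0) 0 (by decide) true hc0]
      simp only [sg, if_true]
      linarith
    · rw [sign_val c hcc _ (gPt 1) 1 (by decide) β1' hc1, ← m1]
      ring
    · rw [sign_val c hcc _ (gPt 2) 2 (by decide) β2' hc2, ← m2]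
      ring
    · rw [sign_val c hcc _ none 23 (by decide) false hc3]
      simp only [sg, Bool.false_eq_true, if_false]
      linarith
  refine ⟨signAut (gSup c) hcc * g1, Co0.mul_mem (signAut_mem _ hcc) hg1, ?_, key⟩
  obtain ⟨m0, m1, m2, m3⟩ := key v0 4 0 0 (-4)
    (by rw [v0_apply]; simp [gPt])
    (by rw [v0_apply, if_neg han, if_neg ha0]; simp)
    (by rw [v0_apply, if_neg hbn, if_neg hb0]; simp)
    (by rw [v0_apply]; simp [gPt])
  have hg : signAut (gSup c) hcc * g1 ∈ Co0 := Co0.mul_mem (signAut_mem _ hcc) hg1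
  have hn : sqNorm ((((signAut (gSup c) hcc * g1) v0 : leechLattice)) : GolayPt → ℤ) = 32 := by
    rw [hg.2 v0, v0_norm]
  have e0 : (((signAut (gSup c) hcc * g1) v0 : leechLattice) : GolayPt → ℤ) (gPt 0) = 4 := by
    omega
  have en : (((signAut (gSup c) hcc * g1) v0 : leechLattice) : GolayPt → ℤ) none = 4 := by
    omega
  have hz := eq_of_two _ 32 hn none (gPt 0) (by decide) (by rw [e0, en]; norm_num)
  apply Subtype.ext
  funext k
  rw [v0_apply]
  by_cases hk : k = none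
  · rw [hk, en]; simp [gPt]
  · by_cases hk0 : k = gPt 0
    · rw [hk0, e0]; simp [gPt]
    · rw [hz k hk hk0, if_neg hk, if_neg hk0]; norm_num

/-- equivalence under the stabiliser of `v0` -/
def stabRel (w w' : leechLattice) : Prop := ∃ g ∈ Co0, g v0 = v0 ∧ g w = w'

theorem stabRel_refl (w : leechLattice) : stabRel w w := ⟨1, Co0.one_mem, rfl, rfl⟩

theorem stabRel_symm {w w' : leechLattice} (h : stabRel w w') : stabRel w' w := by
  obtain ⟨g, hg, h0, rfl⟩ := h
  refine ⟨g⁻¹, Co0.inv_mem hg, ?_, by simp⟩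
  rw [Equiv.Perm.inv_eq_iff_eq]
  exact h0.symm

theorem stabRel_trans {u w w' : leechLattice} (h1 : stabRel u w) (h2 : stabRel w w') :
    stabRel u w' := by
  obtain ⟨g, hg, h0, rfl⟩ := h1
  obtain ⟨g', hg', h0', rfl⟩ := h2
  exact ⟨g' * g, Co0.mul_mem hg' hg, by rw [Equiv.Perm.mul_apply, h0, h0'], rfl⟩

theorem stabRel_norm {w w' : leechLattice} (h : stabRel w w') :
    sqNorm (w' : GolayPt → ℤ) = sqNorm (w : GolayPt → ℤ) := by
  obtain ⟨g, hg, -, rfl⟩ := h
  exact hg.2 w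

theorem stabRel_sum {w w' : leechLattice} (h : stabRel w w') :
    (w' : GolayPt → ℤ) none + (w' : GolayPt → ℤ) (gPt 0) =
      (w : GolayPt → ℤ) none + (w : GolayPt → ℤ) (gPt 0) := by
  obtain ⟨g, hg, h0, rfl⟩ := h
  have h1 := co0_dot g hg v0 w
  rw [h0, dot_v0, dot_v0] at h1
  have e : (gPt 0 : GolayPt) = some 0 := rfl
  rw [e]
  omega

theorem stabRel_neg {w w' : leechLattice} (h : stabRel w w') : stabRel (-w) (-w') := by
  obtain ⟨g, hg, h0, rfl⟩ := h
  exact ⟨g, hg, h0, co0_map_neg g hg w⟩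

theorem sg_true : sg true = -1 := rfl

theorem sg_false : sg false = 1 := rfl

theorem alC_one3 (x : GolayPt → ℤ) (hn : sqNorm x = 32) (hC : ∀ i, x i ∈ alC) :
    ∃ i0, ∀ k, (x k = 3 ∨ x k = -3) ↔ k = i0 := by
  classical
  have hsq : ∀ i, x i ^ 2 = 1 + if (x i = 3 ∨ x i = -3) then (8 : ℤ) else 0 := by
    intro i
    rcases (mem_alC _).1 (hC i) with h | h | h | h <;> rw [h] <;> norm_num
  have hcard : (Finset.univ.filter (fun i => x i = 3 ∨ x i = -3)).card = 1 := by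
    unfold sqNorm at hn
    rw [Finset.sum_congr rfl (fun i _ => hsq i), Finset.sum_add_distrib, Finset.sum_const,
      Finset.card_univ, Helper28.Leech.card_pts, ← Finset.sum_filter, Finset.sum_const,
      nsmul_eq_mul, nsmul_eq_mul] at hn
    have : ((Finset.univ.filter (fun i => x i = 3 ∨ x i = -3)).card : ℤ) = 1 := by
      push_cast at hn
      omega
    exact_mod_cast this
  obtain ⟨i0, hi0⟩ := Finset.card_eq_one.1 hcard
  refine ⟨i0, fun k => ?_⟩
  have : k ∈ Finset.univ.filter (fun i => x i = 3 ∨ x i = -3) ↔ k ∈ ({i0} : Finset GolayPt) := by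
    rw [hi0]
  simpa using this

theorem alC_pm1 (x : GolayPt → ℤ) (hC : ∀ i, x i ∈ alC) (i0 : GolayPt)
    (hi0 : ∀ k, (x k = 3 ∨ x k = -3) ↔ k = i0) (k : GolayPt) (hk : k ≠ i0) :
    x k = 1 ∨ x k = -1 := by
  have := mt (hi0 k).1 hk
  rcases (mem_alC _).1 (hC k) with h | h | h | h
  · exact absurd (Or.inr h) this
  · exact Or.inr h
  · exact Or.inl h
  · exact absurd (Or.inl h) this

theorem alB_supp (x : GolayPt → ℤ) (hn : sqNorm x = 32) (hB : ∀ i, x i ∈ alB) :
    (Finset.univ.filter (fun i => x i ≠ 0)).card = 8 := by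
  classical
  have hsq : ∀ i, x i ^ 2 = if x i ≠ 0 then (4 : ℤ) else 0 := by
    intro i
    rcases (mem_alB _).1 (hB i) with h | h | h <;> rw [h] <;> norm_num
  unfold sqNorm at hn
  rw [Finset.sum_congr rfl (fun i _ => hsq i), ← Finset.sum_filter, Finset.sum_const,
    nsmul_eq_mul] at hn
  have : ((Finset.univ.filter (fun i => x i ≠ 0)).card : ℤ) = 8 := by omega
  exact_mod_cast this

theorem exists_two (S : Finset GolayPt) (hS : 4 ≤ S.card) (p q : GolayPt) :
    ∃ a ∈ S, ∃ b ∈ S, a ≠ b ∧ a ≠ p ∧ a ≠ q ∧ b ≠ p ∧ b ≠ q := by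
  classical
  have h1 : 1 < ((S.erase p).erase q).card := by
    have h2 := Finset.pred_card_le_card_erase (s := S) (a := p)
    have h3 := Finset.pred_card_le_card_erase (s := S.erase p) (a := q)
    omega
  obtain ⟨a, ha, b, hb, hab⟩ := Finset.one_lt_card.1 h1
  have ha1 := Finset.mem_erase.1 ha
  have ha2 := Finset.mem_erase.1 ha1.2
  have hb1 := Finset.mem_erase.1 hb
  have hb2 := Finset.mem_erase.1 hb1.2
  exact ⟨a, ha2.2, b, hb2.2, hab, ha2.1, ha1.1, hb2.1, hb1.1⟩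

theorem alB_two (x : GolayPt → ℤ) (hn : sqNorm x = 32) (hB : ∀ i, x i ∈ alB) (p q : GolayPt) :
    ∃ a b, a ≠ b ∧ a ≠ p ∧ a ≠ q ∧ b ≠ p ∧ b ≠ q ∧ (x a = 2 ∨ x a = -2) ∧
      (x b = 2 ∨ x b = -2) := by
  classical
  obtain ⟨a, ha, b, hb, hab, h1, h2, h3, h4⟩ :=
    exists_two (Finset.univ.filter (fun i => x i ≠ 0)) (by rw [alB_supp x hn hB]; norm_num) p q
  have hval : ∀ k, k ∈ Finset.univ.filter (fun i => x i ≠ 0) → (x k = 2 ∨ x k = -2) := by
    intro k hk
    have hk' := (Finset.mem_filter.1 hk).2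
    rcases (mem_alB _).1 (hB k) with h | h | h
    · exact Or.inr h
    · exact absurd h hk'
    · exact Or.inl h
  exact ⟨a, b, hab, h1, h2, h3, h4, hval a ha, hval b hb⟩

theorem exists_other (p q r : GolayPt) : ∃ e, e ≠ p ∧ e ≠ q ∧ e ≠ r := by
  classical
  have hcard : ({p, q, r} : Finset GolayPt).card < (Finset.univ : Finset GolayPt).card := by
    have h1 : ({p, q, r} : Finset GolayPt).card ≤ 3 := Finset.card_le_three
    have h2 : (Finset.univ : Finset GolayPt).card = 24 := by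
      rw [Finset.card_univ]; exact Helper28.Leech.card_pts
    omega
  obtain ⟨e, -, he⟩ := Finset.exists_mem_notMem_of_card_lt_card hcard
  simp only [Finset.mem_insert, Finset.mem_singleton, not_or] at he
  exact ⟨e, he.1, he.2.1, he.2.2⟩

theorem alA_other (x : GolayPt → ℤ) (hn : sqNorm x = 32) (hA : ∀ i, x i ∈ alA) (p : GolayPt)
    (hp : x p ≠ 0) :
    ∃ j, j ≠ p ∧ (x j = 4 ∨ x j = -4) ∧ ∀ k, k ≠ p → k ≠ j → x k = 0 := by
  obtain ⟨i, j, hij, a, b, ha, hb, hx⟩ := shapeA_form x hA hn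
  have hval : ∀ k, x k = (if k = i then a else 0) + (if k = j then b else 0) := by
    intro k
    rw [hx]
    simp [Pi.single_apply]
  by_cases hpi : p = i
  · refine ⟨j, by rw [hpi]; exact Ne.symm hij, ?_, ?_⟩
    · rw [hval j, if_neg (Ne.symm hij), if_pos rfl, zero_add]; exact hb
    · intro k hk1 hk2
      rw [hval k, if_neg (by rw [← hpi]; exact hk1), if_neg hk2]; norm_num
  · have hpj : p = j := by
      by_contra hpj
      apply hp
      rw [hval p, if_neg hpi, if_neg hpj]; norm_num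
    refine ⟨i, by rw [hpj]; exact hij, ?_, ?_⟩
    · rw [hval i, if_pos rfl, if_neg hij, add_zero]; exact ha
    · intro k hk1 hk2
      rw [hval k, if_neg hk2, if_neg (by rw [← hpj]; exact hk1)]; norm_num

theorem type_A_of (w : leechLattice) (hn : sqNorm (w : GolayPt → ℤ) = 32) (k : GolayPt)
    (hk : (w : GolayPt → ℤ) k = 4 ∨ (w : GolayPt → ℤ) k = -4) : ∀ i, (w : GolayPt → ℤ) i ∈ alA := by
  rcases min_alphabet _ w.2 hn with h | h | h
  · exact h
  · exfalso
    have := (mem_alB _).1 (h k)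
    omega
  · exfalso
    have := (mem_alC _).1 (h k)
    omega

theorem type_B_of (w : leechLattice) (hn : sqNorm (w : GolayPt → ℤ) = 32) (k : GolayPt)
    (hk : (w : GolayPt → ℤ) k = 2 ∨ (w : GolayPt → ℤ) k = -2) : ∀ i, (w : GolayPt → ℤ) i ∈ alB := by
  rcases min_alphabet _ w.2 hn with h | h | h
  · exfalso
    have := (mem_alA _).1 (h k)
    omega
  · exact h
  · exfalso
    have := (mem_alC _).1 (h k)
    omega

theorem type_C_of (w : leechLattice) (hn : sqNorm (w : GolayPt → ℤ) = 32) (k : GolayPt)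
    (hk : (w : GolayPt → ℤ) k = 3 ∨ (w : GolayPt → ℤ) k = -3 ∨ (w : GolayPt → ℤ) k = 1 ∨ (w : GolayPt → ℤ) k = -1) : ∀ i, (w : GolayPt → ℤ) i ∈ alC := by
  rcases min_alphabet _ w.2 hn with h | h | h
  · exfalso
    have := (mem_alA _).1 (h k)
    omega
  · exfalso
    have := (mem_alB _).1 (h k)
    omega
  · exact h

theorem eq_two_single (w : leechLattice) (hn : sqNorm (w : GolayPt → ℤ) = 32) (i j : GolayPt) (hij : i ≠ j)
    (a b : ℤ) (hi : (w : GolayPt → ℤ) i = a) (hj : (w : GolayPt → ℤ) j = b) (hab : a ^ 2 + b ^ 2 = 32) (t : leechLattice)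
    (ht : (t : GolayPt → ℤ) = Pi.single i a + Pi.single j b) : w = t := by
  have hz := eq_of_two _ 32 hn i j hij (by rw [hi, hj]; exact hab)
  apply Subtype.ext
  rw [ht]
  funext k
  simp only [Pi.add_apply, Pi.single_apply]
  by_cases hki : k = i
  · rw [hki, if_pos rfl, if_neg hij, hi, add_zero]
  · by_cases hkj : k = j
    · rw [hkj, if_neg (Ne.symm hij), if_pos rfl, hj, zero_add]
    · rw [if_neg hki, if_neg hkj, hz k hki hkj]; norm_num

/-- reference vector for inner product `-16` -/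
def wA : leechLattice := ⟨Pi.single (gPt 0) (-4) + Pi.single (gPt 1) 4,
  four_pair_mem _ _ (-4) 4 (by norm_num) (by norm_num) (by norm_num)⟩

/-- reference vector for inner product `0` -/
def w0s : leechLattice := ⟨Pi.single none 4 + Pi.single (gPt 0) (-4),
  four_pair_mem _ _ 4 (-4) (by norm_num) (by norm_num) (by norm_num)⟩

/-! ### inner product `-16` -/

theorem A16a (w : leechLattice) (hn : sqNorm (w : GolayPt → ℤ) = 32) (h0 : (w : GolayPt → ℤ) (gPt 0) = -4)
    (hinf : (w : GolayPt → ℤ) none = 0) : stabRel w wA := by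
  have hA := type_A_of w hn (gPt 0) (Or.inr h0)
  obtain ⟨j, hj0, hjv, hjz⟩ := alA_other _ hn hA (gPt 0) (by rw [h0]; norm_num)
  have hjn : j ≠ none := by
    intro h
    rw [h, hinf] at hjv
    omega
  obtain ⟨e, hej, he0, hen⟩ := exists_other j (gPt 0) none
  have hez : (w : GolayPt → ℤ) e = 0 := hjz e he0 hej
  obtain ⟨g, hg, hgv, hmove⟩ := stab_move j e (Ne.symm hej) hj0 hjn he0 hen
    (decide ((w : GolayPt → ℤ) j = -4)) false true false
  obtain ⟨m0, m1, m2, m3⟩ := hmove w (-4) 4 0 0 h0.symm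
    (by rcases hjv with h | h <;> simp [sg, h]) (by simp [hez]) (by simp [hinf])
  have r : stabRel w (g w) := ⟨g, hg, hgv, rfl⟩
  have hn' : sqNorm ((g w : leechLattice) : GolayPt → ℤ) = 32 := by rw [stabRel_norm r, hn]
  have e0 : ((g w : leechLattice) : GolayPt → ℤ) (gPt 0) = -4 := by omega
  have e1 : ((g w : leechLattice) : GolayPt → ℤ) (gPt 1) = 4 := by
    rw [sg_true] at m1
    omega
  have e : g w = wA :=
    eq_two_single (g w) hn' (gPt 0) (gPt 1) (by decide) (-4) 4 e0 e1 (by norm_num) wA rfl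
  rw [← e]
  exact r

theorem A16b (w : leechLattice) (hn : sqNorm (w : GolayPt → ℤ) = 32) (h0 : (w : GolayPt → ℤ) (gPt 0) = 0)
    (hinf : (w : GolayPt → ℤ) none = -4) : stabRel w wA := by
  have hA := type_A_of w hn none (Or.inr hinf)
  obtain ⟨j, hjn, hjv, hjz⟩ := alA_other _ hn hA none (by rw [hinf]; norm_num)
  have hj0 : j ≠ gPt 0 := by
    intro h
    rw [h, h0] at hjv
    omega
  obtain ⟨e, hej, he0, hen⟩ := exists_other j (gPt 0) none
  have hez : (w : GolayPt → ℤ) e = 0 := hjz e hen hej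
  obtain ⟨g, hg, hgv, hmove⟩ := stab_move j e (Ne.symm hej) hj0 hjn he0 hen
    (decide ((w : GolayPt → ℤ) j = -4)) false false false
  obtain ⟨m0, m1, m2, m3⟩ := hmove w 0 4 0 4 h0.symm
    (by rcases hjv with h | h <;> simp [sg, h]) (by simp [hez]) (by simp [hinf])
  have r : stabRel w (g w) := ⟨g, hg, hgv, rfl⟩
  exact stabRel_trans r (A16a (g w) (by rw [stabRel_norm r, hn]) (by omega) (by omega))

theorem B16 (w : leechLattice) (hn : sqNorm (w : GolayPt → ℤ) = 32) (h0 : (w : GolayPt → ℤ) (gPt 0) = -2)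
    (hinf : (w : GolayPt → ℤ) none = -2) : stabRel w wA := by
  have hB := type_B_of w hn none (Or.inr hinf)
  obtain ⟨a, b, hab, han, ha0, hbn, hb0, hav, hbv⟩ := alB_two _ hn hB none (gPt 0)
  obtain ⟨g, hg, hgv, hmove⟩ := stab_move a b hab ha0 han hb0 hbn
    (decide ((w : GolayPt → ℤ) a = -2)) (decide ((w : GolayPt → ℤ) b = -2)) false false
  obtain ⟨m0, m1, m2, m3⟩ := hmove w (-2) 2 2 2 h0.symm
    (by rcases hav with h | h <;> simp [sg, h]) (by rcases hbv with h | h <;> simp [sg, h])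
    (by simp [hinf])
  have r : stabRel w (g w) := ⟨g, hg, hgv, rfl⟩
  exact stabRel_trans r (A16a (g w) (by rw [stabRel_norm r, hn]) (by omega) (by omega))

theorem C16 (w : leechLattice) (hn : sqNorm (w : GolayPt → ℤ) = 32) (hC : ∀ i, (w : GolayPt → ℤ) i ∈ alC)
    (ht : (w : GolayPt → ℤ) none + (w : GolayPt → ℤ) (gPt 0) = -4) : stabRel w wA := by
  obtain ⟨i0, hi0⟩ := alC_one3 _ hn hC
  have hcn := (mem_alC _).1 (hC none)
  have hc0 := (mem_alC _).1 (hC (gPt 0))
  have hi0' : i0 = none ∨ i0 = gPt 0 := by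
    have : (w : GolayPt → ℤ) none = -3 ∨ (w : GolayPt → ℤ) (gPt 0) = -3 := by omega
    rcases this with h | h
    · left; exact ((hi0 none).1 (Or.inr h)).symm
    · right; exact ((hi0 (gPt 0)).1 (Or.inr h)).symm
  have h1 : (w : GolayPt → ℤ) (gPt 1) = 1 ∨ (w : GolayPt → ℤ) (gPt 1) = -1 :=
    alC_pm1 _ hC i0 hi0 (gPt 1) (by rcases hi0' with h | h <;> rw [h] <;> decide)
  have h2 : (w : GolayPt → ℤ) (gPt 2) = 1 ∨ (w : GolayPt → ℤ) (gPt 2) = -1 :=
    alC_pm1 _ hC i0 hi0 (gPt 2) (by rcases hi0' with h | h <;> rw [h] <;> decide)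
  obtain ⟨g, hg, hgv, hmove⟩ := stab_move (gPt 1) (gPt 2) (by decide) (by decide) (by decide)
    (by decide) (by decide) (decide ((w : GolayPt → ℤ) (gPt 1) = -1)) (decide ((w : GolayPt → ℤ) (gPt 2) = 1)) false false
  have r : stabRel w (g w) := ⟨g, hg, hgv, rfl⟩
  have hcase : ((w : GolayPt → ℤ) none = -3 ∧ (w : GolayPt → ℤ) (gPt 0) = -1) ∨ ((w : GolayPt → ℤ) none = -1 ∧ (w : GolayPt → ℤ) (gPt 0) = -3) := by omega
  rcases hcase with ⟨hn3, h01⟩ | ⟨hn1, h03⟩
  · obtain ⟨m0, m1, m2, m3⟩ := hmove w (-1) 1 (-1) 3 h01.symm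
      (by rcases h1 with h | h <;> simp [sg, h]) (by rcases h2 with h | h <;> simp [sg, h])
      (by simp [hn3])
    exact stabRel_trans r (B16 (g w) (by rw [stabRel_norm r, hn]) (by omega) (by omega))
  · obtain ⟨m0, m1, m2, m3⟩ := hmove w (-3) 1 (-1) 1 h03.symm
      (by rcases h1 with h | h <;> simp [sg, h]) (by rcases h2 with h | h <;> simp [sg, h])
      (by simp [hn1])
    exact stabRel_trans r (B16 (g w) (by rw [stabRel_norm r, hn]) (by omega) (by omega))

theorem rel16 (w : leechLattice) (hn : sqNorm (w : GolayPt → ℤ) = 32) (ht : (w : GolayPt → ℤ) none + (w : GolayPt → ℤ) (gPt 0) = -4) :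
    stabRel w wA := by
  rcases min_alphabet _ w.2 hn with h | h | h
  · have hcn := (mem_alA _).1 (h none)
    have hc0 := (mem_alA _).1 (h (gPt 0))
    have : ((w : GolayPt → ℤ) none = -4 ∧ (w : GolayPt → ℤ) (gPt 0) = 0) ∨ ((w : GolayPt → ℤ) none = 0 ∧ (w : GolayPt → ℤ) (gPt 0) = -4) := by omega
    rcases this with ⟨a, b⟩ | ⟨a, b⟩
    · exact A16b w hn b a
    · exact A16a w hn b a
  · have hcn := (mem_alB _).1 (h none)
    have hc0 := (mem_alB _).1 (h (gPt 0))
    exact B16 w hn (by omega) (by omega)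
  · exact C16 w hn h ht

/-! ### inner product `-8` -/

theorem sign_fix_v0 (c : ℕ) (hcc : Helper28.Code.ofSet (gSup c) ∈ golayCode)
    (hn : none ∉ gSup c) (h0 : gPt 0 ∉ gSup c) : signAut (gSup c) hcc v0 = v0 := by
  apply Subtype.ext
  funext k
  rw [signAut_apply]
  by_cases hk : k ∈ gSup c
  · rw [if_pos hk, v0_apply, if_neg (fun h : k = none => hn (h ▸ hk)),
      if_neg (fun h : k = gPt 0 => h0 (h ▸ hk))]
    norm_num
  · rw [if_neg hk]

theorem C1_8 (w : leechLattice) (hn : sqNorm (w : GolayPt → ℤ) = 32) (hinf : (w : GolayPt → ℤ) none = -3)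
    (h0 : (w : GolayPt → ℤ) (gPt 0) = 1) : stabRel w w0L := by
  have hC := type_C_of w hn none (Or.inr (Or.inl hinf))
  obtain ⟨i0, hi0⟩ := alC_one3 _ hn hC
  have hi0n : i0 = none := ((hi0 none).1 (Or.inr hinf)).symm
  have hy1 : ∀ k, k ≠ none → ((w : GolayPt → ℤ) k = 1 ∨ (w : GolayPt → ℤ) k = -1) := by
    intro k hk
    exact alC_pm1 _ hC i0 hi0 k (by rw [hi0n]; exact hk)
  have hwL := w.2
  rw [mem_leech_iff_fibre] at hwL
  obtain ⟨m, hm, c, hc, h1, -⟩ := hwL
  have hm1 : m = 1 := by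
    rcases hm with h | h
    · exfalso
      have e := h1 none
      unfold lres at e
      rw [h, hinf] at e
      split_ifs at e <;> omega
    · exact h
  subst hm1
  have hcc : Helper28.Code.ofSet (gSup c) ∈ golayCode :=
    (Helper28.Code.mem_supports_iff golayCode _).1 ((mem_supports_iff _).2 ⟨c, hc, rfl⟩)
  have hnc : none ∉ gSup c := by
    intro hmem
    have e := h1 none
    unfold lres at e
    rw [if_pos hmem, hinf] at e
    omega
  have h0c : gPt 0 ∉ gSup c := by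
    intro hmem
    have e := h1 (gPt 0)
    unfold lres at e
    rw [if_pos hmem, h0] at e
    omega
  have hyw : w = signAut (gSup c) hcc w0L := by
    apply Subtype.ext
    funext k
    rw [signAut_apply]
    show _ = if k ∈ gSup c then -lw0 k else lw0 k
    have e := h1 k
    unfold lres at e
    unfold lw0
    by_cases hk : k = none
    · subst hk
      rw [if_neg hnc, if_pos rfl]
      exact hinf
    · rw [if_neg hk]
      by_cases hkc : k ∈ gSup c
      · rw [if_pos hkc] at e ⊢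
        rcases hy1 k hk with h' | h' <;> rw [h'] at e ⊢ <;> omega
      · rw [if_neg hkc] at e ⊢
        rcases hy1 k hk with h' | h' <;> rw [h'] at e ⊢ <;> omega
  have r : stabRel w0L w := ⟨_, signAut_mem _ hcc, sign_fix_v0 c hcc hnc h0c, hyw.symm⟩
  exact stabRel_symm r

theorem swap_rel (w : leechLattice) : ∃ w' : leechLattice, stabRel w w' ∧
    (w' : GolayPt → ℤ) none = (w : GolayPt → ℤ) (gPt 0) ∧ (w' : GolayPt → ℤ) (gPt 0) = (w : GolayPt → ℤ) none := by
  obtain ⟨σ, hσ, h1, h2⟩ := exists_M24_pair (some 0) none (by decide)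
  refine ⟨permAut σ hσ w, ⟨_, permAut_mem σ hσ, ?_, rfl⟩, ?_, ?_⟩
  · apply Subtype.ext
    funext k
    rw [permAut_apply, v0_apply, v0_apply]
    have e1 : σ k = none ↔ k = gPt 0 := by
      rw [← h2]
      exact σ.injective.eq_iff
    have e2 : σ k = gPt 0 ↔ k = none := by
      show σ k = some 0 ↔ _
      rw [← h1]
      exact σ.injective.eq_iff
    simp only [e1, e2]
    ring
  · rw [permAut_apply, h1]
    rfl
  · rw [permAut_apply]
    show (w : GolayPt → ℤ) (σ (some 0)) = _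
    rw [h2]

theorem C1_8' (w : leechLattice) (hn : sqNorm (w : GolayPt → ℤ) = 32) (hinf : (w : GolayPt → ℤ) none = 1)
    (h0 : (w : GolayPt → ℤ) (gPt 0) = -3) : stabRel w w0L := by
  obtain ⟨w', r, e1, e2⟩ := swap_rel w
  exact stabRel_trans r (C1_8 w' (by rw [stabRel_norm r, hn]) (by rw [e1, h0]) (by rw [e2, hinf]))

theorem B8 (w : leechLattice) (hn : sqNorm (w : GolayPt → ℤ) = 32) (hB : ∀ i, (w : GolayPt → ℤ) i ∈ alB)
    (ht : (w : GolayPt → ℤ) none + (w : GolayPt → ℤ) (gPt 0) = -2) : stabRel w w0L := by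
  obtain ⟨a, b, hab, han, ha0, hbn, hb0, hav, hbv⟩ := alB_two _ hn hB none (gPt 0)
  obtain ⟨g, hg, hgv, hmove⟩ := stab_move a b hab ha0 han hb0 hbn
    (decide ((w : GolayPt → ℤ) a = 2)) (decide ((w : GolayPt → ℤ) b = 2)) false false
  have r : stabRel w (g w) := ⟨g, hg, hgv, rfl⟩
  have hcn := (mem_alB _).1 (hB none)
  have hc0 := (mem_alB _).1 (hB (gPt 0))
  have hcase : ((w : GolayPt → ℤ) none = -2 ∧ (w : GolayPt → ℤ) (gPt 0) = 0) ∨ ((w : GolayPt → ℤ) none = 0 ∧ (w : GolayPt → ℤ) (gPt 0) = -2) := by omega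
  rcases hcase with ⟨e1, e2⟩ | ⟨e1, e2⟩
  · obtain ⟨m0, m1, m2, m3⟩ := hmove w 0 (-2) (-2) 2 e2.symm
      (by rcases hav with h | h <;> simp [sg, h]) (by rcases hbv with h | h <;> simp [sg, h])
      (by simp [e1])
    exact stabRel_trans r (C1_8 (g w) (by rw [stabRel_norm r, hn]) (by omega) (by omega))
  · obtain ⟨m0, m1, m2, m3⟩ := hmove w (-2) (-2) (-2) 0 e2.symm
      (by rcases hav with h | h <;> simp [sg, h]) (by rcases hbv with h | h <;> simp [sg, h])
      (by simp [e1])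
    exact stabRel_trans r (C1_8 (g w) (by rw [stabRel_norm r, hn]) (by omega) (by omega))

theorem C2_8 (w : leechLattice) (hn : sqNorm (w : GolayPt → ℤ) = 32) (hC : ∀ i, (w : GolayPt → ℤ) i ∈ alC)
    (hinf : (w : GolayPt → ℤ) none = -1) (h0 : (w : GolayPt → ℤ) (gPt 0) = -1) : stabRel w w0L := by
  obtain ⟨i0, hi0⟩ := alC_one3 _ hn hC
  have hi0n : i0 ≠ none := by
    intro h
    have := (hi0 none).2 h.symm
    omega
  have hi00 : i0 ≠ gPt 0 := by
    intro h
    have := (hi0 (gPt 0)).2 h.symm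
    omega
  have hv3 : (w : GolayPt → ℤ) i0 = 3 ∨ (w : GolayPt → ℤ) i0 = -3 := (hi0 i0).2 rfl
  obtain ⟨e, hei, he0, hen⟩ := exists_other i0 (gPt 0) none
  have hve : (w : GolayPt → ℤ) e = 1 ∨ (w : GolayPt → ℤ) e = -1 := alC_pm1 _ hC i0 hi0 e hei
  obtain ⟨g, hg, hgv, hmove⟩ := stab_move i0 e (Ne.symm hei) hi00 hi0n he0 hen
    (decide ((w : GolayPt → ℤ) i0 = -3)) (decide ((w : GolayPt → ℤ) e = -1)) false false
  obtain ⟨m0, m1, m2, m3⟩ := hmove w (-1) 3 1 1 h0.symm
    (by rcases hv3 with h | h <;> simp [sg, h]) (by rcases hve with h | h <;> simp [sg, h])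
    (by simp [hinf])
  have r : stabRel w (g w) := ⟨g, hg, hgv, rfl⟩
  exact stabRel_trans r (C1_8' (g w) (by rw [stabRel_norm r, hn]) (by omega) (by omega))

theorem rel8 (w : leechLattice) (hn : sqNorm (w : GolayPt → ℤ) = 32) (ht : (w : GolayPt → ℤ) none + (w : GolayPt → ℤ) (gPt 0) = -2) :
    stabRel w w0L := by
  rcases min_alphabet _ w.2 hn with h | h | h
  · exfalso
    have hcn := (mem_alA _).1 (h none)
    have hc0 := (mem_alA _).1 (h (gPt 0))
    omega
  · exact B8 w hn h ht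
  · have hcn := (mem_alC _).1 (h none)
    have hc0 := (mem_alC _).1 (h (gPt 0))
    have : ((w : GolayPt → ℤ) none = -3 ∧ (w : GolayPt → ℤ) (gPt 0) = 1) ∨ ((w : GolayPt → ℤ) none = 1 ∧ (w : GolayPt → ℤ) (gPt 0) = -3) ∨
        ((w : GolayPt → ℤ) none = -1 ∧ (w : GolayPt → ℤ) (gPt 0) = -1) := by omega
    rcases this with ⟨a, b⟩ | ⟨a, b⟩ | ⟨a, b⟩
    · exact C1_8 w hn a b
    · exact C1_8' w hn a b
    · exact C2_8 w hn h a b

/-! ### inner product `0` -/

/-- related to the reference vector or its negative -/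
def P0 (w : leechLattice) : Prop := stabRel w w0s ∨ stabRel w (-w0s)

theorem P0_of_rel {w w' : leechLattice} (r : stabRel w w') (h : P0 w') : P0 w := by
  rcases h with h | h
  · exact Or.inl (stabRel_trans r h)
  · exact Or.inr (stabRel_trans r h)

theorem A0 (w : leechLattice) (hn : sqNorm (w : GolayPt → ℤ) = 32) (hA : ∀ i, (w : GolayPt → ℤ) i ∈ alA)
    (ht : (w : GolayPt → ℤ) none + (w : GolayPt → ℤ) (gPt 0) = 0) : P0 w := by
  have hcn := (mem_alA _).1 (hA none)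
  have hc0 := (mem_alA _).1 (hA (gPt 0))
  have hcase : ((w : GolayPt → ℤ) none = 4 ∧ (w : GolayPt → ℤ) (gPt 0) = -4) ∨ ((w : GolayPt → ℤ) none = -4 ∧ (w : GolayPt → ℤ) (gPt 0) = 4) ∨
      ((w : GolayPt → ℤ) none = 0 ∧ (w : GolayPt → ℤ) (gPt 0) = 0) := by omega
  rcases hcase with ⟨e1, e2⟩ | ⟨e1, e2⟩ | ⟨e1, e2⟩
  · left
    have e : w = w0s :=
      eq_two_single w hn none (gPt 0) (by decide) 4 (-4) e1 e2 (by norm_num) w0s rfl
    rw [e]
    exact stabRel_refl _
  · right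
    have e : w = -w0s :=
      eq_two_single w hn none (gPt 0) (by decide) (-4) 4 e1 e2 (by norm_num) (-w0s) (by
        show -(Pi.single none 4 + Pi.single (gPt 0) (-4) : GolayPt → ℤ) = _
        rw [neg_add, ← Pi.single_neg, ← Pi.single_neg]
        norm_num)
    rw [e]
    exact stabRel_refl _
  · left
    obtain ⟨i, j, hij, a, b, ha, hb, hx⟩ := shapeA_form _ hA hn
    have hval : ∀ k, (w : GolayPt → ℤ) k = (if k = i then a else 0) + (if k = j then b else 0) := by
      intro k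
      rw [hx]
      simp [Pi.single_apply]
    have hwi : (w : GolayPt → ℤ) i = a := by rw [hval i, if_pos rfl, if_neg hij, add_zero]
    have hwj : (w : GolayPt → ℤ) j = b := by rw [hval j, if_neg (Ne.symm hij), if_pos rfl, zero_add]
    have hin : i ≠ none := by
      intro h
      rw [h, e1] at hwi
      omega
    have hi0 : i ≠ gPt 0 := by
      intro h
      rw [h, e2] at hwi
      omega
    have hjn : j ≠ none := by
      intro h
      rw [h, e1] at hwj
      omega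
    have hj0 : j ≠ gPt 0 := by
      intro h
      rw [h, e2] at hwj
      omega
    obtain ⟨g, hg, hgv, hmove⟩ := stab_move i j hij hi0 hin hj0 hjn
      (decide ((w : GolayPt → ℤ) i = -4)) (decide ((w : GolayPt → ℤ) j = -4)) false false
    obtain ⟨m0, m1, m2, m3⟩ := hmove w 0 4 4 0 e2.symm
      (by rcases ha with h | h <;> simp [sg, hwi, h])
      (by rcases hb with h | h <;> simp [sg, hwj, h]) (by simp [e1])
    have r : stabRel w (g w) := ⟨g, hg, hgv, rfl⟩
    have e : g w = w0s :=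
      eq_two_single (g w) (by rw [stabRel_norm r, hn]) none (gPt 0) (by decide) 4 (-4)
        (by omega) (by omega) (by norm_num) w0s rfl
    rw [← e]
    exact r

theorem B2_0 (w : leechLattice) (hn : sqNorm (w : GolayPt → ℤ) = 32) (hB : ∀ i, (w : GolayPt → ℤ) i ∈ alB)
    (h : ((w : GolayPt → ℤ) none = 2 ∧ (w : GolayPt → ℤ) (gPt 0) = -2) ∨ ((w : GolayPt → ℤ) none = -2 ∧ (w : GolayPt → ℤ) (gPt 0) = 2)) : P0 w := by
  obtain ⟨a, b, hab, han, ha0, hbn, hb0, hav, hbv⟩ := alB_two _ hn hB none (gPt 0)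
  rcases h with ⟨e1, e2⟩ | ⟨e1, e2⟩
  · obtain ⟨g, hg, hgv, hmove⟩ := stab_move a b hab ha0 han hb0 hbn
      (decide ((w : GolayPt → ℤ) a = -2)) (decide ((w : GolayPt → ℤ) b = 2)) false false
    obtain ⟨m0, m1, m2, m3⟩ := hmove w (-2) 2 (-2) (-2) e2.symm
      (by rcases hav with h | h <;> simp [sg, h]) (by rcases hbv with h | h <;> simp [sg, h])
      (by simp [e1])
    have r : stabRel w (g w) := ⟨g, hg, hgv, rfl⟩
    have hn' : sqNorm ((g w : leechLattice) : GolayPt → ℤ) = 32 := by rw [stabRel_norm r, hn]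
    have e41 : ((g w : leechLattice) : GolayPt → ℤ) (gPt 1) = -4 := by
      rw [sg_false] at m1
      omega
    apply P0_of_rel r
    exact A0 (g w) hn' (type_A_of (g w) hn' (gPt 1) (Or.inr e41)) (by omega)
  · obtain ⟨g, hg, hgv, hmove⟩ := stab_move a b hab ha0 han hb0 hbn
      (decide ((w : GolayPt → ℤ) a = 2)) (decide ((w : GolayPt → ℤ) b = -2)) false false
    obtain ⟨m0, m1, m2, m3⟩ := hmove w 2 (-2) 2 2 e2.symm
      (by rcases hav with h | h <;> simp [sg, h]) (by rcases hbv with h | h <;> simp [sg, h])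
      (by simp [e1])
    have r : stabRel w (g w) := ⟨g, hg, hgv, rfl⟩
    have hn' : sqNorm ((g w : leechLattice) : GolayPt → ℤ) = 32 := by rw [stabRel_norm r, hn]
    have e41 : ((g w : leechLattice) : GolayPt → ℤ) (gPt 1) = 4 := by
      rw [sg_false] at m1
      omega
    apply P0_of_rel r
    exact A0 (g w) hn' (type_A_of (g w) hn' (gPt 1) (Or.inl e41)) (by omega)

theorem B1_0 (w : leechLattice) (hn : sqNorm (w : GolayPt → ℤ) = 32) (hB : ∀ i, (w : GolayPt → ℤ) i ∈ alB)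
    (e1 : (w : GolayPt → ℤ) none = 0) (e2 : (w : GolayPt → ℤ) (gPt 0) = 0) : P0 w := by
  obtain ⟨a, b, hab, han, ha0, hbn, hb0, hav, hbv⟩ := alB_two _ hn hB none (gPt 0)
  obtain ⟨g, hg, hgv, hmove⟩ := stab_move a b hab ha0 han hb0 hbn
    (decide ((w : GolayPt → ℤ) a = -2)) (decide ((w : GolayPt → ℤ) b = -2)) false false
  obtain ⟨m0, m1, m2, m3⟩ := hmove w 0 2 2 0 e2.symm
    (by rcases hav with h | h <;> simp [sg, h]) (by rcases hbv with h | h <;> simp [sg, h])
    (by simp [e1])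
  have r : stabRel w (g w) := ⟨g, hg, hgv, rfl⟩
  have hn' : sqNorm ((g w : leechLattice) : GolayPt → ℤ) = 32 := by rw [stabRel_norm r, hn]
  apply P0_of_rel r
  exact B2_0 (g w) hn' (type_B_of (g w) hn' none (Or.inl (by omega)))
    (Or.inl ⟨by omega, by omega⟩)

theorem C0 (w : leechLattice) (hn : sqNorm (w : GolayPt → ℤ) = 32) (hC : ∀ i, (w : GolayPt → ℤ) i ∈ alC)
    (ht : (w : GolayPt → ℤ) none + (w : GolayPt → ℤ) (gPt 0) = 0) : P0 w := by
  obtain ⟨i0, hi0⟩ := alC_one3 _ hn hC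
  have hcn := (mem_alC _).1 (hC none)
  have hc0 := (mem_alC _).1 (hC (gPt 0))
  have hn3 : ¬ ((w : GolayPt → ℤ) none = 3 ∨ (w : GolayPt → ℤ) none = -3) := by
    intro h
    have h' : (w : GolayPt → ℤ) (gPt 0) = 3 ∨ (w : GolayPt → ℤ) (gPt 0) = -3 := by omega
    have a1 := (hi0 none).1 h
    have a2 := (hi0 (gPt 0)).1 h'
    rw [← a2] at a1
    exact absurd a1 (by decide)
  have hcase : ((w : GolayPt → ℤ) none = 1 ∧ (w : GolayPt → ℤ) (gPt 0) = -1) ∨ ((w : GolayPt → ℤ) none = -1 ∧ (w : GolayPt → ℤ) (gPt 0) = 1) := by omega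
  have hi0n : i0 ≠ none := by
    intro h
    exact hn3 ((hi0 none).2 h.symm)
  have hi00 : i0 ≠ gPt 0 := by
    intro h
    have := (hi0 (gPt 0)).2 h.symm
    omega
  have hv3 : (w : GolayPt → ℤ) i0 = 3 ∨ (w : GolayPt → ℤ) i0 = -3 := (hi0 i0).2 rfl
  obtain ⟨e, hei, he0, hen⟩ := exists_other i0 (gPt 0) none
  have hve : (w : GolayPt → ℤ) e = 1 ∨ (w : GolayPt → ℤ) e = -1 := alC_pm1 _ hC i0 hi0 e hei
  rcases hcase with ⟨e1, e2⟩ | ⟨e1, e2⟩
  · obtain ⟨g, hg, hgv, hmove⟩ := stab_move i0 e (Ne.symm hei) hi00 hi0n he0 hen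
      (decide ((w : GolayPt → ℤ) i0 = 3)) (decide ((w : GolayPt → ℤ) e = 1)) false false
    obtain ⟨m0, m1, m2, m3⟩ := hmove w (-1) (-3) (-1) (-1) e2.symm
      (by rcases hv3 with h | h <;> simp [sg, h]) (by rcases hve with h | h <;> simp [sg, h])
      (by simp [e1])
    have r : stabRel w (g w) := ⟨g, hg, hgv, rfl⟩
    have hn' : sqNorm ((g w : leechLattice) : GolayPt → ℤ) = 32 := by rw [stabRel_norm r, hn]
    apply P0_of_rel r
    exact B2_0 (g w) hn' (type_B_of (g w) hn' none (Or.inr (by omega)))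
      (Or.inr ⟨by omega, by omega⟩)
  · obtain ⟨g, hg, hgv, hmove⟩ := stab_move i0 e (Ne.symm hei) hi00 hi0n he0 hen
      (decide ((w : GolayPt → ℤ) i0 = -3)) (decide ((w : GolayPt → ℤ) e = -1)) false false
    obtain ⟨m0, m1, m2, m3⟩ := hmove w 1 3 1 1 e2.symm
      (by rcases hv3 with h | h <;> simp [sg, h]) (by rcases hve with h | h <;> simp [sg, h])
      (by simp [e1])
    have r : stabRel w (g w) := ⟨g, hg, hgv, rfl⟩
    have hn' : sqNorm ((g w : leechLattice) : GolayPt → ℤ) = 32 := by rw [stabRel_norm r, hn]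
    apply P0_of_rel r
    exact B2_0 (g w) hn' (type_B_of (g w) hn' none (Or.inl (by omega)))
      (Or.inl ⟨by omega, by omega⟩)

theorem rel0 (w : leechLattice) (hn : sqNorm (w : GolayPt → ℤ) = 32) (ht : (w : GolayPt → ℤ) none + (w : GolayPt → ℤ) (gPt 0) = 0) : P0 w := by
  rcases min_alphabet _ w.2 hn with h | h | h
  · exact A0 w hn h ht
  · have hcn := (mem_alB _).1 (h none)
    have hc0 := (mem_alB _).1 (h (gPt 0))
    have : ((w : GolayPt → ℤ) none = 2 ∧ (w : GolayPt → ℤ) (gPt 0) = -2) ∨ ((w : GolayPt → ℤ) none = -2 ∧ (w : GolayPt → ℤ) (gPt 0) = 2) ∨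
        ((w : GolayPt → ℤ) none = 0 ∧ (w : GolayPt → ℤ) (gPt 0) = 0) := by omega
    rcases this with h1 | h1 | ⟨a, b⟩
    · exact B2_0 w hn h (Or.inl h1)
    · exact B2_0 w hn h (Or.inr h1)
    · exact B1_0 w hn h a b
  · exact C0 w hn h ht

/-! ### transfer to an arbitrary minimal vector -/

theorem stab_transfer (v w w' : leechLattice) (h : Equiv.Perm leechLattice) (hh : h ∈ Co0)
    (hv0 : h v = v0) (r : stabRel (h w) (h w')) : ∃ g : Co0, g • v = v ∧ g • w = w' := by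
  obtain ⟨g1, hg1, hg1v, hg1w⟩ := r
  refine ⟨⟨h⁻¹ * g1 * h, Co0.mul_mem (Co0.mul_mem (Co0.inv_mem hh) hg1) hh⟩, ?_, ?_⟩
  · show (h⁻¹ * g1 * h) v = v
    simp only [Equiv.Perm.mul_apply]
    rw [hv0, hg1v, ← hv0]
    simp
  · show (h⁻¹ * g1 * h) w = w'
    simp only [Equiv.Perm.mul_apply]
    rw [hg1w]
    simp

theorem sum_of_dot (v w : leechLattice) (h : Equiv.Perm leechLattice) (hh : h ∈ Co0)
    (hv0 : h v = v0) (d t : ℤ) (hd : dotInt (v : GolayPt → ℤ) (w : GolayPt → ℤ) = d) (hdt : d = 4 * t) :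
    ((h w : leechLattice) : GolayPt → ℤ) none + ((h w : leechLattice) : GolayPt → ℤ) (gPt 0)
      = t := by
  have h1 := co0_dot h hh v w
  rw [hv0, dot_v0, hd] at h1
  have e : (gPt 0 : GolayPt) = some 0 := rfl
  rw [e]
  omega

theorem pair16 (v w w' : leechLattice) (hv : sqNorm (v : GolayPt → ℤ) = 32)
    (hw : sqNorm (w : GolayPt → ℤ) = 32) (hw' : sqNorm (w' : GolayPt → ℤ) = 32)
    (hd : dotInt (v : GolayPt → ℤ) (w : GolayPt → ℤ) = -16)
    (hd' : dotInt (v : GolayPt → ℤ) (w' : GolayPt → ℤ) = -16) :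
    ∃ g : Co0, g • v = v ∧ g • w = w' := by
  obtain ⟨h, hh, hv0⟩ := min_rel v hv
  have r1 := rel16 (h w) (by rw [hh.2, hw]) (sum_of_dot v w h hh hv0 (-16) (-4) hd (by norm_num))
  have r2 := rel16 (h w') (by rw [hh.2, hw'])
    (sum_of_dot v w' h hh hv0 (-16) (-4) hd' (by norm_num))
  exact stab_transfer v w w' h hh hv0 (stabRel_trans r1 (stabRel_symm r2))

theorem pair8 (v w w' : leechLattice) (hv : sqNorm (v : GolayPt → ℤ) = 32)
    (hw : sqNorm (w : GolayPt → ℤ) = 32) (hw' : sqNorm (w' : GolayPt → ℤ) = 32)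
    (hd : dotInt (v : GolayPt → ℤ) (w : GolayPt → ℤ) = -8)
    (hd' : dotInt (v : GolayPt → ℤ) (w' : GolayPt → ℤ) = -8) :
    ∃ g : Co0, g • v = v ∧ g • w = w' := by
  obtain ⟨h, hh, hv0⟩ := min_rel v hv
  have r1 := rel8 (h w) (by rw [hh.2, hw]) (sum_of_dot v w h hh hv0 (-8) (-2) hd (by norm_num))
  have r2 := rel8 (h w') (by rw [hh.2, hw'])
    (sum_of_dot v w' h hh hv0 (-8) (-2) hd' (by norm_num))
  exact stab_transfer v w w' h hh hv0 (stabRel_trans r1 (stabRel_symm r2))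

theorem pair0 (v w w' : leechLattice) (hv : sqNorm (v : GolayPt → ℤ) = 32)
    (hw : sqNorm (w : GolayPt → ℤ) = 32) (hw' : sqNorm (w' : GolayPt → ℤ) = 32)
    (hd : dotInt (v : GolayPt → ℤ) (w : GolayPt → ℤ) = 0)
    (hd' : dotInt (v : GolayPt → ℤ) (w' : GolayPt → ℤ) = 0) :
    ∃ g : Co0, g • v = v ∧ (g • w = w' ∨ g • w = -w') := by
  obtain ⟨h, hh, hv0⟩ := min_rel v hv
  have r1 := rel0 (h w) (by rw [hh.2, hw]) (sum_of_dot v w h hh hv0 0 0 hd (by norm_num))
  have r2 := rel0 (h w') (by rw [hh.2, hw']) (sum_of_dot v w' h hh hv0 0 0 hd' (by norm_num))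
  rcases r1 with r1 | r1 <;> rcases r2 with r2 | r2
  · obtain ⟨g, h1, h2⟩ := stab_transfer v w w' h hh hv0 (stabRel_trans r1 (stabRel_symm r2))
    exact ⟨g, h1, Or.inl h2⟩
  · have r2' : stabRel (h (-w')) w0s := by
      have h3 := stabRel_neg r2
      rw [neg_neg, ← co0_map_neg h hh] at h3
      exact h3
    obtain ⟨g, h1, h2⟩ := stab_transfer v w (-w') h hh hv0 (stabRel_trans r1 (stabRel_symm r2'))
    exact ⟨g, h1, Or.inr h2⟩
  · have r2' : stabRel (h (-w')) (-w0s) := by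
      have h3 := stabRel_neg r2
      rw [← co0_map_neg h hh] at h3
      exact h3
    obtain ⟨g, h1, h2⟩ := stab_transfer v w (-w') h hh hv0 (stabRel_trans r1 (stabRel_symm r2'))
    exact ⟨g, h1, Or.inr h2⟩
  · obtain ⟨g, h1, h2⟩ := stab_transfer v w w' h hh hv0 (stabRel_trans r1 (stabRel_symm r2))
    exact ⟨g, h1, Or.inl h2⟩

theorem pair552 (u v v' : leechLattice) (hu : sqNorm (u : GolayPt → ℤ) = 48)
    (hv : sqNorm (v : GolayPt → ℤ) = 32 ∧
      sqNorm ((u : GolayPt → ℤ) - (v : GolayPt → ℤ)) = 32)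
    (hv' : sqNorm (v' : GolayPt → ℤ) = 32 ∧
      sqNorm ((u : GolayPt → ℤ) - (v' : GolayPt → ℤ)) = 32) :
    ∃ g : Co0, g • u = u ∧ g • v = v' := by
  have hw : sqNorm ((u - v : leechLattice) : GolayPt → ℤ) = 32 := by
    rw [AddSubgroup.coe_sub]; exact hv.2
  have hw' : sqNorm ((u - v' : leechLattice) : GolayPt → ℤ) = 32 := by
    rw [AddSubgroup.coe_sub]; exact hv'.2
  have hdot : ∀ x : leechLattice, sqNorm (x : GolayPt → ℤ) = 32 →
      sqNorm ((u - x : leechLattice) : GolayPt → ℤ) = 32 →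
      dotInt (x : GolayPt → ℤ) ((u - x : leechLattice) : GolayPt → ℤ) = -8 := by
    intro x hx hux
    have key : sqNorm (u : GolayPt → ℤ) = sqNorm (x : GolayPt → ℤ) +
        sqNorm ((u - x : leechLattice) : GolayPt → ℤ) +
        2 * dotInt (x : GolayPt → ℤ) ((u - x : leechLattice) : GolayPt → ℤ) := by
      rw [← Helper28.Leech.sqNorm_add, AddSubgroup.coe_sub, add_sub_cancel]
    rw [hu, hx, hux] at key
    omega
  obtain ⟨g1, hg1⟩ := co0_trans_min v v' hv.1 hv'.1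
  have hg1' : (g1 : Equiv.Perm leechLattice) v = v' := hg1
  have hd1 : dotInt (v' : GolayPt → ℤ)
      (((g1 : Equiv.Perm leechLattice) (u - v) : leechLattice) : GolayPt → ℤ) = -8 := by
    rw [← hg1', co0_dot _ g1.2]
    exact hdot v hv.1 hw
  obtain ⟨g2, hg2v, hg2w⟩ := pair8 v' ((g1 : Equiv.Perm leechLattice) (u - v)) (u - v') hv'.1
    (by rw [g1.2.2]; exact hw) hw' hd1 (hdot v' hv'.1 hw')
  have e2 : (g2 : Equiv.Perm leechLattice) v' = v' := hg2v
  have e3 : (g2 : Equiv.Perm leechLattice) ((g1 : Equiv.Perm leechLattice) (u - v)) = u - v' :=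
    hg2w
  refine ⟨g2 * g1, ?_, ?_⟩
  · have hu_eq : u = v + (u - v) := by abel
    have e1 : (g1 : Equiv.Perm leechLattice) u =
        v' + (g1 : Equiv.Perm leechLattice) (u - v) := by
      conv_lhs => rw [hu_eq]
      rw [g1.2.1, hg1']
    show (g2 : Equiv.Perm leechLattice) ((g1 : Equiv.Perm leechLattice) u) = u
    rw [e1, g2.2.1, e2, e3]
    abel
  · show (g2 : Equiv.Perm leechLattice) ((g1 : Equiv.Perm leechLattice) v) = v'
    rw [hg1', e2]

end Cfsg.Agent.Helper3
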