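import Mathlib
import Cfsg.Agent.Helper3.LeechPair

set_option autoImplicit false
set_option linter.unusedSectionVars false
set_option linter.style.haveILetI false
set_option linter.unusedSimpArgs false
set_option linter.unusedVariables false
set_option linter.deprecated false
set_option linter.unnecessarySeqFocus false

namespace Cfsg.Agent.Helper3

open Cfsg Cfsg.Agent.Helper28.Leech
open scoped Pointwise

/-! ### census of norm-48 vectors against a minimal vector -/

theorem census48_v0_set (d t : ℤ) (hd : d = 4 * t) :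
    {w : GolayPt → ℤ | w ∈ leechLattice ∧ sqNorm w = 48 ∧ dotInt (v0 : GolayPt → ℤ) w = d} =
      pairSel alFull sqw 48 t := by
  have hS := norm_set_eq 48 (by norm_num)
  simp only [Nat.cast_ofNat] at hS
  ext w
  constructor
  · rintro ⟨hw, hn, hdot⟩
    have hw' : w ∈ leechSel alFull sqw 48 := by
      rw [← hS]; exact ⟨hw, hn⟩
    refine ⟨hw, hw'.2.1, hw'.2.2, ?_⟩
    rw [dot_v0] at hdot
    omega
  · rintro ⟨hw, hal, hsum, ht⟩
    have hw' : w ∈ {x : GolayPt → ℤ | x ∈ leechLattice ∧ sqNorm x = 48} := by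
      rw [hS]; exact ⟨hw, hal, hsum⟩
    refine ⟨hw, hw'.2, ?_⟩
    rw [dot_v0]
    omega

set_option maxRecDepth 100000 in
theorem census48_v0 : (pairSel alFull sqw 48 (-4)).ncard = 953856 := by
  rw [pairSel_count alFull alFull_nodup sqw 48 (-4)]
  decide +kernel

theorem census_transferN (N : ℤ) (v : leechLattice) (g : Equiv.Perm leechLattice) (hg : g ∈ Co0)
    (d : ℤ) :
    {w : leechLattice | sqNorm (w : GolayPt → ℤ) = N ∧
      dotInt (v : GolayPt → ℤ) (w : GolayPt → ℤ) = d}.ncard =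
    {w : leechLattice | sqNorm (w : GolayPt → ℤ) = N ∧
      dotInt ((g v : leechLattice) : GolayPt → ℤ) (w : GolayPt → ℤ) = d}.ncard := by
  have himg : {w : leechLattice | sqNorm (w : GolayPt → ℤ) = N ∧
      dotInt ((g v : leechLattice) : GolayPt → ℤ) (w : GolayPt → ℤ) = d} =
      g '' {w : leechLattice | sqNorm (w : GolayPt → ℤ) = N ∧
        dotInt (v : GolayPt → ℤ) (w : GolayPt → ℤ) = d} := by
    ext w
    constructor
    · rintro ⟨h1, h2⟩
      refine ⟨g.symm w, ⟨?_, ?_⟩, by simp⟩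
      · rw [← hg.2 (g.symm w)]
        simpa using h1
      · rw [← co0_dot g hg]
        simpa using h2
    · rintro ⟨w', ⟨h1, h2⟩, rfl⟩
      exact ⟨by rw [hg.2]; exact h1, by rw [co0_dot g hg]; exact h2⟩
  rw [himg, Set.ncard_image_of_injective _ g.injective]

theorem sub_set_ncard (P : (GolayPt → ℤ) → Prop) :
    {w : leechLattice | P (w : GolayPt → ℤ)}.ncard =
      {w : GolayPt → ℤ | w ∈ leechLattice ∧ P w}.ncard := by
  have e : {w : GolayPt → ℤ | w ∈ leechLattice ∧ P w} =
      Subtype.val '' {w : leechLattice | P (w : GolayPt → ℤ)} := by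
    ext w
    constructor
    · rintro ⟨hw, h1⟩
      exact ⟨⟨w, hw⟩, h1, rfl⟩
    · rintro ⟨w', h1, rfl⟩
      exact ⟨w'.2, h1⟩
  rw [e, Set.ncard_image_of_injective _ Subtype.val_injective]

/-- norm-48 vectors of inner product `-16` with a minimal vector -/
theorem census48 (x : leechLattice) (hx : sqNorm (x : GolayPt → ℤ) = 32) :
    {u : leechLattice | sqNorm (u : GolayPt → ℤ) = 48 ∧
      dotInt (x : GolayPt → ℤ) (u : GolayPt → ℤ) = -16}.ncard = 953856 := by
  obtain ⟨g, hg, h⟩ := min_rel x hx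
  rw [census_transferN 48 x g hg (-16), h,
    sub_set_ncard (fun w => sqNorm w = 48 ∧ dotInt (v0 : GolayPt → ℤ) w = -16),
    census48_v0_set (-16) (-4) (by norm_num), census48_v0]

/-! ### transitivity -/

theorem odd_all (u : GolayPt → ℤ) (hu : u ∈ leechLattice) (i0 : GolayPt) (h : u i0 % 2 = 1) :
    ∀ i, u i % 2 = 1 := by
  rw [mem_leech_iff_fibre] at hu
  obtain ⟨m, hm, c, hc, h1, -⟩ := hu
  have hm1 : m = 1 := by
    rcases hm with h' | h'
    · exfalso
      have e := h1 i0
      unfold lres at e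
      rw [h'] at e
      split_ifs at e <;> omega
    · exact h'
  subst hm1
  intro i
  have e := h1 i
  unfold lres at e
  split_ifs at e <;> omega

theorem odd48_count (u : GolayPt → ℤ) (hn : sqNorm u = 48) (hodd : ∀ i, u i % 2 = 1) :
    ((Finset.univ.filter (fun i => u i = 3 ∨ u i = -3)).card = 3 ∧
      (Finset.univ.filter (fun i => u i = 5 ∨ u i = -5)).card = 0) ∨
    ((Finset.univ.filter (fun i => u i = 3 ∨ u i = -3)).card = 0 ∧
      (Finset.univ.filter (fun i => u i = 5 ∨ u i = -5)).card = 1) := by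
  classical
  have hv : ∀ i, u i = 1 ∨ u i = -1 ∨ u i = 3 ∨ u i = -3 ∨ u i = 5 ∨ u i = -5 := by
    intro i
    have := bound6 u hn i
    have := hodd i
    omega
  have hsq : ∀ i, u i ^ 2 = 1 + ((if (u i = 3 ∨ u i = -3) then (8 : ℤ) else 0) +
      (if (u i = 5 ∨ u i = -5) then (24 : ℤ) else 0)) := by
    intro i
    rcases hv i with h | h | h | h | h | h <;> rw [h] <;> norm_num
  have hcount : ((Finset.univ.filter (fun i => u i = 3 ∨ u i = -3)).card : ℤ) +
      3 * ((Finset.univ.filter (fun i => u i = 5 ∨ u i = -5)).card : ℤ) = 3 := by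
    have := hn
    unfold sqNorm at this
    rw [Finset.sum_congr rfl (fun i _ => hsq i), Finset.sum_add_distrib, Finset.sum_add_distrib,
      Finset.sum_const, Finset.card_univ, Helper28.Leech.card_pts, ← Finset.sum_filter,
      ← Finset.sum_filter, Finset.sum_const, Finset.sum_const, nsmul_eq_mul, nsmul_eq_mul,
      nsmul_eq_mul] at this
    push_cast at this
    omega
  omega

theorem odd48_vals (u : GolayPt → ℤ) (hn : sqNorm u = 48) (hodd : ∀ i, u i % 2 = 1) (i : GolayPt) :
    u i = 1 ∨ u i = -1 ∨ u i = 3 ∨ u i = -3 ∨ u i = 5 ∨ u i = -5 := by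
  have := bound6 u hn i
  have := hodd i
  omega

/-- the target class: `-5` at `∞`, `1` at `0` -/
def isT (u : leechLattice) : Prop :=
  sqNorm (u : GolayPt → ℤ) = 48 ∧ (u : GolayPt → ℤ) none = -5 ∧ (u : GolayPt → ℤ) (gPt 0) = 1

theorem signAut_invol (c : Finset GolayPt) (hc : Helper28.Code.ofSet c ∈ golayCode)
    (x : leechLattice) : signAut c hc (signAut c hc x) = x := by
  apply Subtype.ext
  funext k
  rw [signAut_apply, signAut_apply]
  split_ifs <;> simp

theorem T_norm (u : leechLattice) (hT : isT u) :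
    ∃ c ∈ gCode, none ∈ gSup c ∧ gPt 0 ∉ gSup c ∧
      ∃ hcc : Helper28.Code.ofSet (gSup c) ∈ golayCode, signAut (gSup c) hcc u = u5L := by
  classical
  obtain ⟨hn, hinf, h0⟩ := hT
  have hodd := odd_all _ u.2 none (by rw [hinf]; norm_num)
  have huL := u.2
  rw [mem_leech_iff_fibre] at huL
  obtain ⟨m, hm, c, hc, h1, -⟩ := huL
  have hm1 : m = 1 := by
    rcases hm with h | h
    · exfalso
      have e := h1 none
      unfold lres at e
      rw [h, hinf] at e
      split_ifs at e <;> omega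
    · exact h
  subst hm1
  have hcc : Helper28.Code.ofSet (gSup c) ∈ golayCode :=
    (Helper28.Code.mem_supports_iff golayCode _).1 ((mem_supports_iff _).2 ⟨c, hc, rfl⟩)
  have hnc : none ∈ gSup c := by
    by_contra hmem
    have e := h1 none
    unfold lres at e
    rw [if_neg hmem, hinf] at e
    omega
  have h0c : gPt 0 ∉ gSup c := by
    intro hmem
    have e := h1 (gPt 0)
    unfold lres at e
    rw [if_pos hmem, h0] at e
    omega
  refine ⟨c, hc, hnc, h0c, hcc, ?_⟩
  have h5 : none ∈ Finset.univ.filter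
      (fun i => (u : GolayPt → ℤ) i = 5 ∨ (u : GolayPt → ℤ) i = -5) := by
    simp [hinf]
  have hpm : ∀ k, k ≠ none → ((u : GolayPt → ℤ) k = 1 ∨ (u : GolayPt → ℤ) k = -1) := by
    intro k hk
    rcases odd48_count _ hn hodd with ⟨-, hB⟩ | ⟨hA, hB⟩
    · rw [Finset.card_eq_zero.1 hB] at h5
      exact absurd h5 (Finset.notMem_empty _)
    · obtain ⟨i0, hi0⟩ := Finset.card_eq_one.1 hB
      have hi0n : none = i0 := by
        rw [hi0] at h5
        exact Finset.mem_singleton.1 h5
      rcases odd48_vals _ hn hodd k with h | h | h | h | h | h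
      · exact Or.inl h
      · exact Or.inr h
      · exfalso
        have : k ∈ Finset.univ.filter
            (fun i => (u : GolayPt → ℤ) i = 3 ∨ (u : GolayPt → ℤ) i = -3) := by simp [h]
        rw [Finset.card_eq_zero.1 hA] at this
        exact absurd this (Finset.notMem_empty _)
      · exfalso
        have : k ∈ Finset.univ.filter
            (fun i => (u : GolayPt → ℤ) i = 3 ∨ (u : GolayPt → ℤ) i = -3) := by simp [h]
        rw [Finset.card_eq_zero.1 hA] at this
        exact absurd this (Finset.notMem_empty _)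
      · exfalso
        have : k ∈ Finset.univ.filter
            (fun i => (u : GolayPt → ℤ) i = 5 ∨ (u : GolayPt → ℤ) i = -5) := by simp [h]
        rw [hi0] at this
        exact hk ((Finset.mem_singleton.1 this).trans hi0n.symm)
      · exfalso
        have : k ∈ Finset.univ.filter
            (fun i => (u : GolayPt → ℤ) i = 5 ∨ (u : GolayPt → ℤ) i = -5) := by simp [h]
        rw [hi0] at this
        exact hk ((Finset.mem_singleton.1 this).trans hi0n.symm)
  apply Subtype.ext
  funext k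
  rw [signAut_apply]
  show _ = if k = none then (5 : ℤ) else 1
  have e := h1 k
  unfold lres at e
  by_cases hk : k = none
  · subst hk
    rw [if_pos hnc, if_pos rfl, hinf]
    norm_num
  · rw [if_neg hk]
    by_cases hkc : k ∈ gSup c
    · rw [if_pos hkc] at e ⊢
      rcases hpm k hk with h' | h' <;> rw [h'] at e ⊢ <;> omega
    · rw [if_neg hkc] at e ⊢
      rcases hpm k hk with h' | h' <;> rw [h'] at e ⊢ <;> omega

theorem sign2_fix_v0 (c c' : ℕ) (hcc : Helper28.Code.ofSet (gSup c) ∈ golayCode)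
    (hcc' : Helper28.Code.ofSet (gSup c') ∈ golayCode) (hn : none ∈ gSup c)
    (h0 : gPt 0 ∉ gSup c) (hn' : none ∈ gSup c') (h0' : gPt 0 ∉ gSup c') :
    signAut (gSup c') hcc' (signAut (gSup c) hcc v0) = v0 := by
  apply Subtype.ext
  funext k
  rw [signAut_apply, signAut_apply, v0_apply]
  by_cases hk : k = none
  · subst hk
    rw [if_pos hn', if_pos hn]
    norm_num
  · by_cases hk0 : k = gPt 0
    · subst hk0
      rw [if_neg h0', if_neg h0]
    · rw [if_neg hk, if_neg hk0]
      split_ifs <;> norm_num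

theorem T_rel (u u' : leechLattice) (hT : isT u) (hT' : isT u') : stabRel u u' := by
  obtain ⟨c, hc, hn, h0, hcc, e⟩ := T_norm u hT
  obtain ⟨c', hc', hn', h0', hcc', e'⟩ := T_norm u' hT'
  refine ⟨signAut (gSup c') hcc' * signAut (gSup c) hcc,
    Co0.mul_mem (signAut_mem _ hcc') (signAut_mem _ hcc), ?_, ?_⟩
  · rw [Equiv.Perm.mul_apply]
    exact sign2_fix_v0 c c' hcc hcc' hn h0 hn' h0'
  · rw [Equiv.Perm.mul_apply, e, ← e', signAut_invol]

theorem oddT (u : leechLattice) (hn : sqNorm (u : GolayPt → ℤ) = 48)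
    (hodd1 : (u : GolayPt → ℤ) none % 2 = 1)
    (ht : (u : GolayPt → ℤ) none + (u : GolayPt → ℤ) (gPt 0) = -4) :
    ∃ t, stabRel u t ∧ isT t := by
  classical
  have hodd := odd_all _ u.2 none hodd1
  have hvn := odd48_vals _ hn hodd none
  have hv0 := odd48_vals _ hn hodd (gPt 0)
  rcases odd48_count _ hn hodd with ⟨hA, hB⟩ | ⟨hA, hB⟩
  · -- three entries `±3`
    have hno5 : ∀ k, ¬ ((u : GolayPt → ℤ) k = 5 ∨ (u : GolayPt → ℤ) k = -5) := by
      intro k h
      have : k ∈ Finset.univ.filter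
          (fun i => (u : GolayPt → ℤ) i = 5 ∨ (u : GolayPt → ℤ) i = -5) := by simp [h]
      rw [Finset.card_eq_zero.1 hB] at this
      exact absurd this (Finset.notMem_empty _)
    have h5n := hno5 none
    have h50 := hno5 (gPt 0)
    have hcase : ((u : GolayPt → ℤ) none = -3 ∧ (u : GolayPt → ℤ) (gPt 0) = -1) ∨
        ((u : GolayPt → ℤ) none = -1 ∧ (u : GolayPt → ℤ) (gPt 0) = -3) := by omega
    -- the point among `∞`, `0` carrying the `-3`
    obtain ⟨p, hp, hpv⟩ : ∃ p, (p = none ∨ p = gPt 0) ∧ (u : GolayPt → ℤ) p = -3 := by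
      rcases hcase with ⟨h, -⟩ | ⟨-, h⟩
      · exact ⟨none, Or.inl rfl, h⟩
      · exact ⟨gPt 0, Or.inr rfl, h⟩
    have hpA : p ∈ Finset.univ.filter
        (fun i => (u : GolayPt → ℤ) i = 3 ∨ (u : GolayPt → ℤ) i = -3) := by simp [hpv]
    have h2 : ((Finset.univ.filter
        (fun i => (u : GolayPt → ℤ) i = 3 ∨ (u : GolayPt → ℤ) i = -3)).erase p).card = 2 := by
      rw [Finset.card_erase_of_mem hpA, hA]
    obtain ⟨q, r, hqr, hqrS⟩ := Finset.card_eq_two.1 h2
    have hq : q ∈ (Finset.univ.filter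
        (fun i => (u : GolayPt → ℤ) i = 3 ∨ (u : GolayPt → ℤ) i = -3)).erase p := by
      rw [hqrS]; simp
    have hr : r ∈ (Finset.univ.filter
        (fun i => (u : GolayPt → ℤ) i = 3 ∨ (u : GolayPt → ℤ) i = -3)).erase p := by
      rw [hqrS]; simp
    have hq3 : (u : GolayPt → ℤ) q = 3 ∨ (u : GolayPt → ℤ) q = -3 :=
      (Finset.mem_filter.1 (Finset.mem_erase.1 hq).2).2
    have hr3 : (u : GolayPt → ℤ) r = 3 ∨ (u : GolayPt → ℤ) r = -3 :=
      (Finset.mem_filter.1 (Finset.mem_erase.1 hr).2).2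
    have hqp : q ≠ p := (Finset.mem_erase.1 hq).1
    have hrp : r ≠ p := (Finset.mem_erase.1 hr).1
    have hqn : q ≠ none := by
      intro h
      rcases hcase with ⟨h', h''⟩ | ⟨h', h''⟩
      · rcases hp with hp | hp
        · exact hqp (h.trans hp.symm)
        · rw [hp] at hpv; omega
      · rw [h] at hq3; omega
    have hq0 : q ≠ gPt 0 := by
      intro h
      rcases hcase with ⟨h', h''⟩ | ⟨h', h''⟩
      · rw [h] at hq3; omega
      · rcases hp with hp | hp
        · rw [hp] at hpv; omega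
        · exact hqp (h.trans hp.symm)
    have hrn : r ≠ none := by
      intro h
      rcases hcase with ⟨h', h''⟩ | ⟨h', h''⟩
      · rcases hp with hp | hp
        · exact hrp (h.trans hp.symm)
        · rw [hp] at hpv; omega
      · rw [h] at hr3; omega
    have hr0 : r ≠ gPt 0 := by
      intro h
      rcases hcase with ⟨h', h''⟩ | ⟨h', h''⟩
      · rw [h] at hr3; omega
      · rcases hp with hp | hp
        · rw [hp] at hpv; omega
        · exact hrp (h.trans hp.symm)
    obtain ⟨g, hg, hgv, hmove⟩ := stab_move q r hqr hq0 hqn hr0 hrn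
      (decide ((u : GolayPt → ℤ) q = 3)) (decide ((u : GolayPt → ℤ) r = 3)) false false
    have r' : stabRel u (g u) := ⟨g, hg, hgv, rfl⟩
    rcases hcase with ⟨e1, e2⟩ | ⟨e1, e2⟩
    · obtain ⟨m0, m1, m2, m3⟩ := hmove u (-1) (-3) (-3) 3 e2.symm
        (by rcases hq3 with h | h <;> simp [sg, h]) (by rcases hr3 with h | h <;> simp [sg, h])
        (by simp [e1])
      exact ⟨g u, r', by rw [stabRel_norm r', hn], by omega, by omega⟩
    · obtain ⟨m0, m1, m2, m3⟩ := hmove u (-3) (-3) (-3) 1 e2.symm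
        (by rcases hq3 with h | h <;> simp [sg, h]) (by rcases hr3 with h | h <;> simp [sg, h])
        (by simp [e1])
      exact ⟨g u, r', by rw [stabRel_norm r', hn], by omega, by omega⟩
  · -- one entry `±5`
    have hno3 : ∀ k, ¬ ((u : GolayPt → ℤ) k = 3 ∨ (u : GolayPt → ℤ) k = -3) := by
      intro k h
      have : k ∈ Finset.univ.filter
          (fun i => (u : GolayPt → ℤ) i = 3 ∨ (u : GolayPt → ℤ) i = -3) := by simp [h]
      rw [Finset.card_eq_zero.1 hA] at this
      exact absurd this (Finset.notMem_empty _)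
    have h3n := hno3 none
    have h30 := hno3 (gPt 0)
    have hcase : ((u : GolayPt → ℤ) none = -5 ∧ (u : GolayPt → ℤ) (gPt 0) = 1) ∨
        ((u : GolayPt → ℤ) none = 1 ∧ (u : GolayPt → ℤ) (gPt 0) = -5) := by omega
    rcases hcase with ⟨e1, e2⟩ | ⟨e1, e2⟩
    · exact ⟨u, stabRel_refl u, hn, e1, e2⟩
    · obtain ⟨w', r', f1, f2⟩ := swap_rel u
      exact ⟨w', r', by rw [stabRel_norm r', hn], by rw [f1, e2], by rw [f2, e1]⟩

theorem evenT (u : leechLattice) (hn : sqNorm (u : GolayPt → ℤ) = 48)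
    (hev : (u : GolayPt → ℤ) none % 2 = 0)
    (ht : (u : GolayPt → ℤ) none + (u : GolayPt → ℤ) (gPt 0) = -4) :
    ∃ t, stabRel u t ∧ isT t := by
  classical
  obtain ⟨w, hw, hS⟩ := even_fibre _ u.2 none hev
  have hcard := card_gSup w
  have hsum : (∑ i, (u : GolayPt → ℤ) i) % 8 = 0 :=
    even_sum _ u.2 none (Int.dvd_of_emod_eq_zero hev)
  have hub : 4 * ((gSup w).card : ℤ) ≤ 48 := by
    have h4 : ∀ i, (if i ∈ gSup w then (4 : ℤ) else 0) ≤ (u : GolayPt → ℤ) i ^ 2 := by
      intro i
      by_cases hi : i ∈ gSup w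
      · rw [if_pos hi]
        have e := hS i
        rw [if_pos hi] at e
        have : (u : GolayPt → ℤ) i ≤ -2 ∨ 2 ≤ (u : GolayPt → ℤ) i := by omega
        rcases this with h | h <;> nlinarith
      · rw [if_neg hi]; positivity
    have h5 := Finset.sum_le_sum (fun i _ => h4 i) (s := Finset.univ)
    rw [Finset.sum_ite_mem, Finset.univ_inter, Finset.sum_const, nsmul_eq_mul] at h5
    have hn' := hn
    unfold sqNorm at hn'
    linarith
  have hne : pc24 w ≠ 0 := by
    intro h0
    have hemp : gSup w = ∅ := Finset.card_eq_zero.1 (by rw [hcard, h0])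
    have h4 : ∀ i, (u : GolayPt → ℤ) i % 4 = 0 := by
      intro i
      have e := hS i
      rw [hemp] at e
      simpa using e
    have h32 : ∀ i, (32 : ℤ) ∣ 4 * (u : GolayPt → ℤ) i - (u : GolayPt → ℤ) i ^ 2 := by
      intro i
      obtain ⟨z, hz⟩ : (4 : ℤ) ∣ (u : GolayPt → ℤ) i := Int.dvd_of_emod_eq_zero (h4 i)
      rw [hz]
      have h2 : (2 : ℤ) ∣ z * (1 - z) := by
        rcases Int.even_or_odd z with h | h
        · exact (h.mul_right _).two_dvd
        · have h' : Even (1 - z) := by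
            obtain ⟨k, hk⟩ := h
            exact ⟨-k, by rw [hk]; ring⟩
          exact (h'.mul_left _).two_dvd
      obtain ⟨t, ht⟩ := h2
      exact ⟨t, by linear_combination 16 * ht⟩
    have hs32 : (32 : ℤ) ∣ ∑ i, (4 * (u : GolayPt → ℤ) i - (u : GolayPt → ℤ) i ^ 2) :=
      Finset.dvd_sum (fun i _ => h32 i)
    rw [Finset.sum_sub_distrib, ← Finset.mul_sum] at hs32
    have hn' := hn
    unfold sqNorm at hn'
    rw [hn'] at hs32
    omega
  have h8 : 8 ≤ (gSup w).card := by
    rcases gCode_wt8 w hw with h | h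
    · exact absurd h hne
    · rw [hcard]; exact h
  -- a point of the support and a point off it, both away from `∞` and `0`
  obtain ⟨a, ha, -, -, -, han, ha0, -, -⟩ := exists_two (gSup w) (by omega) none (gPt 0)
  have hcomp : 4 ≤ (Finset.univ \ gSup w).card := by
    have h1 := Finset.card_sdiff_add_card_eq_card (Finset.subset_univ (gSup w))
    have h2 : (Finset.univ : Finset GolayPt).card = 24 := by
      rw [Finset.card_univ]; exact Helper28.Leech.card_pts
    have h3 : ((gSup w).card : ℤ) ≤ 12 := by linarith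
    omega
  obtain ⟨b, hb, -, -, -, hbn, hb0, -, -⟩ := exists_two (Finset.univ \ gSup w) hcomp none (gPt 0)
  have hbS : b ∉ gSup w := (Finset.mem_sdiff.1 hb).2
  have hab : a ≠ b := fun h => hbS (h ▸ ha)
  obtain ⟨g, hg, hgv, hmove⟩ := stab_move a b hab ha0 han hb0 hbn false false false false
  obtain ⟨m0, m1, m2, m3⟩ := hmove u ((u : GolayPt → ℤ) (gPt 0)) ((u : GolayPt → ℤ) a)
    ((u : GolayPt → ℤ) b) (-(u : GolayPt → ℤ) none) rfl (by simp [sg]) (by simp [sg]) rfl
  have r : stabRel u (g u) := ⟨g, hg, hgv, rfl⟩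
  have ea := hS a
  have eb := hS b
  rw [if_pos ha] at ea
  rw [if_neg hbS] at eb
  have hodd0 : ((g u : leechLattice) : GolayPt → ℤ) (gPt 0) % 2 = 1 := by omega
  have hoddn : ((g u : leechLattice) : GolayPt → ℤ) none % 2 = 1 :=
    odd_all _ (g u).2 (gPt 0) hodd0 none
  obtain ⟨t, rt, hT⟩ := oddT (g u) (by rw [stabRel_norm r, hn]) hoddn (by rw [stabRel_sum r, ht])
  exact ⟨t, stabRel_trans r rt, hT⟩

theorem relU (u u' : leechLattice) (hn : sqNorm (u : GolayPt → ℤ) = 48)
    (hn' : sqNorm (u' : GolayPt → ℤ) = 48)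
    (ht : (u : GolayPt → ℤ) none + (u : GolayPt → ℤ) (gPt 0) = -4)
    (ht' : (u' : GolayPt → ℤ) none + (u' : GolayPt → ℤ) (gPt 0) = -4) : stabRel u u' := by
  have key : ∀ z : leechLattice, sqNorm (z : GolayPt → ℤ) = 48 →
      (z : GolayPt → ℤ) none + (z : GolayPt → ℤ) (gPt 0) = -4 → ∃ t, stabRel z t ∧ isT t := by
    intro z hz hzt
    by_cases hp : (z : GolayPt → ℤ) none % 2 = 1
    · exact oddT z hz hp hzt
    · exact evenT z hz (by omega) hzt
  obtain ⟨t, rt, hT⟩ := key u hn ht
  obtain ⟨t', rt', hT'⟩ := key u' hn' ht'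
  exact stabRel_trans rt (stabRel_trans (T_rel t t' hT hT') (stabRel_symm rt'))

/-- the stabiliser of a minimal vector is transitive on the norm-48 vectors of inner
product `-16` with it -/
theorem pair48 (x u u' : leechLattice) (hx : sqNorm (x : GolayPt → ℤ) = 32)
    (hu : sqNorm (u : GolayPt → ℤ) = 48) (hu' : sqNorm (u' : GolayPt → ℤ) = 48)
    (hd : dotInt (x : GolayPt → ℤ) (u : GolayPt → ℤ) = -16)
    (hd' : dotInt (x : GolayPt → ℤ) (u' : GolayPt → ℤ) = -16) :
    ∃ g : Co0, g • x = x ∧ g • u = u' := by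
  obtain ⟨h, hh, hv0⟩ := min_rel x hx
  have r := relU (h u) (h u') (by rw [hh.2, hu]) (by rw [hh.2, hu'])
    (sum_of_dot x u h hh hv0 (-16) (-4) hd (by norm_num))
    (sum_of_dot x u' h hh hv0 (-16) (-4) hd' (by norm_num))
  exact stab_transfer x u u' h hh hv0 r

theorem dot_add_left (x y z : GolayPt → ℤ) : dotInt (x + y) z = dotInt x z + dotInt y z := by
  unfold dotInt
  rw [← Finset.sum_add_distrib]
  apply Finset.sum_congr rfl
  intro i _
  simp only [Pi.add_apply]
  ring

theorem dot_neg_right (x y : GolayPt → ℤ) : dotInt x (-y) = -dotInt x y := by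
  unfold dotInt
  rw [← Finset.sum_neg_distrib]
  apply Finset.sum_congr rfl
  intro i _
  simp only [Pi.neg_apply]
  ring

/-- two norm-48 vectors of inner product `-32` are exchanged by an automorphism -/
theorem swap48 (v w : leechLattice) (hv : sqNorm (v : GolayPt → ℤ) = 48)
    (hw : sqNorm (w : GolayPt → ℤ) = 48)
    (hvw : dotInt (v : GolayPt → ℤ) (w : GolayPt → ℤ) = -32) :
    ∃ g : Co0, g • v = w ∧ g • w = v := by
  have hz : sqNorm ((v + w : leechLattice) : GolayPt → ℤ) = 32 := by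
    rw [AddSubgroup.coe_add, Helper28.Leech.sqNorm_add, hv, hw, hvw]
    norm_num
  have hwv : dotInt (w : GolayPt → ℤ) (v : GolayPt → ℤ) = -32 := by
    rw [dotInt_symm]; exact hvw
  have hd1 : dotInt ((v + w : leechLattice) : GolayPt → ℤ) ((-v : leechLattice) : GolayPt → ℤ)
      = -16 := by
    rw [AddSubgroup.coe_add, AddSubgroup.coe_neg, dot_neg_right, dot_add_left,
      ← sqNorm_eq_dot, hv, hwv]
    norm_num
  have hd2 : dotInt ((v + w : leechLattice) : GolayPt → ℤ) ((-w : leechLattice) : GolayPt → ℤ)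
      = -16 := by
    rw [AddSubgroup.coe_add, AddSubgroup.coe_neg, dot_neg_right, dot_add_left,
      ← sqNorm_eq_dot, hw, hvw]
    norm_num
  obtain ⟨g, hgz, hgv⟩ := pair48 (v + w) (-v) (-w) hz
    (by rw [AddSubgroup.coe_neg, Helper28.Leech.sqNorm_neg]; exact hv)
    (by rw [AddSubgroup.coe_neg, Helper28.Leech.sqNorm_neg]; exact hw) hd1 hd2
  have e1 : (g : Equiv.Perm leechLattice) (v + w) = v + w := hgz
  have e2 : (g : Equiv.Perm leechLattice) (-v) = -w := hgv
  have e3 : (g : Equiv.Perm leechLattice) v = w := by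
    rw [co0_map_neg _ g.2] at e2
    exact neg_injective e2
  refine ⟨g, e3, ?_⟩
  show (g : Equiv.Perm leechLattice) w = v
  have e4 := e1
  rw [g.2.1, e3] at e4
  -- e4 : w + g w = v + w
  have e5 : (g : Equiv.Perm leechLattice) w = v + w - w := by
    rw [← e4]; abel
  rw [e5]; abel

/-- `11178` minimal vectors of inner product `-16` with a norm-48 vector, permuted
transitively by its stabiliser -/
theorem count11178 (u : leechLattice) (hu : sqNorm (u : GolayPt → ℤ) = 48) :
    {x : leechLattice | sqNorm (x : GolayPt → ℤ) = 32 ∧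
      dotInt (u : GolayPt → ℤ) (x : GolayPt → ℤ) = -16}.ncard = 11178 := by
  classical
  have hf3 := normSet_finite 48 (by norm_num)
  have hf2 := normSet_finite 32 (by norm_num)
  simp only [Nat.cast_ofNat] at hf3 hf2
  have hc3 : hf3.toFinset.card = 16773120 := by
    rw [← Set.ncard_eq_toFinset_card _ hf3, normSet_ncard, leech_count_48]
  have hc2 : hf2.toFinset.card = 196560 := by
    rw [← Set.ncard_eq_toFinset_card _ hf2, normSet_ncard, leech_count_32]
  have h1 : ∀ a ∈ hf3.toFinset, (hf2.toFinset.filter (fun b : leechLattice =>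
      dotInt (a : GolayPt → ℤ) (b : GolayPt → ℤ) = -16)).card =
      {x : leechLattice | sqNorm (x : GolayPt → ℤ) = 32 ∧
        dotInt (u : GolayPt → ℤ) (x : GolayPt → ℤ) = -16}.ncard := by
    intro a ha
    have ha' : sqNorm (a : GolayPt → ℤ) = 48 := (Set.Finite.mem_toFinset hf3).1 ha
    obtain ⟨g, hg⟩ := co0_trans_48 a u ha' hu
    have e : u = (g : Equiv.Perm leechLattice) a := hg.symm
    rw [e, ← census_transferN 32 a _ g.2 (-16), ← Set.ncard_coe_finset]
    congr 1
    ext v
    simp only [Finset.coe_filter, Set.Finite.mem_toFinset, Set.mem_setOf_eq, normSet]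
  have h2 : ∀ b ∈ hf2.toFinset, (hf3.toFinset.filter (fun a : leechLattice =>
      dotInt (a : GolayPt → ℤ) (b : GolayPt → ℤ) = -16)).card = 953856 := by
    intro b hb
    have hb' : sqNorm (b : GolayPt → ℤ) = 32 := (Set.Finite.mem_toFinset hf2).1 hb
    rw [← census48 b hb', ← Set.ncard_coe_finset]
    congr 1
    ext v
    simp only [Finset.coe_filter, Set.Finite.mem_toFinset, Set.mem_setOf_eq, normSet]
    rw [dotInt_symm]
  have h := double_count hf3.toFinset hf2.toFinset
    (fun a b : leechLattice => dotInt (a : GolayPt → ℤ) (b : GolayPt → ℤ) = -16) _ _ h1 h2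
  rw [hc3, hc2] at h
  omega

theorem trans11178 (u x x' : leechLattice) (hu : sqNorm (u : GolayPt → ℤ) = 48)
    (hx : sqNorm (x : GolayPt → ℤ) = 32) (hx' : sqNorm (x' : GolayPt → ℤ) = 32)
    (hd : dotInt (u : GolayPt → ℤ) (x : GolayPt → ℤ) = -16)
    (hd' : dotInt (u : GolayPt → ℤ) (x' : GolayPt → ℤ) = -16) :
    ∃ g : Co0, g • u = u ∧ g • x = x' := by
  obtain ⟨g1, hg1⟩ := co0_trans_min x x' hx hx'
  have hg1' : (g1 : Equiv.Perm leechLattice) x = x' := hg1
  have hd1 : dotInt (x' : GolayPt → ℤ)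
      (((g1 : Equiv.Perm leechLattice) u : leechLattice) : GolayPt → ℤ) = -16 := by
    rw [← hg1', co0_dot _ g1.2, dotInt_symm]
    exact hd
  obtain ⟨g2, hg2x, hg2u⟩ := pair48 x' ((g1 : Equiv.Perm leechLattice) u) u hx'
    (by rw [g1.2.2]; exact hu) hu hd1 (by rw [dotInt_symm]; exact hd')
  refine ⟨g2 * g1, ?_, ?_⟩
  · show (g2 : Equiv.Perm leechLattice) ((g1 : Equiv.Perm leechLattice) u) = u
    exact hg2u
  · show (g2 : Equiv.Perm leechLattice) ((g1 : Equiv.Perm leechLattice) x) = x'
    rw [hg1']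
    exact hg2x

end Cfsg.Agent.Helper3
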