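import Mathlib
import Cfsg.Agent.Helper3.LeechPair48

set_option autoImplicit false
set_option linter.unusedSectionVars false
set_option linter.style.haveILetI false
set_option linter.unusedSimpArgs false
set_option linter.unusedVariables false
set_option linter.deprecated false
set_option linter.unnecessarySeqFocus false

namespace Cfsg.Agent.Helper3

open Cfsg Cfsg.Agent.Helper28.Leech
open scoped Pointwise

theorem dot_single_ne (i j : GolayPt) (hij : i ≠ j) (a b : ℤ) :
    dotInt (Pi.single i a : GolayPt → ℤ) (Pi.single j b) = 0 := by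
  unfold dotInt
  apply Finset.sum_eq_zero
  intro k _
  rw [Pi.single_apply, Pi.single_apply]
  split_ifs with h1 h2
  · exact absurd (h1.symm.trans h2) hij
  · ring
  · ring
  · ring

theorem sqNorm_two (i j : GolayPt) (hij : i ≠ j) (a b : ℤ) :
    sqNorm (Pi.single i a + Pi.single j b : GolayPt → ℤ) = a ^ 2 + b ^ 2 := by
  rw [Helper28.Leech.sqNorm_add, sqNorm_single, sqNorm_single, dot_single_ne i j hij]
  ring

theorem sqNorm_flip (P : GolayPt → Prop) [DecidablePred P] (x : GolayPt → ℤ) :
    sqNorm (fun i => if P i then -x i else x i) = sqNorm x := by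
  unfold sqNorm
  apply Finset.sum_congr rfl
  intro i _
  show (if P i then -x i else x i) ^ 2 = x i ^ 2
  split_ifs <;> ring

theorem w0s_norm : sqNorm (w0s : GolayPt → ℤ) = 32 := by
  show sqNorm (Pi.single none 4 + Pi.single (gPt 0) (-4) : GolayPt → ℤ) = 32
  rw [sqNorm_two none (gPt 0) (by decide)]
  norm_num

/-- minimal vectors generate the lattice -/
theorem min_gen (M : AddSubgroup (GolayPt → ℤ))
    (h : ∀ v ∈ leechLattice, sqNorm v = 32 → v ∈ M) : leechLattice ≤ M := by
  apply leech_le_of_gens M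
  · intro i
    by_cases hi : i = none
    · rw [hi, sub_self]
      exact M.zero_mem
    · have e : (Pi.single i 4 - Pi.single none 4 : GolayPt → ℤ) =
          Pi.single i 4 + Pi.single none (-4) := by
        rw [sub_eq_add_neg, ← Pi.single_neg]
      rw [e]
      apply h _ (four_pair_mem i none 4 (-4) (by norm_num) (by norm_num) (by norm_num))
      rw [sqNorm_two i none hi]
      norm_num
  · have e : (Pi.single none 8 : GolayPt → ℤ) = (v0 : GolayPt → ℤ) + (w0s : GolayPt → ℤ) := by
      show _ = (Pi.single none 4 + Pi.single (some 0) 4 : GolayPt → ℤ) +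
        (Pi.single none 4 + Pi.single (gPt 0) (-4) : GolayPt → ℤ)
      have e0 : (gPt 0 : GolayPt) = some 0 := rfl
      rw [e0]
      funext k
      simp only [Pi.add_apply, Pi.single_apply]
      split_ifs <;> norm_num
    rw [e]
    exact M.add_mem (h _ v0.2 v0_norm) (h _ w0s.2 w0s_norm)
  · exact h _ lw0_mem sqNorm_lw0
  · intro m hm
    apply h _ (sign_bit_mem m (gBasis_sub m hm) lw0 lw0_mem)
    rw [sqNorm_flip (fun i => m.testBit (gIdx i) = true) lw0]
    exact sqNorm_lw0

theorem sqNorm_nonneg (x : GolayPt → ℤ) : 0 ≤ sqNorm x := by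
  unfold sqNorm
  exact Finset.sum_nonneg (fun i _ => sq_nonneg _)

theorem sqNorm_eq_zero (x : GolayPt → ℤ) (h : sqNorm x = 0) : x = 0 := by
  unfold sqNorm at h
  have h1 := (Finset.sum_eq_zero_iff_of_nonneg (fun i _ => sq_nonneg (x i))).1 h
  funext i
  exact pow_eq_zero_iff (by norm_num) |>.1 (h1 i (Finset.mem_univ i))

theorem dot_neg_left (x y : GolayPt → ℤ) : dotInt (-x) y = -dotInt x y := by
  rw [dotInt_symm, dot_neg_right, dotInt_symm]

/-- `(1, 5, 1, ..., 1)` with the `5` at the point `0` -/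
def u5b : GolayPt → ℤ := fun i => if i = gPt 0 then 5 else 1

set_option maxRecDepth 100000 in
theorem u5b_test : ltest u5b = true := by decide +kernel

set_option maxRecDepth 100000 in
theorem u5b_norm : sqNorm u5b = 48 := by decide +kernel

set_option maxRecDepth 100000 in
theorem w0s_eq : ∀ k : GolayPt, (Pi.single none 4 + Pi.single (gPt 0) (-4) : GolayPt → ℤ) k =
    u5 k - u5b k := by decide +kernel

/-- `4` at four points -/
def q4a : GolayPt → ℤ := fun i => if i = none ∨ i = gPt 0 ∨ i = gPt 1 ∨ i = gPt 2 then 4 else 0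

def q4b : GolayPt → ℤ := fun i => if i = none ∨ i = gPt 0 ∨ i = gPt 1 ∨ i = gPt 3 then 4 else 0

set_option maxRecDepth 100000 in
theorem q4a_test : ltest q4a = true := by decide +kernel

set_option maxRecDepth 100000 in
theorem q4b_test : ltest q4b = true := by decide +kernel

set_option maxRecDepth 100000 in
theorem q4a_norm : sqNorm q4a = 64 := by decide +kernel

set_option maxRecDepth 100000 in
theorem q4b_norm : sqNorm q4b = 64 := by decide +kernel

set_option maxRecDepth 100000 in
theorem q4_eq : ∀ k : GolayPt, (Pi.single (gPt 2) 4 + Pi.single (gPt 3) (-4) : GolayPt → ℤ) k =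
    q4a k - q4b k := by decide +kernel

theorem mod2_irred (M : AddSubgroup (GolayPt → ℤ))
    (h2 : ∀ v ∈ leechLattice, (2 : ℤ) • v ∈ M) (hle : M ≤ leechLattice)
    (hinv : ∀ g : Co0, ∀ v : leechLattice, (v : GolayPt → ℤ) ∈ M →
      ((g • v : leechLattice) : GolayPt → ℤ) ∈ M) :
    (∀ x ∈ M, ∃ w ∈ leechLattice, x = (2 : ℤ) • w) ∨ M = leechLattice := by
  by_cases hM : ∀ x ∈ M, ∃ w ∈ leechLattice, x = (2 : ℤ) • w
  · exact Or.inl hM
  · right
    push Not at hM
    obtain ⟨x, hxM, hx2⟩ := hM
    obtain ⟨y, hyL, hyn, z, hzL, hz⟩ := mod_two_rep x (hle hxM)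
    have hz' : x - y = (2 : ℤ) • z := by
      rw [hz, two_smul, two_smul]
    have hyM : y ∈ M := by
      have e : y = x - (2 : ℤ) • z := by rw [← hz']; abel
      rw [e]
      exact M.sub_mem hxM (h2 z hzL)
    have hy0 : y ≠ 0 := by
      rintro rfl
      apply hx2 z hzL
      rw [← hz', sub_zero]
    have h32 := leech_min_norm y hyL hy0
    have h16 := leech_dvd y hyL
    have step32 : ∀ y' ∈ leechLattice, sqNorm y' = 32 → y' ∈ M →
        ∀ v ∈ leechLattice, sqNorm v = 32 → v ∈ M := by
      intro y' hy'L hy'n hy'M v hvL hvn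
      obtain ⟨g, hg⟩ := co0_trans_min ⟨y', hy'L⟩ ⟨v, hvL⟩ hy'n hvn
      have h3 := hinv g ⟨y', hy'L⟩ hy'M
      rw [hg] at h3
      exact h3
    have hmin : ∀ v ∈ leechLattice, sqNorm v = 32 → v ∈ M := by
      obtain ⟨k, hk⟩ := h16
      have hcases : sqNorm y = 32 ∨ sqNorm y = 48 ∨ sqNorm y = 64 := by omega
      rcases hcases with h | h | h
      · exact step32 y hyL h hyM
      · have all48 : ∀ v ∈ leechLattice, sqNorm v = 48 → v ∈ M := by
          intro v hvL hvn
          obtain ⟨g, hg⟩ := co0_trans_48 ⟨y, hyL⟩ ⟨v, hvL⟩ h hvn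
          have h3 := hinv g ⟨y, hyL⟩ hyM
          rw [hg] at h3
          exact h3
        have ha := all48 u5 u5L.2 sqNorm_u5
        have hb := all48 u5b (ltest_sound _ u5b_test) u5b_norm
        have hd : (w0s : GolayPt → ℤ) = u5 - u5b := by
          funext k
          exact w0s_eq k
        exact step32 _ w0s.2 w0s_norm (by rw [hd]; exact M.sub_mem ha hb)
      · have all64 : ∀ v ∈ leechLattice, sqNorm v = 64 → v ∈ M := by
          intro v hvL hvn
          obtain ⟨g, hg⟩ := co0_trans_64 ⟨y, hyL⟩ ⟨v, hvL⟩ h hvn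
          have h3 := hinv g ⟨y, hyL⟩ hyM
          rw [hg] at h3
          exact h3
        have ha := all64 q4a (ltest_sound _ q4a_test) q4a_norm
        have hb := all64 q4b (ltest_sound _ q4b_test) q4b_norm
        have hd : (Pi.single (gPt 2) 4 + Pi.single (gPt 3) (-4) : GolayPt → ℤ) = q4a - q4b := by
          funext k
          exact q4_eq k
        exact step32 _ (four_pair_mem (gPt 2) (gPt 3) 4 (-4) (by norm_num) (by norm_num)
          (by norm_num)) (by rw [sqNorm_two _ _ (by decide)]; norm_num)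
          (by rw [hd]; exact M.sub_mem ha hb)
    exact le_antisymm hle (min_gen M hmin)

/-- a minimal vector meeting `v0` and a given minimal vector orthogonal to `v0` -/
def u01 : leechLattice := ⟨Pi.single none 4 + Pi.single (gPt 1) 4,
  four_pair_mem _ _ 4 4 (by norm_num) (by norm_num) (by norm_num)⟩

set_option maxRecDepth 100000 in
theorem dot_w0s_u01 : dotInt (Pi.single none 4 + Pi.single (gPt 0) (-4) : GolayPt → ℤ)
    (Pi.single none 4 + Pi.single (gPt 1) 4) = 16 := by decide +kernel

set_option maxRecDepth 100000 in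
theorem dot_v0_u01 : dotInt (Pi.single none 4 + Pi.single (some 0) 4 : GolayPt → ℤ)
    (Pi.single none 4 + Pi.single (gPt 1) 4) = 16 := by decide +kernel

theorem exists_third (v : leechLattice) (hv : sqNorm (v : GolayPt → ℤ) = 32)
    (hd : dotInt (v0 : GolayPt → ℤ) (v : GolayPt → ℤ) = 0) :
    ∃ u : leechLattice, sqNorm (u : GolayPt → ℤ) = 32 ∧
      dotInt (v0 : GolayPt → ℤ) (u : GolayPt → ℤ) ≠ 0 ∧
      dotInt (v : GolayPt → ℤ) (u : GolayPt → ℤ) ≠ 0 := by
  have hsum : (v : GolayPt → ℤ) none + (v : GolayPt → ℤ) (gPt 0) = 0 := by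
    rw [dot_v0] at hd
    have e : (gPt 0 : GolayPt) = some 0 := rfl
    rw [e]
    omega
  have hu01 : sqNorm (u01 : GolayPt → ℤ) = 32 := by
    show sqNorm (Pi.single none 4 + Pi.single (gPt 1) 4 : GolayPt → ℤ) = 32
    rw [sqNorm_two _ _ (by decide)]
    norm_num
  have key : ∀ w : leechLattice, stabRel v w →
      dotInt (w : GolayPt → ℤ) (u01 : GolayPt → ℤ) ≠ 0 →
      ∃ u : leechLattice, sqNorm (u : GolayPt → ℤ) = 32 ∧
        dotInt (v0 : GolayPt → ℤ) (u : GolayPt → ℤ) ≠ 0 ∧
        dotInt (v : GolayPt → ℤ) (u : GolayPt → ℤ) ≠ 0 := by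
    rintro w ⟨h, hh, hv0, hvw⟩ hne
    have hhu : h (h⁻¹ u01) = u01 := by simp
    refine ⟨h⁻¹ u01, ?_, ?_, ?_⟩
    · rw [(Co0.inv_mem hh).2, hu01]
    · have e := co0_dot h hh v0 (h⁻¹ u01)
      rw [hv0, hhu] at e
      rw [← e]
      have : dotInt (v0 : GolayPt → ℤ) (u01 : GolayPt → ℤ) = 16 := dot_v0_u01
      rw [this]
      norm_num
    · have e := co0_dot h hh v (h⁻¹ u01)
      rw [hvw, hhu] at e
      rw [← e]
      exact hne
  rcases rel0 v hv hsum with r | r
  · apply key w0s r
    have : dotInt (w0s : GolayPt → ℤ) (u01 : GolayPt → ℤ) = 16 := dot_w0s_u01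
    rw [this]
    norm_num
  · apply key (-w0s) r
    have : dotInt (w0s : GolayPt → ℤ) (u01 : GolayPt → ℤ) = 16 := dot_w0s_u01
    rw [AddSubgroup.coe_neg, dot_neg_left, this]
    norm_num

theorem mod2_faithful (g : Co0)
    (h : ∀ v : leechLattice, ∃ w : leechLattice,
      ((g • v : leechLattice) : GolayPt → ℤ) - (v : GolayPt → ℤ) = 2 • (w : GolayPt → ℤ)) :
    g ∈ Subgroup.center Co0 := by
  have hg := g.2
  have stepA : ∀ v : leechLattice, sqNorm (v : GolayPt → ℤ) = 32 →
      (g : Equiv.Perm leechLattice) v = v ∨ (g : Equiv.Perm leechLattice) v = -v := by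
    intro v hv
    obtain ⟨w, hw⟩ := h v
    have hw' : (((g : Equiv.Perm leechLattice) v : leechLattice) : GolayPt → ℤ) -
        (v : GolayPt → ℤ) = (2 : ℤ) • (w : GolayPt → ℤ) := by
      have : ((g • v : leechLattice) : GolayPt → ℤ) - (v : GolayPt → ℤ) =
          (2 : ℤ) • (w : GolayPt → ℤ) := by
        rw [hw, two_smul, two_smul]
      exact this
    by_cases hw0 : w = 0
    · left
      rw [hw0] at hw'
      apply Subtype.ext
      have e : (((g : Equiv.Perm leechLattice) v : leechLattice) : GolayPt → ℤ) -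
          (v : GolayPt → ℤ) = 0 := by
        rw [hw']
        simp
      exact sub_eq_zero.1 e
    · right
      have hwn : 32 ≤ sqNorm (w : GolayPt → ℤ) :=
        leech_min_norm _ w.2 (fun h0 => hw0 (Subtype.ext h0))
      have e1 : sqNorm ((((g : Equiv.Perm leechLattice) v : leechLattice) : GolayPt → ℤ) -
          (v : GolayPt → ℤ)) = 4 * sqNorm (w : GolayPt → ℤ) := by
        rw [hw', sqNorm_two_zsmul]
      have e2 := Helper28.Leech.sqNorm_sub
        (((g : Equiv.Perm leechLattice) v : leechLattice) : GolayPt → ℤ) (v : GolayPt → ℤ)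
      have e3 := Helper28.Leech.sqNorm_add
        (((g : Equiv.Perm leechLattice) v : leechLattice) : GolayPt → ℤ) (v : GolayPt → ℤ)
      have e4 : sqNorm (((g : Equiv.Perm leechLattice) v : leechLattice) : GolayPt → ℤ) = 32 := by
        rw [hg.2, hv]
      have e5 := sqNorm_nonneg ((((g : Equiv.Perm leechLattice) v : leechLattice) :
        GolayPt → ℤ) + (v : GolayPt → ℤ))
      have e6 : sqNorm ((((g : Equiv.Perm leechLattice) v : leechLattice) : GolayPt → ℤ) +
          (v : GolayPt → ℤ)) = 0 := by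
        rw [e4, hv] at e2 e3
        linarith
      have e7 := sqNorm_eq_zero _ e6
      apply Subtype.ext
      rw [AddSubgroup.coe_neg]
      exact eq_neg_of_add_eq_zero_left e7
  have stepB : ∀ a b : leechLattice, sqNorm (a : GolayPt → ℤ) = 32 →
      sqNorm (b : GolayPt → ℤ) = 32 → dotInt (a : GolayPt → ℤ) (b : GolayPt → ℤ) ≠ 0 →
      ((g : Equiv.Perm leechLattice) a = a ↔ (g : Equiv.Perm leechLattice) b = b) := by
    intro a b ha hb hab
    have hd := co0_dot (g : Equiv.Perm leechLattice) hg a b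
    constructor
    · intro h1
      rcases stepA b hb with h2 | h2
      · exact h2
      · exfalso
        rw [h1, h2, AddSubgroup.coe_neg, dot_neg_right] at hd
        apply hab
        linarith
    · intro h2
      rcases stepA a ha with h1 | h1
      · exact h1
      · exfalso
        rw [h1, h2, AddSubgroup.coe_neg, dot_neg_left] at hd
        apply hab
        linarith
  have stepB' : ∀ v : leechLattice, sqNorm (v : GolayPt → ℤ) = 32 →
      ((g : Equiv.Perm leechLattice) v = v ↔ (g : Equiv.Perm leechLattice) v0 = v0) := by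
    intro v hv
    by_cases hd : dotInt (v0 : GolayPt → ℤ) (v : GolayPt → ℤ) = 0
    · obtain ⟨u, hu, hu1, hu2⟩ := exists_third v hv hd
      exact (stepB v u hv hu hu2).trans (stepB v0 u v0_norm hu hu1).symm
    · exact (stepB v0 v v0_norm hv hd).symm
  by_cases h0 : (g : Equiv.Perm leechLattice) v0 = v0
  · have hall : ∀ v : leechLattice, sqNorm (v : GolayPt → ℤ) = 32 →
        (g : Equiv.Perm leechLattice) v = v := fun v hv => (stepB' v hv).2 h0
    let Mp : AddSubgroup (GolayPt → ℤ) :=
      { carrier := {x | ∃ hx : x ∈ leechLattice,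
          (g : Equiv.Perm leechLattice) ⟨x, hx⟩ = ⟨x, hx⟩}
        zero_mem' := ⟨leechLattice.zero_mem, co0_map_zero _ hg⟩
        add_mem' := by
          rintro x y ⟨hx, e1⟩ ⟨hy, e2⟩
          refine ⟨leechLattice.add_mem hx hy, ?_⟩
          have e := hg.1 ⟨x, hx⟩ ⟨y, hy⟩
          rw [e1, e2] at e
          exact e
        neg_mem' := by
          rintro x ⟨hx, e1⟩
          refine ⟨leechLattice.neg_mem hx, ?_⟩
          have e := co0_map_neg _ hg ⟨x, hx⟩
          rw [e1] at e
          exact e }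
    have hle := min_gen Mp (fun v hvL hvn => ⟨hvL, hall ⟨v, hvL⟩ hvn⟩)
    have hg1 : g = 1 := by
      apply Subtype.ext
      apply Equiv.ext
      intro x
      obtain ⟨hx, hgx⟩ := hle x.2
      exact hgx
    rw [hg1]
    exact Subgroup.one_mem _
  · have hall : ∀ v : leechLattice, sqNorm (v : GolayPt → ℤ) = 32 →
        (g : Equiv.Perm leechLattice) v = -v := fun v hv =>
      (stepA v hv).resolve_left (fun h1 => h0 ((stepB' v hv).1 h1))
    let Mn : AddSubgroup (GolayPt → ℤ) :=
      { carrier := {x | ∃ hx : x ∈ leechLattice,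
          (g : Equiv.Perm leechLattice) ⟨x, hx⟩ = -⟨x, hx⟩}
        zero_mem' := ⟨leechLattice.zero_mem, by
          have e := co0_map_zero _ hg
          rw [show (⟨0, leechLattice.zero_mem⟩ : leechLattice) = 0 from rfl, e, neg_zero]⟩
        add_mem' := by
          rintro x y ⟨hx, e1⟩ ⟨hy, e2⟩
          refine ⟨leechLattice.add_mem hx hy, ?_⟩
          have e := hg.1 ⟨x, hx⟩ ⟨y, hy⟩
          rw [e1, e2, ← neg_add] at e
          exact e
        neg_mem' := by
          rintro x ⟨hx, e1⟩
          refine ⟨leechLattice.neg_mem hx, ?_⟩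
          have e := co0_map_neg _ hg ⟨x, hx⟩
          rw [e1] at e
          exact e }
    have hle := min_gen Mn (fun v hvL hvn => ⟨hvL, hall ⟨v, hvL⟩ hvn⟩)
    have hgn : g = ⟨negAut, negAut_mem⟩ := by
      apply Subtype.ext
      apply Equiv.ext
      intro x
      obtain ⟨hx, hgx⟩ := hle x.2
      exact hgx
    rw [hgn, Subgroup.mem_center_iff]
    intro k
    apply Subtype.ext
    apply Equiv.ext
    intro x
    show (k : Equiv.Perm leechLattice) (negAut x) = negAut ((k : Equiv.Perm leechLattice) x)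
    rw [negAut_apply, negAut_apply, co0_map_neg _ k.2]

end Cfsg.Agent.Helper3
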