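import Mathlib
import Cfsg.Prelude.Def_Classical
import Cfsg.Prelude.Def_LieClassical
import Cfsg.Agent.Helper3.Unitary
import Cfsg.Agent.S0242

set_option autoImplicit false
set_option linter.unusedSectionVars false
set_option linter.style.haveILetI false
set_option linter.unusedSimpArgs false

namespace Cfsg.Agent.Helper3

open scoped Classical
open Cfsg Matrix

noncomputable section

theorem exists_emb {F K : Type*} [Field F] [Fintype F] [Field K] [Fintype K] {q : ℕ}
    (hF : Fintype.card F = q ^ 2) (hK : Fintype.card K = q) :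
    ∃ ι : K →+* F, ∀ a, (ι a) ^ q = ι a := by
  have hp : (ringChar F).Prime := CharP.char_is_prime F (ringChar F)
  haveI : Fact (ringChar F).Prime := ⟨hp⟩
  obtain ⟨k, -, hk⟩ := FiniteField.card F (ringChar F)
  have hdvd : q ∣ ringChar F ^ (k : ℕ) := by
    rw [← hk, hF]
    exact dvd_pow_self q two_ne_zero
  obtain ⟨m, -, hm⟩ := (Nat.dvd_prime_pow hp).mp hdvd
  have hpK : (ringChar K).Prime := CharP.char_is_prime K (ringChar K)
  obtain ⟨k', -, hk'⟩ := FiniteField.card K (ringChar K)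
  have hq2 := two_le_q hF
  have hm0 : m ≠ 0 := by
    rintro rfl
    rw [pow_zero] at hm
    omega
  have hchar : ringChar K = ringChar F := by
    have h1 : ringChar F ∣ ringChar K ^ (k' : ℕ) := by
      rw [← hk', hK, hm]
      exact dvd_pow_self _ hm0
    exact ((Nat.prime_dvd_prime_iff_eq hp hpK).mp (hp.dvd_of_dvd_pow h1)).symm
  haveI : CharP K (ringChar F) := hchar ▸ ringChar.charP K
  letI : Algebra (ZMod (ringChar F)) K := ZMod.algebra K (ringChar F)
  letI : Algebra (ZMod (ringChar F)) F := ZMod.algebra F (ringChar F)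
  have h1 : Module.finrank (ZMod (ringChar F)) K ∣ Module.finrank (ZMod (ringChar F)) F := by
    have e1 := FiniteField.pow_finrank_eq_card (ringChar F) K
    have e2 := FiniteField.pow_finrank_eq_card (ringChar F) F
    rw [hK, hm] at e1
    rw [hF, hm, ← pow_mul] at e2
    have i1 := Nat.pow_right_injective hp.two_le e1
    have i2 := Nat.pow_right_injective hp.two_le e2
    rw [i1, i2]
    exact dvd_mul_right m 2
  obtain ⟨f⟩ := FiniteField.nonempty_algHom_of_finrank_dvd h1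
  refine ⟨f.toRingHom, fun a => ?_⟩
  show (f a) ^ q = f a
  rw [← map_pow, ← hK, FiniteField.pow_card]

variable {F : Type*} [Field F] [Fintype F] {q : ℕ}

/-- the skew-hermitian form `ν (u₀ φ(v₁) - u₁ φ(v₀))` -/
def om (φ : F →+* F) (ν : F) (u v : Fin 2 → F) : F := ν * (u 0 * φ (v 1) - u 1 * φ (v 0))

theorem om_pres (φ : F →+* F) (ν : F) (X : Matrix (Fin 2) (Fin 2) F)
    (hX : ∀ i j, φ (X i j) = X i j) (hdet : X.det = 1) (u v : Fin 2 → F) :
    om φ ν (X *ᵥ u) (X *ᵥ v) = om φ ν u v := by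
  rw [Matrix.det_fin_two] at hdet
  unfold om
  simp only [Matrix.mulVec, dotProduct, Fin.sum_univ_two, map_add, map_mul, hX]
  linear_combination ν * (u 0 * φ (v 1) - u 1 * φ (v 0)) * hdet

theorem exists_P (hF : Fintype.card F = q ^ 2) :
    ∃ (φ : F →+* F) (ν : F) (P : Matrix (Fin 2) (Fin 2) F), (∀ x, φ x = x ^ q) ∧
      P.det ≠ 0 ∧ ∀ u v, hermForm 2 F q (P *ᵥ u) (P *ᵥ v) = om φ ν u v := by
  obtain ⟨φ, hφ, hφ2⟩ := exists_frob hF
  have hq2 := two_le_q hF
  obtain ⟨l, hl, -, hl2⟩ := exists_norm_one_ne hF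
  have hφl : φ l ≠ l := by
    intro h
    apply hl2
    rw [← hl, ← hφ, h]
  have hneg : (-1 : F) ^ q = -1 := by rw [← hφ, map_neg, map_one]
  have hcard := norm_fiber hF (-1 : F) (neg_ne_zero.mpr one_ne_zero) hneg
  have h1 : 1 < (Finset.univ.filter (fun x : F => x * x ^ q = -1)).card := by omega
  obtain ⟨t, ht, t', ht', htt'⟩ := Finset.one_lt_card.mp h1
  simp only [Finset.mem_filter, Finset.mem_univ, true_and] at ht ht'
  rw [← hφ] at ht ht'
  have ht0 : t ≠ 0 := by
    rintro rfl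
    simp at ht
  set ν : F := l - φ l with hν
  have hν0 : ν ≠ 0 := sub_ne_zero.mpr (Ne.symm hφl)
  have hφν : φ ν = -ν := by rw [hν, map_sub, hφ2]; ring
  have hd0 : 1 + t * φ t' ≠ 0 := by
    intro h
    have h2 : t * φ t' = t * φ t := by linear_combination h - ht
    have h3 := mul_left_cancel₀ ht0 h2
    exact htt' (φ.injective h3).symm
  set s : F := φ (ν / (1 + t * φ t')) with hs
  have hs0 : s ≠ 0 := by
    rw [hs, Ne, map_eq_zero]
    exact div_ne_zero hν0 hd0
  have hν1 : φ s * (1 + t * φ t') = ν := by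
    rw [hs, hφ2]
    field_simp
  have e : φ (1 + t * φ t') = 1 + t' * φ t := by
    rw [map_add, map_one, map_mul, hφ2]
    ring
  have hν2 : s * (1 + t' * φ t) = -ν := by
    rw [hs, ← e, ← map_mul, div_mul_cancel₀ _ hd0, hφν]
  refine ⟨φ, ν, !![1, s; t, s * t'], hφ, ?_, ?_⟩
  · rw [Matrix.det_fin_two_of]
    intro h
    have h2 : s * (t' - t) = 0 := by linear_combination h
    rcases mul_eq_zero.mp h2 with h3 | h3
    · exact hs0 h3
    · exact htt' (sub_eq_zero.mp h3).symm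
  · intro u v
    rw [herm_phi φ hφ]
    unfold om
    simp only [Matrix.mulVec, dotProduct, Fin.sum_univ_two, Matrix.of_apply, Matrix.cons_val_zero,
      Matrix.cons_val_one, Matrix.cons_val', Matrix.cons_val_fin_one, map_add, map_mul, map_one]
    linear_combination (u 0 * φ (v 0)) * ht + (u 0 * φ (v 1)) * hν1 + (u 1 * φ (v 0)) * hν2 +
      (u 1 * φ (v 1) * s * φ s) * ht'

theorem exists_SL_SU {K : Type*} [Field K] [Fintype K] (hF : Fintype.card F = q ^ 2)
    (hK : Fintype.card K = q) :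
    ∃ f : Matrix.SpecialLinearGroup (Fin 2) K →* SU 2 F q, Function.Injective f := by
  obtain ⟨ι, hι⟩ := exists_emb hF hK
  obtain ⟨φ, ν, P, hφ, hP0, hP⟩ := exists_P hF
  have hPu : IsUnit P.det := isUnit_iff_ne_zero.mpr hP0
  have hPQ : P * P⁻¹ = 1 := Matrix.mul_nonsing_inv P hPu
  have hQP : P⁻¹ * P = 1 := Matrix.nonsing_inv_mul P hPu
  have hdetX : ∀ A : Matrix.SpecialLinearGroup (Fin 2) K, (ι.mapMatrix A.1).det = 1 := by
    intro A
    rw [← RingHom.map_det, A.2, map_one]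
  have hfix : ∀ (A : Matrix.SpecialLinearGroup (Fin 2) K) (i j : Fin 2),
      φ (ι.mapMatrix A.1 i j) = ι.mapMatrix A.1 i j := by
    intro A i j
    rw [hφ]
    exact hι _
  have hdet : ∀ A : Matrix.SpecialLinearGroup (Fin 2) K,
      (P * ι.mapMatrix A.1 * P⁻¹).det = 1 := by
    intro A
    rw [Matrix.det_mul, Matrix.det_mul, hdetX, mul_one, ← Matrix.det_mul, hPQ, Matrix.det_one]
  have hpres : ∀ A : Matrix.SpecialLinearGroup (Fin 2) K,
      HPres 2 q (P * ι.mapMatrix A.1 * P⁻¹) := by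
    intro A u v
    rw [← Matrix.mulVec_mulVec, ← Matrix.mulVec_mulVec, ← Matrix.mulVec_mulVec,
      ← Matrix.mulVec_mulVec, hP, om_pres φ ν _ (hfix A) (hdetX A), ← hP, Matrix.mulVec_mulVec,
      Matrix.mulVec_mulVec, hPQ, Matrix.one_mulVec, Matrix.one_mulVec]
  let f : Matrix.SpecialLinearGroup (Fin 2) K → SU 2 F q := fun A =>
    ⟨(⟨P * ι.mapMatrix A.1 * P⁻¹, hdet A⟩ : Matrix.SpecialLinearGroup (Fin 2) F), hpres A⟩
  have hmul : ∀ A B, f (A * B) = f A * f B := by
    intro A B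
    apply Subtype.ext
    apply Subtype.ext
    show P * ι.mapMatrix (A.1 * B.1) * P⁻¹ =
      (P * ι.mapMatrix A.1 * P⁻¹) * (P * ι.mapMatrix B.1 * P⁻¹)
    rw [map_mul]
    calc P * (ι.mapMatrix A.1 * ι.mapMatrix B.1) * P⁻¹
        = P * ι.mapMatrix A.1 * 1 * ι.mapMatrix B.1 * P⁻¹ := by
          simp only [Matrix.mul_assoc, Matrix.one_mul]
      _ = P * ι.mapMatrix A.1 * (P⁻¹ * P) * ι.mapMatrix B.1 * P⁻¹ := by rw [hQP]
      _ = _ := by simp only [Matrix.mul_assoc]
  refine ⟨MonoidHom.mk' f hmul, ?_⟩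
  intro A B hAB
  have h1 : P * ι.mapMatrix A.1 * P⁻¹ = P * ι.mapMatrix B.1 * P⁻¹ :=
    congrArg (fun g : SU 2 F q => g.1.1) hAB
  have h2 : ι.mapMatrix A.1 = ι.mapMatrix B.1 := by
    have h3 : P⁻¹ * (P * ι.mapMatrix A.1 * P⁻¹) * P = P⁻¹ * (P * ι.mapMatrix B.1 * P⁻¹) * P := by
      rw [h1]
    calc ι.mapMatrix A.1 = (P⁻¹ * P) * ι.mapMatrix A.1 * (P⁻¹ * P) := by
          rw [hQP, Matrix.one_mul, Matrix.mul_one]
      _ = P⁻¹ * (P * ι.mapMatrix A.1 * P⁻¹) * P := by simp only [Matrix.mul_assoc]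
      _ = P⁻¹ * (P * ι.mapMatrix B.1 * P⁻¹) * P := h3
      _ = (P⁻¹ * P) * ι.mapMatrix B.1 * (P⁻¹ * P) := by simp only [Matrix.mul_assoc]
      _ = ι.mapMatrix B.1 := by rw [hQP, Matrix.one_mul, Matrix.mul_one]
  apply Subtype.ext
  ext i j
  have h4 := congrFun (congrFun h2 i) j
  exact ι.injective h4

theorem card_SU2 (hF : Fintype.card F = q ^ 2) : Nat.card (SU 2 F q) = q * (q ^ 2 - 1) := by
  have h1 := card_SU hF (n := 2) (by norm_num)
  rw [card_GU hF 2] at h1
  simp [Finset.prod_range_succ] at h1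
  have hq2 := two_le_q hF
  have h2 : (q + 1) * Nat.card (SU 2 F q) = (q + 1) * (q * (q ^ 2 - 1)) := by
    rw [Nat.card_eq_fintype_card, h1]
    ring
  exact Nat.eq_of_mul_eq_mul_left (by omega) h2

theorem card_SL2 {K : Type*} [Field K] [Fintype K] (hK : Fintype.card K = q) (hq2 : 2 ≤ q) :
    Nat.card (Matrix.SpecialLinearGroup (Fin 2) K) = q * (q ^ 2 - 1) := by
  have h1 := Cfsg.Agent.S0242.result hK 2 (by norm_num)
  rw [Fin.prod_univ_two] at h1
  simp only [Fin.val_zero, Fin.val_one, pow_zero, pow_one] at h1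
  have h3 : q ^ 2 - q = (q - 1) * q := by
    obtain ⟨r, rfl⟩ : ∃ r, q = r + 1 := ⟨q - 1, by omega⟩
    simp only [Nat.add_sub_cancel]
    apply Nat.sub_eq_of_eq_add
    ring
  have h2 : (q - 1) * Nat.card (Matrix.SpecialLinearGroup (Fin 2) K) =
      (q - 1) * (q * (q ^ 2 - 1)) := by
    rw [h1, h3]
    ring
  exact Nat.eq_of_mul_eq_mul_left (by omega) h2

theorem SU2_iso {K : Type*} [Field K] [Fintype K] (hF : Fintype.card F = q ^ 2)
    (hK : Fintype.card K = q) :
    Nonempty (SU 2 F q ≃* Matrix.SpecialLinearGroup (Fin 2) K) := by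
  obtain ⟨f, hf⟩ := exists_SL_SU (F := F) hF hK
  have hq2 := two_le_q hF
  have hbij : Function.Bijective f := by
    apply Function.Injective.bijective_of_nat_card_le hf
    rw [card_SU2 hF, card_SL2 hK hq2]
  exact ⟨(MulEquiv.ofBijective f hbij).symm⟩

end

end Cfsg.Agent.Helper3
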