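import Mathlib
import Cfsg.Agent.Helper3.MathieuPerfect

set_option autoImplicit false
set_option linter.unusedVariables false

namespace Cfsg.Agent.Helper3
open Cfsg
open scoped Pointwise commutatorElement

/-! ### The generic criterion for permutation groups on the 24 points -/

theorem simple_of_data (K : Subgroup (Equiv.Perm GolayPt)) (S : Set GolayPt) (hS : TwoTransOn K S)
    (p : ℕ) [Fact p.Prime] (hperf : ⁅K, K⁆ = K) (hp2 : ¬ p ^ 2 ∣ Nat.card K) (hpS : p ∣ S.ncard)
    {x : GolayPt} (hx : x ∈ S) (σ : Equiv.Perm GolayPt) (hσK : σ ∈ K) (hσ : orderOf σ = p)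
    (hcent : ∀ g ∈ K, ∀ h ∈ K, g * σ = σ * g → h * σ = σ * h → g * h = h * g) :
    IsSimpleGroup ↥K := by
  have hnt : Nontrivial ↥K := by
    refine ⟨⟨⟨σ, hσK⟩, 1, fun h => ?_⟩⟩
    have h1 : σ = 1 := congrArg Subtype.val h
    rw [h1, orderOf_one] at hσ
    exact (Fact.out : p.Prime).one_lt.ne hσ
  refine simple_of_perfect_sylow_cyclic p ?_ ?_ ⟨σ, hσK⟩ ?_ ?_ ?_
  · apply Subgroup.map_injective K.subtype_injective
    rw [Subgroup.map_subtype_commutator, hperf, ← MonoidHom.range_eq_map, Subgroup.range_subtype]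
  · exact hp2
  · rw [Subgroup.orderOf_mk]; exact hσ
  · intro g h hg hh
    have hg' : (g : Equiv.Perm GolayPt) * σ = σ * g := congrArg Subtype.val hg.eq
    have hh' : (h : Equiv.Perm GolayPt) * σ = σ * h := congrArg Subtype.val hh.eq
    exact Subtype.ext (hcent g g.2 h h.2 hg' hh')
  · intro N hNn hNbot
    have hcard : Nat.card (N.map K.subtype) = Nat.card N :=
      Nat.card_congr (N.equivMapOfInjective K.subtype K.subtype_injective).symm.toEquiv
    rw [← hcard, card_normal_eq hS (N := N.map K.subtype) ?_ ?_ ?_ hx]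
    · exact Dvd.dvd.mul_right hpS _
    · rintro _ ⟨n, -, rfl⟩
      exact n.2
    · rintro k hk _ ⟨n, hn, rfl⟩
      exact ⟨⟨k, hk⟩ * n * ⟨k, hk⟩⁻¹, hNn.conj_mem n hn ⟨k, hk⟩, rfl⟩
    · intro h0
      apply hNbot
      rw [Subgroup.eq_bot_iff_forall]
      intro n hn
      have : (n : Equiv.Perm GolayPt) ∈ N.map K.subtype := ⟨n, hn, rfl⟩
      rw [h0, Subgroup.mem_bot] at this
      exact Subtype.ext this

/-! ### 2-transitivity from transitivity on lists -/

theorem map_eq_self {β : Type*} {f : β → β} : ∀ {l : List β}, l.map f = l → ∀ x ∈ l, f x = x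
  | [], _, x, hx => by simp at hx
  | a :: l, h, x, hx => by
    simp only [List.map_cons, List.cons.injEq] at h
    rcases List.mem_cons.1 hx with rfl | hx
    · exact h.1
    · exact map_eq_self h.2 x hx

theorem map_three {g : Equiv.Perm GolayPt} {L : List GolayPt} {u v a b : GolayPt}
    (h : (L ++ [u] ++ [v]).map g = L ++ [a] ++ [b]) : L.map g = L ∧ g u = a ∧ g v = b := by
  simp only [List.map_append, List.map_cons, List.map_nil] at h
  have h1 := List.append_inj' h rfl
  have h2 := List.append_inj' h1.1 rfl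
  exact ⟨h2.1, by simpa using h2.2, by simpa using h1.2⟩

theorem twoTransOn_of_listTrans {K : Subgroup (Equiv.Perm GolayPt)} {D : Finset GolayPt}
    (hD : ∀ g ∈ K, ∀ p, g p ∈ D ↔ p ∈ D) (l : List ℕ) (x y : ℕ)
    (hnd : (l.map pt).Nodup) (hl : ∀ f ∈ l, pt f ∈ D)
    (h : ListTransOn K D ((l ++ [x] ++ [y]).map pt))
    (hfaith : ∀ k ∈ fixN K l, (∀ a ∈ D, a ∉ l.map pt → k a = a) → k = 1) :
    TwoTransOn (fixN K l) ((D.filter (fun p => p ∉ l.map pt) : Finset GolayPt) : Set GolayPt) := by
  have hbs : (l ++ [x] ++ [y]).map pt = l.map pt ++ [pt x] ++ [pt y] := by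
    simp [List.map_append]
  refine ⟨?_, ?_, ?_⟩
  · intro a ha b hb hab c hc d hd hcd
    rw [Finset.mem_coe, Finset.mem_filter] at ha hb hc hd
    have key : ∀ a b : GolayPt, (a ∈ D ∧ a ∉ l.map pt) → (b ∈ D ∧ b ∉ l.map pt) → a ≠ b →
        ∃ g ∈ K, (l.map pt).map g = l.map pt ∧ g (pt x) = a ∧ g (pt y) = b := by
      intro a b ha hb hab
      obtain ⟨g, hg, hmap⟩ := h (l.map pt ++ [a] ++ [b])
        (by
          rw [List.nodup_append, List.nodup_append]
          refine ⟨⟨hnd, List.nodup_singleton a, ?_⟩, List.nodup_singleton b, ?_⟩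
          · intro u hu v hv
            rw [List.mem_singleton] at hv
            subst hv
            intro huv
            exact ha.2 (huv ▸ hu)
          · intro u hu v hv
            rw [List.mem_singleton] at hv
            subst hv
            intro huv
            rcases List.mem_append.1 hu with hu | hu
            · exact hb.2 (huv ▸ hu)
            · rw [List.mem_singleton] at hu
              exact hab (hu ▸ huv))
        (by
          intro u hu
          simp only [List.mem_append, List.mem_map, List.mem_singleton] at hu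
          rcases hu with (⟨f, hf, rfl⟩ | rfl) | rfl
          · exact hl f hf
          · exact ha.1
          · exact hb.1)
        (by simp)
      rw [hbs] at hmap
      exact ⟨g, hg, map_three hmap⟩
    obtain ⟨g1, hg1, hm1, hx1, hy1⟩ := key a b ha hb hab
    obtain ⟨g2, hg2, hm2, hx2, hy2⟩ := key c d hc hd hcd
    refine ⟨g2 * g1⁻¹, ⟨K.mul_mem hg2 (K.inv_mem hg1), fun f hf => ?_⟩, ?_, ?_⟩
    · have e1 := map_eq_self hm1 (pt f) (List.mem_map.2 ⟨f, hf, rfl⟩)
      have e2 := map_eq_self hm2 (pt f) (List.mem_map.2 ⟨f, hf, rfl⟩)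
      have e3 : g1⁻¹ (pt f) = pt f := by nth_rewrite 1 [← e1]; simp
      rw [Equiv.Perm.mul_apply, e3, e2]
    · have e3 : g1⁻¹ a = pt x := by rw [← hx1]; simp
      rw [Equiv.Perm.mul_apply, e3, hx2]
    · have e3 : g1⁻¹ b = pt y := by rw [← hy1]; simp
      rw [Equiv.Perm.mul_apply, e3, hy2]
  · intro k hk a ha
    rw [Finset.mem_coe, Finset.mem_filter] at ha ⊢
    refine ⟨(hD k hk.1 a).2 ha.1, fun hmem => ha.2 ?_⟩
    obtain ⟨f, hf, hfa⟩ := List.mem_map.1 hmem
    have : a = pt f := k.injective (by rw [← hfa, hk.2 f hf])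
    rw [this]
    exact List.mem_map.2 ⟨f, hf, rfl⟩
  · intro k hk hfix
    apply hfaith k hk
    intro a ha ha'
    exact hfix a (by rw [Finset.mem_coe, Finset.mem_filter]; exact ⟨ha, ha'⟩)

theorem listTransOn_of_listTrans {K : Subgroup (Equiv.Perm GolayPt)} {bs : List GolayPt}
    (h : ListTrans K bs) (D : Finset GolayPt) : ListTransOn K D bs :=
  fun xs hnd _ hlen => h xs hnd hlen

theorem listTrans2 : ListTrans M24 ([23, 0].map pt) := by
  have h0 := listTrans_nil M24
  have h1 := listTrans_append (l := []) (b := 23) h0 (lvl_M24 _ _ _ lvl0 (by decide +kernel))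
  exact listTrans_append (l := [23]) (b := 0) h1 (lvl_M24 _ _ _ lvl1 (by decide +kernel))

theorem listTrans3 : ListTrans M24 ([23, 0, 1].map pt) :=
  listTrans_append (l := [23, 0]) (b := 1) listTrans2 (lvl_M24 _ _ _ lvl2 (by decide +kernel))

theorem listTrans4 : ListTrans M24 ([23, 0, 1, 2].map pt) :=
  listTrans_append (l := [23, 0, 1]) (b := 2) listTrans3 (lvl_M24 _ _ _ lvl3 (by decide +kernel))

theorem transA2 : ListTransOn KD dStd ([0, 1].map pt) :=
  listTransOn_append (l := [0]) (b := 1) KD_stable transA1 (lvl_KD _ _ _ lvlA1 (by decide +kernel))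

theorem transA3 : ListTransOn KD dStd ([0, 1, 2].map pt) :=
  listTransOn_append (l := [0, 1]) (b := 2) KD_stable transA2 (lvl_KD _ _ _ lvlA2 (by decide +kernel))

/-! ### The centralizer of the shift -/

theorem gShift_some (x : ZMod 23) : gShift (some x) = some (x + 1) := rfl

theorem gShift_none : gShift none = none := rfl

theorem shift_cent_form {g : Equiv.Perm GolayPt} (hg : g none = none)
    (cg : g * gShift = gShift * g) : ∃ c : ZMod 23, ∀ x : ZMod 23, g (some x) = some (x + c) := by
  have h0 : ∃ c, g (some 0) = some c := by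
    cases hc : g (some 0) with
    | none =>
      exfalso
      have : g (some 0) = g none := by rw [hc, hg]
      exact Option.some_ne_none _ (g.injective this)
    | some c => exact ⟨c, rfl⟩
  obtain ⟨c, hc⟩ := h0
  refine ⟨c, ?_⟩
  have hnat : ∀ n : ℕ, g (some (n : ZMod 23)) = some ((n : ZMod 23) + c) := by
    intro n
    induction n with
    | zero => simp [hc]
    | succ n ih =>
      have h1 : (some (((n + 1 : ℕ)) : ZMod 23) : GolayPt) = gShift (some (n : ZMod 23)) := by
        rw [gShift_some]; push_cast; rfl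
      have h2 : g (gShift (some (n : ZMod 23))) = gShift (g (some (n : ZMod 23))) := by
        have := congrArg (fun f : Equiv.Perm GolayPt => f (some (n : ZMod 23))) cg
        simpa [Equiv.Perm.mul_apply] using this
      rw [h1, h2, ih, gShift_some]
      push_cast
      congr 1
      ring
  intro x
  have := hnat x.val
  rwa [ZMod.natCast_zmod_val] at this

theorem shift_cent_comm {g h : Equiv.Perm GolayPt} (hg : g none = none) (hh : h none = none)
    (cg : g * gShift = gShift * g) (ch : h * gShift = gShift * h) : g * h = h * g := by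
  obtain ⟨c, hc⟩ := shift_cent_form hg cg
  obtain ⟨d, hd⟩ := shift_cent_form hh ch
  apply Equiv.ext
  intro p
  cases p with
  | none => simp [Equiv.Perm.mul_apply, hg, hh]
  | some x =>
    rw [Equiv.Perm.mul_apply, Equiv.Perm.mul_apply, hd, hc, hc, hd]
    congr 1
    ring

theorem gShift_zero_ne : gShift (some 0) ≠ some 0 := by decide +kernel

theorem gShift_order : orderOf gShift = 23 := by
  have : Fact (Nat.Prime 23) := ⟨by norm_num⟩
  apply orderOf_eq_prime
  · apply Equiv.ext
    intro p
    rw [← Equiv.Perm.iterate_eq_pow]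
    revert p
    decide +kernel
  · intro h
    have h2 : gShift (some 0) = some 0 := by rw [h]; rfl
    exact gShift_zero_ne h2

/-! ### The centralizer of multiplication by `2` -/

/-- The unit `2` of `ZMod 23`. -/
def u2 : (ZMod 23)ˣ := ⟨2, 12, by decide, by decide⟩

/-- Multiplication by `2`. -/
def gMu : Equiv.Perm GolayPt := Equiv.optionCongr (Units.mulLeft u2)

theorem gMu_some (x : ZMod 23) : gMu (some x) = some (2 * x) := rfl

theorem gMu_none : gMu none = none := rfl

theorem gMu_mem_M24 : gMu ∈ M24 := mulSq_mem_M24 u2 ⟨⟨5, 14, by decide, by decide⟩, by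
  apply Units.ext; decide⟩

theorem gMu_order : orderOf gMu = 11 := by
  have : Fact (Nat.Prime 11) := ⟨by norm_num⟩
  apply orderOf_eq_prime
  · apply Equiv.ext
    intro p
    rw [← Equiv.Perm.iterate_eq_pow]
    revert p
    decide +kernel
  · intro h
    have h2 : gMu (some 1) = (1 : Equiv.Perm GolayPt) (some 1) := by rw [h]
    exact absurd h2 (by decide +kernel)

/-- Elements of `M24` fixing `∞` and `0` and commuting with multiplication by `2`. -/
def CentMu (g : Equiv.Perm GolayPt) : Prop :=
  g ∈ M24 ∧ g none = none ∧ g (some 0) = some 0 ∧ g * gMu = gMu * g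

theorem centMu_mul {g h : Equiv.Perm GolayPt} (hg : CentMu g) (hh : CentMu h) : CentMu (g * h) := by
  obtain ⟨g1, g2, g3, g4⟩ := hg
  obtain ⟨h1, h2, h3, h4⟩ := hh
  refine ⟨M24.mul_mem g1 h1, ?_, ?_, ?_⟩
  · rw [Equiv.Perm.mul_apply, h2, g2]
  · rw [Equiv.Perm.mul_apply, h3, g3]
  · rw [mul_assoc, h4, ← mul_assoc, g4, mul_assoc]

theorem centMu_pow {g : Equiv.Perm GolayPt} (hg : CentMu g) {c : ZMod 23}
    (h1 : g (some 1) = some c) : ∀ i : ℕ, g (some (2 ^ i)) = some (2 ^ i * c) := by
  intro i
  induction i with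
  | zero => simp [h1]
  | succ i ih =>
    have e1 : (some (2 ^ (i + 1)) : GolayPt) = gMu (some (2 ^ i)) := by
      rw [gMu_some, pow_succ']
    have e2 : g (gMu (some (2 ^ i))) = gMu (g (some (2 ^ i))) := by
      have := congrArg (fun f : Equiv.Perm GolayPt => f (some (2 ^ i))) hg.2.2.2
      simpa [Equiv.Perm.mul_apply] using this
    rw [e1, e2, ih, gMu_some, pow_succ', mul_assoc]

theorem centMu_exists {g : Equiv.Perm GolayPt} (hg : CentMu g) : ∃ c : ZMod 23, g (some 1) = some c := by
  cases hc : g (some 1) with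
  | none =>
    exfalso
    have : g (some 1) = g none := by rw [hc, hg.2.1]
    exact Option.some_ne_none _ (g.injective this)
  | some c => exact ⟨c, rfl⟩

/-- Mask of the non-squares together with `0`. -/
def nMask : ℕ := 8047777

theorem nMask_not_mem : nMask ∉ gCode := by decide +kernel

theorem dStd_pow : ∀ p : GolayPt, p ∈ dStd ↔ (p = some 0 ∨ ∃ i : Fin 11, p = some (2 ^ i.val)) := by
  decide +kernel

theorem nonsq_fact : ∀ c : ZMod 23, c ≠ 0 → (¬ ∃ r : ZMod 23, c = r * r) → ∀ p : GolayPt,
    (p = some 0 ∨ ∃ i : Fin 11, p = some (2 ^ i.val * c)) ↔ nMask.testBit (gIdx p) = true := by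
  decide +kernel

theorem sq_fact : ∀ c : ZMod 23, c ≠ 0 → (∃ r : ZMod 23, c = r * r) → ∀ p : GolayPt,
    (p = some 0 ∨ ∃ i : Fin 11, p = some (2 ^ i.val * c)) ↔ p ∈ dStd := by
  decide +kernel

theorem sq_pow_fact : ∀ c : ZMod 23, c ≠ 0 → (∃ r : ZMod 23, c = r * r) →
    ∃ j : Fin 11, c = 2 ^ j.val := by
  decide +kernel

theorem smul_dStd_of_centMu {g : Equiv.Perm GolayPt} (hg : CentMu g) {c : ZMod 23}
    (h1 : g (some 1) = some c) (p : GolayPt) :
    p ∈ g • dStd ↔ (p = some 0 ∨ ∃ i : Fin 11, p = some (2 ^ i.val * c)) := by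
  constructor
  · intro hp
    obtain ⟨q, hq, rfl⟩ := Finset.mem_smul_finset.1 hp
    rcases (dStd_pow q).1 hq with rfl | ⟨i, rfl⟩
    · left; exact hg.2.2.1
    · right; exact ⟨i, centMu_pow hg h1 i.val⟩
  · rintro (rfl | ⟨i, rfl⟩)
    · rw [← hg.2.2.1]
      exact Finset.smul_mem_smul_finset ((dStd_pow _).2 (Or.inl rfl))
    · rw [← centMu_pow hg h1 i.val]
      exact Finset.smul_mem_smul_finset ((dStd_pow _).2 (Or.inr ⟨i, rfl⟩))

theorem centMu_sq {g : Equiv.Perm GolayPt} (hg : CentMu g) {c : ZMod 23}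
    (h1 : g (some 1) = some c) : c ≠ 0 ∧ ∃ r : ZMod 23, c = r * r := by
  have hc0 : c ≠ 0 := by
    rintro rfl
    have : g (some 1) = g (some 0) := by rw [h1, hg.2.2.1]
    have h2 := g.injective this
    revert h2
    decide
  refine ⟨hc0, ?_⟩
  by_contra hns
  have hsup : g • dStd = gSup nMask := by
    ext p
    rw [smul_dStd_of_centMu hg h1 p, nonsq_fact c hc0 hns p, mem_gSup]
  have hmem := smul_mem_supports hg.1 dStd_mem.1
  rw [hsup, mem_supports_iff] at hmem
  obtain ⟨x, hx, hxe⟩ := hmem
  have : nMask = x := gSup_injOn (by decide) (gCode_lt' hx) hxe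
  rw [← this] at hx
  exact nMask_not_mem hx

theorem centMu_KD {g : Equiv.Perm GolayPt} (hg : CentMu g) : g ∈ KD := by
  obtain ⟨c, h1⟩ := centMu_exists hg
  obtain ⟨hc0, hsq⟩ := centMu_sq hg h1
  refine ⟨hg.1, ?_⟩
  show g • dStd = dStd
  ext p
  rw [smul_dStd_of_centMu hg h1 p, sq_fact c hc0 hsq p]

theorem pt_vals : pt 0 = some 0 ∧ pt 1 = some (2 ^ 0) ∧ pt 2 = some (2 ^ 1) ∧ pt 3 = some (2 ^ 8) ∧
    pt 4 = some (2 ^ 2) ∧ pt 23 = none := by decide +kernel

theorem centMu_unique {g m : Equiv.Perm GolayPt} (hg : CentMu g) (hm : CentMu m)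
    (h : g (some 1) = m (some 1)) : g = m := by
  obtain ⟨c, h1⟩ := centMu_exists hg
  have h1' : m (some 1) = some c := by rw [← h, h1]
  have hgK := centMu_KD hg
  have hmK := centMu_KD hm
  obtain ⟨e0, e1, e2, e3, e4, -⟩ := pt_vals
  have hfix : m⁻¹ * g ∈ fixN KD [0, 1, 2, 3, 4] := by
    refine ⟨KD.mul_mem (KD.inv_mem hmK) hgK, fun f hf => ?_⟩
    simp only [List.mem_cons, List.not_mem_nil, or_false] at hf
    rw [Equiv.Perm.mul_apply, Equiv.Perm.inv_eq_iff_eq]
    rcases hf with rfl | rfl | rfl | rfl | rfl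
    · rw [e0, hg.2.2.1, hm.2.2.1]
    · rw [e1, centMu_pow hg h1 0, centMu_pow hm h1' 0]
    · rw [e2, centMu_pow hg h1 1, centMu_pow hm h1' 1]
    · rw [e3, centMu_pow hg h1 8, centMu_pow hm h1' 8]
    · rw [e4, centMu_pow hg h1 2, centMu_pow hm h1' 2]
  have := fixA5_trivial _ hfix
  calc g = m * (m⁻¹ * g) := by simp
    _ = m := by rw [this, mul_one]

theorem centMu_comm {g h : Equiv.Perm GolayPt} (hg : CentMu g) (hh : CentMu h) : g * h = h * g := by
  apply centMu_unique (centMu_mul hg hh) (centMu_mul hh hg)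
  obtain ⟨c, h1⟩ := centMu_exists hg
  obtain ⟨d, h2⟩ := centMu_exists hh
  obtain ⟨hc0, hcsq⟩ := centMu_sq hg h1
  obtain ⟨hd0, hdsq⟩ := centMu_sq hh h2
  obtain ⟨i, rfl⟩ := sq_pow_fact c hc0 hcsq
  obtain ⟨j, rfl⟩ := sq_pow_fact d hd0 hdsq
  rw [Equiv.Perm.mul_apply, Equiv.Perm.mul_apply, h1, h2, centMu_pow hg h1 j.val,
    centMu_pow hh h2 i.val, mul_comm]

/-! ### Simplicity of the five Mathieu groups (as permutation groups) -/

theorem pt23_none : pt 23 = none := by decide +kernel
theorem pt0_some : pt 0 = some 0 := by decide +kernel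

theorem twoTrans_A : TwoTransOn gA
    ((Finset.univ.filter (fun p => p ∉ [23].map pt) : Finset GolayPt) : Set GolayPt) :=
  twoTransOn_of_listTrans (K := M24) (D := Finset.univ) (by simp) [23] 0 1 (by decide +kernel)
    (by simp) (listTransOn_of_listTrans listTrans3 _) (by
      intro k hk hfix
      apply Equiv.ext
      intro p
      by_cases hp : p ∈ [23].map pt
      · obtain ⟨f, hf, rfl⟩ := List.mem_map.1 hp
        exact hk.2 f hf
      · exact hfix p (Finset.mem_univ _) hp)

theorem simple_A : IsSimpleGroup ↥gA := by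
  have : Fact (Nat.Prime 23) := ⟨by norm_num⟩
  refine simple_of_data gA _ twoTrans_A 23 perfA ?_ ?_ (x := pt 0) ?_ gShift ?_ gShift_order ?_
  · rw [gA_card]; norm_num
  · rw [Set.ncard_coe_finset]; decide +kernel
  · rw [Finset.mem_coe]; decide +kernel
  · refine ⟨gShift_mem_M24, fun f hf => ?_⟩
    rw [List.mem_singleton] at hf
    subst hf
    decide +kernel
  · intro g hg h hh cg ch
    have hg' : g none = none := by
      have := hg.2 23 (List.mem_singleton.2 rfl)
      rwa [pt23_none] at this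
    have hh' : h none = none := by
      have := hh.2 23 (List.mem_singleton.2 rfl)
      rwa [pt23_none] at this
    exact shift_cent_comm hg' hh' cg ch

theorem twoTrans_B : TwoTransOn gB
    ((Finset.univ.filter (fun p => p ∉ [23, 0].map pt) : Finset GolayPt) : Set GolayPt) :=
  twoTransOn_of_listTrans (K := M24) (D := Finset.univ) (by simp) [23, 0] 1 2 (by decide +kernel)
    (by simp) (listTransOn_of_listTrans listTrans4 _) (by
      intro k hk hfix
      apply Equiv.ext
      intro p
      by_cases hp : p ∈ [23, 0].map pt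
      · obtain ⟨f, hf, rfl⟩ := List.mem_map.1 hp
        exact hk.2 f hf
      · exact hfix p (Finset.mem_univ _) hp)

theorem gMu_centMu : CentMu gMu := ⟨gMu_mem_M24, rfl, by decide +kernel, rfl⟩

theorem centMu_of_gB {g : Equiv.Perm GolayPt} (hg : g ∈ gB) (cg : g * gMu = gMu * g) : CentMu g := by
  refine ⟨hg.1, ?_, ?_, cg⟩
  · have := hg.2 23 (by simp)
    rwa [pt23_none] at this
  · have := hg.2 0 (by simp)
    rwa [pt0_some] at this

theorem simple_B : IsSimpleGroup ↥gB := by
  have : Fact (Nat.Prime 11) := ⟨by norm_num⟩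
  refine simple_of_data gB _ twoTrans_B 11 perfB ?_ ?_ (x := pt 1) ?_ gMu ?_ gMu_order ?_
  · rw [gB_card]; norm_num
  · rw [Set.ncard_coe_finset]; decide +kernel
  · rw [Finset.mem_coe]; decide +kernel
  · refine ⟨gMu_mem_M24, fun f hf => ?_⟩
    simp only [List.mem_cons, List.not_mem_nil, or_false] at hf
    rcases hf with rfl | rfl <;> decide +kernel
  · intro g hg h hh cg ch
    exact centMu_comm (centMu_of_gB hg cg) (centMu_of_gB hh ch)

theorem twoTrans_C : TwoTransOn gC
    ((dStd.filter (fun p => p ∉ [0].map pt) : Finset GolayPt) : Set GolayPt) :=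
  twoTransOn_of_listTrans (K := KD) (D := dStd) KD_stable [0] 1 2 (by decide +kernel)
    (by decide +kernel) transA3 (by
      intro k hk hfix
      apply fixA5_trivial
      refine ⟨hk.1, fun f hf => ?_⟩
      simp only [List.mem_cons, List.not_mem_nil, or_false] at hf
      rcases hf with rfl | rfl | rfl | rfl | rfl
      · exact hk.2 0 (List.mem_singleton.2 rfl)
      · exact hfix _ (by decide +kernel) (by decide +kernel)
      · exact hfix _ (by decide +kernel) (by decide +kernel)
      · exact hfix _ (by decide +kernel) (by decide +kernel)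
      · exact hfix _ (by decide +kernel) (by decide +kernel))

theorem gMu_fixed : ∀ p : GolayPt, gMu p = p → p = none ∨ p = some 0 := by decide +kernel

theorem centMu_of_gC {g : Equiv.Perm GolayPt} (hg : g ∈ gC) (cg : g * gMu = gMu * g) : CentMu g := by
  have h0 : g (some 0) = some 0 := by
    have := hg.2 0 (by simp)
    rwa [pt0_some] at this
  refine ⟨hg.1.1, ?_, h0, cg⟩
  have h1 : gMu (g none) = g none := by
    have := congrArg (fun f : Equiv.Perm GolayPt => f none) cg
    simp only [Equiv.Perm.mul_apply, gMu_none] at this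
    exact this.symm
  rcases gMu_fixed _ h1 with h2 | h2
  · exact h2
  · exfalso
    rw [← h0] at h2
    exact Option.some_ne_none _ (g.injective h2).symm

theorem simple_C : IsSimpleGroup ↥gC := by
  have : Fact (Nat.Prime 11) := ⟨by norm_num⟩
  refine simple_of_data gC _ twoTrans_C 11 perfC ?_ ?_ (x := pt 1) ?_ gMu ?_ gMu_order ?_
  · rw [gC_card]; norm_num
  · rw [Set.ncard_coe_finset]; decide +kernel
  · rw [Finset.mem_coe]; decide +kernel
  · refine ⟨centMu_KD gMu_centMu, fun f hf => ?_⟩
    rw [List.mem_singleton] at hf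
    subst hf
    decide +kernel
  · intro g hg h hh cg ch
    exact centMu_comm (centMu_of_gC hg cg) (centMu_of_gC hh ch)

theorem simple_M24 : IsSimpleGroup ↥M24 := by
  have h2 : TwoTransOn (fixN M24 [])
      ((Finset.univ.filter (fun p => p ∉ ([] : List ℕ).map pt) : Finset GolayPt) : Set GolayPt) :=
    twoTransOn_of_listTrans (K := M24) (D := Finset.univ) (by simp) [] 23 0 (by simp) (by simp)
      (listTransOn_of_listTrans listTrans2 _) (by
        intro k hk hfix
        apply Equiv.ext
        intro p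
        exact hfix p (Finset.mem_univ _) (by simp))
  have hs : IsSimpleGroup ↥(fixN M24 [] ⊓ MulAction.stabilizer (Equiv.Perm GolayPt) (pt 23)) := by
    rw [← fixN_append]
    exact simple_A
  have := simple_of_point_stabilizer (fixN M24 []) _ h2 (pt 23) (by rw [Finset.mem_coe]; decide +kernel)
    hs 2 3 (by norm_num) (by norm_num) (by norm_num)
    (by rw [Set.ncard_coe_finset]; decide +kernel) (by rw [Set.ncard_coe_finset]; decide +kernel)
  rwa [fixN_nil] at this

theorem simple_KD : IsSimpleGroup ↥KD := by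
  have h2 : TwoTransOn (fixN KD [])
      ((dStd.filter (fun p => p ∉ ([] : List ℕ).map pt) : Finset GolayPt) : Set GolayPt) :=
    twoTransOn_of_listTrans (K := KD) (D := dStd) KD_stable [] 0 1 (by simp) (by simp)
      transA2 (by
        intro k hk hfix
        apply fixA5_trivial
        refine ⟨hk.1, fun f hf => ?_⟩
        simp only [List.mem_cons, List.not_mem_nil, or_false] at hf
        rcases hf with rfl | rfl | rfl | rfl | rfl
        · exact hfix _ (by decide +kernel) (by simp)
        · exact hfix _ (by decide +kernel) (by simp)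
        · exact hfix _ (by decide +kernel) (by simp)
        · exact hfix _ (by decide +kernel) (by simp)
        · exact hfix _ (by decide +kernel) (by simp))
  have hs : IsSimpleGroup ↥(fixN KD [] ⊓ MulAction.stabilizer (Equiv.Perm GolayPt) (pt 0)) := by
    rw [← fixN_append]
    exact simple_C
  have := simple_of_point_stabilizer (fixN KD []) _ h2 (pt 0) (by rw [Finset.mem_coe]; decide +kernel)
    hs 2 3 (by norm_num) (by norm_num) (by norm_num)
    (by rw [Set.ncard_coe_finset]; decide +kernel) (by rw [Set.ncard_coe_finset]; decide +kernel)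
  rwa [fixN_nil] at this

/-! ### Transfer to stabilizers inside `M24` -/

theorem simple_stab_transfer {β : Type*} [MulAction (Equiv.Perm GolayPt) β]
    (K : Subgroup (Equiv.Perm GolayPt)) (b : β)
    (hK : ∀ g : Equiv.Perm GolayPt, g ∈ K ↔ g ∈ M24 ∧ g • b = b) (hs : IsSimpleGroup ↥K) :
    IsSimpleGroup ↥(MulAction.stabilizer ↥M24 b) := by
  let e : ↥K ≃* ↥(MulAction.stabilizer ↥M24 b) :=
    { toFun := fun g => ⟨⟨g.1, ((hK g.1).1 g.2).1⟩, ((hK g.1).1 g.2).2⟩
      invFun := fun x => ⟨x.1.1, (hK _).2 ⟨x.1.2, x.2⟩⟩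
      left_inv := fun _ => rfl
      right_inv := fun _ => rfl
      map_mul' := fun _ _ => rfl }
  exact (e.isSimpleGroup_congr).1 hs

theorem simple_stab_point (p : GolayPt) : IsSimpleGroup ↥(MulAction.stabilizer ↥M24 p) := by
  have h0 : IsSimpleGroup ↥(MulAction.stabilizer ↥M24 (pt 23)) :=
    simple_stab_transfer gA (pt 23) (by
      intro g
      constructor
      · intro hg; exact ⟨hg.1, hg.2 23 (List.mem_singleton.2 rfl)⟩
      · rintro ⟨h1, h2⟩
        refine ⟨h1, fun f hf => ?_⟩
        rw [List.mem_singleton] at hf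
        subst hf
        exact h2) simple_A
  have := M24_pretransitive
  obtain ⟨g, hg⟩ := MulAction.exists_smul_eq M24 (pt 23) p
  exact ((MulAction.stabilizerEquivStabilizer hg.symm).isSimpleGroup_congr).1 h0

theorem stab_inf_eq_prod {β γ : Type*} [MulAction ↥M24 β] [MulAction ↥M24 γ] (b : β) (c : γ) :
    MulAction.stabilizer ↥M24 b ⊓ MulAction.stabilizer ↥M24 c = MulAction.stabilizer ↥M24 (b, c) := by
  ext g
  simp only [Subgroup.mem_inf, MulAction.mem_stabilizer_iff, Prod.smul_mk, Prod.mk.injEq]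

theorem simple_stab_two_points (p q : GolayPt) (hpq : p ≠ q) :
    IsSimpleGroup ↥(MulAction.stabilizer ↥M24 p ⊓ MulAction.stabilizer ↥M24 q) := by
  rw [stab_inf_eq_prod]
  have h0 : IsSimpleGroup ↥(MulAction.stabilizer ↥M24 ((pt 23, pt 0) : GolayPt × GolayPt)) :=
    simple_stab_transfer gB ((pt 23, pt 0) : GolayPt × GolayPt) (by
      intro g
      constructor
      · intro hg
        exact ⟨hg.1, Prod.ext (hg.2 23 (by simp)) (hg.2 0 (by simp))⟩
      · rintro ⟨h1, h2⟩
        refine ⟨h1, fun f hf => ?_⟩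
        simp only [List.mem_cons, List.not_mem_nil, or_false] at hf
        rcases hf with rfl | rfl
        · exact congrArg Prod.fst h2
        · exact congrArg Prod.snd h2) simple_B
  have h2 := M24_two_trans
  rw [MulAction.is_two_pretransitive_iff] at h2
  obtain ⟨g, hg1, hg2⟩ := h2 (a := pt 23) (b := pt 0) (c := p) (d := q) (by decide +kernel) hpq
  have hg : ((p, q) : GolayPt × GolayPt) = g • ((pt 23, pt 0) : GolayPt × GolayPt) := by
    rw [Prod.smul_mk, hg1, hg2]
  exact ((MulAction.stabilizerEquivStabilizer hg).isSimpleGroup_congr).1 h0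

theorem simple_stab_dodecad (d : Finset GolayPt) (hd : d ∈ dodecads) :
    IsSimpleGroup ↥(MulAction.stabilizer ↥M24 d) := by
  have h0 : IsSimpleGroup ↥(MulAction.stabilizer ↥M24 dStd) :=
    simple_stab_transfer KD dStd (fun g => Iff.rfl) simple_KD
  obtain ⟨g, hg⟩ := dodecad_trans dStd d dStd_mem hd
  exact ((MulAction.stabilizerEquivStabilizer hg.symm).isSimpleGroup_congr).1 h0

theorem simple_stab_dodecad_point (d : Finset GolayPt) (hd : d ∈ dodecads) (p : GolayPt) (hp : p ∈ d) :
    IsSimpleGroup ↥(MulAction.stabilizer ↥M24 d ⊓ MulAction.stabilizer ↥M24 p) := by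
  rw [stab_inf_eq_prod]
  have h0 : IsSimpleGroup ↥(MulAction.stabilizer ↥M24 ((dStd, pt 0) : Finset GolayPt × GolayPt)) :=
    simple_stab_transfer gC ((dStd, pt 0) : Finset GolayPt × GolayPt) (by
      intro g
      constructor
      · intro hg
        exact ⟨hg.1.1, Prod.ext hg.1.2 (hg.2 0 (by simp))⟩
      · rintro ⟨h1, h2⟩
        refine ⟨⟨h1, congrArg Prod.fst h2⟩, fun f hf => ?_⟩
        rw [List.mem_singleton] at hf
        subst hf
        exact congrArg Prod.snd h2) simple_C
  obtain ⟨k, hk, hkd, hkp⟩ := flag_point hd hp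
  have hg : ((d, p) : Finset GolayPt × GolayPt) =
      (⟨k, hk⟩ : ↥M24) • ((dStd, pt 0) : Finset GolayPt × GolayPt) := by
    rw [Prod.smul_mk]
    exact Prod.ext hkd.symm hkp.symm
  exact ((MulAction.stabilizerEquivStabilizer hg).isSimpleGroup_congr).1 h0

end Cfsg.Agent.Helper3
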