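import Mathlib
import Cfsg.Prelude.Def_Sporadic_a
import Cfsg.Agent.Helper3.GolayLemmas
import Cfsg.Agent.Helper3.Steiner

set_option autoImplicit false
set_option linter.unusedVariables false

namespace Cfsg.Agent.Helper3
open Cfsg
open scoped Pointwise

theorem inter_octad_dodecad {o d : Finset GolayPt} (ho : o ∈ octads) (hd : d ∈ dodecads) :
    (o ∩ d).card = 2 ∨ (o ∩ d).card = 4 ∨ (o ∩ d).card = 6 := by
  obtain ⟨w, hw, rfl, hc⟩ := (mem_octads_iff o).1 ho
  obtain ⟨w', hw', rfl, hc'⟩ := (mem_dodecads_iff d).1 hd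
  have h1 := card_support₂_add w w'
  have h2 := golay_weights (w + w') (golayCode.add_mem hw hw')
  rw [hammingNorm_eq_card_support₂] at h2
  have h3 : (support₂ w ∩ support₂ w').card ≤ 8 := by
    rw [← hc]; exact Finset.card_le_card Finset.inter_subset_left
  omega

theorem dodecad_hexads_steiner (d : Finset GolayPt) (hd : d ∈ dodecads) :
    IsSteinerSystem 5 6 {h : Finset {p : GolayPt // p ∈ d} |
      ∃ o ∈ octads, (o ∩ d).card = 6 ∧ h = Finset.subtype (fun p => p ∈ d) o} := by
  classical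
  constructor
  · rintro h ⟨o, ho, hc, rfl⟩
    rw [Finset.card_subtype, Finset.filter_mem_eq_inter]
    exact hc
  · intro s hs
    obtain ⟨o, ⟨ho, hso⟩, huniq⟩ := octads_steiner.2 (s.map (Function.Embedding.subtype _))
      (by rw [Finset.card_map]; exact hs)
    have hsub : s.map (Function.Embedding.subtype _) ⊆ o ∩ d := by
      intro p hp
      rw [Finset.mem_inter]
      refine ⟨hso hp, ?_⟩
      obtain ⟨x, -, rfl⟩ := Finset.mem_map.1 hp
      exact x.2
    have h5 : 5 ≤ (o ∩ d).card := by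
      calc 5 = (s.map (Function.Embedding.subtype _)).card := by rw [Finset.card_map, hs]
        _ ≤ (o ∩ d).card := Finset.card_le_card hsub
    have h6 : (o ∩ d).card = 6 := by
      rcases inter_octad_dodecad ho hd with h | h | h <;> omega
    refine ⟨Finset.subtype (fun p => p ∈ d) o, ⟨⟨o, ho, h6, rfl⟩, ?_⟩, ?_⟩
    · intro x hx
      rw [Finset.mem_subtype]
      exact hso (Finset.mem_map.2 ⟨x, hx, rfl⟩)
    · rintro h' ⟨⟨o', ho', -, rfl⟩, hs'⟩
      have : o' = o := huniq o' ⟨ho', by
        intro p hp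
        obtain ⟨x, hx, rfl⟩ := Finset.mem_map.1 hp
        exact Finset.mem_subtype.1 (hs' hx)⟩
      rw [this]

theorem dodecad_counts (d : Finset GolayPt) (hd : d ∈ dodecads) :
    {o : Finset GolayPt | o ∈ octads ∧ (o ∩ d).card = 6}.ncard = 132 ∧
    {o : Finset GolayPt | o ∈ octads ∧ (o ∩ d).card = 2}.ncard = 132 ∧
    {o : Finset GolayPt | o ∈ octads ∧ (o ∩ d).card = 4}.ncard = 495 := by
  classical
  obtain ⟨B, hB⟩ := exists_finset_coe octads
  have hmem : ∀ o, o ∈ B ↔ o ∈ octads := fun o => by rw [← hB]; rfl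
  have hSt : IsSteinerSystem 5 8 (B : Set (Finset GolayPt)) := by rw [hB]; exact octads_steiner
  have hα : Fintype.card GolayPt = 24 := by decide
  have hk : d.card = 12 := hd.2
  have hset : ∀ i : ℕ, {o : Finset GolayPt | o ∈ octads ∧ (o ∩ d).card = i} =
      ((B.filter (fun c => (d ∩ c).card = i) : Finset (Finset GolayPt)) : Set (Finset GolayPt)) := by
    intro i
    ext o
    simp only [Set.mem_ofPred_eq, Finset.coe_filter, hmem, Finset.inter_comm]
  rw [hset 6, hset 2, hset 4, Set.ncard_coe_finset, Set.ncard_coe_finset, Set.ncard_coe_finset]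
  have hle : ∀ c ∈ B, (d ∩ c).card ≤ 8 := fun c hc => by
    rw [← ((hmem c).1 hc).2]; exact Finset.card_le_card Finset.inter_subset_right
  have lam : ∀ (j : ℕ), j ≤ 5 → ∀ (s : Finset GolayPt), s.card = j →
      (B.filter (fun c => s ⊆ c)).card * Nat.choose (8 - j) (5 - j) =
        Nat.choose (24 - j) (5 - j) := by
    intro j hj s hs
    have h := blocks_through hSt s (by omega)
    rwa [hs, hα] at h
  have e0 := sum_choose_inter (B := B) d 0 759 (fun s hs => by
    have h := lam 0 (by omega) s hs; norm_num [Nat.choose] at h; omega)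
  have e1 := sum_choose_inter (B := B) d 1 253 (fun s hs => by
    have h := lam 1 (by omega) s hs; norm_num [Nat.choose] at h; omega)
  have e2 := sum_choose_inter (B := B) d 2 77 (fun s hs => by
    have h := lam 2 (by omega) s hs; norm_num [Nat.choose] at h; omega)
  rw [sum_fiber_inter B d (fun i => Nat.choose i 0) 8 hle, hk] at e0
  rw [sum_fiber_inter B d (fun i => Nat.choose i 1) 8 hle, hk] at e1
  rw [sum_fiber_inter B d (fun i => Nat.choose i 2) 8 hle, hk] at e2
  simp only [Finset.sum_range_succ, Finset.sum_range_zero] at e0 e1 e2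
  have hz : ∀ i : ℕ, i ≠ 2 → i ≠ 4 → i ≠ 6 → (B.filter (fun c => (d ∩ c).card = i)).card = 0 := by
    intro i h2 h4 h6
    rw [Finset.card_eq_zero, Finset.filter_eq_empty_iff]
    intro c hc hcard
    have := inter_octad_dodecad ((hmem c).1 hc) hd
    rw [Finset.inter_comm, hcard] at this
    omega
  have n0 := hz 0 (by norm_num) (by norm_num) (by norm_num)
  have n1 := hz 1 (by norm_num) (by norm_num) (by norm_num)
  have n3 := hz 3 (by norm_num) (by norm_num) (by norm_num)
  have n5 := hz 5 (by norm_num) (by norm_num) (by norm_num)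
  have n7 := hz 7 (by norm_num) (by norm_num) (by norm_num)
  have n8 := hz 8 (by norm_num) (by norm_num) (by norm_num)
  generalize hm0 : (B.filter (fun c => (d ∩ c).card = 0)).card = m0 at e0 e1 e2 n0 ⊢
  generalize hm1 : (B.filter (fun c => (d ∩ c).card = 1)).card = m1 at e0 e1 e2 n1 ⊢
  generalize hm2 : (B.filter (fun c => (d ∩ c).card = 2)).card = m2 at e0 e1 e2 ⊢
  generalize hm3 : (B.filter (fun c => (d ∩ c).card = 3)).card = m3 at e0 e1 e2 n3 ⊢
  generalize hm4 : (B.filter (fun c => (d ∩ c).card = 4)).card = m4 at e0 e1 e2 ⊢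
  generalize hm5 : (B.filter (fun c => (d ∩ c).card = 5)).card = m5 at e0 e1 e2 n5 ⊢
  generalize hm6 : (B.filter (fun c => (d ∩ c).card = 6)).card = m6 at e0 e1 e2 ⊢
  generalize hm7 : (B.filter (fun c => (d ∩ c).card = 7)).card = m7 at e0 e1 e2 n7 ⊢
  generalize hm8 : (B.filter (fun c => (d ∩ c).card = 8)).card = m8 at e0 e1 e2 n8 ⊢
  norm_num [Nat.choose] at e0 e1 e2
  omega

end Cfsg.Agent.Helper3
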