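import Mathlib
import Cfsg.Prelude.Def_LieExceptional

set_option autoImplicit false
set_option linter.unusedSectionVars false
set_option linter.unusedVariables false

namespace Cfsg.Agent.Helper3

open scoped Pointwise

/-! ### Groups generated by involutions: words and length -/

section GenInv

variable {W : Type*} [Group W]

/-- A list all of whose entries lie in `Sb`. -/
def IsWordIn (Sb : Set W) (L : List W) : Prop := ∀ x ∈ L, x ∈ Sb

theorem IsWordIn.nil {Sb : Set W} : IsWordIn Sb [] := fun _ h => by simp at h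

theorem IsWordIn.cons {Sb : Set W} {a : W} {L : List W} (ha : a ∈ Sb) (hL : IsWordIn Sb L) :
    IsWordIn Sb (a :: L) := by
  intro x hx
  rcases List.mem_cons.1 hx with rfl | h
  · exact ha
  · exact hL x h

theorem IsWordIn.tail {Sb : Set W} {a : W} {L : List W} (h : IsWordIn Sb (a :: L)) :
    IsWordIn Sb L := fun x hx => h x (List.mem_cons_of_mem _ hx)

theorem IsWordIn.head {Sb : Set W} {a : W} {L : List W} (h : IsWordIn Sb (a :: L)) :
    a ∈ Sb := h a (by simp)

theorem IsWordIn.append {Sb : Set W} {L L' : List W} (h : IsWordIn Sb L) (h' : IsWordIn Sb L') :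
    IsWordIn Sb (L ++ L') := by
  intro x hx
  rcases List.mem_append.1 hx with h1 | h1
  · exact h x h1
  · exact h' x h1

theorem IsWordIn.left {Sb : Set W} {L L' : List W} (h : IsWordIn Sb (L ++ L')) :
    IsWordIn Sb L := fun x hx => h x (List.mem_append_left _ hx)

theorem IsWordIn.right {Sb : Set W} {L L' : List W} (h : IsWordIn Sb (L ++ L')) :
    IsWordIn Sb L' := fun x hx => h x (List.mem_append_right _ hx)

theorem IsWordIn.reverse {Sb : Set W} {L : List W} (h : IsWordIn Sb L) :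
    IsWordIn Sb L.reverse := fun x hx => h x (List.mem_reverse.1 hx)

theorem IsWordIn.mono {Sb Sb' : Set W} (hS : Sb ⊆ Sb') {L : List W} (h : IsWordIn Sb L) :
    IsWordIn Sb' L := fun x hx => hS (h x hx)

theorem IsWordIn.prod_mem {Sb : Set W} {L : List W} (h : IsWordIn Sb L) :
    L.prod ∈ Subgroup.closure Sb :=
  Subgroup.list_prod_mem _ (fun x hx => Subgroup.subset_closure (h x hx))

theorem inv_eq_self_of_mem {Sb : Set W} (hinv : ∀ s ∈ Sb, s * s = 1) {s : W} (hs : s ∈ Sb) :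
    s⁻¹ = s :=
  inv_eq_of_mul_eq_one_left (hinv s hs)

theorem word_reverse_prod {Sb : Set W} (hinv : ∀ s ∈ Sb, s * s = 1) {L : List W}
    (hL : IsWordIn Sb L) : L.reverse.prod = L.prod⁻¹ := by
  induction L with
  | nil => simp
  | cons a L ih =>
    have ha : a⁻¹ = a := inv_eq_self_of_mem hinv hL.head
    simp [ih hL.tail, ha]

theorem exists_word_of_mem_closure {Sb : Set W} (hinv : ∀ s ∈ Sb, s * s = 1) {w : W}
    (hw : w ∈ Subgroup.closure Sb) : ∃ L, IsWordIn Sb L ∧ L.prod = w := by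
  induction hw using Subgroup.closure_induction with
  | mem x hx => exact ⟨[x], IsWordIn.cons hx IsWordIn.nil, by simp⟩
  | one => exact ⟨[], IsWordIn.nil, rfl⟩
  | mul x y _ _ hx hy =>
    obtain ⟨L, hL, rfl⟩ := hx
    obtain ⟨L', hL', rfl⟩ := hy
    exact ⟨L ++ L', hL.append hL', by simp⟩
  | inv x _ hx =>
    obtain ⟨L, hL, rfl⟩ := hx
    exact ⟨L.reverse, hL.reverse, word_reverse_prod hinv hL⟩

/-- The word length with respect to `Sb`. -/
noncomputable def len (Sb : Set W) (w : W) : ℕ :=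
  sInf {k | ∃ L : List W, IsWordIn Sb L ∧ L.length = k ∧ L.prod = w}

theorem len_le {Sb : Set W} {L : List W} (hL : IsWordIn Sb L) : len Sb L.prod ≤ L.length :=
  Nat.sInf_le ⟨L, hL, rfl, rfl⟩

theorem len_one {Sb : Set W} : len Sb (1 : W) = 0 := by
  have := len_le (Sb := Sb) (L := []) IsWordIn.nil
  simpa using this

section
variable {Sb : Set W} (hinv : ∀ s ∈ Sb, s * s = 1) (hgen : Subgroup.closure Sb = ⊤)
include hinv hgen

theorem len_spec (w : W) : ∃ L, IsWordIn Sb L ∧ L.length = len Sb w ∧ L.prod = w := by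
  have hne : {k | ∃ L : List W, IsWordIn Sb L ∧ L.length = k ∧ L.prod = w}.Nonempty := by
    obtain ⟨L, hL, hp⟩ := exists_word_of_mem_closure hinv (w := w) (by rw [hgen]; trivial)
    exact ⟨L.length, L, hL, rfl, hp⟩
  exact Nat.sInf_mem hne

theorem len_eq_zero {w : W} (h : len Sb w = 0) : w = 1 := by
  obtain ⟨L, _, hlen, rfl⟩ := len_spec hinv hgen w
  rw [h] at hlen
  rw [List.length_eq_zero_iff.1 hlen]; rfl

theorem len_mul_le_add (u v : W) : len Sb (u * v) ≤ len Sb u + len Sb v := by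
  obtain ⟨L, hL, hlen, rfl⟩ := len_spec hinv hgen u
  obtain ⟨L', hL', hlen', rfl⟩ := len_spec hinv hgen v
  have := len_le (hL.append hL')
  simpa [hlen, hlen'] using this

theorem len_inv (w : W) : len Sb w⁻¹ = len Sb w := by
  have key : ∀ w : W, len Sb w⁻¹ ≤ len Sb w := by
    intro w
    obtain ⟨L, hL, hlen, rfl⟩ := len_spec hinv hgen w
    have := len_le hL.reverse
    rw [word_reverse_prod hinv hL] at this
    simpa [hlen] using this
  refine le_antisymm (key w) ?_
  have := key w⁻¹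
  simpa using this

theorem len_of_mem {s : W} (hs : s ∈ Sb) (h1 : s ≠ 1) : len Sb s = 1 := by
  have h := len_le (Sb := Sb) (L := [s]) (IsWordIn.cons hs IsWordIn.nil)
  simp only [List.prod_cons, List.prod_nil, mul_one, List.length_cons, List.length_nil,
    zero_add] at h
  have h0 : len Sb s ≠ 0 := fun h0 => h1 (len_eq_zero hinv hgen h0)
  omega

theorem len_mul_le {s : W} (hs : s ∈ Sb) (w : W) : len Sb (s * w) ≤ len Sb w + 1 := by
  obtain ⟨L, hL, hlen, rfl⟩ := len_spec hinv hgen w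
  have := len_le (IsWordIn.cons hs hL)
  simpa [hlen] using this

theorem len_le_mul {s : W} (hs : s ∈ Sb) (w : W) : len Sb w ≤ len Sb (s * w) + 1 := by
  have := len_mul_le hinv hgen hs (s * w)
  rwa [← mul_assoc, hinv s hs, one_mul] at this

theorem len_mul_right_le {s : W} (hs : s ∈ Sb) (w : W) : len Sb (w * s) ≤ len Sb w + 1 := by
  obtain ⟨L, hL, hlen, rfl⟩ := len_spec hinv hgen w
  have := len_le (hL.append (IsWordIn.cons hs IsWordIn.nil))
  simpa [hlen] using this

theorem len_le_mul_right {s : W} (hs : s ∈ Sb) (w : W) : len Sb w ≤ len Sb (w * s) + 1 := by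
  have := len_mul_right_le hinv hgen hs (w * s)
  rwa [mul_assoc, hinv s hs, mul_one] at this

end

/-- Reduced words. -/
def Red (Sb : Set W) (L : List W) : Prop := IsWordIn Sb L ∧ len Sb L.prod = L.length

theorem Red.nil {Sb : Set W} : Red Sb [] := ⟨IsWordIn.nil, by simpa using len_one⟩

section
variable {Sb : Set W} (hinv : ∀ s ∈ Sb, s * s = 1) (hgen : Subgroup.closure Sb = ⊤)
include hinv hgen

theorem exists_red (w : W) : ∃ L, Red Sb L ∧ L.prod = w := by
  obtain ⟨L, hL, hlen, rfl⟩ := len_spec hinv hgen w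
  exact ⟨L, ⟨hL, hlen.symm⟩, rfl⟩

theorem Red.append_left {L L' : List W} (h : Red Sb (L ++ L')) : Red Sb L := by
  refine ⟨h.1.left, ?_⟩
  have h1 := len_le h.1.left
  have h2 := len_le h.1.right
  have h3 := len_mul_le_add hinv hgen L.prod L'.prod
  have h4 := h.2
  simp only [List.prod_append, List.length_append] at h4
  omega

theorem Red.append_right {L L' : List W} (h : Red Sb (L ++ L')) : Red Sb L' := by
  refine ⟨h.1.right, ?_⟩
  have h1 := len_le h.1.left
  have h2 := len_le h.1.right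
  have h3 := len_mul_le_add hinv hgen L.prod L'.prod
  have h4 := h.2
  simp only [List.prod_append, List.length_append] at h4
  omega

theorem Red.tail {a : W} {L : List W} (h : Red Sb (a :: L)) : Red Sb L :=
  Red.append_right hinv hgen (L := [a]) (by simpa using h)

end

end GenInv


/-! ### BN-pairs -/

section BN

variable {G : Type*} [Group G] (P : Cfsg.BNPair G)

instance normalT : ((P.B ⊓ P.N).subgroupOf P.N).Normal := by
  constructor
  intro n hn g
  rw [Subgroup.mem_subgroupOf] at hn ⊢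
  have h := P.conj_mem g g.2 n hn
  refine Subgroup.mem_inf.2 ⟨?_, ?_⟩
  · simpa using h
  · exact (g * n * g⁻¹).2

/-- The Weyl group `N / (B ⊓ N)`. -/
abbrev Weyl : Type _ := P.N ⧸ (P.B ⊓ P.N).subgroupOf P.N

open Classical in
/-- The class in the Weyl group of an element of `G` (junk value `1` outside `N`). -/
noncomputable def toW (g : G) : Weyl P :=
  if h : g ∈ P.N then (QuotientGroup.mk (⟨g, h⟩ : P.N) : Weyl P) else 1

theorem toW_of_mem {g : G} (h : g ∈ P.N) :
    toW P g = (QuotientGroup.mk (⟨g, h⟩ : P.N) : Weyl P) := dif_pos h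

theorem toW_mul {a b : G} (ha : a ∈ P.N) (hb : b ∈ P.N) :
    toW P (a * b) = toW P a * toW P b := by
  rw [toW_of_mem P ha, toW_of_mem P hb, toW_of_mem P (P.N.mul_mem ha hb)]
  rfl

theorem toW_one : toW P 1 = 1 := by
  rw [toW_of_mem P P.N.one_mem]; rfl

theorem toW_inv {a : G} (ha : a ∈ P.N) : toW P a⁻¹ = (toW P a)⁻¹ := by
  rw [toW_of_mem P ha, toW_of_mem P (P.N.inv_mem ha)]; rfl

theorem toW_eq_iff {a b : G} (ha : a ∈ P.N) (hb : b ∈ P.N) :
    toW P a = toW P b ↔ a⁻¹ * b ∈ P.B := by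
  rw [toW_of_mem P ha, toW_of_mem P hb, QuotientGroup.eq, Subgroup.mem_subgroupOf]
  constructor
  · intro h; exact (Subgroup.mem_inf.1 h).1
  · intro h; exact Subgroup.mem_inf.2 ⟨h, P.N.mul_mem (P.N.inv_mem ha) hb⟩

theorem toW_eq_one_iff {a : G} (ha : a ∈ P.N) : toW P a = 1 ↔ a ∈ P.B := by
  rw [← toW_one P, eq_comm, toW_eq_iff P P.N.one_mem ha]; simp

theorem toW_surj (w : Weyl P) : ∃ n ∈ P.N, toW P n = w := by
  obtain ⟨n, rfl⟩ := QuotientGroup.mk_surjective w
  exact ⟨n, n.2, toW_of_mem P n.2⟩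

/-- The double coset `B w B`. -/
def C (w : Weyl P) : Set G :=
  {g | ∃ n ∈ P.N, toW P n = w ∧ g ∈ DoubleCoset.doubleCoset n (P.B : Set G) P.B}

theorem C_toW {n : G} (hn : n ∈ P.N) :
    C P (toW P n) = DoubleCoset.doubleCoset n (P.B : Set G) P.B := by
  ext g
  constructor
  · rintro ⟨n', hn', heq, hg⟩
    have h1 : n⁻¹ * n' ∈ P.B := (toW_eq_iff P hn hn').1 heq.symm
    have h2 : n' ∈ DoubleCoset.doubleCoset n (P.B : Set G) P.B :=
      DoubleCoset.mem_doubleCoset.2 ⟨1, P.B.one_mem, n⁻¹ * n', h1, by group⟩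
    rw [← DoubleCoset.doubleCoset_eq_of_mem h2]
    exact hg
  · intro hg
    exact ⟨n, hn, rfl, hg⟩

theorem mem_C_toW {n g : G} (hn : n ∈ P.N) :
    g ∈ C P (toW P n) ↔ ∃ b ∈ P.B, ∃ b' ∈ P.B, g = b * n * b' := by
  rw [C_toW P hn, DoubleCoset.mem_doubleCoset]; rfl

theorem self_mem_C {n : G} (hn : n ∈ P.N) : n ∈ C P (toW P n) := by
  rw [C_toW P hn]; exact DoubleCoset.mem_doubleCoset_self _ _ _

theorem C_nonempty (w : Weyl P) : (C P w).Nonempty := by
  obtain ⟨n, hn, rfl⟩ := toW_surj P w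
  exact ⟨n, self_mem_C P hn⟩

theorem C_one : C P 1 = (P.B : Set G) := by
  rw [← toW_one P]
  ext g
  rw [mem_C_toW P P.N.one_mem]
  constructor
  · rintro ⟨x, hx, y, hy, rfl⟩
    simpa using P.B.mul_mem hx hy
  · intro hg
    exact ⟨g, hg, 1, P.B.one_mem, by simp⟩

theorem mul_mem_C {w : Weyl P} {g b b' : G} (hg : g ∈ C P w) (hb : b ∈ P.B) (hb' : b' ∈ P.B) :
    b * g * b' ∈ C P w := by
  obtain ⟨n, hn, rfl, hg⟩ := hg
  refine ⟨n, hn, rfl, ?_⟩
  obtain ⟨x, hx, y, hy, rfl⟩ := DoubleCoset.mem_doubleCoset.1 hg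
  exact DoubleCoset.mem_doubleCoset.2
    ⟨b * x, P.B.mul_mem hb hx, y * b', P.B.mul_mem hy hb', by group⟩

theorem C_eq_of_mem {w w' : Weyl P} {g : G} (hg : g ∈ C P w) (hg' : g ∈ C P w') :
    C P w = C P w' := by
  obtain ⟨n, hn, rfl, hg⟩ := hg
  obtain ⟨n', hn', rfl, hg'⟩ := hg'
  rw [C_toW P hn, C_toW P hn', ← DoubleCoset.doubleCoset_eq_of_mem hg,
    ← DoubleCoset.doubleCoset_eq_of_mem hg']

theorem exists_eq_mul_of_mem_C {w : Weyl P} {g g' : G} (hg : g ∈ C P w) (hg' : g' ∈ C P w) :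
    ∃ b ∈ P.B, ∃ b' ∈ P.B, g' = b * g * b' := by
  obtain ⟨n, hn, rfl, hg⟩ := hg
  rw [C_toW P hn] at hg'
  obtain ⟨a, ha, a', ha', rfl⟩ := DoubleCoset.mem_doubleCoset.1 hg
  obtain ⟨c, hc, c', hc', rfl⟩ := DoubleCoset.mem_doubleCoset.1 hg'
  exact ⟨c * a⁻¹, P.B.mul_mem hc (P.B.inv_mem ha), a'⁻¹ * c',
    P.B.mul_mem (P.B.inv_mem ha') hc', by group⟩

theorem C_subset_of_mem {M : Subgroup G} (hM : P.B ≤ M) {w : Weyl P} {g : G}
    (hg : g ∈ C P w) (hgM : g ∈ M) : C P w ⊆ M := by
  intro x hx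
  obtain ⟨b, hb, b', hb', rfl⟩ := exists_eq_mul_of_mem_C P hg hx
  exact M.mul_mem (M.mul_mem (hM hb) hgM) (hM hb')

theorem C_inv {w : Weyl P} {g : G} (hg : g ∈ C P w) : g⁻¹ ∈ C P w⁻¹ := by
  obtain ⟨n, hn, rfl, hg⟩ := hg
  rw [← toW_inv P hn, mem_C_toW P (P.N.inv_mem hn)]
  obtain ⟨a, ha, a', ha', rfl⟩ := DoubleCoset.mem_doubleCoset.1 hg
  exact ⟨a'⁻¹, P.B.inv_mem ha', a⁻¹, P.B.inv_mem ha, by group⟩

theorem C_mul_subset (w w' : Weyl P) : C P (w * w') ⊆ C P w * C P w' := by
  obtain ⟨n, hn, rfl⟩ := toW_surj P w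
  obtain ⟨n', hn', rfl⟩ := toW_surj P w'
  rw [← toW_mul P hn hn']
  intro g hg
  obtain ⟨b, hb, b', hb', rfl⟩ := (mem_C_toW P (P.N.mul_mem hn hn')).1 hg
  refine Set.mem_mul.2 ⟨b * n, ?_, n' * b', ?_, by group⟩
  · exact (mem_C_toW P hn).2 ⟨b, hb, 1, P.B.one_mem, by group⟩
  · exact (mem_C_toW P hn').2 ⟨1, P.B.one_mem, b', hb', by group⟩

theorem C_subset_mul_of_mem {u v w : Weyl P} {g : G} (hg : g ∈ C P w)
    (hg' : g ∈ C P u * C P v) : C P w ⊆ C P u * C P v := by
  intro x hx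
  obtain ⟨b, hb, b', hb', rfl⟩ := exists_eq_mul_of_mem_C P hg hx
  obtain ⟨y, hy, z, hz, rfl⟩ := hg'
  refine Set.mem_mul.2 ⟨b * y, ?_, z * b', ?_, by group⟩
  · simpa using mul_mem_C P hy hb P.B.one_mem
  · simpa using mul_mem_C P hz P.B.one_mem hb'

/-- The distinguished generators of the Weyl group. -/
def Sb : Set (Weyl P) := toW P '' P.S

theorem not_mem_B_of_mem_S {s : G} (hs : s ∈ P.S) : s ∉ P.B := by
  intro hB
  apply P.conj_ne s hs
  ext x
  constructor
  · rintro ⟨b, hb, rfl⟩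
    exact P.B.mul_mem (P.B.mul_mem hB hb) hB
  · intro hx
    exact ⟨s⁻¹ * x * s⁻¹, P.B.mul_mem (P.B.mul_mem (P.B.inv_mem hB) hx) (P.B.inv_mem hB),
      by group⟩

theorem Sb_inv : ∀ s ∈ Sb P, s * s = 1 := by
  rintro _ ⟨s, hs, rfl⟩
  have hsN := P.subset hs
  rw [← toW_mul P hsN hsN, toW_eq_one_iff P (P.N.mul_mem hsN hsN)]
  exact P.sq_mem s hs

theorem Sb_ne_one : ∀ s ∈ Sb P, s ≠ 1 := by
  rintro _ ⟨s, hs, rfl⟩ h
  exact not_mem_B_of_mem_S P hs ((toW_eq_one_iff P (P.subset hs)).1 h)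

theorem toW_injOn_S {s s' : G} (hs : s ∈ P.S) (hs' : s' ∈ P.S) (h : toW P s = toW P s') :
    s = s' :=
  P.inj s hs s' hs' ((toW_eq_iff P (P.subset hs) (P.subset hs')).1 h)

theorem toW_mem_closure {J : Set G} (hJ : J ⊆ P.S) {n : G} (hn : n ∈ Subgroup.closure J) :
    n ∈ P.N ∧ toW P n ∈ Subgroup.closure (toW P '' J) := by
  induction hn using Subgroup.closure_induction with
  | mem x hx => exact ⟨P.subset (hJ hx), Subgroup.subset_closure ⟨x, hx, rfl⟩⟩
  | one => exact ⟨P.N.one_mem, by rw [toW_one]; exact Subgroup.one_mem _⟩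
  | mul x y _ _ hx hy =>
    exact ⟨P.N.mul_mem hx.1 hy.1, by rw [toW_mul P hx.1 hy.1]; exact Subgroup.mul_mem _ hx.2 hy.2⟩
  | inv x _ hx =>
    exact ⟨P.N.inv_mem hx.1, by rw [toW_inv P hx.1]; exact Subgroup.inv_mem _ hx.2⟩

theorem exists_mem_closure_toW {J : Set G} (hJ : J ⊆ P.S) {w : Weyl P}
    (hw : w ∈ Subgroup.closure (toW P '' J)) : ∃ n ∈ Subgroup.closure J, toW P n = w := by
  induction hw using Subgroup.closure_induction with
  | mem x hx =>
    obtain ⟨j, hj, rfl⟩ := hx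
    exact ⟨j, Subgroup.subset_closure hj, rfl⟩
  | one => exact ⟨1, Subgroup.one_mem _, toW_one P⟩
  | mul x y _ _ hx hy =>
    obtain ⟨n, hn, rfl⟩ := hx
    obtain ⟨n', hn', rfl⟩ := hy
    exact ⟨n * n', Subgroup.mul_mem _ hn hn',
      toW_mul P (toW_mem_closure P hJ hn).1 (toW_mem_closure P hJ hn').1⟩
  | inv x _ hx =>
    obtain ⟨n, hn, rfl⟩ := hx
    exact ⟨n⁻¹, Subgroup.inv_mem _ hn, toW_inv P (toW_mem_closure P hJ hn).1⟩

theorem Sb_gen : Subgroup.closure (Sb P) = ⊤ := by
  rw [eq_top_iff]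
  intro w _
  obtain ⟨n, hn, rfl⟩ := toW_surj P w
  have hn' : n ∈ Subgroup.closure P.S ⊔ (P.B ⊓ P.N) := by rw [P.closure_sup]; exact hn
  let K : Subgroup G :=
    { carrier := {g | g ∈ P.N ∧ toW P g ∈ Subgroup.closure (Sb P)}
      one_mem' := ⟨P.N.one_mem, by rw [toW_one]; exact Subgroup.one_mem _⟩
      mul_mem' := fun {a b} ha hb =>
        ⟨P.N.mul_mem ha.1 hb.1, by rw [toW_mul P ha.1 hb.1]; exact Subgroup.mul_mem _ ha.2 hb.2⟩
      inv_mem' := fun {a} ha =>
        ⟨P.N.inv_mem ha.1, by rw [toW_inv P ha.1]; exact Subgroup.inv_mem _ ha.2⟩ }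
  have h1 : Subgroup.closure P.S ≤ K := by
    rw [Subgroup.closure_le]
    intro s hs
    exact ⟨P.subset hs, Subgroup.subset_closure ⟨s, hs, rfl⟩⟩
  have h2 : P.B ⊓ P.N ≤ K := by
    intro t ht
    have htN := (Subgroup.mem_inf.1 ht).2
    refine ⟨htN, ?_⟩
    rw [(toW_eq_one_iff P htN).2 (Subgroup.mem_inf.1 ht).1]
    exact Subgroup.one_mem _
  exact ((sup_le h1 h2) hn').2

theorem exists_word (w : Weyl P) : ∃ L, IsWordIn (Sb P) L ∧ L.prod = w :=
  exists_word_of_mem_closure (Sb_inv P) (w := w) (by rw [Sb_gen]; trivial)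

theorem T3_elt {s : G} (hs : s ∈ P.S) {n : G} (hn : n ∈ P.N) {b : G} (hb : b ∈ P.B) :
    s * b * n ∈ C P (toW P s * toW P n) ∪ C P (toW P n) := by
  have := P.mul_mem_union s hs n hn b hb
  rw [← toW_mul P (P.subset hs) hn, C_toW P (P.N.mul_mem (P.subset hs) hn), C_toW P hn]
  exact this

theorem T3 {s : Weyl P} (hs : s ∈ Sb P) (w : Weyl P) :
    C P s * C P w ⊆ C P (s * w) ∪ C P w := by
  obtain ⟨s0, hs0, rfl⟩ := hs
  obtain ⟨n, hn, rfl⟩ := toW_surj P w
  rintro _ ⟨x, hx, y, hy, rfl⟩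
  obtain ⟨b1, hb1, b2, hb2, rfl⟩ := (mem_C_toW P (P.subset hs0)).1 hx
  obtain ⟨b3, hb3, b4, hb4, rfl⟩ := (mem_C_toW P hn).1 hy
  have h := T3_elt P hs0 hn (P.B.mul_mem hb2 hb3)
  have e : b1 * s0 * b2 * (b3 * n * b4) = b1 * (s0 * (b2 * b3) * n) * b4 := by group
  show b1 * s0 * b2 * (b3 * n * b4) ∈ _
  rw [e]
  rcases h with h | h
  · exact Or.inl (mul_mem_C P h hb1 hb4)
  · exact Or.inr (mul_mem_C P h hb1 hb4)

theorem T3_right {s : Weyl P} (hs : s ∈ Sb P) (w : Weyl P) :
    C P w * C P s ⊆ C P (w * s) ∪ C P w := by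
  have h := T3 P hs w⁻¹
  have hs' : s⁻¹ = s := inv_eq_self_of_mem (Sb_inv P) hs
  intro g hg
  have hg' : g⁻¹ ∈ C P s * C P w⁻¹ := by
    obtain ⟨x, hx, y, hy, rfl⟩ := hg
    show (x * y)⁻¹ ∈ _
    rw [mul_inv_rev]
    refine Set.mul_mem_mul ?_ (C_inv P hx)
    have := C_inv P hy
    rwa [hs'] at this
  rcases h hg' with h1 | h1
  · left
    have := C_inv P h1
    simpa [hs'] using this
  · right
    have := C_inv P h1
    simpa using this

theorem exists_mem_C_mul_C {s : Weyl P} (hs : s ∈ Sb P) :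
    ∃ x ∈ C P s, ∃ y ∈ C P s, x * y ∈ C P s := by
  obtain ⟨s0, hs0, rfl⟩ := hs
  have hs0N := P.subset hs0
  have h1 : ∃ b ∈ P.B, s0 * b * s0 ∉ P.B := by
    by_contra hcon0
    have hcon : ∀ b ∈ P.B, s0 * b * s0 ∈ P.B := by
      intro b hb
      by_contra h
      exact hcon0 ⟨b, hb, h⟩
    apply P.conj_ne s0 hs0
    ext x
    constructor
    · rintro ⟨b, hb, rfl⟩; exact hcon b hb
    · intro hx
      refine ⟨s0⁻¹ * x * s0⁻¹, ?_, by group⟩
      have h2 : s0⁻¹ * x * s0⁻¹ = (s0 * s0)⁻¹ * (s0 * x * s0) * (s0 * s0)⁻¹ := by group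
      show s0⁻¹ * x * s0⁻¹ ∈ P.B
      rw [h2]
      exact P.B.mul_mem (P.B.mul_mem (P.B.inv_mem (P.sq_mem s0 hs0)) (hcon x hx))
        (P.B.inv_mem (P.sq_mem s0 hs0))
  obtain ⟨b, hb, hnb⟩ := h1
  refine ⟨s0 * b, ?_, s0, self_mem_C P hs0N, ?_⟩
  · exact (mem_C_toW P hs0N).2 ⟨1, P.B.one_mem, b, hb, by group⟩
  · have h := T3_elt P hs0 hs0N hb
    rcases h with h | h
    · exfalso
      rw [← toW_mul P hs0N hs0N, (toW_eq_one_iff P (P.N.mul_mem hs0N hs0N)).2 (P.sq_mem s0 hs0),
        C_one] at h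
      exact hnb h
    · exact h

theorem B_mul_C (w : Weyl P) : C P 1 * C P w = C P w := by
  apply Set.Subset.antisymm
  · rintro _ ⟨b, hb, y, hy, rfl⟩
    rw [C_one] at hb
    simpa using mul_mem_C P hy hb P.B.one_mem
  · have := C_mul_subset P 1 w
    simpa using this

theorem C_mul_B (w : Weyl P) : C P w * C P 1 = C P w := by
  apply Set.Subset.antisymm
  · rintro _ ⟨y, hy, b, hb, rfl⟩
    rw [C_one] at hb
    simpa using mul_mem_C P hy P.B.one_mem hb
  · have := C_mul_subset P w 1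
    simpa using this

theorem C_sq {s : Weyl P} (hs : s ∈ Sb P) : C P s * C P s = C P 1 ∪ C P s := by
  apply Set.Subset.antisymm
  · have := T3 P hs s
    rwa [Sb_inv P s hs] at this
  · apply Set.union_subset
    · have := C_mul_subset P s s
      rwa [Sb_inv P s hs] at this
    · obtain ⟨x, hx, y, hy, hxy⟩ := exists_mem_C_mul_C P hs
      exact C_subset_mul_of_mem P hxy (Set.mul_mem_mul hx hy)

/-- Bruhat decomposition, existence. -/
theorem exists_mem_C (g : G) : ∃ w, g ∈ C P w := by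
  let X : Set G := {x | ∃ w, x ∈ C P w}
  let K : Subgroup G :=
    { carrier := {g | ∀ x ∈ X, g * x ∈ X ∧ g⁻¹ * x ∈ X}
      one_mem' := by intro x hx; simpa using hx
      mul_mem' := by
        intro a b ha hb x hx
        refine ⟨?_, ?_⟩
        · rw [mul_assoc]; exact (ha _ (hb x hx).1).1
        · rw [mul_inv_rev, mul_assoc]; exact (hb _ (ha x hx).2).2
      inv_mem' := by
        intro a ha x hx
        exact ⟨(ha x hx).2, by simpa using (ha x hx).1⟩ }
  have hB : P.B ≤ K := by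
    rintro b hb x ⟨w, hx⟩
    refine ⟨⟨w, ?_⟩, ⟨w, ?_⟩⟩
    · simpa using mul_mem_C P hx hb P.B.one_mem
    · simpa using mul_mem_C P hx (P.B.inv_mem hb) P.B.one_mem
  have hN : P.N ≤ K := by
    have key : ∀ L : List (Weyl P), IsWordIn (Sb P) L → ∀ n ∈ P.N, toW P n = L.prod →
        ∀ x ∈ X, n * x ∈ X := by
      intro L
      induction L with
      | nil =>
        rintro _ n hn hnw x ⟨w, hx⟩
        have : n ∈ P.B := (toW_eq_one_iff P hn).1 (by simpa using hnw)
        exact ⟨w, by simpa using mul_mem_C P hx this P.B.one_mem⟩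
      | cons s L ih =>
        intro hL n hn hnw x hx
        obtain ⟨s0, hs0, hs0e⟩ := hL.head
        have hs0N := P.subset hs0
        have hn' : s0⁻¹ * n ∈ P.N := P.N.mul_mem (P.N.inv_mem hs0N) hn
        have hw' : toW P (s0⁻¹ * n) = L.prod := by
          rw [toW_mul P (P.N.inv_mem hs0N) hn, toW_inv P hs0N, hnw, hs0e, List.prod_cons,
            inv_mul_cancel_left]
        obtain ⟨w, hw⟩ := ih hL.tail _ hn' hw' x hx
        have h3 := T3 P hL.head w
          (Set.mul_mem_mul (by rw [← hs0e]; exact self_mem_C P hs0N) hw)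
        have e : s0 * (s0⁻¹ * n * x) = n * x := by group
        rw [e] at h3
        rcases h3 with h3 | h3
        · exact ⟨_, h3⟩
        · exact ⟨_, h3⟩
    intro n hn x hx
    have h1 : ∀ n ∈ P.N, n * x ∈ X := by
      intro n hn
      obtain ⟨L, hL, hp⟩ := exists_word P (toW P n)
      exact key L hL n hn hp.symm x hx
    exact ⟨h1 n hn, h1 _ (P.N.inv_mem hn)⟩
  have hK : K = ⊤ := by
    rw [eq_top_iff, ← P.sup_eq_top]
    exact sup_le hB hN
  have hg : g ∈ K := by rw [hK]; trivial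
  have h := (hg 1 ⟨1, by rw [C_one]; exact P.B.one_mem⟩).1
  rw [mul_one] at h
  exact h

/-- Bruhat decomposition, uniqueness. -/
theorem C_injective {w w' : Weyl P} (h : C P w = C P w') : w = w' := by
  have key : ∀ k, ∀ L : List (Weyl P), IsWordIn (Sb P) L → L.length = k →
      ∀ w', C P L.prod = C P w' → L.prod = w' := by
    intro k
    induction k using Nat.strong_induction_on with
    | _ k ih =>
      intro L hL hk w' hC
      cases L with
      | nil =>
        obtain ⟨n', hn', rfl⟩ := toW_surj P w'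
        have h1 : n' ∈ C P (toW P n') := self_mem_C P hn'
        rw [← hC] at h1
        simp only [List.prod_nil, C_one] at h1
        simp only [List.prod_nil]
        exact ((toW_eq_one_iff P hn').2 h1).symm
      | cons s L =>
        have hs := hL.head
        have hLt := hL.tail
        simp only [List.prod_cons] at hC ⊢
        obtain ⟨u0, hu0, hu0e⟩ := toW_surj P L.prod
        obtain ⟨s0, hs0, hs0e⟩ := hL.head
        have hs0N := P.subset hs0
        have h1 : s0 * u0 ∈ C P w' := by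
          rw [← hC, ← hs0e, ← hu0e, ← toW_mul P hs0N hu0]
          exact self_mem_C P (P.N.mul_mem hs0N hu0)
        have h2 : s0⁻¹ ∈ C P s := by
          have := C_inv P (self_mem_C P hs0N)
          rwa [hs0e, inv_eq_self_of_mem (Sb_inv P) hs] at this
        have h3 : u0 ∈ C P (s * w') ∪ C P w' := by
          have := T3 P hs w' (Set.mul_mem_mul h2 h1)
          simpa using this
        have h4 : u0 ∈ C P L.prod := by rw [← hu0e]; exact self_mem_C P hu0
        have hlen : L.length < k := by rw [← hk]; simp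
        rcases h3 with h3 | h3
        · have := ih _ hlen L hLt rfl (s * w') (C_eq_of_mem P h4 h3)
          rw [this, ← mul_assoc, Sb_inv P s hs, one_mul]
        · exfalso
          have e1 : C P L.prod = C P (s * L.prod) := by
            rw [C_eq_of_mem P h4 h3, hC]
          have := ih _ hlen L hLt rfl (s * L.prod) e1
          have hs1 : s = 1 := by
            have := congrArg (· * (L.prod)⁻¹) this
            simpa using this.symm
          exact Sb_ne_one P s hs hs1
  obtain ⟨L, hL, rfl⟩ := exists_word P w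
  exact key _ L hL rfl w' h

theorem mem_C_unique {w w' : Weyl P} {g : G} (hg : g ∈ C P w) (hg' : g ∈ C P w') : w = w' :=
  C_injective P (C_eq_of_mem P hg hg')

end BN

section BN2

variable {G : Type*} [Group G] (P : Cfsg.BNPair G)

theorem C_mul_of_le {s : Weyl P} (hs : s ∈ Sb P) :
    ∀ (k : ℕ) (w : Weyl P), len (Sb P) w = k → len (Sb P) w ≤ len (Sb P) (s * w) →
      C P s * C P w = C P (s * w) := by
  intro k
  induction k with
  | zero =>
    intro w hw _
    have : w = 1 := len_eq_zero (Sb_inv P) (Sb_gen P) hw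
    subst this
    rw [C_mul_B, mul_one]
  | succ k ih =>
    intro w hw hle
    apply Set.Subset.antisymm _ (C_mul_subset P s w)
    obtain ⟨L, hL, hlen, hprod⟩ := len_spec (Sb_inv P) (Sb_gen P) w
    have hLne : L ≠ [] := by
      intro h; rw [h] at hlen; simp at hlen; omega
    obtain ⟨L', s', rfl⟩ : ∃ L' s', L = L' ++ [s'] :=
      ⟨L.dropLast, L.getLast hLne, (List.dropLast_append_getLast hLne).symm⟩
    have hs' : s' ∈ Sb P := hL.right s' (by simp)
    have hL' : IsWordIn (Sb P) L' := hL.left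
    have hww' : w = L'.prod * s' := by rw [← hprod]; simp
    have hlen' : L'.length = k := by simp at hlen; omega
    have h1 : len (Sb P) L'.prod ≤ k := by have := len_le hL'; omega
    have h2 : len (Sb P) w ≤ len (Sb P) L'.prod + 1 := by
      rw [hww']; exact len_mul_right_le (Sb_inv P) (Sb_gen P) hs' L'.prod
    have hk : len (Sb P) L'.prod = k := by omega
    have h3 : len (Sb P) (s * w) ≤ len (Sb P) (s * L'.prod) + 1 := by
      rw [hww', ← mul_assoc]; exact len_mul_right_le (Sb_inv P) (Sb_gen P) hs' (s * L'.prod)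
    have h4 : len (Sb P) L'.prod ≤ len (Sb P) (s * L'.prod) := by omega
    have ih' := ih L'.prod hk h4
    intro g hg
    have hg1 : g ∈ C P (s * w) ∪ C P w := T3 P hs w hg
    have hg2 : g ∈ C P (s * w) ∪ C P (s * L'.prod) := by
      have h5 : g ∈ C P s * C P L'.prod * C P s' := by
        rw [mul_assoc]
        exact Set.mul_subset_mul_left (by rw [hww']; exact C_mul_subset P L'.prod s') hg
      rw [ih'] at h5
      have h6 := T3_right P hs' (s * L'.prod) h5
      rwa [mul_assoc, ← hww'] at h6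
    rcases hg1 with h | h
    · exact h
    · rcases hg2 with h' | h'
      · exact h'
      · exfalso
        have e : s * L'.prod = w := mem_C_unique P h' h
        have e2 : s * w = L'.prod := by rw [← e, ← mul_assoc, Sb_inv P s hs, one_mul]
        rw [e2] at hle
        omega

theorem C_mul_of_le' {s w : Weyl P} (hs : s ∈ Sb P)
    (h : len (Sb P) w ≤ len (Sb P) (s * w)) : C P s * C P w = C P (s * w) :=
  C_mul_of_le P hs _ w rfl h

theorem len_mul_ne {s : Weyl P} (hs : s ∈ Sb P) (w : Weyl P) :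
    len (Sb P) (s * w) ≠ len (Sb P) w := by
  intro h
  have h1 := C_mul_of_le' P hs (w := w) (le_of_eq h.symm)
  have h2 := C_mul_of_le' P hs (w := s * w)
    (by rw [← mul_assoc, Sb_inv P s hs, one_mul]; exact le_of_eq h)
  rw [← mul_assoc, Sb_inv P s hs, one_mul] at h2
  have h3 : C P s * C P s * C P w = C P w := by rw [mul_assoc, h1, h2]
  rw [C_sq P hs, Set.union_mul, B_mul_C, h1] at h3
  obtain ⟨g, hg⟩ := C_nonempty P (s * w)
  have hg' : g ∈ C P w := by rw [← h3]; exact Or.inr hg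
  have e := mem_C_unique P hg hg'
  have hs1 : s = 1 := by simpa using e
  exact Sb_ne_one P s hs hs1

theorem C_mul_of_lt {s w : Weyl P} (hs : s ∈ Sb P)
    (h : len (Sb P) (s * w) < len (Sb P) w) : C P s * C P w = C P (s * w) ∪ C P w := by
  have h1 := C_mul_of_le' P hs (w := s * w)
    (by rw [← mul_assoc, Sb_inv P s hs, one_mul]; exact le_of_lt h)
  rw [← mul_assoc, Sb_inv P s hs, one_mul] at h1
  calc C P s * C P w = C P s * (C P s * C P (s * w)) := by rw [h1]
    _ = (C P s * C P s) * C P (s * w) := by rw [mul_assoc]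
    _ = (C P 1 ∪ C P s) * C P (s * w) := by rw [C_sq P hs]
    _ = C P 1 * C P (s * w) ∪ C P s * C P (s * w) := Set.union_mul
    _ = C P (s * w) ∪ C P w := by rw [B_mul_C, h1]

theorem C_inv_set (w : Weyl P) : (C P w)⁻¹ = C P w⁻¹ := by
  ext g
  constructor
  · intro h
    have := C_inv P (Set.mem_inv.1 h)
    simpa using this
  · intro h
    have := C_inv P h
    rw [inv_inv] at this
    exact Set.mem_inv.2 this

theorem C_mul_of_le_right {s w : Weyl P} (hs : s ∈ Sb P)
    (h : len (Sb P) w ≤ len (Sb P) (w * s)) : C P w * C P s = C P (w * s) := by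
  have hs' : s⁻¹ = s := inv_eq_self_of_mem (Sb_inv P) hs
  have h1 : len (Sb P) w⁻¹ ≤ len (Sb P) (s * w⁻¹) := by
    have e : s * w⁻¹ = (w * s)⁻¹ := by rw [mul_inv_rev, hs']
    rw [e, len_inv (Sb_inv P) (Sb_gen P), len_inv (Sb_inv P) (Sb_gen P)]
    exact h
  have h2 := C_mul_of_le' P hs h1
  have h3 := congrArg (fun X : Set G => X⁻¹) h2
  simp only [mul_inv_rev, C_inv_set, inv_inv, hs'] at h3
  exact h3

theorem C_mul_of_lt_right {s w : Weyl P} (hs : s ∈ Sb P)
    (h : len (Sb P) (w * s) < len (Sb P) w) : C P w * C P s = C P (w * s) ∪ C P w := by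
  have hs' : s⁻¹ = s := inv_eq_self_of_mem (Sb_inv P) hs
  have h1 : len (Sb P) (s * w⁻¹) < len (Sb P) w⁻¹ := by
    have e : s * w⁻¹ = (w * s)⁻¹ := by rw [mul_inv_rev, hs']
    rw [e, len_inv (Sb_inv P) (Sb_gen P), len_inv (Sb_inv P) (Sb_gen P)]
    exact h
  have h2 := C_mul_of_lt P hs h1
  have h3 := congrArg (fun X : Set G => X⁻¹) h2
  simp only [mul_inv_rev, C_inv_set, inv_inv, hs', Set.union_inv] at h3
  exact h3

/-- The exchange condition. -/
theorem exchange {s : Weyl P} (hs : s ∈ Sb P) : ∀ L : List (Weyl P), Red (Sb P) L →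
    len (Sb P) (s * L.prod) < len (Sb P) L.prod →
    ∃ L1 x L2, L = L1 ++ x :: L2 ∧ s * L1.prod = L1.prod * x := by
  intro L
  induction L using List.reverseRecOn with
  | nil =>
    intro _ h
    simp [len_one] at h
  | append_singleton L x ih =>
    intro hred hlt
    have hredL : Red (Sb P) L := Red.append_left (Sb_inv P) (Sb_gen P) hred
    have hx : x ∈ Sb P := hred.1.right x (by simp)
    by_cases hc : len (Sb P) (s * L.prod) < len (Sb P) L.prod
    · obtain ⟨L1, y, L2, rfl, h⟩ := ih hredL hc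
      exact ⟨L1, y, L2 ++ [x], by simp, h⟩
    · refine ⟨L, x, [], rfl, ?_⟩
      have hne := len_mul_ne P hs L.prod
      have h1 : len (Sb P) L.prod < len (Sb P) (s * L.prod) := by omega
      have hlu : len (Sb P) L.prod = L.length := hredL.2
      have hlux : len (Sb P) (L.prod * x) = L.length + 1 := by
        have := hred.2; simpa using this
      have hprod : (L ++ [x]).prod = L.prod * x := by simp
      rw [hprod] at hlt
      have h2 : len (Sb P) (s * L.prod) ≤ len (Sb P) L.prod + 1 :=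
        len_mul_le (Sb_inv P) (Sb_gen P) hs L.prod
      have e1 := C_mul_of_le' P hs (w := L.prod) (le_of_lt h1)
      have e2 := C_mul_of_lt_right P hx (w := s * L.prod) (by rw [mul_assoc]; omega)
      have e3 := C_mul_of_le_right P hx (w := L.prod) (by omega)
      have e4 := C_mul_of_lt P hs (w := L.prod * x) hlt
      have e5 : C P (s * L.prod * x) ∪ C P (s * L.prod) =
          C P (s * (L.prod * x)) ∪ C P (L.prod * x) := by
        rw [← e2, ← e1, mul_assoc, e3, e4]
      obtain ⟨g, hg⟩ := C_nonempty P (s * L.prod)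
      have hg' : g ∈ C P (s * (L.prod * x)) ∪ C P (L.prod * x) := by
        rw [← e5]; exact Or.inr hg
      rcases hg' with h | h
      · exfalso
        have e := mem_C_unique P hg h
        have hx1 : x = 1 := by
          have := congrArg (fun t => (s * L.prod)⁻¹ * t) e
          simpa [mul_assoc] using this.symm
        exact Sb_ne_one P x hx hx1
      · exact mem_C_unique P hg h

theorem red_letters_subset {M : Subgroup G} (hM : P.B ≤ M) : ∀ L : List (Weyl P),
    Red (Sb P) L → (∃ g ∈ C P L.prod, g ∈ M) → ∀ x ∈ L, C P x ⊆ M := by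
  intro L
  induction L with
  | nil => intro _ _ x hx; simp at hx
  | cons s L ih =>
    rintro hred ⟨g, hg, hgM⟩ x hx
    have hs := hred.1.head
    have hredL := Red.tail (Sb_inv P) (Sb_gen P) hred
    have hCw : C P (s * L.prod) ⊆ M := by
      have := C_subset_of_mem P hM hg hgM; simpa using this
    have hlt : len (Sb P) (s * (s * L.prod)) < len (Sb P) (s * L.prod) := by
      rw [← mul_assoc, Sb_inv P s hs, one_mul]
      have h1 := hred.2
      have h2 := hredL.2
      simp only [List.prod_cons, List.length_cons] at h1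
      omega
    have e := C_mul_of_lt P hs hlt
    have hsub : C P (s * L.prod) ⊆ C P s * C P (s * L.prod) := by
      rw [e]; exact Set.subset_union_right
    have hCs : C P s ⊆ M := by
      obtain ⟨g', hg'⟩ := C_nonempty P (s * L.prod)
      obtain ⟨a, ha, c, hc, hac⟩ := hsub hg'
      have haM : a ∈ M := by
        have e' : a = g' * c⁻¹ := by rw [← hac]; group
        rw [e']
        exact M.mul_mem (hCw hg') (M.inv_mem (hCw hc))
      exact C_subset_of_mem P hM ha haM
    rcases List.mem_cons.1 hx with rfl | hxL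
    · exact hCs
    · have h' : ∃ g ∈ C P L.prod, g ∈ M := by
        obtain ⟨g', hg'⟩ := C_nonempty P L.prod
        refine ⟨g', hg', ?_⟩
        have h1 : g' ∈ C P s * C P (s * L.prod) := by
          have := C_mul_subset P s (s * L.prod)
          rw [← mul_assoc, Sb_inv P s hs, one_mul] at this
          exact this hg'
        obtain ⟨a, ha, c, hc, rfl⟩ := h1
        exact M.mul_mem (hCs ha) (hCw hc)
      exact ih hredL h' x hxL

theorem red_letters_subset_conj {M : Subgroup G} (hM : P.B ≤ M) : ∀ L : List (Weyl P),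
    Red (Sb P) L → ∀ n ∈ P.N, toW P n = L.prod → (∀ b ∈ P.B, n * b * n⁻¹ ∈ M) →
    ∀ x ∈ L, C P x ⊆ M := by
  intro L
  induction L with
  | nil => intro _ _ _ _ _ x hx; simp at hx
  | cons s L ih =>
    intro hred n hn hnw hconj x hx
    have hs := hred.1.head
    have hredL := Red.tail (Sb_inv P) (Sb_gen P) hred
    obtain ⟨s0, hs0, hs0e⟩ := hred.1.head
    have hs0N := P.subset hs0
    simp only [List.prod_cons] at hnw
    have hlt : len (Sb P) (s * (s * L.prod)) < len (Sb P) (s * L.prod) := by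
      rw [← mul_assoc, Sb_inv P s hs, one_mul]
      have h1 := hred.2
      have h2 := hredL.2
      simp only [List.prod_cons, List.length_cons] at h1
      omega
    have e := C_mul_of_lt P hs hlt
    have hn1 : n ∈ C P s * C P (s * L.prod) := by
      rw [e]; right; rw [← hnw]; exact self_mem_C P hn
    obtain ⟨a, ha, c, hc, hac⟩ := hn1
    rw [← hs0e] at ha
    obtain ⟨b1, hb1, b2, hb2, rfl⟩ := (mem_C_toW P hs0N).1 ha
    rw [← hnw] at hc
    obtain ⟨b3, hb3, b4, hb4, rfl⟩ := (mem_C_toW P hn).1 hc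
    have hs0M : s0 ∈ M := by
      have h2 : b1 * s0 * b2 * b3 = n * b4⁻¹ * n⁻¹ := by
        have h3 : b1 * s0 * b2 * (b3 * n * b4) = n := hac
        have h4 : b1 * s0 * b2 * (b3 * n * b4) * b4⁻¹ * n⁻¹ = n * b4⁻¹ * n⁻¹ := by rw [h3]
        rw [← h4]; group
      have h1 : s0 = b1⁻¹ * (n * b4⁻¹ * n⁻¹) * (b2 * b3)⁻¹ := by
        rw [← h2]; group
      rw [h1]
      exact M.mul_mem (M.mul_mem (M.inv_mem (hM hb1)) (hconj _ (P.B.inv_mem hb4)))
        (M.inv_mem (hM (P.B.mul_mem hb2 hb3)))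
    have hCs : C P s ⊆ M := by
      rw [← hs0e]
      exact C_subset_of_mem P hM (self_mem_C P hs0N) hs0M
    rcases List.mem_cons.1 hx with rfl | hxL
    · exact hCs
    · have hn' : s0⁻¹ * n ∈ P.N := P.N.mul_mem (P.N.inv_mem hs0N) hn
      have hw' : toW P (s0⁻¹ * n) = L.prod := by
        rw [toW_mul P (P.N.inv_mem hs0N) hn, toW_inv P hs0N, hnw, hs0e, inv_mul_cancel_left]
      refine ih hredL _ hn' hw' ?_ x hxL
      intro b hb
      have e' : s0⁻¹ * n * b * (s0⁻¹ * n)⁻¹ = s0⁻¹ * (n * b * n⁻¹) * s0 := by group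
      rw [e']
      exact M.mul_mem (M.mul_mem (M.inv_mem hs0M) (hconj b hb)) hs0M

theorem word_C_subset {M : Subgroup G} (hM : P.B ≤ M) : ∀ L : List (Weyl P),
    (∀ x ∈ L, C P x ⊆ M) → C P L.prod ⊆ M := by
  intro L
  induction L with
  | nil => intro _; simpa [C_one] using hM
  | cons s L ih =>
    intro h
    have h1 := ih (fun x hx => h x (List.mem_cons_of_mem _ hx))
    have h2 := h s (by simp)
    intro g hg
    rw [List.prod_cons] at hg
    obtain ⟨a, ha, c, hc, rfl⟩ := C_mul_subset P s L.prod hg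
    exact M.mul_mem (h2 ha) (h1 hc)

/-- If `g B g⁻¹ ⊆ M` for a subgroup `M ⊇ B` then `g ∈ M`. -/
theorem mem_of_conj_mem {M : Subgroup G} (hM : P.B ≤ M) {g : G}
    (h : ∀ b ∈ P.B, g * b * g⁻¹ ∈ M) : g ∈ M := by
  obtain ⟨w, n, hn, rfl, hg⟩ := exists_mem_C P g
  obtain ⟨b1, hb1, b2, hb2, rfl⟩ := DoubleCoset.mem_doubleCoset.1 hg
  obtain ⟨L, hL, hLp⟩ := exists_red (Sb_inv P) (Sb_gen P) (toW P n)
  have hconj : ∀ b ∈ P.B, n * b * n⁻¹ ∈ M := by
    intro b hb
    have e : n * b * n⁻¹ = b1⁻¹ * ((b1 * n * b2) * (b2⁻¹ * b * b2) * (b1 * n * b2)⁻¹) * b1 := by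
      group
    rw [e]
    exact M.mul_mem (M.mul_mem (M.inv_mem (hM hb1))
      (h _ (P.B.mul_mem (P.B.mul_mem (P.B.inv_mem hb2) hb) hb2))) (hM hb1)
  have h1 := red_letters_subset_conj P hM L hL n hn hLp.symm hconj
  have h2 := word_C_subset P hM L h1
  rw [hLp] at h2
  exact M.mul_mem (M.mul_mem (hM hb1) (h2 (self_mem_C P hn))) (hM hb2)

/-- The subgroup of elements `g` with `g X ⊆ X` and `g⁻¹ X ⊆ X`. -/
def leftStab (X : Set G) : Subgroup G where
  carrier := {g | ∀ x ∈ X, g * x ∈ X ∧ g⁻¹ * x ∈ X}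
  one_mem' := by intro x hx; simpa using hx
  mul_mem' := by
    intro a b ha hb x hx
    refine ⟨?_, ?_⟩
    · rw [mul_assoc]; exact (ha _ (hb x hx).1).1
    · rw [mul_inv_rev, mul_assoc]; exact (hb _ (ha x hx).2).2
  inv_mem' := by
    intro a ha x hx
    exact ⟨(ha x hx).2, by simpa using (ha x hx).1⟩

theorem mem_parabolic_iff {J : Set G} (hJ : J ⊆ P.S) (g : G) :
    g ∈ P.parabolic J ↔ ∃ w ∈ Subgroup.closure (toW P '' J), g ∈ C P w := by
  constructor
  · intro hg
    let X : Set G := {x | ∃ w ∈ Subgroup.closure (toW P '' J), x ∈ C P w}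
    have hB : P.B ≤ leftStab X := by
      rintro b hb x ⟨w, hw, hx⟩
      refine ⟨⟨w, hw, ?_⟩, ⟨w, hw, ?_⟩⟩
      · simpa using mul_mem_C P hx hb P.B.one_mem
      · simpa using mul_mem_C P hx (P.B.inv_mem hb) P.B.one_mem
    have hJK : Subgroup.closure J ≤ leftStab X := by
      rw [Subgroup.closure_le]
      rintro j hj x ⟨w, hw, hx⟩
      have hjS := hJ hj
      have hjN := P.subset hjS
      have hsb : toW P j ∈ Sb P := ⟨j, hjS, rfl⟩
      have hjc : toW P j ∈ Subgroup.closure (toW P '' J) :=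
        Subgroup.subset_closure ⟨j, hj, rfl⟩
      refine ⟨?_, ?_⟩
      · rcases T3 P hsb w (Set.mul_mem_mul (self_mem_C P hjN) hx) with h | h
        · exact ⟨_, Subgroup.mul_mem _ hjc hw, h⟩
        · exact ⟨_, hw, h⟩
      · have hj' : j⁻¹ ∈ C P (toW P j) := by
          have := C_inv P (self_mem_C P hjN)
          rwa [inv_eq_self_of_mem (Sb_inv P) hsb] at this
        rcases T3 P hsb w (Set.mul_mem_mul hj' hx) with h | h
        · exact ⟨_, Subgroup.mul_mem _ hjc hw, h⟩
        · exact ⟨_, hw, h⟩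
    have hgK : g ∈ leftStab X := (sup_le hB hJK) hg
    have h := (hgK 1 ⟨1, Subgroup.one_mem _, by rw [C_one]; exact P.B.one_mem⟩).1
    rw [mul_one] at h
    exact h
  · rintro ⟨w, hw, hg⟩
    obtain ⟨n, hn, rfl⟩ := exists_mem_closure_toW P hJ hw
    have hnN := (toW_mem_closure P hJ hn).1
    obtain ⟨b, hb, b', hb', rfl⟩ := (mem_C_toW P hnN).1 hg
    have hBle : P.B ≤ P.parabolic J := le_sup_left
    have hJle : Subgroup.closure J ≤ P.parabolic J := le_sup_right
    exact Subgroup.mul_mem _ (Subgroup.mul_mem _ (hBle hb) (hJle hn)) (hBle hb')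

theorem B_le_parabolic (J : Set G) : P.B ≤ P.parabolic J := le_sup_left

theorem parabolic_mono {J K : Set G} (h : J ⊆ K) : P.parabolic J ≤ P.parabolic K :=
  sup_le_sup_left (Subgroup.closure_mono h) _

/-- Every subgroup containing `B` is a standard parabolic. -/
theorem eq_parabolic_of_le {M : Subgroup G} (hM : P.B ≤ M) :
    M = P.parabolic (P.S ∩ (M : Set G)) := by
  apply le_antisymm
  · intro g hg
    obtain ⟨w, hw⟩ := exists_mem_C P g
    obtain ⟨L, hL, rfl⟩ := exists_red (Sb_inv P) (Sb_gen P) w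
    have hl := red_letters_subset P hM L hL ⟨g, hw, hg⟩
    rw [mem_parabolic_iff P Set.inter_subset_left]
    refine ⟨L.prod, ?_, hw⟩
    apply Subgroup.list_prod_mem
    intro x hx
    obtain ⟨s0, hs0, rfl⟩ := hL.1 x hx
    exact Subgroup.subset_closure ⟨s0, ⟨hs0, hl _ hx (self_mem_C P (P.subset hs0))⟩, rfl⟩
  · exact sup_le hM ((Subgroup.closure_le _).2 Set.inter_subset_right)

theorem min_word_red {Jb : Set (Weyl P)} (hJ : Jb ⊆ Sb P) : ∀ L : List (Weyl P),
    IsWordIn Jb L → (∀ L', IsWordIn Jb L' → L'.prod = L.prod → L.length ≤ L'.length) →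
    len (Sb P) L.prod = L.length := by
  intro L
  induction L with
  | nil => intro _ _; simpa using len_one
  | cons s L ih =>
    intro hL hmin
    have hsJ := hL.head
    have hs := hJ hsJ
    have hLt := hL.tail
    have hminL : ∀ L', IsWordIn Jb L' → L'.prod = L.prod → L.length ≤ L'.length := by
      intro L' hL' hp
      have := hmin (s :: L') (IsWordIn.cons hsJ hL') (by simp [hp])
      simpa using this
    have hlenL := ih hLt hminL
    have hredL : Red (Sb P) L := ⟨hLt.mono hJ, hlenL⟩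
    simp only [List.prod_cons, List.length_cons]
    have hne := len_mul_ne P hs L.prod
    have hle := len_mul_le (Sb_inv P) (Sb_gen P) hs L.prod
    have hle' := len_le_mul (Sb_inv P) (Sb_gen P) hs L.prod
    by_contra hcon
    have hlt : len (Sb P) (s * L.prod) < len (Sb P) L.prod := by omega
    obtain ⟨L1, x, L2, rfl, hex⟩ := exchange P hs L hredL hlt
    have hw1 : IsWordIn Jb (L1 ++ L2) := hLt.left.append (hLt.right.tail)
    have hp : (L1 ++ L2).prod = (s :: (L1 ++ x :: L2)).prod := by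
      have hxx : x * x = 1 := Sb_inv P x (hJ (hLt.right.head))
      simp only [List.prod_cons, List.prod_append]
      rw [← mul_assoc s, hex, mul_assoc L1.prod x, ← mul_assoc x x, hxx, one_mul]
    have h7 := hmin _ hw1 hp
    have h8 : (s :: (L1 ++ x :: L2)).length = (L1 ++ L2).length + 2 := by
      simp only [List.length_cons, List.length_append]; omega
    omega

theorem mem_of_mem_closure {Jb : Set (Weyl P)} (hJ : Jb ⊆ Sb P) {x : Weyl P} (hx : x ∈ Sb P)
    (hxJ : x ∈ Subgroup.closure Jb) : x ∈ Jb := by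
  have hinvJ : ∀ s ∈ Jb, s * s = 1 := fun s hs => Sb_inv P s (hJ hs)
  have hex : ∃ k, ∃ L, IsWordIn Jb L ∧ L.length = k ∧ L.prod = x := by
    obtain ⟨L, hL, hp⟩ := exists_word_of_mem_closure hinvJ hxJ
    exact ⟨_, L, hL, rfl, hp⟩
  classical
  obtain ⟨L, hL, hlen, hp⟩ := Nat.find_spec hex
  have hmin : ∀ L', IsWordIn Jb L' → L'.prod = L.prod → L.length ≤ L'.length := by
    intro L' hL' hp'
    rw [hlen]
    exact Nat.find_min' hex ⟨L', hL', rfl, hp'.trans hp⟩
  have h1 := min_word_red P hJ L hL hmin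
  rw [hp, len_of_mem (Sb_inv P) (Sb_gen P) hx (Sb_ne_one P x hx)] at h1
  obtain ⟨y, rfl⟩ := List.length_eq_one_iff.1 h1.symm
  have hyx : y = x := by simpa using hp
  rw [← hyx]; exact hL.head

/-- `S ∩ P_J = J`. -/
theorem mem_of_mem_parabolic {J : Set G} (hJ : J ⊆ P.S) {s : G} (hs : s ∈ P.S)
    (hsJ : s ∈ P.parabolic J) : s ∈ J := by
  obtain ⟨w, hw, hsw⟩ := (mem_parabolic_iff P hJ s).1 hsJ
  have e : toW P s = w := mem_C_unique P (self_mem_C P (P.subset hs)) hsw
  have hJb : toW P '' J ⊆ Sb P := Set.image_mono hJ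
  obtain ⟨j, hj, hje⟩ := mem_of_mem_closure P hJb ⟨s, hs, rfl⟩ (by rw [e]; exact hw)
  rw [← toW_injOn_S P (hJ hj) hs hje]
  exact hj

end BN2

end Cfsg.Agent.Helper3
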