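import Mathlib

set_option autoImplicit false
set_option linter.unusedSectionVars false
set_option linter.style.haveILetI false
set_option linter.unusedSimpArgs false
set_option linter.unusedVariables false
set_option linter.deprecated false
set_option linter.unnecessarySeqFocus false

namespace Cfsg.Agent.Helper3

open scoped Pointwise

/-- in a group of order 100 exactly 25 elements have order dividing 25 -/
theorem card_pow25_of_card_100 {N : Type*} [Group N] [Finite N] (hN : Nat.card N = 100) :
    {n : N | n ^ 25 = 1}.ncard = 25 := by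
  haveI : Fact (Nat.Prime 5) := ⟨by norm_num⟩
  obtain ⟨P⟩ : Nonempty (Sylow 5 N) := inferInstance
  have hP : Nat.card (P : Subgroup N) = 25 := by
    rw [Sylow.card_eq_multiplicity, hN]
    have : (100 : ℕ).factorization 5 = 2 := by decide +kernel
    rw [this]
    norm_num
  have hidx : (P : Subgroup N).index = 4 := by
    have := Subgroup.card_mul_index (P : Subgroup N)
    rw [hP, hN] at this
    omega
  have hn5 : Nat.card (Sylow 5 N) = 1 := by
    have h1 := card_sylow_modEq_one 5 N
    have h2 := Sylow.card_dvd_index P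
    rw [hidx] at h2
    have key : ∀ n : ℕ, n ∣ 4 → n % 5 = 1 % 5 → n = 1 := by
      intro n hd hm
      have hle : n ≤ 4 := Nat.le_of_dvd (by norm_num) hd
      interval_cases n <;> omega
    exact key _ h2 h1
  have huniq : ∀ Q : Sylow 5 N, Q = P := by
    haveI := (Nat.card_eq_one_iff_unique.1 hn5).1
    intro Q
    exact Subsingleton.elim Q P
  have hset : {n : N | n ^ 25 = 1} = ((P : Subgroup N) : Set N) := by
    ext n
    constructor
    · intro hn
      have hn' : n ^ 25 = 1 := hn
      have hpg : IsPGroup 5 (Subgroup.zpowers n) := by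
        rintro ⟨g, hg⟩
        obtain ⟨k, rfl⟩ := Subgroup.mem_zpowers_iff.1 hg
        refine ⟨2, ?_⟩
        apply Subtype.ext
        show (n ^ k) ^ 5 ^ 2 = 1
        have e : (n ^ k) ^ 5 ^ 2 = (n ^ 25) ^ k := by
          rw [← zpow_natCast (n ^ k), ← zpow_mul, mul_comm, zpow_mul, zpow_natCast]
          norm_num
        rw [e, hn', one_zpow]
      obtain ⟨Q, hQ⟩ := hpg.exists_le_sylow
      rw [huniq Q] at hQ
      exact hQ (Subgroup.mem_zpowers n)
    · intro hn
      have h1 := pow_card_eq_one' (G := (P : Subgroup N)) (x := ⟨n, hn⟩)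
      rw [hP] at h1
      exact congrArg Subtype.val h1
  rw [hset]
  exact (Nat.card_coe_set_eq _).symm.trans hP

/-- invariant subsets of a rank-three orbit with subdegrees `1, 22, 77` -/
theorem inv_set_card {G α : Type*} [Group G] [MulAction G α] (x : α) (A B : Set α)
    (hA : A.ncard = 22) (hB : B.ncard = 77) (hxA : x ∉ A) (hxB : x ∉ B) (hAB : Disjoint A B)
    (hAt : ∀ y ∈ A, ∀ y' ∈ A, ∃ h : G, h • x = x ∧ h • y = y')
    (hBt : ∀ y ∈ B, ∀ y' ∈ B, ∃ h : G, h • x = x ∧ h • y = y')
    (Y : Set α) (hxY : x ∈ Y) (hY : Y ⊆ insert x (A ∪ B))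
    (hinv : ∀ h : G, h • x = x → ∀ y ∈ Y, h • y ∈ Y) :
    Y.ncard = 1 ∨ Y.ncard = 23 ∨ Y.ncard = 78 ∨ Y.ncard = 100 := by
  have fA : A.Finite := Set.finite_of_ncard_ne_zero (by rw [hA]; norm_num)
  have fB : B.Finite := Set.finite_of_ncard_ne_zero (by rw [hB]; norm_num)
  have hAsub : (∃ y ∈ Y, y ∈ A) → A ⊆ Y := by
    rintro ⟨y, hy, hyA⟩ y' hy'
    obtain ⟨h, hx, hh⟩ := hAt y hyA y' hy'
    rw [← hh]
    exact hinv h hx y hy
  have hBsub : (∃ y ∈ Y, y ∈ B) → B ⊆ Y := by
    rintro ⟨y, hy, hyB⟩ y' hy'
    obtain ⟨h, hx, hh⟩ := hBt y hyB y' hy'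
    rw [← hh]
    exact hinv h hx y hy
  by_cases cA : ∃ y ∈ Y, y ∈ A <;> by_cases cB : ∃ y ∈ Y, y ∈ B
  · have e : Y = insert x (A ∪ B) :=
      Set.Subset.antisymm hY (Set.insert_subset hxY (Set.union_subset (hAsub cA) (hBsub cB)))
    right; right; right
    have hx' : x ∉ A ∪ B := fun h => h.elim hxA hxB
    rw [e, Set.ncard_insert_of_notMem hx' (fA.union fB), Set.ncard_union_eq hAB fA fB, hA, hB]
  · have e : Y = insert x A := by
      apply Set.Subset.antisymm
      · intro y hy
        rcases hY hy with h | h | h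
        · exact Or.inl h
        · exact Or.inr h
        · exact absurd ⟨y, hy, h⟩ cB
      · exact Set.insert_subset hxY (hAsub cA)
    right; left
    rw [e, Set.ncard_insert_of_notMem hxA fA, hA]
  · have e : Y = insert x B := by
      apply Set.Subset.antisymm
      · intro y hy
        rcases hY hy with h | h | h
        · exact Or.inl h
        · exact absurd ⟨y, hy, h⟩ cA
        · exact Or.inr h
      · exact Set.insert_subset hxY (hBsub cB)
    right; right; left
    rw [e, Set.ncard_insert_of_notMem hxB fB, hB]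
  · have e : Y = {x} := by
      apply Set.Subset.antisymm
      · intro y hy
        rcases hY hy with h | h | h
        · exact h
        · exact absurd ⟨y, hy, h⟩ cA
        · exact absurd ⟨y, hy, h⟩ cB
      · exact Set.singleton_subset_iff.2 hxY
    left
    rw [e, Set.ncard_singleton]

/-- a transitive rank-three group of degree `100` with subdegrees `1, 22, 77`, order `44352000`
and simple point stabiliser is simple -/
theorem simple_of_rank3 {G α : Type*} [Group G] [Finite G] [MulAction G α]
    (x : α) (A B : Set α)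
    (hcard : Nat.card G = 44352000)
    (hH : IsSimpleGroup (MulAction.stabilizer G x))
    (hHcard : Nat.card (MulAction.stabilizer G x) = 443520)
    (hA : A.ncard = 22) (hB : B.ncard = 77)
    (hxA : x ∉ A) (hxB : x ∉ B) (hAB : Disjoint A B)
    (horb : MulAction.orbit G x = insert x (A ∪ B))
    (hAt : ∀ y ∈ A, ∀ y' ∈ A, ∃ h : G, h • x = x ∧ h • y = y')
    (hBt : ∀ y ∈ B, ∀ y' ∈ B, ∃ h : G, h • x = x ∧ h • y = y') :
    IsSimpleGroup G := by
  haveI : Nontrivial G := by
    apply (Finite.one_lt_card_iff_nontrivial).1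
    rw [hcard]
    norm_num
  refine ⟨fun N hN => ?_⟩
  haveI := hN
  have hxY : x ∈ MulAction.orbit N x := MulAction.mem_orbit_self x
  have hYsub : MulAction.orbit N x ⊆ insert x (A ∪ B) := by
    rw [← horb]
    rintro y ⟨n, rfl⟩
    exact ⟨(n : G), rfl⟩
  have hconj : ∀ h : G, h • x = x → ∀ n : N, h • ((n : G) • x) = (h * n * h⁻¹) • x := by
    intro h hx n
    have hx' : h⁻¹ • x = x := inv_smul_eq_iff.2 hx.symm
    rw [mul_smul, mul_smul, hx']
  have hYinv : ∀ h : G, h • x = x → ∀ y ∈ MulAction.orbit N x, h • y ∈ MulAction.orbit N x := by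
    rintro h hx y ⟨n, rfl⟩
    refine ⟨⟨h * n * h⁻¹, hN.conj_mem n n.2 h⟩, ?_⟩
    exact (hconj h hx n).symm
  have hYc := inv_set_card x A B hA hB hxA hxB hAB hAt hBt _ hxY hYsub hYinv
  have hos := Subgroup.card_mul_index (MulAction.stabilizer N x)
  rw [MulAction.index_stabilizer] at hos
  have hdvd := Subgroup.card_subgroup_dvd_card N
  rw [hcard] at hdvd
  have fA : A.Finite := Set.finite_of_ncard_ne_zero (by rw [hA]; norm_num)
  rcases (Subgroup.normal_subgroupOf (H := MulAction.stabilizer G x) (N := N)).eq_bot_or_eq_top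
    with hbot | htop
  · -- the stabiliser in `N` is trivial
    have hdis : Disjoint N (MulAction.stabilizer G x) := Subgroup.subgroupOf_eq_bot.1 hbot
    have hstab : ∀ k : N, (k : G) • x = x → k = 1 := by
      intro k hk
      have h1 : (k : G) ∈ N ⊓ MulAction.stabilizer G x := ⟨k.2, hk⟩
      rw [disjoint_iff.1 hdis, Subgroup.mem_bot] at h1
      exact Subtype.ext h1
    have hst : Nat.card (MulAction.stabilizer N x) = 1 := by
      have : MulAction.stabilizer N x = ⊥ := by
        rw [eq_bot_iff]
        intro k hk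
        rw [Subgroup.mem_bot]
        exact hstab k hk
      rw [this, Subgroup.card_bot]
    rw [hst, one_mul] at hos
    rcases hYc with h | h | h | h
    · left
      exact Subgroup.eq_bot_of_card_eq N (by rw [← hos, h])
    · exfalso
      rw [← hos, h] at hdvd
      omega
    · exfalso
      rw [← hos, h] at hdvd
      omega
    · exfalso
      have hN100 : Nat.card N = 100 := by rw [← hos, h]
      have h25 := card_pow25_of_card_100 (N := N) hN100
      have hinj : Function.Injective (fun n : N => (n : G) • x) := by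
        intro n n' hnn
        have h1 : ((n'⁻¹ * n : N) : G) • x = x := by
          show ((n' : G)⁻¹ * (n : G)) • x = x
          rw [mul_smul, inv_smul_eq_iff]
          exact hnn
        have h2 := hstab _ h1
        exact (inv_mul_eq_one.1 h2).symm
      have hc : ((fun n : N => (n : G) • x) '' {n : N | n ^ 25 = 1}).ncard = 25 := by
        rw [Set.ncard_image_of_injective _ hinj, h25]
      have hx1 : x ∈ (fun n : N => (n : G) • x) '' {n : N | n ^ 25 = 1} :=
        ⟨1, by simp, by simp⟩
      have hsub : (fun n : N => (n : G) • x) '' {n : N | n ^ 25 = 1} ⊆ insert x (A ∪ B) := by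
        rintro y ⟨n, -, rfl⟩
        exact hYsub ⟨n, rfl⟩
      have hinv : ∀ h : G, h • x = x →
          ∀ y ∈ (fun n : N => (n : G) • x) '' {n : N | n ^ 25 = 1},
          h • y ∈ (fun n : N => (n : G) • x) '' {n : N | n ^ 25 = 1} := by
        rintro h hx y ⟨n, hn, rfl⟩
        refine ⟨⟨h * n * h⁻¹, hN.conj_mem n n.2 h⟩, ?_, ?_⟩
        · apply Subtype.ext
          show (h * (n : G) * h⁻¹) ^ 25 = 1
          have hn' : (n : G) ^ 25 = 1 := congrArg Subtype.val hn
          rw [conj_pow, hn']
          simp
        · exact (hconj h hx n).symm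
      have := inv_set_card x A B hA hB hxA hxB hAB hAt hBt _ hx1 hsub hinv
      omega
  · -- the stabiliser lies in `N`
    have hle : MulAction.stabilizer G x ≤ N := Subgroup.subgroupOf_eq_top.1 htop
    have hst : Nat.card (MulAction.stabilizer N x) = 443520 := by
      rw [← hHcard]
      apply Nat.card_congr
      exact
        { toFun := fun k => ⟨(k.1 : G), k.2⟩
          invFun := fun m => ⟨⟨m.1, hle m.2⟩, m.2⟩
          left_inv := fun k => rfl
          right_inv := fun m => rfl }
    rw [hst] at hos
    rcases hYc with h | h | h | h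
    · exfalso
      have hNH : MulAction.stabilizer G x = N :=
        Subgroup.eq_of_le_of_card_ge hle (by rw [hHcard, ← hos, h])
      obtain ⟨y, hy, y', hy', hne⟩ := (Set.one_lt_ncard fA).1 (by rw [hA]; norm_num)
      obtain ⟨k, hkx, hky⟩ := hAt y hy y' hy'
      have hyo : y ∈ MulAction.orbit G x := by
        rw [horb]; exact Or.inr (Or.inl hy)
      obtain ⟨g, rfl⟩ := hyo
      have hk : k ∈ N := by rw [← hNH]; exact hkx
      have h2 : g⁻¹ * k * g ∈ MulAction.stabilizer G x := by
        rw [hNH]
        have := hN.conj_mem k hk g⁻¹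
        rwa [inv_inv] at this
      have h3 : (g⁻¹ * k * g) • x = x := h2
      rw [mul_smul, mul_smul, inv_smul_eq_iff] at h3
      exact hne (h3.symm.trans hky)
    · exfalso
      rw [← hos, h] at hdvd
      omega
    · exfalso
      rw [← hos, h] at hdvd
      omega
    · right
      exact Subgroup.eq_top_of_card_eq N (by rw [← hos, h, hcard])

end Cfsg.Agent.Helper3
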