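import Mathlib
import Cfsg.Agent.Helper3.LeechMod2

set_option autoImplicit false
set_option linter.unusedSectionVars false
set_option linter.style.haveILetI false
set_option linter.unusedSimpArgs false
set_option linter.unusedVariables false
set_option linter.deprecated false
set_option linter.unnecessarySeqFocus false

namespace Cfsg.Agent.Helper3

open Cfsg Cfsg.Agent.Helper28.Leech
open scoped Pointwise

theorem dot_single_left (i : GolayPt) (a : ℤ) (w : GolayPt → ℤ) :
    dotInt (Pi.single i a) w = a * w i := by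
  unfold dotInt
  simp only [Pi.single_apply, ite_mul, zero_mul, Finset.sum_ite_eq', Finset.mem_univ, if_true]

theorem dot_w0s (w : GolayPt → ℤ) :
    dotInt (w0s : GolayPt → ℤ) w = 4 * (w none - w (gPt 0)) := by
  show dotInt (Pi.single none 4 + Pi.single (gPt 0) (-4)) w = _
  rw [dot_add_left, dot_single_left, dot_single_left]
  ring

set_option maxRecDepth 100000 in
theorem w0s_none : (Pi.single none 4 + Pi.single (gPt 0) (-4) : GolayPt → ℤ) none = 4 := by
  decide +kernel

set_option maxRecDepth 100000 in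
theorem w0s_zero : (Pi.single none 4 + Pi.single (gPt 0) (-4) : GolayPt → ℤ) (gPt 0) = -4 := by
  decide +kernel

theorem w0s_neg_rel : stabRel w0s (-w0s) := by
  obtain ⟨w', r, e1, e2⟩ := swap_rel w0s
  have hn : sqNorm (w' : GolayPt → ℤ) = 32 := by
    rw [stabRel_norm r]; exact w0s_norm
  have h1 : (w0s : GolayPt → ℤ) (gPt 0) = -4 := w0s_zero
  have h2 : (w0s : GolayPt → ℤ) none = 4 := w0s_none
  have hneg : ((-w0s : leechLattice) : GolayPt → ℤ) =
      Pi.single none (-4) + Pi.single (gPt 0) 4 := by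
    rw [AddSubgroup.coe_neg]
    show -(Pi.single none 4 + Pi.single (gPt 0) (-4) : GolayPt → ℤ) = _
    funext k
    simp only [Pi.neg_apply, Pi.add_apply, Pi.single_apply]
    split_ifs <;> norm_num
  have e : w' = -w0s := eq_two_single w' hn none (gPt 0) (by decide) (-4) 4
    (by rw [e1]; exact h1) (by rw [e2]; exact h2) (by norm_num) (-w0s) hneg
  rw [← e]
  exact r

/-- an orthogonal pair of minimal vectors can be moved to the standard pair -/
theorem orth_norm (z x : leechLattice) (hz : sqNorm (z : GolayPt → ℤ) = 32)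
    (hx : sqNorm (x : GolayPt → ℤ) = 32)
    (hd : dotInt (z : GolayPt → ℤ) (x : GolayPt → ℤ) = 0) :
    ∃ g ∈ Co0, g z = v0 ∧ g x = w0s := by
  obtain ⟨h, hh, hv0⟩ := min_rel z hz
  have r := rel0 (h x) (by rw [hh.2, hx]) (sum_of_dot z x h hh hv0 0 0 hd (by norm_num))
  have r' : stabRel (h x) w0s := by
    rcases r with r | r
    · exact r
    · exact stabRel_trans r (stabRel_symm w0s_neg_rel)
  obtain ⟨g1, hg1, e1, e2⟩ := r'
  exact ⟨g1 * h, Co0.mul_mem hg1 hh, by rw [Equiv.Perm.mul_apply, hv0, e1],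
    by rw [Equiv.Perm.mul_apply, e2]⟩

/-- the class `5` at `∞`, `-1` at `0` -/
def isV (u : leechLattice) : Prop :=
  sqNorm (u : GolayPt → ℤ) = 48 ∧ (u : GolayPt → ℤ) none = 5 ∧ (u : GolayPt → ℤ) (gPt 0) = -1

theorem isT_neg (u : leechLattice) (h : isV u) : isT (-u) := by
  obtain ⟨h1, h2, h3⟩ := h
  refine ⟨?_, ?_, ?_⟩
  · rw [AddSubgroup.coe_neg, Helper28.Leech.sqNorm_neg]; exact h1
  · rw [AddSubgroup.coe_neg, Pi.neg_apply, h2]
  · rw [AddSubgroup.coe_neg, Pi.neg_apply, h3]; norm_num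

theorem sign2_fix_w0s (c c' : ℕ) (hcc : Helper28.Code.ofSet (gSup c) ∈ golayCode)
    (hcc' : Helper28.Code.ofSet (gSup c') ∈ golayCode) (hn : none ∈ gSup c)
    (h0 : gPt 0 ∉ gSup c) (hn' : none ∈ gSup c') (h0' : gPt 0 ∉ gSup c') :
    signAut (gSup c') hcc' (signAut (gSup c) hcc w0s) = w0s := by
  apply Subtype.ext
  funext k
  rw [signAut_apply, signAut_apply]
  have hk0 : ∀ k, k ≠ none → k ≠ gPt 0 → (w0s : GolayPt → ℤ) k = 0 := by
    intro k h1 h2
    show (Pi.single none 4 + Pi.single (gPt 0) (-4) : GolayPt → ℤ) k = 0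
    simp [Pi.single_apply, h1, h2]
  by_cases hk : k = none
  · subst hk
    rw [if_pos hn', if_pos hn]
    norm_num
  · by_cases hk0' : k = gPt 0
    · subst hk0'
      rw [if_neg h0', if_neg h0]
    · rw [hk0 k hk hk0']
      split_ifs <;> norm_num

theorem V_rel (u u' : leechLattice) (hV : isV u) (hV' : isV u') :
    ∃ g ∈ Co0, g v0 = v0 ∧ g w0s = w0s ∧ g u = u' := by
  obtain ⟨c, hc, hn, h0, hcc, e⟩ := T_norm (-u) (isT_neg u hV)
  obtain ⟨c', hc', hn', h0', hcc', e'⟩ := T_norm (-u') (isT_neg u' hV')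
  have hg : signAut (gSup c') hcc' * signAut (gSup c) hcc ∈ Co0 :=
    Co0.mul_mem (signAut_mem _ hcc') (signAut_mem _ hcc)
  refine ⟨signAut (gSup c') hcc' * signAut (gSup c) hcc, hg, ?_, ?_, ?_⟩
  · rw [Equiv.Perm.mul_apply]
    exact sign2_fix_v0 c c' hcc hcc' hn h0 hn' h0'
  · rw [Equiv.Perm.mul_apply]
    exact sign2_fix_w0s c c' hcc hcc' hn h0 hn' h0'
  · have e2 : (signAut (gSup c') hcc' * signAut (gSup c) hcc) (-u) = -u' := by
      rw [Equiv.Perm.mul_apply, e, ← e', signAut_invol]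
    rw [co0_map_neg _ hg] at e2
    exact neg_injective e2

/-! ### counting the class -/

/-- sign change of `u5` on the support of a word -/
def flip5 (c : ℕ) : GolayPt → ℤ := fun i => if i ∈ gSup c then -u5 i else u5 i

theorem u5_pos (i : GolayPt) : 0 < u5 i := by
  unfold u5
  split_ifs <;> norm_num

theorem flip5_inj (c c' : ℕ) (hc : c ∈ gCode) (hc' : c' ∈ gCode) (h : flip5 c = flip5 c') :
    c = c' := by
  apply gSup_injOn (gCode_lt' hc) (gCode_lt' hc')
  ext i
  have e := congrFun h i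
  have hp := u5_pos i
  unfold flip5 at e
  by_cases h1 : i ∈ gSup c <;> by_cases h2 : i ∈ gSup c'
  · exact ⟨fun _ => h2, fun _ => h1⟩
  · rw [if_pos h1, if_neg h2] at e; omega
  · rw [if_neg h1, if_pos h2] at e; omega
  · exact ⟨fun h3 => absurd h3 h1, fun h3 => absurd h3 h2⟩

set_option maxRecDepth 100000 in
theorem T_code_len : (gCode.filter (fun c => c.testBit 23 && !c.testBit 0)).length = 1024 := by
  decide +kernel

theorem T_code_count : (gCode.toFinset.filter
    (fun c => c.testBit 23 = true ∧ c.testBit 0 = false)).card = 1024 := by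
  have e : gCode.toFinset.filter (fun c => c.testBit 23 = true ∧ c.testBit 0 = false) =
      (gCode.filter (fun c => c.testBit 23 && !c.testBit 0)).toFinset := by
    ext c
    rw [Finset.mem_filter, List.mem_toFinset, List.mem_toFinset, List.mem_filter]
    cases c.testBit 23 <;> cases c.testBit 0 <;> simp
  rw [e, List.toFinset_card_of_nodup (gCode_nodup.filter _)]
  exact T_code_len

theorem T_set_eq : {x : GolayPt → ℤ | x ∈ leechLattice ∧ sqNorm x = 48 ∧ x none = -5 ∧
      x (gPt 0) = 1} =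
    flip5 '' (↑(gCode.toFinset.filter
      (fun c => c.testBit 23 = true ∧ c.testBit 0 = false)) : Set ℕ) := by
  ext x
  constructor
  · rintro ⟨hx, hn, hinf, h0⟩
    obtain ⟨c, hc, hnc, h0c, hcc, e⟩ := T_norm ⟨x, hx⟩ ⟨hn, hinf, h0⟩
    refine ⟨c, ?_, ?_⟩
    · rw [Finset.mem_coe, Finset.mem_filter, List.mem_toFinset]
      refine ⟨hc, (mem_gSup c none).1 hnc, ?_⟩
      have : ¬ c.testBit (gIdx (gPt 0)) = true := fun h => h0c ((mem_gSup c (gPt 0)).2 h)
      have e0 : gIdx (gPt 0) = 0 := rfl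
      rw [e0] at this
      simpa using this
    · have e2 : signAut (gSup c) hcc u5L = ⟨x, hx⟩ := by
        rw [← e, signAut_invol]
      have e3 := congrArg (fun t : leechLattice => (t : GolayPt → ℤ)) e2
      simp only at e3
      rw [← e3]
      funext k
      rw [signAut_apply]
      rfl
  · rintro ⟨c, hc, rfl⟩
    rw [Finset.mem_coe, Finset.mem_filter, List.mem_toFinset] at hc
    obtain ⟨hc, h23, h0⟩ := hc
    have hcc : Helper28.Code.ofSet (gSup c) ∈ golayCode :=
      (Helper28.Code.mem_supports_iff golayCode _).1 ((mem_supports_iff _).2 ⟨c, hc, rfl⟩)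
    have hnc : none ∈ gSup c := (mem_gSup c none).2 h23
    have h0c : gPt 0 ∉ gSup c := by
      intro h
      have := (mem_gSup c (gPt 0)).1 h
      have e0 : gIdx (gPt 0) = 0 := rfl
      rw [e0, h0] at this
      exact absurd this (by decide)
    have e : flip5 c = ((signAut (gSup c) hcc u5L : leechLattice) : GolayPt → ℤ) := by
      funext k
      rw [signAut_apply]
      rfl
    refine ⟨?_, ?_, ?_, ?_⟩
    · rw [e]; exact (signAut (gSup c) hcc u5L).2
    · have := sqNorm_flip (fun i => i ∈ gSup c) u5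
      rw [sqNorm_u5] at this
      exact this
    · show (if none ∈ gSup c then -u5 none else u5 none) = -5
      rw [if_pos hnc]
      rfl
    · show (if gPt 0 ∈ gSup c then -u5 (gPt 0) else u5 (gPt 0)) = 1
      rw [if_neg h0c]
      rfl

theorem T_count : {u : leechLattice | isT u}.ncard = 1024 := by
  refine (sub_set_ncard (fun x => sqNorm x = 48 ∧ x none = -5 ∧ x (gPt 0) = 1)).trans ?_
  rw [T_set_eq, Set.ncard_image_of_injOn, Set.ncard_coe_finset, T_code_count]
  intro c hc c' hc' h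
  rw [Finset.mem_coe, Finset.mem_filter, List.mem_toFinset] at hc hc'
  exact flip5_inj c c' hc.1 hc'.1 h

theorem V_count : {u : leechLattice | isV u}.ncard = 1024 := by
  rw [← T_count]
  have e : {u : leechLattice | isT u} = (fun u : leechLattice => -u) '' {u : leechLattice | isV u} := by
    ext u
    constructor
    · intro hu
      refine ⟨-u, ?_, neg_neg u⟩
      obtain ⟨h1, h2, h3⟩ := hu
      refine ⟨?_, ?_, ?_⟩
      · rw [AddSubgroup.coe_neg, Helper28.Leech.sqNorm_neg]; exact h1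
      · rw [AddSubgroup.coe_neg, Pi.neg_apply, h2]; norm_num
      · rw [AddSubgroup.coe_neg, Pi.neg_apply, h3]
    · rintro ⟨u', hu', rfl⟩
      exact isT_neg u' hu'
  rw [e, Set.ncard_image_of_injective _ neg_injective]

/-! ### the standard position -/

theorem hs_std_iff (z x a : leechLattice) (g : Equiv.Perm leechLattice) (hg : g ∈ Co0)
    (e1 : g z = v0) (e2 : g x = w0s) :
    (sqNorm (a : GolayPt → ℤ) = 48 ∧ dotInt (z : GolayPt → ℤ) (a : GolayPt → ℤ) = 16 ∧
      dotInt (a : GolayPt → ℤ) (x : GolayPt → ℤ) = 24) ↔ isV (g a) := by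
  have h1 := co0_dot g hg z a
  have h2 := co0_dot g hg x a
  rw [e1, dot_v0] at h1
  rw [e2, dot_w0s] at h2
  have e : (gPt 0 : GolayPt) = some 0 := rfl
  rw [e] at h2
  unfold isV
  rw [e, hg.2, dotInt_symm (a : GolayPt → ℤ)]
  constructor
  · rintro ⟨h3, h4, h5⟩
    exact ⟨h3, by omega, by omega⟩
  · rintro ⟨h3, h4, h5⟩
    exact ⟨h3, by omega, by omega⟩

theorem ncard_transfer (g : Equiv.Perm leechLattice) (P Q : leechLattice → Prop)
    (h : ∀ a, P a ↔ Q (g a)) : {a | P a}.ncard = {a | Q a}.ncard := by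
  have e : {a | Q a} = g '' {a | P a} := by
    ext w
    constructor
    · intro hw
      exact ⟨g.symm w, (h _).2 (by simpa using hw), by simp⟩
    · rintro ⟨a, ha, rfl⟩
      exact (h a).1 ha
  rw [e, Set.ncard_image_of_injective _ g.injective]

/-- the Higman–Sims configuration: transitivity -/
theorem hs_trans (v w x x' : leechLattice) (hv : sqNorm (v : GolayPt → ℤ) = 48)
    (hw : sqNorm (w : GolayPt → ℤ) = 48)
    (hvw : dotInt (v : GolayPt → ℤ) (w : GolayPt → ℤ) = -32)
    (hx : sqNorm (x : GolayPt → ℤ) = 32 ∧ dotInt (v : GolayPt → ℤ) (x : GolayPt → ℤ) = 24 ∧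
      dotInt (w : GolayPt → ℤ) (x : GolayPt → ℤ) = -24)
    (hx' : sqNorm (x' : GolayPt → ℤ) = 32 ∧ dotInt (v : GolayPt → ℤ) (x' : GolayPt → ℤ) = 24 ∧
      dotInt (w : GolayPt → ℤ) (x' : GolayPt → ℤ) = -24) :
    ∃ g : Co0, g • v = v ∧ g • w = w ∧ g • x = x' := by
  have hz : sqNorm ((v + w : leechLattice) : GolayPt → ℤ) = 32 := by
    rw [AddSubgroup.coe_add, Helper28.Leech.sqNorm_add, hv, hw, hvw]; norm_num
  have hzv : dotInt ((v + w : leechLattice) : GolayPt → ℤ) (v : GolayPt → ℤ) = 16 := by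
    rw [AddSubgroup.coe_add, dot_add_left, ← sqNorm_eq_dot, hv, dotInt_symm, hvw]; norm_num
  have hzx : ∀ y : leechLattice, dotInt (v : GolayPt → ℤ) (y : GolayPt → ℤ) = 24 →
      dotInt (w : GolayPt → ℤ) (y : GolayPt → ℤ) = -24 →
      dotInt ((v + w : leechLattice) : GolayPt → ℤ) (y : GolayPt → ℤ) = 0 := by
    intro y h1 h2
    rw [AddSubgroup.coe_add, dot_add_left, h1, h2]; norm_num
  obtain ⟨g1, hg1, a1, b1⟩ := orth_norm (v + w) x hz hx.1 (hzx x hx.2.1 hx.2.2)
  obtain ⟨g2, hg2, a2, b2⟩ := orth_norm (v + w) x' hz hx'.1 (hzx x' hx'.2.1 hx'.2.2)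
  have hV1 : isV (g1 v) := (hs_std_iff (v + w) x v g1 hg1 a1 b1).1 ⟨hv, hzv, hx.2.1⟩
  have hV2 : isV (g2 v) := (hs_std_iff (v + w) x' v g2 hg2 a2 b2).1 ⟨hv, hzv, hx'.2.1⟩
  obtain ⟨h, hh, c1, c2, c3⟩ := V_rel (g1 v) (g2 v) hV1 hV2
  have hg : g2⁻¹ * h * g1 ∈ Co0 := Co0.mul_mem (Co0.mul_mem (Co0.inv_mem hg2) hh) hg1
  have ev : (g2⁻¹ * h * g1) v = v := by
    simp only [Equiv.Perm.mul_apply]
    rw [c3]; simp
  have ez : (g2⁻¹ * h * g1) (v + w) = v + w := by
    simp only [Equiv.Perm.mul_apply]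
    rw [a1, c1, ← a2]; simp
  have ex : (g2⁻¹ * h * g1) x = x' := by
    simp only [Equiv.Perm.mul_apply]
    rw [b1, c2, ← b2]; simp
  refine ⟨⟨g2⁻¹ * h * g1, hg⟩, ev, ?_, ex⟩
  show (g2⁻¹ * h * g1) w = w
  have e4 := ez
  rw [hg.1, ev] at e4
  exact add_left_cancel e4

/-- the Higman–Sims configuration: the count -/
theorem hs_count (v w : leechLattice) (hv : sqNorm (v : GolayPt → ℤ) = 48)
    (hw : sqNorm (w : GolayPt → ℤ) = 48)
    (hvw : dotInt (v : GolayPt → ℤ) (w : GolayPt → ℤ) = -32) :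
    {x : leechLattice | sqNorm (x : GolayPt → ℤ) = 32 ∧
      dotInt (v : GolayPt → ℤ) (x : GolayPt → ℤ) = 24 ∧
      dotInt (w : GolayPt → ℤ) (x : GolayPt → ℤ) = -24}.ncard = 100 := by
  classical
  have hz : sqNorm ((v + w : leechLattice) : GolayPt → ℤ) = 32 := by
    rw [AddSubgroup.coe_add, Helper28.Leech.sqNorm_add, hv, hw, hvw]; norm_num
  have hzv : dotInt ((v + w : leechLattice) : GolayPt → ℤ) (v : GolayPt → ℤ) = 16 := by
    rw [AddSubgroup.coe_add, dot_add_left, ← sqNorm_eq_dot, hv, dotInt_symm, hvw]; norm_num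
  have hzy : ∀ y : leechLattice, dotInt ((v + w : leechLattice) : GolayPt → ℤ) (y : GolayPt → ℤ) =
      dotInt (v : GolayPt → ℤ) (y : GolayPt → ℤ) + dotInt (w : GolayPt → ℤ) (y : GolayPt → ℤ) := by
    intro y
    rw [AddSubgroup.coe_add, dot_add_left]
  generalize hzdef : (v + w : leechLattice) = z at hz hzv hzy
  have hf3 := normSet_finite 48 (by norm_num)
  have hf2 := normSet_finite 32 (by norm_num)
  simp only [Nat.cast_ofNat] at hf3 hf2
  have hnz : sqNorm ((-z : leechLattice) : GolayPt → ℤ) = 32 := by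
    rw [AddSubgroup.coe_neg, Helper28.Leech.sqNorm_neg]; exact hz
  have hs : (hf3.toFinset.filter (fun a : leechLattice =>
      dotInt (z : GolayPt → ℤ) (a : GolayPt → ℤ) = 16)).card = 953856 := by
    rw [← census48 (-z) hnz, ← Set.ncard_coe_finset]
    congr 1
    ext a
    simp only [Finset.coe_filter, Set.Finite.mem_toFinset, Set.mem_setOf_eq, normSet,
      AddSubgroup.coe_neg, dot_neg_left]
    constructor
    · rintro ⟨h1, h2⟩
      exact ⟨h1, by omega⟩
    · rintro ⟨h1, h2⟩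
      exact ⟨h1, by omega⟩
  have ht : (hf2.toFinset.filter (fun b : leechLattice =>
      dotInt (z : GolayPt → ℤ) (b : GolayPt → ℤ) = 0)).card = 93150 := by
    have h1 := census_result (z : GolayPt → ℤ) z.2 hz 0 0 (by norm_num)
    rw [census_v0_c, ← sub_set_ncard (fun x => sqNorm x = 32 ∧ dotInt (z : GolayPt → ℤ) x = 0)]
      at h1
    rw [← h1, ← Set.ncard_coe_finset]
    congr 1
    ext a
    simp only [Finset.coe_filter, Set.Finite.mem_toFinset, Set.mem_setOf_eq, normSet]
  have h1 : ∀ a ∈ hf3.toFinset.filter (fun a : leechLattice =>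
      dotInt (z : GolayPt → ℤ) (a : GolayPt → ℤ) = 16),
      ((hf2.toFinset.filter (fun b : leechLattice =>
        dotInt (z : GolayPt → ℤ) (b : GolayPt → ℤ) = 0)).filter (fun b : leechLattice =>
          dotInt (a : GolayPt → ℤ) (b : GolayPt → ℤ) = 24)).card =
      {x : leechLattice | sqNorm (x : GolayPt → ℤ) = 32 ∧
        dotInt (v : GolayPt → ℤ) (x : GolayPt → ℤ) = 24 ∧
        dotInt (w : GolayPt → ℤ) (x : GolayPt → ℤ) = -24}.ncard := by
    intro a ha
    rw [Finset.mem_filter, Set.Finite.mem_toFinset] at ha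
    obtain ⟨ha1, ha2⟩ := ha
    have ha1' : sqNorm (a : GolayPt → ℤ) = 48 := ha1
    obtain ⟨g, hgz, hga⟩ := pair48 (-z) a v hnz ha1' hv
      (by rw [AddSubgroup.coe_neg, dot_neg_left, ha2])
      (by rw [AddSubgroup.coe_neg, dot_neg_left, hzv])
    have e1 : (g : Equiv.Perm leechLattice) (-z) = -z := hgz
    have e2 : (g : Equiv.Perm leechLattice) a = v := hga
    have e3 : (g : Equiv.Perm leechLattice) z = z := by
      rw [co0_map_neg _ g.2] at e1
      exact neg_injective e1
    rw [← ncard_transfer (g : Equiv.Perm leechLattice)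
      (fun b : leechLattice => sqNorm (b : GolayPt → ℤ) = 32 ∧
        dotInt (z : GolayPt → ℤ) (b : GolayPt → ℤ) = 0 ∧
        dotInt (a : GolayPt → ℤ) (b : GolayPt → ℤ) = 24) _ ?_, ← Set.ncard_coe_finset]
    · congr 1
      ext b
      simp only [Finset.coe_filter, Finset.mem_filter, Set.Finite.mem_toFinset, Set.mem_setOf_eq,
        normSet, and_assoc]
    · intro b
      have d1 := co0_dot (g : Equiv.Perm leechLattice) g.2 z b
      have d2 := co0_dot (g : Equiv.Perm leechLattice) g.2 a b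
      rw [e3] at d1
      rw [e2] at d2
      have d3 := hzy ((g : Equiv.Perm leechLattice) b)
      rw [g.2.2 b]
      constructor
      · rintro ⟨p1, p2, p3⟩
        exact ⟨p1, by omega, by omega⟩
      · rintro ⟨p1, p2, p3⟩
        exact ⟨p1, by omega, by omega⟩
  have h2 : ∀ b ∈ hf2.toFinset.filter (fun b : leechLattice =>
      dotInt (z : GolayPt → ℤ) (b : GolayPt → ℤ) = 0),
      ((hf3.toFinset.filter (fun a : leechLattice =>
        dotInt (z : GolayPt → ℤ) (a : GolayPt → ℤ) = 16)).filter (fun a : leechLattice =>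
          dotInt (a : GolayPt → ℤ) (b : GolayPt → ℤ) = 24)).card = 1024 := by
    intro b hb
    rw [Finset.mem_filter, Set.Finite.mem_toFinset] at hb
    obtain ⟨hb1, hb2⟩ := hb
    have hb1' : sqNorm (b : GolayPt → ℤ) = 32 := hb1
    obtain ⟨g, hg, e1, e2⟩ := orth_norm z b hz hb1' hb2
    rw [← V_count, ← ncard_transfer g _ _ (fun a => hs_std_iff z b a g hg e1 e2),
      ← Set.ncard_coe_finset]
    congr 1
    ext a
    simp only [Finset.coe_filter, Finset.mem_filter, Set.Finite.mem_toFinset, Set.mem_setOf_eq,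
      normSet, and_assoc]
  have h := double_count _ _
    (fun a b : leechLattice => dotInt (a : GolayPt → ℤ) (b : GolayPt → ℤ) = 24) _ _ h1 h2
  rw [hs, ht] at h
  omega

end Cfsg.Agent.Helper3
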