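import Mathlib
import Cfsg.Agent.Helper3.LeechHS

set_option autoImplicit false
set_option linter.unusedSectionVars false
set_option linter.style.haveILetI false
set_option linter.unusedSimpArgs false
set_option linter.unusedVariables false
set_option linter.deprecated false
set_option linter.unnecessarySeqFocus false

namespace Cfsg.Agent.Helper3

open Cfsg Cfsg.Agent.Helper28.Leech
open scoped Pointwise

/-- any two Higman–Sims pairs are conjugate under the automorphism group -/
theorem hs_pair_trans (v w v' w' : leechLattice) (hv : sqNorm (v : GolayPt → ℤ) = 48)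
    (hw : sqNorm (w : GolayPt → ℤ) = 48)
    (hvw : dotInt (v : GolayPt → ℤ) (w : GolayPt → ℤ) = -32)
    (hv' : sqNorm (v' : GolayPt → ℤ) = 48) (hw' : sqNorm (w' : GolayPt → ℤ) = 48)
    (hvw' : dotInt (v' : GolayPt → ℤ) (w' : GolayPt → ℤ) = -32) :
    ∃ h ∈ Co0, h v = v' ∧ h w = w' := by
  have hz : sqNorm ((v + w : leechLattice) : GolayPt → ℤ) = 32 := by
    rw [AddSubgroup.coe_add, Helper28.Leech.sqNorm_add, hv, hw, hvw]; norm_num
  have hz' : sqNorm ((v' + w' : leechLattice) : GolayPt → ℤ) = 32 := by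
    rw [AddSubgroup.coe_add, Helper28.Leech.sqNorm_add, hv', hw', hvw']; norm_num
  have hzv : dotInt ((v + w : leechLattice) : GolayPt → ℤ) (v : GolayPt → ℤ) = 16 := by
    rw [AddSubgroup.coe_add, dot_add_left, ← sqNorm_eq_dot, hv, dotInt_symm, hvw]; norm_num
  have hzv' : dotInt ((v' + w' : leechLattice) : GolayPt → ℤ) (v' : GolayPt → ℤ) = 16 := by
    rw [AddSubgroup.coe_add, dot_add_left, ← sqNorm_eq_dot, hv', dotInt_symm, hvw']; norm_num
  obtain ⟨h1, hh1⟩ := co0_trans_min (v + w) (v' + w') hz hz'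
  have e1 : (h1 : Equiv.Perm leechLattice) (v + w) = v' + w' := hh1
  have hnz' : sqNorm ((-(v' + w') : leechLattice) : GolayPt → ℤ) = 32 := by
    rw [AddSubgroup.coe_neg, Helper28.Leech.sqNorm_neg]; exact hz'
  have d1 : dotInt ((-(v' + w') : leechLattice) : GolayPt → ℤ)
      (((h1 : Equiv.Perm leechLattice) v : leechLattice) : GolayPt → ℤ) = -16 := by
    rw [AddSubgroup.coe_neg, dot_neg_left, ← e1, co0_dot _ h1.2, hzv]
  have d2 : dotInt ((-(v' + w') : leechLattice) : GolayPt → ℤ) (v' : GolayPt → ℤ) = -16 := by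
    rw [AddSubgroup.coe_neg, dot_neg_left, hzv']
  obtain ⟨h2, hh2z, hh2v⟩ := pair48 (-(v' + w')) ((h1 : Equiv.Perm leechLattice) v) v' hnz'
    (by rw [h1.2.2]; exact hv) hv' d1 d2
  have e2 : (h2 : Equiv.Perm leechLattice) (-(v' + w')) = -(v' + w') := hh2z
  have e3 : (h2 : Equiv.Perm leechLattice) ((h1 : Equiv.Perm leechLattice) v) = v' := hh2v
  have e4 : (h2 : Equiv.Perm leechLattice) (v' + w') = v' + w' := by
    rw [co0_map_neg _ h2.2] at e2
    exact neg_injective e2
  refine ⟨(h2 : Equiv.Perm leechLattice) * (h1 : Equiv.Perm leechLattice),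
    Co0.mul_mem h2.2 h1.2, ?_, ?_⟩
  · rw [Equiv.Perm.mul_apply]; exact e3
  · have e5 : (h2 : Equiv.Perm leechLattice) ((h1 : Equiv.Perm leechLattice) (v + w)) =
        v' + w' := by rw [e1, e4]
    rw [h1.2.1, h2.2.1, e3] at e5
    rw [Equiv.Perm.mul_apply]
    exact add_left_cancel e5

/-! ### a pair supported on a dodecad -/

/-- a dodecad -/
def dD : ℕ := 28637

/-- the complementary dodecad -/
def dC : ℕ := 16748578

set_option maxRecDepth 100000 in
theorem dC_mem : dC ∈ gCode := by decide +kernel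

def vD : GolayPt → ℤ := fun k => if dD.testBit (gIdx k) = true then 2 else 0

def wD : GolayPt → ℤ := fun k =>
  if dD.testBit (gIdx k) = true then (if k = gPt 0 ∨ k = gPt 2 then 2 else -2) else 0

set_option maxRecDepth 100000 in
theorem vD_test : ltest vD = true := by decide +kernel

set_option maxRecDepth 100000 in
theorem wD_test : ltest wD = true := by decide +kernel

set_option maxRecDepth 100000 in
theorem vD_norm : sqNorm vD = 48 := by decide +kernel

set_option maxRecDepth 100000 in
theorem wD_norm : sqNorm wD = 48 := by decide +kernel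

set_option maxRecDepth 100000 in
theorem vwD_dot : dotInt vD wD = -32 := by decide +kernel

def vDL : leechLattice := ⟨vD, ltest_sound _ vD_test⟩

def wDL : leechLattice := ⟨wD, ltest_sound _ wD_test⟩

set_option maxRecDepth 100000 in
theorem dC_vD : ∀ k : GolayPt, dC.testBit (gIdx k) = true → vD k = 0 := by decide +kernel

set_option maxRecDepth 100000 in
theorem dC_wD : ∀ k : GolayPt, dC.testBit (gIdx k) = true → wD k = 0 := by decide +kernel

set_option maxRecDepth 100000 in
theorem dD_or : ∀ k : GolayPt, dC.testBit (gIdx k) = true ∨ vD k = 2 := by decide +kernel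

set_option maxRecDepth 100000 in
theorem dC_none : dC.testBit (gIdx none) = true := by decide +kernel

theorem leech_sum_of_zero (x : GolayPt → ℤ) (hx : x ∈ leechLattice) (k0 : GolayPt)
    (h0 : x k0 = 0) : (∑ i, x i) % 8 = 0 := by
  rw [mem_leech_iff_fibre] at hx
  obtain ⟨m, hm, c, hc, h1, h2⟩ := hx
  have e := h1 k0
  unfold lres at e
  rw [h0] at e
  have hm0 : m = 0 := by
    rcases hm with h | h
    · exact h
    · exfalso
      rw [h] at e
      split_ifs at e <;> omega
  rw [h2, hm0]
  norm_num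

theorem hs_invol_std : ∃ g ∈ Co0, g vDL = vDL ∧ g wDL = wDL ∧ g * g = 1 ∧ g ≠ 1 ∧
    ∀ x : leechLattice, dotInt vD (x : GolayPt → ℤ) = 24 → g x ≠ x := by
  have hcc : Helper28.Code.ofSet (gSup dC) ∈ golayCode :=
    (Helper28.Code.mem_supports_iff golayCode _).1 ((mem_supports_iff _).2 ⟨dC, dC_mem, rfl⟩)
  have hzero : ∀ x : leechLattice, signAut (gSup dC) hcc x = x →
      ∀ k, dC.testBit (gIdx k) = true → (x : GolayPt → ℤ) k = 0 := by
    intro x hx k hk
    have e : ((signAut (gSup dC) hcc x : leechLattice) : GolayPt → ℤ) k =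
        (x : GolayPt → ℤ) k := by rw [hx]
    rw [signAut_apply, if_pos ((mem_gSup dC k).2 hk)] at e
    omega
  refine ⟨signAut (gSup dC) hcc, signAut_mem _ hcc, ?_, ?_, ?_, ?_, ?_⟩
  · apply Subtype.ext
    funext k
    rw [signAut_apply]
    by_cases hk : k ∈ gSup dC
    · rw [if_pos hk]
      have := dC_vD k ((mem_gSup dC k).1 hk)
      show -vD k = vD k
      rw [this]
      norm_num
    · rw [if_neg hk]
  · apply Subtype.ext
    funext k
    rw [signAut_apply]
    by_cases hk : k ∈ gSup dC
    · rw [if_pos hk]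
      have := dC_wD k ((mem_gSup dC k).1 hk)
      show -wD k = wD k
      rw [this]
      norm_num
    · rw [if_neg hk]
  · apply Equiv.ext
    intro x
    rw [Equiv.Perm.mul_apply]
    exact signAut_invol _ hcc x
  · intro h1
    have e : signAut (gSup dC) hcc v0 = v0 := by rw [h1]; rfl
    have := hzero v0 e none dC_none
    rw [v0_apply, if_pos rfl, if_neg (by decide)] at this
    omega
  · intro x hd hfix
    have hz := hzero x hfix
    have e1 : dotInt vD (x : GolayPt → ℤ) = 2 * ∑ i, (x : GolayPt → ℤ) i := by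
      unfold dotInt
      rw [Finset.mul_sum]
      apply Finset.sum_congr rfl
      intro k _
      rcases dD_or k with h | h
      · rw [hz k h]; ring
      · rw [h]
    have e2 := leech_sum_of_zero _ x.2 none (hz none dC_none)
    omega

/-- some involution of the Higman–Sims stabiliser fixes none of the 100 vectors -/
theorem hs_invol (v w : leechLattice) (hv : sqNorm (v : GolayPt → ℤ) = 48)
    (hw : sqNorm (w : GolayPt → ℤ) = 48)
    (hvw : dotInt (v : GolayPt → ℤ) (w : GolayPt → ℤ) = -32) :
    ∃ g : Co0, g • v = v ∧ g • w = w ∧ orderOf g = 2 ∧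
      ∀ x ∈ {x : leechLattice | sqNorm (x : GolayPt → ℤ) = 32 ∧
        dotInt (v : GolayPt → ℤ) (x : GolayPt → ℤ) = 24 ∧
        dotInt (w : GolayPt → ℤ) (x : GolayPt → ℤ) = -24}, g • x ≠ x := by
  obtain ⟨h, hh, e1, e2⟩ := hs_pair_trans v w vDL wDL hv hw hvw vD_norm wD_norm vwD_dot
  obtain ⟨g, hg, f1, f2, f3, f4, f5⟩ := hs_invol_std
  have hk : h⁻¹ * g * h ∈ Co0 := Co0.mul_mem (Co0.mul_mem (Co0.inv_mem hh) hg) hh
  refine ⟨⟨h⁻¹ * g * h, hk⟩, ?_, ?_, ?_, ?_⟩
  · show (h⁻¹ * g * h) v = v
    simp only [Equiv.Perm.mul_apply]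
    rw [e1, f1, ← e1]; simp
  · show (h⁻¹ * g * h) w = w
    simp only [Equiv.Perm.mul_apply]
    rw [e2, f2, ← e2]; simp
  · apply orderOf_eq_prime
    · apply Subtype.ext
      show (h⁻¹ * g * h) ^ 2 = 1
      have : (h⁻¹ * g * h) ^ 2 = h⁻¹ * (g * g) * h := by
        rw [pow_two]
        simp only [mul_assoc, mul_inv_cancel_left]
      rw [this, f3]; simp
    · intro h1
      apply f4
      have e : h⁻¹ * g * h = 1 := congrArg Subtype.val h1
      have : g = h * (h⁻¹ * g * h) * h⁻¹ := by
        simp only [mul_assoc, mul_inv_cancel_left, mul_inv_cancel, mul_one]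
      rw [this, e]; simp
  · rintro x ⟨hx1, hx2, hx3⟩ hfix
    have hfix' : (h⁻¹ * g * h) x = x := hfix
    simp only [Equiv.Perm.mul_apply] at hfix'
    have hfix2 : g (h x) = h x := by
      have := congrArg h hfix'
      simpa using this
    refine f5 (h x) ?_ hfix2
    have := co0_dot h hh v x
    rw [e1] at this
    rw [← hx2, ← this]
    rfl

end Cfsg.Agent.Helper3
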