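import Mathlib
import Cfsg.Agent.Helper3.LeechHS2

set_option autoImplicit false
set_option linter.unusedSectionVars false
set_option linter.style.haveILetI false
set_option linter.unusedSimpArgs false
set_option linter.unusedVariables false
set_option linter.deprecated false
set_option linter.unnecessarySeqFocus false

namespace Cfsg.Agent.Helper3

open Cfsg Cfsg.Agent.Helper28.Leech
open scoped Pointwise

/-- five-fold transitivity anchored at the base points -/
theorem M24_five (a b c d e : GolayPt) (hnd : [a, b, c, d, e].Nodup) :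
    ∃ σ ∈ M24, σ (gPt 23) = a ∧ σ (gPt 0) = b ∧ σ (gPt 1) = c ∧ σ (gPt 2) = d ∧
      σ (gPt 3) = e := by
  obtain ⟨g, hg, hmap⟩ := listTrans5 [a, b, c, d, e] hnd rfl
  simp only [List.map_cons, List.map_nil, List.cons.injEq, and_true] at hmap
  obtain ⟨h1, h2, h3, h4, h5⟩ := hmap
  exact ⟨g, hg, h1, h2, h3, h4, h5⟩

/-! ### the standard triple -/

def u5bL : leechLattice := ⟨u5b, ltest_sound _ u5b_test⟩

set_option maxRecDepth 100000 in
theorem u5_u5b_dot : dotInt u5 u5b = 32 := by decide +kernel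

set_option maxRecDepth 100000 in
theorem u5_v0_dot : dotInt u5 (Pi.single none 4 + Pi.single (some 0) 4) = 24 := by
  decide +kernel

set_option maxRecDepth 100000 in
theorem u5b_v0_dot : dotInt u5b (Pi.single none 4 + Pi.single (some 0) 4) = 24 := by
  decide +kernel

theorem std_v : sqNorm (u5L : GolayPt → ℤ) = 48 := sqNorm_u5

theorem std_w : sqNorm ((-u5bL : leechLattice) : GolayPt → ℤ) = 48 := by
  rw [AddSubgroup.coe_neg, Helper28.Leech.sqNorm_neg]
  exact u5b_norm

theorem std_vw : dotInt (u5L : GolayPt → ℤ) ((-u5bL : leechLattice) : GolayPt → ℤ) = -32 := by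
  rw [AddSubgroup.coe_neg, dot_neg_right]
  show -dotInt u5 u5b = -32
  rw [u5_u5b_dot]

/-- the 100 vectors of the standard pair -/
def XS : Set leechLattice := {y | sqNorm (y : GolayPt → ℤ) = 32 ∧
  dotInt u5 (y : GolayPt → ℤ) = 24 ∧ dotInt u5b (y : GolayPt → ℤ) = 24}

theorem XS_iff (y : leechLattice) :
    (sqNorm (y : GolayPt → ℤ) = 32 ∧
      dotInt (u5L : GolayPt → ℤ) (y : GolayPt → ℤ) = 24 ∧
      dotInt ((-u5bL : leechLattice) : GolayPt → ℤ) (y : GolayPt → ℤ) = -24) ↔ y ∈ XS := by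
  rw [AddSubgroup.coe_neg, dot_neg_left]
  show _ ∧ dotInt u5 _ = 24 ∧ -dotInt u5b _ = -24 ↔ _ ∧ dotInt u5 _ = 24 ∧ dotInt u5b _ = 24
  rw [neg_inj]

theorem v0_XS : v0 ∈ XS := ⟨v0_norm, u5_v0_dot, u5b_v0_dot⟩

theorem XS_ncard : XS.ncard = 100 := by
  rw [← hs_count u5L (-u5bL) std_v std_w std_vw]
  congr 1
  ext y
  exact (XS_iff y).symm

/-- any Higman–Sims triple can be moved to the standard one -/
theorem hs_triple (v w x : leechLattice) (hv : sqNorm (v : GolayPt → ℤ) = 48)
    (hw : sqNorm (w : GolayPt → ℤ) = 48)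
    (hvw : dotInt (v : GolayPt → ℤ) (w : GolayPt → ℤ) = -32)
    (hx : sqNorm (x : GolayPt → ℤ) = 32 ∧ dotInt (v : GolayPt → ℤ) (x : GolayPt → ℤ) = 24 ∧
      dotInt (w : GolayPt → ℤ) (x : GolayPt → ℤ) = -24) :
    ∃ h ∈ Co0, h v = u5L ∧ h w = -u5bL ∧ h x = v0 := by
  obtain ⟨h1, hh1, e1, e2⟩ := hs_pair_trans v w u5L (-u5bL) hv hw hvw std_v std_w std_vw
  have hx1 : sqNorm ((h1 x : leechLattice) : GolayPt → ℤ) = 32 ∧
      dotInt (u5L : GolayPt → ℤ) ((h1 x : leechLattice) : GolayPt → ℤ) = 24 ∧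
      dotInt ((-u5bL : leechLattice) : GolayPt → ℤ) ((h1 x : leechLattice) : GolayPt → ℤ)
        = -24 := by
    refine ⟨by rw [hh1.2]; exact hx.1, ?_, ?_⟩
    · rw [← e1, co0_dot h1 hh1]; exact hx.2.1
    · rw [← e2, co0_dot h1 hh1]; exact hx.2.2
  obtain ⟨g, g1, g2, g3⟩ := hs_trans u5L (-u5bL) (h1 x) v0 std_v std_w std_vw hx1
    ((XS_iff v0).2 v0_XS)
  refine ⟨(g : Equiv.Perm leechLattice) * h1, Co0.mul_mem g.2 hh1, ?_, ?_, ?_⟩
  · rw [Equiv.Perm.mul_apply, e1]; exact g1
  · rw [Equiv.Perm.mul_apply, e2]; exact g2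
  · rw [Equiv.Perm.mul_apply]; exact g3

/-! ### the two families -/

/-- `-3` at one point, `1` elsewhere -/
def yP (k : GolayPt) : GolayPt → ℤ := fun i => if i = k then -3 else 1

set_option maxRecDepth 100000 in
theorem yP_test : ∀ k : GolayPt, ltest (yP k) = true := by decide +kernel

set_option maxRecDepth 100000 in
theorem yP_facts : ∀ k : GolayPt, k ≠ none → k ≠ gPt 0 →
    (sqNorm (yP k) = 32 ∧ dotInt u5 (yP k) = 24 ∧ dotInt u5b (yP k) = 24 ∧
      yP k none = 1 ∧ yP k (some 0) = 1) := by decide +kernel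

def yPL (k : GolayPt) : leechLattice := ⟨yP k, ltest_sound _ (yP_test k)⟩

theorem yPL_inj : Function.Injective yPL := by
  intro k k' h
  have e : yP k k = yP k' k := by
    show ((yPL k : leechLattice) : GolayPt → ℤ) k = ((yPL k' : leechLattice) : GolayPt → ℤ) k
    rw [h]
  unfold yP at e
  rw [if_pos rfl] at e
  by_contra hne
  rw [if_neg hne] at e
  omega

/-- the octads through `∞` and `0`, as code words -/
def L77 : List ℕ := gCode.filter (fun c => pc24 c == 8 && c.testBit 23 && c.testBit 0)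

set_option maxRecDepth 100000 in
theorem L77_len : L77.length = 77 := by decide +kernel

/-- twice the indicator of a word -/
def oc (c : ℕ) : GolayPt → ℤ := fun i => if c.testBit (gIdx i) = true then 2 else 0

set_option maxRecDepth 100000 in
theorem oc_facts : ∀ c ∈ L77, (ltest (oc c) = true ∧ sqNorm (oc c) = 32 ∧
    dotInt u5 (oc c) = 24 ∧ dotInt u5b (oc c) = 24 ∧ oc c none = 2 ∧ oc c (some 0) = 2) := by
  decide +kernel

/-- the octad through the five base points -/
def c0 : ℕ := 8536111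

set_option maxRecDepth 100000 in
theorem c0_unique : ∀ c ∈ L77, c.testBit 1 = true → c.testBit 2 = true → c.testBit 3 = true →
    c = c0 := by decide +kernel

set_option maxRecDepth 100000 in
theorem c0_mem : c0 ∈ L77 := by decide +kernel

set_option maxRecDepth 100000 in
theorem L77_pc : ∀ c ∈ L77, pc24 c = 8 := by decide +kernel

theorem L77_sub {c : ℕ} (hc : c ∈ L77) : c ∈ gCode := (List.mem_filter.1 hc).1

open Classical in
/-- the lattice vector of an octad -/
noncomputable def ocT (c : ℕ) : leechLattice :=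
  if h : ltest (oc c) = true then ⟨oc c, ltest_sound _ h⟩ else 0

theorem ocT_coe {c : ℕ} (hc : c ∈ L77) : ((ocT c : leechLattice) : GolayPt → ℤ) = oc c := by
  unfold ocT
  rw [dif_pos (oc_facts c hc).1]

theorem oc_inj (c c' : ℕ) (hc : c ∈ gCode) (hc' : c' ∈ gCode) (h : oc c = oc c') : c = c' := by
  apply gSup_injOn (gCode_lt' hc) (gCode_lt' hc')
  ext i
  rw [mem_gSup, mem_gSup]
  have e := congrFun h i
  unfold oc at e
  by_cases h1 : c.testBit (gIdx i) = true <;> by_cases h2 : c'.testBit (gIdx i) = true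
  · exact ⟨fun _ => h2, fun _ => h1⟩
  · rw [if_pos h1, if_neg h2] at e; omega
  · rw [if_neg h1, if_pos h2] at e; omega
  · exact ⟨fun h3 => absurd h3 h1, fun h3 => absurd h3 h2⟩

/-- neighbours of `v0` -/
def S8 : Set leechLattice := {y | y ∈ XS ∧ dotInt (v0 : GolayPt → ℤ) (y : GolayPt → ℤ) = 8}

/-- non-neighbours of `v0` -/
def S77 : Set leechLattice := {y | y ∈ XS ∧ y ≠ v0 ∧
  dotInt (v0 : GolayPt → ℤ) (y : GolayPt → ℤ) ≠ 8}

def T8 : Set leechLattice :=
  yPL '' (↑(Finset.univ.filter (fun k : GolayPt => k ≠ none ∧ k ≠ gPt 0)) : Set GolayPt)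

noncomputable def T77 : Set leechLattice := ocT '' (↑L77.toFinset : Set ℕ)

theorem T8_ncard : T8.ncard = 22 := by
  unfold T8
  rw [Set.ncard_image_of_injective _ yPL_inj, Set.ncard_coe_finset]
  decide +kernel

theorem T77_ncard : T77.ncard = 77 := by
  unfold T77
  rw [Set.ncard_image_of_injOn, Set.ncard_coe_finset,
    List.toFinset_card_of_nodup (show L77.Nodup from gCode_nodup.filter _)]
  · exact L77_len
  · intro c hc c' hc' h
    rw [Finset.mem_coe, List.mem_toFinset] at hc hc'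
    have e : ((ocT c : leechLattice) : GolayPt → ℤ) = ((ocT c' : leechLattice) : GolayPt → ℤ) := by
      rw [h]
    rw [ocT_coe hc, ocT_coe hc'] at e
    exact oc_inj c c' (L77_sub hc) (L77_sub hc') e

theorem T8_sub : T8 ⊆ S8 := by
  rintro y ⟨k, hk, rfl⟩
  rw [Finset.mem_coe, Finset.mem_filter] at hk
  obtain ⟨f1, f2, f3, f4, f5⟩ := yP_facts k hk.2.1 hk.2.2
  refine ⟨⟨f1, f2, f3⟩, ?_⟩
  rw [dot_v0]
  show 4 * (yP k none + yP k (some 0)) = 8
  rw [f4, f5]
  norm_num

theorem T77_sub : T77 ⊆ S77 := by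
  rintro y ⟨c, hc, rfl⟩
  rw [Finset.mem_coe, List.mem_toFinset] at hc
  obtain ⟨f0, f1, f2, f3, f4, f5⟩ := oc_facts c hc
  have hd : dotInt (v0 : GolayPt → ℤ) ((ocT c : leechLattice) : GolayPt → ℤ) = 16 := by
    rw [dot_v0, ocT_coe hc, f4, f5]
    norm_num
  refine ⟨⟨?_, ?_, ?_⟩, ?_, ?_⟩
  · rw [ocT_coe hc]; exact f1
  · rw [ocT_coe hc]; exact f2
  · rw [ocT_coe hc]; exact f3
  · intro h
    have e : ((ocT c : leechLattice) : GolayPt → ℤ) none = (v0 : GolayPt → ℤ) none := by
      rw [h]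
    rw [ocT_coe hc, f4, v0_apply, if_pos rfl, if_neg (by decide)] at e
    omega
  · rw [hd]; norm_num

theorem std_class : S8.ncard = 22 ∧ S77.ncard = 77 ∧ S8 = T8 ∧ S77 = T77 := by
  have hfin : XS.Finite := Set.finite_of_ncard_ne_zero (by rw [XS_ncard]; norm_num)
  have h8 : S8 ⊆ XS := fun y hy => hy.1
  have h77 : S77 ⊆ XS := fun y hy => hy.1
  have f8 : S8.Finite := hfin.subset h8
  have f77 : S77.Finite := hfin.subset h77
  have hdis : Disjoint S8 S77 := by
    rw [Set.disjoint_left]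
    intro y hy hy'
    exact hy'.2.2 hy.2
  have hv0 : v0 ∉ S8 ∪ S77 := by
    rintro (h | h)
    · have := h.2
      rw [← sqNorm_eq_dot, v0_norm] at this
      omega
    · exact h.2.1 rfl
  have hX : XS = insert v0 (S8 ∪ S77) := by
    ext y
    constructor
    · intro hy
      by_cases h1 : y = v0
      · exact Or.inl h1
      · by_cases h2 : dotInt (v0 : GolayPt → ℤ) (y : GolayPt → ℤ) = 8
        · exact Or.inr (Or.inl ⟨hy, h2⟩)
        · exact Or.inr (Or.inr ⟨hy, h1, h2⟩)
    · rintro (h | h | h)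
      · rw [h]; exact v0_XS
      · exact h.1
      · exact h.1
  have hcount : S8.ncard + S77.ncard + 1 = 100 := by
    rw [← XS_ncard, hX, Set.ncard_insert_of_notMem hv0 (f8.union f77),
      Set.ncard_union_eq hdis f8 f77]
  have g8 : 22 ≤ S8.ncard := by
    rw [← T8_ncard]; exact Set.ncard_le_ncard T8_sub f8
  have g77 : 77 ≤ S77.ncard := by
    rw [← T77_ncard]; exact Set.ncard_le_ncard T77_sub f77
  have c8 : S8.ncard = 22 := by omega
  have c77 : S77.ncard = 77 := by omega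
  refine ⟨c8, c77, ?_, ?_⟩
  · exact (Set.eq_of_subset_of_ncard_le T8_sub (by rw [c8, T8_ncard]) f8).symm
  · exact (Set.eq_of_subset_of_ncard_le T77_sub (by rw [c77, T77_ncard]) f77).symm

end Cfsg.Agent.Helper3
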