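import Mathlib
import Cfsg.Agent.Helper3.LeechHS3

set_option autoImplicit false
set_option linter.unusedSectionVars false
set_option linter.style.haveILetI false
set_option linter.unusedSimpArgs false
set_option linter.unusedVariables false
set_option linter.deprecated false
set_option linter.unnecessarySeqFocus false

namespace Cfsg.Agent.Helper3

open Cfsg Cfsg.Agent.Helper28.Leech
open scoped Pointwise

/-- equivalence under the stabiliser of the standard triple -/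
def stab3 (y y' : leechLattice) : Prop :=
  ∃ g ∈ Co0, g u5L = u5L ∧ g u5bL = u5bL ∧ g v0 = v0 ∧ g y = y'

theorem stab3_symm {y y' : leechLattice} (h : stab3 y y') : stab3 y' y := by
  obtain ⟨g, hg, e1, e2, e3, e4⟩ := h
  exact ⟨g⁻¹, Co0.inv_mem hg, Equiv.Perm.inv_eq_iff_eq.2 e1.symm,
    Equiv.Perm.inv_eq_iff_eq.2 e2.symm, Equiv.Perm.inv_eq_iff_eq.2 e3.symm,
    Equiv.Perm.inv_eq_iff_eq.2 e4.symm⟩

theorem stab3_trans {y y' y'' : leechLattice} (h1 : stab3 y y') (h2 : stab3 y' y'') :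
    stab3 y y'' := by
  obtain ⟨g, hg, e1, e2, e3, e4⟩ := h1
  obtain ⟨g', hg', e1', e2', e3', e4'⟩ := h2
  exact ⟨g' * g, Co0.mul_mem hg' hg, by rw [Equiv.Perm.mul_apply, e1, e1'],
    by rw [Equiv.Perm.mul_apply, e2, e2'], by rw [Equiv.Perm.mul_apply, e3, e3'],
    by rw [Equiv.Perm.mul_apply, e4, e4']⟩

theorem stab3_S77 {y y' : leechLattice} (h : stab3 y y') (hy : y ∈ S77) : y' ∈ S77 := by
  obtain ⟨g, hg, e1, e2, e3, rfl⟩ := h
  obtain ⟨⟨a1, a2, a3⟩, a4, a5⟩ := hy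
  have d1 := co0_dot g hg u5L y
  have d2 := co0_dot g hg u5bL y
  have d3 := co0_dot g hg v0 y
  rw [e1] at d1
  rw [e2] at d2
  rw [e3] at d3
  refine ⟨⟨by rw [hg.2]; exact a1, d1.trans a2, d2.trans a3⟩, ?_, ?_⟩
  · intro h
    apply a4
    apply g.injective
    rw [h, e3]
  · rw [d3]; exact a5

theorem perm_fix (σ : Equiv.Perm GolayPt) (hσ : σ ∈ M24) (h1 : σ none = none)
    (h2 : σ (gPt 0) = gPt 0) :
    permAut σ hσ u5L = u5L ∧ permAut σ hσ u5bL = u5bL ∧ permAut σ hσ v0 = v0 := by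
  have e1 : ∀ k, σ k = none ↔ k = none :=
    fun k => ⟨fun h => σ.injective (h.trans h1.symm), fun h => h ▸ h1⟩
  have e2 : ∀ k, σ k = gPt 0 ↔ k = gPt 0 :=
    fun k => ⟨fun h => σ.injective (h.trans h2.symm), fun h => h ▸ h2⟩
  refine ⟨?_, ?_, ?_⟩
  · apply Subtype.ext
    funext k
    rw [permAut_apply]
    show u5 (σ k) = u5 k
    unfold u5
    simp only [e1]
  · apply Subtype.ext
    funext k
    rw [permAut_apply]
    show u5b (σ k) = u5b k
    unfold u5b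
    simp only [e2]
  · apply Subtype.ext
    funext k
    rw [permAut_apply, v0_apply, v0_apply]
    simp only [e1, e2]

theorem yP_rel (k : GolayPt) (hk1 : k ≠ none) (hk2 : k ≠ gPt 0) :
    stab3 (yPL k) (yPL (gPt 1)) := by
  obtain ⟨e, he1, he2, he3⟩ := exists_other (gPt 0) k none
  obtain ⟨σ, hσ, s0, s1, s2, s23⟩ := M24_four (gPt 0) k e none (Ne.symm hk2) (Ne.symm he1)
    (by decide) (Ne.symm he2) hk1 he3
  obtain ⟨p1, p2, p3⟩ := perm_fix σ hσ s23 s0
  refine ⟨permAut σ hσ, permAut_mem σ hσ, p1, p2, p3, ?_⟩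
  apply Subtype.ext
  funext i
  rw [permAut_apply]
  show yP k (σ i) = yP (gPt 1) i
  unfold yP
  have e1 : σ i = k ↔ i = gPt 1 := by
    rw [← s1]
    exact σ.injective.eq_iff
  simp only [e1]

theorem oc_rel (c : ℕ) (hc : c ∈ L77) : stab3 (ocT c) (ocT c0) := by
  classical
  have hcard : 3 ≤ (((gSup c).erase none).erase (gPt 0)).card := by
    have h1 := Finset.pred_card_le_card_erase (s := gSup c) (a := none)
    have h2 := Finset.pred_card_le_card_erase (s := (gSup c).erase none) (a := gPt 0)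
    have h3 : (gSup c).card = 8 := by rw [card_gSup]; exact L77_pc c hc
    omega
  obtain ⟨t, ht, htc⟩ := Finset.exists_subset_card_eq hcard
  obtain ⟨a, b, d, hab, had, hbd, rfl⟩ := Finset.card_eq_three.1 htc
  have ha := ht (by simp : a ∈ ({a, b, d} : Finset GolayPt))
  have hb := ht (by simp : b ∈ ({a, b, d} : Finset GolayPt))
  have hd := ht (by simp : d ∈ ({a, b, d} : Finset GolayPt))
  rw [Finset.mem_erase, Finset.mem_erase] at ha hb hd
  obtain ⟨σ, hσ, s23, s0, s1, s2, s3⟩ := M24_five none (gPt 0) a b d (by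
    simp only [List.nodup_cons, List.mem_cons, List.not_mem_nil, or_false, not_or,
      List.nodup_nil, and_true, not_false_eq_true]
    exact ⟨⟨by decide, Ne.symm ha.2.1, Ne.symm hb.2.1, Ne.symm hd.2.1⟩,
      ⟨Ne.symm ha.1, Ne.symm hb.1, Ne.symm hd.1⟩, ⟨hab, had⟩, hbd⟩)
  obtain ⟨p1, p2, p3⟩ := perm_fix σ hσ s23 s0
  have r : stab3 (ocT c) (permAut σ hσ (ocT c)) :=
    ⟨permAut σ hσ, permAut_mem σ hσ, p1, p2, p3, rfl⟩
  have hmem : permAut σ hσ (ocT c) ∈ S77 :=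
    stab3_S77 r (T77_sub ⟨c, by rw [Finset.mem_coe, List.mem_toFinset]; exact hc, rfl⟩)
  rw [std_class.2.2.2] at hmem
  obtain ⟨c', hc', e⟩ := hmem
  rw [Finset.mem_coe, List.mem_toFinset] at hc'
  have hval : ∀ i : GolayPt, oc c' i = oc c (σ i) := by
    intro i
    have h1 : ((ocT c' : leechLattice) : GolayPt → ℤ) i =
        ((permAut σ hσ (ocT c) : leechLattice) : GolayPt → ℤ) i := by rw [e]
    rw [ocT_coe hc', permAut_apply, ocT_coe hc] at h1
    exact h1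
  have hbit : ∀ (j : ℕ) (p : GolayPt), σ (gPt j) = p → p ∈ gSup c → gIdx (gPt j) = j →
      c'.testBit j = true := by
    intro j p hp hpc hj
    have h1 := hval (gPt j)
    rw [hp] at h1
    unfold oc at h1
    rw [if_pos ((mem_gSup c p).1 hpc), hj] at h1
    by_contra hne
    rw [if_neg hne] at h1
    omega
  have e0 : c' = c0 := c0_unique c' hc' (hbit 1 a s1 ha.2.2 rfl) (hbit 2 b s2 hb.2.2 rfl)
    (hbit 3 d s3 hd.2.2 rfl)
  rw [e0] at e
  rw [e]
  exact r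

/-- the Higman–Sims graph has rank three -/
theorem hs_rank3 (v w x : leechLattice) (hv : sqNorm (v : GolayPt → ℤ) = 48)
    (hw : sqNorm (w : GolayPt → ℤ) = 48)
    (hvw : dotInt (v : GolayPt → ℤ) (w : GolayPt → ℤ) = -32)
    (hx : sqNorm (x : GolayPt → ℤ) = 32 ∧ dotInt (v : GolayPt → ℤ) (x : GolayPt → ℤ) = 24 ∧
      dotInt (w : GolayPt → ℤ) (x : GolayPt → ℤ) = -24) :
    {y : leechLattice | (sqNorm (y : GolayPt → ℤ) = 32 ∧
        dotInt (v : GolayPt → ℤ) (y : GolayPt → ℤ) = 24 ∧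
        dotInt (w : GolayPt → ℤ) (y : GolayPt → ℤ) = -24) ∧
      dotInt (x : GolayPt → ℤ) (y : GolayPt → ℤ) = 8}.ncard = 22 ∧
    {y : leechLattice | (sqNorm (y : GolayPt → ℤ) = 32 ∧
        dotInt (v : GolayPt → ℤ) (y : GolayPt → ℤ) = 24 ∧
        dotInt (w : GolayPt → ℤ) (y : GolayPt → ℤ) = -24) ∧ y ≠ x ∧
      dotInt (x : GolayPt → ℤ) (y : GolayPt → ℤ) ≠ 8}.ncard = 77 ∧
    ∀ y : leechLattice, (sqNorm (y : GolayPt → ℤ) = 32 ∧
        dotInt (v : GolayPt → ℤ) (y : GolayPt → ℤ) = 24 ∧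
        dotInt (w : GolayPt → ℤ) (y : GolayPt → ℤ) = -24) →
      ∀ y' : leechLattice, (sqNorm (y' : GolayPt → ℤ) = 32 ∧
        dotInt (v : GolayPt → ℤ) (y' : GolayPt → ℤ) = 24 ∧
        dotInt (w : GolayPt → ℤ) (y' : GolayPt → ℤ) = -24) → y ≠ x → y' ≠ x →
      (dotInt (x : GolayPt → ℤ) (y : GolayPt → ℤ) = 8 ↔
        dotInt (x : GolayPt → ℤ) (y' : GolayPt → ℤ) = 8) →
      ∃ g : Co0, g • v = v ∧ g • w = w ∧ g • x = x ∧ g • y = y' := by
  obtain ⟨h, hh, e1, e2, e3⟩ := hs_triple v w x hv hw hvw hx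
  have key : ∀ y : leechLattice, (sqNorm (y : GolayPt → ℤ) = 32 ∧
      dotInt (v : GolayPt → ℤ) (y : GolayPt → ℤ) = 24 ∧
      dotInt (w : GolayPt → ℤ) (y : GolayPt → ℤ) = -24) ↔ h y ∈ XS := by
    intro y
    rw [← XS_iff, ← e1, ← e2, co0_dot h hh, co0_dot h hh, hh.2]
  have kd : ∀ y : leechLattice, dotInt (v0 : GolayPt → ℤ) ((h y : leechLattice) : GolayPt → ℤ) =
      dotInt (x : GolayPt → ℤ) (y : GolayPt → ℤ) := by
    intro y
    rw [← e3, co0_dot h hh]
  have kn : ∀ y : leechLattice, h y = v0 ↔ y = x := by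
    intro y
    rw [← e3]
    exact h.injective.eq_iff
  refine ⟨?_, ?_, ?_⟩
  · have t := ncard_transfer h (fun y : leechLattice => (sqNorm (y : GolayPt → ℤ) = 32 ∧
        dotInt (v : GolayPt → ℤ) (y : GolayPt → ℤ) = 24 ∧
        dotInt (w : GolayPt → ℤ) (y : GolayPt → ℤ) = -24) ∧
        dotInt (x : GolayPt → ℤ) (y : GolayPt → ℤ) = 8) (fun y' : leechLattice => y' ∈ S8)
      (fun y => by
        show _ ↔ (h y ∈ XS ∧
          dotInt (v0 : GolayPt → ℤ) ((h y : leechLattice) : GolayPt → ℤ) = 8)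
        rw [← key y, kd y])
    exact t.trans std_class.1
  · have t := ncard_transfer h (fun y : leechLattice => (sqNorm (y : GolayPt → ℤ) = 32 ∧
        dotInt (v : GolayPt → ℤ) (y : GolayPt → ℤ) = 24 ∧
        dotInt (w : GolayPt → ℤ) (y : GolayPt → ℤ) = -24) ∧ y ≠ x ∧
        dotInt (x : GolayPt → ℤ) (y : GolayPt → ℤ) ≠ 8) (fun y' : leechLattice => y' ∈ S77)
      (fun y => by
        show _ ↔ (h y ∈ XS ∧ h y ≠ v0 ∧
          dotInt (v0 : GolayPt → ℤ) ((h y : leechLattice) : GolayPt → ℤ) ≠ 8)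
        rw [← key y, kd y, ne_eq (h y) v0, kn y])
    exact t.trans std_class.2.1
  · intro y hy y' hy' hne hne' hiff
    have hyX := (key y).1 hy
    have hy'X := (key y').1 hy'
    have hrel : stab3 (h y) (h y') := by
      by_cases h8 : dotInt (x : GolayPt → ℤ) (y : GolayPt → ℤ) = 8
      · have m1 : h y ∈ S8 := ⟨hyX, by rw [kd y]; exact h8⟩
        have m2 : h y' ∈ S8 := ⟨hy'X, by rw [kd y']; exact hiff.1 h8⟩
        rw [std_class.2.2.1] at m1 m2
        obtain ⟨k, hk, ek⟩ := m1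
        obtain ⟨k', hk', ek'⟩ := m2
        rw [Finset.mem_coe, Finset.mem_filter] at hk hk'
        rw [← ek, ← ek']
        exact stab3_trans (yP_rel k hk.2.1 hk.2.2) (stab3_symm (yP_rel k' hk'.2.1 hk'.2.2))
      · have m1 : h y ∈ S77 := ⟨hyX, fun hh' => hne ((kn y).1 hh'), by rw [kd y]; exact h8⟩
        have m2 : h y' ∈ S77 := ⟨hy'X, fun hh' => hne' ((kn y').1 hh'),
          by rw [kd y']; exact fun h9 => h8 (hiff.2 h9)⟩
        rw [std_class.2.2.2] at m1 m2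
        obtain ⟨c, hc, ec⟩ := m1
        obtain ⟨c', hc', ec'⟩ := m2
        rw [Finset.mem_coe, List.mem_toFinset] at hc hc'
        rw [← ec, ← ec']
        exact stab3_trans (oc_rel c hc) (stab3_symm (oc_rel c' hc'))
    obtain ⟨τ, hτ, t1, t2, t3, t4⟩ := hrel
    have hk : h⁻¹ * τ * h ∈ Co0 := Co0.mul_mem (Co0.mul_mem (Co0.inv_mem hh) hτ) hh
    refine ⟨⟨h⁻¹ * τ * h, hk⟩, ?_, ?_, ?_, ?_⟩
    · show (h⁻¹ * τ * h) v = v
      simp only [Equiv.Perm.mul_apply]
      rw [e1, t1, ← e1]; simp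
    · show (h⁻¹ * τ * h) w = w
      simp only [Equiv.Perm.mul_apply]
      rw [e2, co0_map_neg τ hτ, t2, ← e2]; simp
    · show (h⁻¹ * τ * h) x = x
      simp only [Equiv.Perm.mul_apply]
      rw [e3, t3, ← e3]; simp
    · show (h⁻¹ * τ * h) y = y'
      simp only [Equiv.Perm.mul_apply]
      rw [t4]; simp

end Cfsg.Agent.Helper3
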