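import Mathlib
import Cfsg.Agent.Helper3.LeechHS4
import Cfsg.Agent.Helper3.HSSimple
import Cfsg.Agent.Helper3.MathieuSimple

set_option autoImplicit false
set_option linter.unusedSectionVars false
set_option linter.style.haveILetI false
set_option linter.unusedSimpArgs false
set_option linter.unusedVariables false
set_option linter.deprecated false
set_option linter.unnecessarySeqFocus false

namespace Cfsg.Agent.Helper3

open Cfsg Cfsg.Agent.Helper28.Leech
open scoped Pointwise

theorem co0_finite : Finite Co0 := Nat.finite_of_card_ne_zero (by rw [co0_card]; norm_num)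

/-- the stabiliser of a norm-48 vector has the order of `Co3` -/
theorem co3_card (u : leechLattice) (hu : sqNorm (u : GolayPt → ℤ) = 48) :
    Nat.card (MulAction.stabilizer Co0 u) = 495766656000 := by
  have h1 := Subgroup.card_mul_index (MulAction.stabilizer Co0 u)
  rw [MulAction.index_stabilizer] at h1
  have horb : MulAction.orbit Co0 u = normSet 48 := by
    ext v
    constructor
    · rintro ⟨g, rfl⟩
      show sqNorm (((g : Equiv.Perm leechLattice) u : leechLattice) : GolayPt → ℤ) = 48
      rw [g.2.2]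
      exact hu
    · intro hv
      obtain ⟨g, hg⟩ := co0_trans_48 u v hu hv
      exact ⟨g, hg⟩
  rw [horb, normSet_ncard, leech_count_48, co0_card] at h1
  have key : ∀ S : ℕ, S * 16773120 = 8315553613086720000 → S = 495766656000 := by
    intro S e
    omega
  exact key _ h1

/-- the order of the Higman–Sims stabiliser -/
theorem hs_card (v w : leechLattice) (hv : sqNorm (v : GolayPt → ℤ) = 48)
    (hw : sqNorm (w : GolayPt → ℤ) = 48)
    (hvw : dotInt (v : GolayPt → ℤ) (w : GolayPt → ℤ) = -32) :
    Nat.card ↥(MulAction.stabilizer Co0 v ⊓ MulAction.stabilizer Co0 w) = 44352000 := by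
  have h1 := Subgroup.card_mul_index (MulAction.stabilizer (MulAction.stabilizer Co0 v) w)
  rw [MulAction.index_stabilizer] at h1
  have horb : MulAction.orbit (MulAction.stabilizer Co0 v) w =
      {w' : leechLattice | sqNorm (w' : GolayPt → ℤ) = 48 ∧
        dotInt (v : GolayPt → ℤ) (w' : GolayPt → ℤ) = -32} := by
    ext w'
    constructor
    · rintro ⟨k, rfl⟩
      have e : ((k : Co0) : Equiv.Perm leechLattice) v = v := k.2
      refine ⟨?_, ?_⟩
      · show sqNorm ((((k : Co0) : Equiv.Perm leechLattice) w : leechLattice) : GolayPt → ℤ) = 48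
        rw [(k : Co0).2.2]
        exact hw
      · show dotInt (v : GolayPt → ℤ)
          ((((k : Co0) : Equiv.Perm leechLattice) w : leechLattice) : GolayPt → ℤ) = -32
        have d := co0_dot ((k : Co0) : Equiv.Perm leechLattice) (k : Co0).2 v w
        rw [e] at d
        rw [d]
        exact hvw
    · rintro ⟨a1, a2⟩
      obtain ⟨h, hh, e1, e2⟩ := hs_pair_trans v w v w' hv hw hvw hv a1 a2
      exact ⟨⟨⟨h, hh⟩, e1⟩, e2⟩
  have hcount : {w' : leechLattice | sqNorm (w' : GolayPt → ℤ) = 48 ∧
      dotInt (v : GolayPt → ℤ) (w' : GolayPt → ℤ) = -32}.ncard = 11178 := by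
    rw [← count11178 v hv]
    have e : {x : leechLattice | sqNorm (x : GolayPt → ℤ) = 32 ∧
        dotInt (v : GolayPt → ℤ) (x : GolayPt → ℤ) = -16} =
        (fun w' : leechLattice => -(v + w')) '' {w' : leechLattice |
          sqNorm (w' : GolayPt → ℤ) = 48 ∧
          dotInt (v : GolayPt → ℤ) (w' : GolayPt → ℤ) = -32} := by
      ext x
      constructor
      · rintro ⟨a1, a2⟩
        have hc : ((-x - v : leechLattice) : GolayPt → ℤ) =
            -((x : GolayPt → ℤ) + (v : GolayPt → ℤ)) := by
          rw [AddSubgroup.coe_sub, AddSubgroup.coe_neg]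
          abel
        refine ⟨-x - v, ⟨?_, ?_⟩, ?_⟩
        rotate_left 2
        · show -(v + (-x - v)) = x
          abel
        · rw [hc, Helper28.Leech.sqNorm_neg, Helper28.Leech.sqNorm_add, a1, hv, dotInt_symm, a2]
          norm_num
        · rw [hc, dot_neg_right, dotInt_symm, dot_add_left,
            dotInt_symm (x : GolayPt → ℤ) (v : GolayPt → ℤ), a2, ← sqNorm_eq_dot, hv]
          norm_num
      · rintro ⟨w', ⟨b1, b2⟩, rfl⟩
        refine ⟨?_, ?_⟩
        · rw [AddSubgroup.coe_neg, AddSubgroup.coe_add, Helper28.Leech.sqNorm_neg,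
            Helper28.Leech.sqNorm_add, hv, b1, b2]
          norm_num
        · rw [AddSubgroup.coe_neg, AddSubgroup.coe_add, dot_neg_right, dotInt_symm, dot_add_left,
            ← sqNorm_eq_dot, hv, dotInt_symm (w' : GolayPt → ℤ) (v : GolayPt → ℤ), b2]
          norm_num
    rw [e, Set.ncard_image_of_injective]
    intro a b hab
    have h2 : v + a = v + b := neg_injective hab
    exact add_left_cancel h2
  rw [horb, hcount, co3_card v hv] at h1
  have hequiv : Nat.card (MulAction.stabilizer (MulAction.stabilizer Co0 v) w) =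
      Nat.card ↥(MulAction.stabilizer Co0 v ⊓ MulAction.stabilizer Co0 w) := by
    apply Nat.card_congr
    exact
      { toFun := fun k => ⟨(k.1 : Co0), ⟨k.1.2, k.2⟩⟩
        invFun := fun m => ⟨⟨m.1, m.2.1⟩, m.2.2⟩
        left_inv := fun k => rfl
        right_inv := fun m => rfl }
  rw [← hequiv]
  have key : ∀ S : ℕ, S * 11178 = 495766656000 → S = 44352000 := by
    intro S e
    omega
  exact key _ h1

theorem hs_orbit (v w x : leechLattice) (hv : sqNorm (v : GolayPt → ℤ) = 48)
    (hw : sqNorm (w : GolayPt → ℤ) = 48)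
    (hvw : dotInt (v : GolayPt → ℤ) (w : GolayPt → ℤ) = -32)
    (hx : sqNorm (x : GolayPt → ℤ) = 32 ∧ dotInt (v : GolayPt → ℤ) (x : GolayPt → ℤ) = 24 ∧
      dotInt (w : GolayPt → ℤ) (x : GolayPt → ℤ) = -24) :
    MulAction.orbit ↥(MulAction.stabilizer Co0 v ⊓ MulAction.stabilizer Co0 w) x =
      {y : leechLattice | sqNorm (y : GolayPt → ℤ) = 32 ∧
        dotInt (v : GolayPt → ℤ) (y : GolayPt → ℤ) = 24 ∧
        dotInt (w : GolayPt → ℤ) (y : GolayPt → ℤ) = -24} := by
  ext y
  constructor
  · rintro ⟨k, rfl⟩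
    have e1 : ((k : Co0) : Equiv.Perm leechLattice) v = v := k.2.1
    have e2 : ((k : Co0) : Equiv.Perm leechLattice) w = w := k.2.2
    have d1 := co0_dot ((k : Co0) : Equiv.Perm leechLattice) (k : Co0).2 v x
    have d2 := co0_dot ((k : Co0) : Equiv.Perm leechLattice) (k : Co0).2 w x
    rw [e1] at d1
    rw [e2] at d2
    refine ⟨?_, d1.trans hx.2.1, d2.trans hx.2.2⟩
    show sqNorm ((((k : Co0) : Equiv.Perm leechLattice) x : leechLattice) : GolayPt → ℤ) = 32
    rw [(k : Co0).2.2]
    exact hx.1
  · intro hy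
    obtain ⟨g, g1, g2, g3⟩ := hs_trans v w x y hv hw hvw hx hy
    exact ⟨⟨g, ⟨g1, g2⟩⟩, g3⟩

/-- the order of a point stabiliser in the Higman–Sims group -/
theorem hs_point_card (v w x : leechLattice) (hv : sqNorm (v : GolayPt → ℤ) = 48)
    (hw : sqNorm (w : GolayPt → ℤ) = 48)
    (hvw : dotInt (v : GolayPt → ℤ) (w : GolayPt → ℤ) = -32)
    (hx : sqNorm (x : GolayPt → ℤ) = 32 ∧ dotInt (v : GolayPt → ℤ) (x : GolayPt → ℤ) = 24 ∧
      dotInt (w : GolayPt → ℤ) (x : GolayPt → ℤ) = -24) :
    Nat.card (MulAction.stabilizer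
      ↥(MulAction.stabilizer Co0 v ⊓ MulAction.stabilizer Co0 w) x) = 443520 := by
  have h1 := Subgroup.card_mul_index (MulAction.stabilizer
    ↥(MulAction.stabilizer Co0 v ⊓ MulAction.stabilizer Co0 w) x)
  rw [MulAction.index_stabilizer, hs_orbit v w x hv hw hvw hx, hs_count v w hv hw hvw,
    hs_card v w hv hw hvw] at h1
  omega

end Cfsg.Agent.Helper3
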