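import Mathlib
import Cfsg.Agent.Helper3.HSOrder

set_option autoImplicit false
set_option linter.unusedSectionVars false
set_option linter.style.haveILetI false
set_option linter.unusedSimpArgs false
set_option linter.unusedVariables false
set_option linter.deprecated false
set_option linter.unnecessarySeqFocus false

namespace Cfsg.Agent.Helper3

open Cfsg Cfsg.Agent.Helper28.Leech
open scoped Pointwise

/-- the standard Higman–Sims group -/
abbrev GS : Subgroup Co0 := MulAction.stabilizer Co0 u5L ⊓ MulAction.stabilizer Co0 (-u5bL)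

theorem permAut_mul_inv (σ τ : Equiv.Perm GolayPt) (hσ : σ ∈ M24) (hτ : τ ∈ M24) :
    permAut (σ * τ)⁻¹ (M24.inv_mem (M24.mul_mem hσ hτ)) =
      permAut σ⁻¹ (M24.inv_mem hσ) * permAut τ⁻¹ (M24.inv_mem hτ) := by
  apply Equiv.ext
  intro v
  apply Subtype.ext
  funext i
  rw [Equiv.Perm.mul_apply, permAut_apply, permAut_apply, permAut_apply, mul_inv_rev,
    Equiv.Perm.mul_apply]

theorem perm_fix_inv (σ : Equiv.Perm GolayPt) (hσ : σ ∈ M24) (h1 : σ none = none)
    (h2 : σ (gPt 0) = gPt 0) :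
    permAut σ⁻¹ (M24.inv_mem hσ) u5L = u5L ∧
      permAut σ⁻¹ (M24.inv_mem hσ) (-u5bL) = -u5bL ∧
      permAut σ⁻¹ (M24.inv_mem hσ) v0 = v0 := by
  have a1 : σ⁻¹ none = none := Equiv.Perm.inv_eq_iff_eq.2 h1.symm
  have a2 : σ⁻¹ (gPt 0) = gPt 0 := Equiv.Perm.inv_eq_iff_eq.2 h2.symm
  obtain ⟨p1, p2, p3⟩ := perm_fix σ⁻¹ (M24.inv_mem hσ) a1 a2
  refine ⟨p1, ?_, p3⟩
  rw [co0_map_neg _ (permAut_mem _ _), p2]

/-- the Mathieu group of degree 22 inside a point stabiliser of the Higman–Sims group -/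
noncomputable def m22Hom :
    ↥(MulAction.stabilizer M24 (none : GolayPt) ⊓ MulAction.stabilizer M24 (gPt 0)) →*
      ↥(MulAction.stabilizer ↥GS v0) :=
  MonoidHom.mk' (fun m =>
    ⟨⟨⟨permAut ((m : M24) : Equiv.Perm GolayPt)⁻¹ (M24.inv_mem (m : M24).2), permAut_mem _ _⟩,
      ⟨(perm_fix_inv _ (m : M24).2 m.2.1 m.2.2).1,
        (perm_fix_inv _ (m : M24).2 m.2.1 m.2.2).2.1⟩⟩,
      (perm_fix_inv _ (m : M24).2 m.2.1 m.2.2).2.2⟩)
    (by
      intro a b
      apply Subtype.ext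
      apply Subtype.ext
      apply Subtype.ext
      exact permAut_mul_inv _ _ (a : M24).2 (b : M24).2)

theorem m22Hom_inj : Function.Injective m22Hom := by
  intro a b hab
  have h1 : permAut ((a : M24) : Equiv.Perm GolayPt)⁻¹ (M24.inv_mem (a : M24).2) =
      permAut ((b : M24) : Equiv.Perm GolayPt)⁻¹ (M24.inv_mem (b : M24).2) := by
    have := congrArg (fun t : ↥(MulAction.stabilizer ↥GS v0) =>
      (((t : ↥GS) : Co0) : Equiv.Perm leechLattice)) hab
    exact this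
  have h2 : ∀ i : GolayPt, ((a : M24) : Equiv.Perm GolayPt)⁻¹ i =
      ((b : M24) : Equiv.Perm GolayPt)⁻¹ i := by
    intro i
    have e : ((permAut ((a : M24) : Equiv.Perm GolayPt)⁻¹ (M24.inv_mem (a : M24).2)
        (E8 (((a : M24) : Equiv.Perm GolayPt)⁻¹ i)) : leechLattice) : GolayPt → ℤ) i =
        ((permAut ((b : M24) : Equiv.Perm GolayPt)⁻¹ (M24.inv_mem (b : M24).2)
        (E8 (((a : M24) : Equiv.Perm GolayPt)⁻¹ i)) : leechLattice) : GolayPt → ℤ) i := by
      rw [h1]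
    rw [permAut_apply, permAut_apply, E8_apply, E8_apply, if_pos rfl] at e
    by_contra hne
    rw [if_neg (Ne.symm hne)] at e
    norm_num at e
  have h3 : ((a : M24) : Equiv.Perm GolayPt)⁻¹ = ((b : M24) : Equiv.Perm GolayPt)⁻¹ :=
    Equiv.ext h2
  apply Subtype.ext
  apply Subtype.ext
  exact inv_injective h3

theorem hs_point_simple : IsSimpleGroup ↥(MulAction.stabilizer ↥GS v0) := by
  haveI := co0_finite
  have hc1 := card_stabilizer_two_points (none : GolayPt) (gPt 0) (by decide)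
  have hc2 := hs_point_card u5L (-u5bL) v0 std_v std_w std_vw ((XS_iff v0).2 v0_XS)
  have hbij : Function.Bijective m22Hom :=
    m22Hom_inj.bijective_of_nat_card_le (by rw [hc1]; exact le_of_eq hc2)
  haveI := simple_stab_two_points (none : GolayPt) (gPt 0) (by decide)
  exact (MulEquiv.ofBijective m22Hom hbij).symm.isSimpleGroup

theorem XS_eq : XS = insert v0 (S8 ∪ S77) := by
  ext y
  constructor
  · intro hy
    by_cases h1 : y = v0
    · exact Or.inl h1
    · by_cases h2 : dotInt (v0 : GolayPt → ℤ) (y : GolayPt → ℤ) = 8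
      · exact Or.inr (Or.inl ⟨hy, h2⟩)
      · exact Or.inr (Or.inr ⟨hy, h1, h2⟩)
  · rintro (h | h | h)
    · rw [h]; exact v0_XS
    · exact h.1
    · exact h.1

theorem S8_rel (y y' : leechLattice) (hy : y ∈ S8) (hy' : y' ∈ S8) : stab3 y y' := by
  rw [std_class.2.2.1] at hy hy'
  obtain ⟨k, hk, rfl⟩ := hy
  obtain ⟨k', hk', rfl⟩ := hy'
  rw [Finset.mem_coe, Finset.mem_filter] at hk hk'
  exact stab3_trans (yP_rel k hk.2.1 hk.2.2) (stab3_symm (yP_rel k' hk'.2.1 hk'.2.2))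

theorem S77_rel (y y' : leechLattice) (hy : y ∈ S77) (hy' : y' ∈ S77) : stab3 y y' := by
  rw [std_class.2.2.2] at hy hy'
  obtain ⟨c, hc, rfl⟩ := hy
  obtain ⟨c', hc', rfl⟩ := hy'
  rw [Finset.mem_coe, List.mem_toFinset] at hc hc'
  exact stab3_trans (oc_rel c hc) (stab3_symm (oc_rel c' hc'))

theorem stab3_elt {y y' : leechLattice} (h : stab3 y y') :
    ∃ k : ↥GS, k • v0 = v0 ∧ k • y = y' := by
  obtain ⟨g, hg, e1, e2, e3, e4⟩ := h
  refine ⟨⟨⟨g, hg⟩, ⟨e1, ?_⟩⟩, e3, e4⟩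
  show g (-u5bL) = -u5bL
  rw [co0_map_neg g hg, e2]

theorem hs_std_simple : IsSimpleGroup ↥GS := by
  haveI := co0_finite
  apply simple_of_rank3 (G := ↥GS) (α := leechLattice) v0 S8 S77
    (hs_card u5L (-u5bL) std_v std_w std_vw) hs_point_simple
    (hs_point_card u5L (-u5bL) v0 std_v std_w std_vw ((XS_iff v0).2 v0_XS))
    std_class.1 std_class.2.1
  · intro h
    have := h.2
    rw [← sqNorm_eq_dot, v0_norm] at this
    omega
  · intro h
    exact h.2.1 rfl
  · rw [Set.disjoint_left]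
    intro y hy hy'
    exact hy'.2.2 hy.2
  · rw [hs_orbit u5L (-u5bL) v0 std_v std_w std_vw ((XS_iff v0).2 v0_XS), ← XS_eq]
    ext y
    exact XS_iff y
  · intro y hy y' hy'
    exact stab3_elt (S8_rel y y' hy hy')
  · intro y hy y' hy'
    exact stab3_elt (S77_rel y y' hy hy')

/-- the Higman–Sims stabiliser is simple -/
theorem hs_simple (v w : leechLattice) (hv : sqNorm (v : GolayPt → ℤ) = 48)
    (hw : sqNorm (w : GolayPt → ℤ) = 48)
    (hvw : dotInt (v : GolayPt → ℤ) (w : GolayPt → ℤ) = -32) :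
    IsSimpleGroup ↥(MulAction.stabilizer Co0 v ⊓ MulAction.stabilizer Co0 w) := by
  obtain ⟨h, hh, e1, e2⟩ := hs_pair_trans v w u5L (-u5bL) hv hw hvw std_v std_w std_vw
  have k1 : (⟨h, hh⟩ : Co0) • v = u5L := e1
  have k2 : (⟨h, hh⟩ : Co0) • w = -u5bL := e2
  have heq : GS = (MulAction.stabilizer Co0 v ⊓ MulAction.stabilizer Co0 w).map
      (MulAut.conj (⟨h, hh⟩ : Co0)).toMonoidHom := by
    show MulAction.stabilizer Co0 u5L ⊓ MulAction.stabilizer Co0 (-u5bL) = _
    rw [← k1, ← k2, MulAction.stabilizer_smul_eq_stabilizer_map_conj,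
      MulAction.stabilizer_smul_eq_stabilizer_map_conj,
      ← Subgroup.map_inf _ _ _ (MulAut.conj (⟨h, hh⟩ : Co0)).injective]
  haveI : IsSimpleGroup ↥GS := hs_std_simple
  exact ((Subgroup.equivMapOfInjective _ _ (MulAut.conj (⟨h, hh⟩ : Co0)).injective).trans
    (MulEquiv.subgroupCongr heq.symm)).isSimpleGroup

end Cfsg.Agent.Helper3
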