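import Mathlib
import Cfsg.Agent.Helper3.SimpleTools

set_option autoImplicit false
set_option linter.unusedSectionVars false
set_option linter.style.haveILetI false
set_option linter.unusedSimpArgs false
set_option linter.unusedVariables false
set_option linter.deprecated false
set_option linter.unnecessarySeqFocus false

namespace Cfsg.Agent.Helper3

open scoped Pointwise commutatorElement

/-- fixed points of the conjugation action of an element of prime order on a normal subgroup -/
theorem conj_fixed_count {G : Type*} [Group G] [Finite G] (N : Subgroup G) [hN : N.Normal]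
    (x : G) (p : ℕ) [hp : Fact p.Prime] (hx : orderOf x = p) :
    Nat.card N ≡ Nat.card ↥(N ⊓ Subgroup.centralizer {x}) [MOD p] := by
  classical
  have hH : IsPGroup p (Subgroup.zpowers x) :=
    IsPGroup.of_card (n := 1) (by rw [Nat.card_zpowers, hx, pow_one])
  letI : MulAction (Subgroup.zpowers x) N :=
    MulAction.compHom N ((MulAut.conjNormal (H := N)).comp (Subgroup.zpowers x).subtype)
  have key := hH.card_modEq_card_fixedPoints (α := N)
  have hsmul : ∀ (h : Subgroup.zpowers x) (n : N),
      ((h • n : N) : G) = (h : G) * n * (h : G)⁻¹ := fun h n => rfl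
  have e : ↥(N ⊓ Subgroup.centralizer {x}) ≃ MulAction.fixedPoints (Subgroup.zpowers x) N :=
    { toFun := fun n => ⟨⟨n.1, n.2.1⟩, fun h => by
        apply Subtype.ext
        rw [hsmul]
        have hx' : x ∈ Subgroup.centralizer {(n : G)} := by
          rw [Subgroup.mem_centralizer_iff]
          intro y hy
          rw [Set.mem_singleton_iff] at hy
          rw [hy]
          exact (Subgroup.mem_centralizer_iff.1 n.2.2 x (Set.mem_singleton x)).symm
        have hc : (h : G) ∈ Subgroup.centralizer {(n : G)} := (Subgroup.zpowers_le.2 hx') h.2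
        have h3 := Subgroup.mem_centralizer_iff.1 hc n.1 (Set.mem_singleton _)
        show (h : G) * n.1 * (h : G)⁻¹ = n.1
        rw [← h3, mul_inv_cancel_right]⟩
      invFun := fun n => ⟨n.1.1, n.1.2, by
        refine Subgroup.mem_centralizer_iff.2 ?_
        intro y hy
        rw [Set.mem_singleton_iff] at hy
        rw [hy]
        have h1 := n.2 ⟨x, Subgroup.mem_zpowers x⟩
        have h2 := congrArg Subtype.val h1
        rw [hsmul] at h2
        have h3 : x * (n.1 : G) * x⁻¹ = (n.1 : G) := h2
        calc x * (n.1 : G) = x * (n.1 : G) * x⁻¹ * x := by group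
          _ = (n.1 : G) * x := by rw [h3]⟩
      left_inv := fun n => rfl
      right_inv := fun n => rfl }
  rw [Nat.card_congr e]
  exact key

theorem card_mod_one_of_cent {G : Type*} [Group G] [Finite G] (N : Subgroup G) [hN : N.Normal]
    (x : G) (p : ℕ) [hp : Fact p.Prime] (hx : orderOf x = p)
    (h : ∀ n ∈ N, n * x = x * n → n = 1) : Nat.card N % p = 1 := by
  have key := conj_fixed_count N x p hx
  have hbot : N ⊓ Subgroup.centralizer {x} = ⊥ := by
    rw [Subgroup.eq_bot_iff_forall]
    rintro n ⟨hn, hc⟩
    exact h n hn ((Subgroup.mem_centralizer_iff.1 hc x rfl).symm)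
  rw [hbot, Subgroup.card_bot] at key
  have h2 : Nat.card N % p = 1 % p := key
  rw [h2, Nat.mod_eq_of_lt hp.out.one_lt]

theorem card_dvd_of_comap_bot {G H : Type*} [Group G] [Finite G] [Group H] (ψ : H →* G)
    (N : Subgroup G) [hN : N.Normal] (h : N.comap ψ = ⊥) :
    Nat.card N ∣ Nat.card G / Nat.card H := by
  have hinj : Function.Injective ((QuotientGroup.mk' N).comp ψ) := by
    rw [← MonoidHom.ker_eq_bot_iff, ← h]
    ext x
    rw [MonoidHom.mem_ker, MonoidHom.comp_apply, QuotientGroup.mk'_apply,
      QuotientGroup.eq_one_iff, Subgroup.mem_comap]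
  haveI : Finite H := Finite.of_injective _ hinj
  have h1 := Subgroup.card_dvd_of_injective _ hinj
  have h2 := Subgroup.card_eq_card_quotient_mul_card_subgroup N
  obtain ⟨k, hk⟩ := h1
  have hHpos : 0 < Nat.card H := Nat.card_pos
  rw [h2, hk, mul_assoc, Nat.mul_div_cancel_left _ hHpos]
  exact Dvd.intro_left k rfl

/-- simplicity from a simple subgroup containing the normaliser of a Sylow subgroup of prime
order -/
theorem simple_of_sylow_normalizer {G M : Type*} [Group G] [Finite G] [Group M]
    [hM : IsSimpleGroup M] (p : ℕ) [hp : Fact p.Prime] (φ : M →* G)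
    (hφ : Function.Injective φ) (s t : M) (hs : orderOf s = p) (hst : s * t ≠ t * s)
    (hp2 : ¬ p ^ 2 ∣ Nat.card G)
    (hK : ∀ g : G, g * φ s * g⁻¹ ∈ Subgroup.zpowers (φ s) → g ∈ φ.range)
    (hcent : ∀ a b : M, a * s = s * a → b * s = s * b → a * b = b * a)
    (hN : ∀ N : Subgroup G, N.Normal → N ≠ ⊥ → p ∣ Nat.card N) : IsSimpleGroup G := by
  have hσ : orderOf (φ s) = p := by rw [orderOf_injective φ hφ, hs]
  haveI hnt : Nontrivial G := by
    refine ⟨⟨φ s, 1, fun h => ?_⟩⟩
    rw [h, orderOf_one] at hσ
    exact hp.out.one_lt.ne hσ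
  have hcentG : ∀ g : G, g * φ s = φ s * g → ∃ a : M, φ a = g ∧ a * s = s * a := by
    intro g hg
    have hmem : g * φ s * g⁻¹ ∈ Subgroup.zpowers (φ s) := by
      rw [hg, mul_inv_cancel_right]
      exact Subgroup.mem_zpowers _
    obtain ⟨a, rfl⟩ := hK g hmem
    refine ⟨a, rfl, hφ ?_⟩
    rw [map_mul, map_mul]; exact hg
  refine simple_of_perfect_sylow_cyclic p ?_ hp2 (φ s) hσ ?_ hN
  · have hCn : (commutator G).Normal := inferInstance
    haveI : ((commutator G).comap φ).Normal := Subgroup.Normal.comap hCn φ
    rcases hM.eq_bot_or_eq_top_of_normal ((commutator G).comap φ) inferInstance with h | h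
    · exfalso
      have h1 : ⁅s, t⁆ ∈ (commutator G).comap φ := by
        rw [Subgroup.mem_comap, map_commutatorElement]
        exact Subgroup.commutator_mem_commutator (Subgroup.mem_top _) (Subgroup.mem_top _)
      rw [h, Subgroup.mem_bot, commutatorElement_eq_one_iff_mul_comm] at h1
      exact hst h1
    · have hall : ∀ a : M, φ a ∈ commutator G := by
        intro a
        have : a ∈ (commutator G).comap φ := by rw [h]; exact Subgroup.mem_top _
        exact this
      have hcard : Nat.card (Subgroup.zpowers (φ s)) = p ^ 1 := by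
        rw [Nat.card_zpowers, hσ, pow_one]
      have hpg : IsPGroup p (Subgroup.zpowers (φ s)) := IsPGroup.of_card hcard
      have hidx : ¬ p ∣ (Subgroup.zpowers (φ s)).index := by
        intro hdvd
        apply hp2
        rw [← Subgroup.card_mul_index (Subgroup.zpowers (φ s)), hcard, pow_one, pow_two]
        exact Nat.mul_dvd_mul_left p hdvd
      let P : Sylow p G := hpg.toSylow hidx
      have hP : (P : Subgroup G) = Subgroup.zpowers (φ s) := rfl
      have hPC : (P : Subgroup G) ≤ commutator G := by
        rw [hP, Subgroup.zpowers_le]; exact hall s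
      have hF := Sylow.normalizer_sup_eq_top' P hPC
      have hle : Subgroup.normalizer (P : Subgroup G) ≤ commutator G := by
        intro g hg
        rw [Subgroup.mem_normalizer_iff] at hg
        have hm : g * φ s * g⁻¹ ∈ Subgroup.zpowers (φ s) := by
          rw [← hP]
          exact (hg (φ s)).1 (by rw [hP]; exact Subgroup.mem_zpowers _)
        obtain ⟨a, rfl⟩ := hK g hm
        exact hall a
      rw [eq_top_iff, ← hF]
      exact sup_le hle le_rfl
  · intro g h hg hh
    obtain ⟨a, rfl, ha⟩ := hcentG g hg.eq
    obtain ⟨b, rfl, hb⟩ := hcentG h hh.eq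
    show φ a * φ b = φ b * φ a
    rw [← map_mul, ← map_mul, hcent a b ha hb]

/-- a nontrivial normal subgroup has order divisible by `p`, from two simple subgroups -/
theorem normal_dvd_of_two_simple {G M H : Type*} [Group G] [Finite G] [Group M] [Group H]
    [hM : IsSimpleGroup M] [hH : IsSimpleGroup H] (p q : ℕ) [hp : Fact p.Prime]
    [hq : Fact q.Prime] (φ : M →* G) (hφ : Function.Injective φ) (ψ : H →* G)
    (hψ : Function.Injective ψ) (s t : M) (hs : orderOf s = p) (ht : orderOf t = q)
    (hK : ∀ g : G, g * φ s = φ s * g → g ∈ φ.range)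
    (hHA : ¬ Nat.card H ∣ Nat.card G / Nat.card M)
    (hnum : ∀ d : ℕ, d ∣ Nat.card G / Nat.card M → d ∣ Nat.card G / Nat.card H → d % p = 1 →
      d ≠ 1 → ∀ c : ℕ, c ∣ d → c % q = d % q → c = d)
    (N : Subgroup G) (hN : N.Normal) (hbot : N ≠ ⊥) : p ∣ Nat.card N := by
  by_contra hpN
  have hσ : orderOf (φ s) = p := by rw [orderOf_injective φ hφ, hs]
  have hτ : orderOf (φ t) = q := by rw [orderOf_injective φ hφ, ht]
  haveI : (N.comap φ).Normal := Subgroup.Normal.comap hN φ
  haveI : (N.comap ψ).Normal := Subgroup.Normal.comap hN ψ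
  have hφbot : N.comap φ = ⊥ := by
    rcases hM.eq_bot_or_eq_top_of_normal (N.comap φ) inferInstance with h | h
    · exact h
    · exfalso
      apply hpN
      have hsN : φ s ∈ N := by
        have : s ∈ N.comap φ := by rw [h]; exact Subgroup.mem_top _
        exact this
      have h1 : orderOf (⟨φ s, hsN⟩ : N) ∣ Nat.card N := orderOf_dvd_natCard _
      rw [Subgroup.orderOf_mk, hσ] at h1
      exact h1
  have hcentN : ∀ n ∈ N, n * φ s = φ s * n → n = 1 := by
    intro n hn hc
    obtain ⟨m, rfl⟩ := hK n hc
    have : m ∈ N.comap φ := hn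
    rw [hφbot, Subgroup.mem_bot] at this
    rw [this, map_one]
  have hd1 : Nat.card N % p = 1 := card_mod_one_of_cent N (φ s) p hσ hcentN
  have hdA : Nat.card N ∣ Nat.card G / Nat.card M := card_dvd_of_comap_bot φ N hφbot
  have hdB : Nat.card N ∣ Nat.card G / Nat.card H := by
    rcases hH.eq_bot_or_eq_top_of_normal (N.comap ψ) inferInstance with h | h
    · exact card_dvd_of_comap_bot ψ N h
    · exfalso
      apply hHA
      have hall : ∀ x : H, ψ x ∈ N := by
        intro x
        have : x ∈ N.comap ψ := by rw [h]; exact Subgroup.mem_top _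
        exact this
      have hinj : Function.Injective (ψ.codRestrict N hall) := by
        intro a b hab
        apply hψ
        exact congrArg Subtype.val hab
      haveI : Finite H := Finite.of_injective _ hinj
      exact (Subgroup.card_dvd_of_injective _ hinj).trans hdA
  have hdne : Nat.card N ≠ 1 := fun h => hbot (Subgroup.card_eq_one.1 h)
  have hc1 : Nat.card ↥(N ⊓ Subgroup.centralizer {φ t}) ∣ Nat.card N :=
    Subgroup.card_dvd_of_le inf_le_left
  have hc2 : Nat.card ↥(N ⊓ Subgroup.centralizer {φ t}) % q = Nat.card N % q :=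
    (conj_fixed_count N (φ t) q hτ).symm
  have hceq := hnum _ hdA hdB hd1 hdne _ hc1 hc2
  have hNle : N ≤ Subgroup.centralizer {φ t} := by
    have : N ⊓ Subgroup.centralizer {φ t} = N :=
      Subgroup.eq_of_le_of_card_ge inf_le_left (le_of_eq hceq.symm)
    rw [← this]
    exact inf_le_right
  -- the centraliser of `N`
  have hCn : (Subgroup.centralizer (N : Set G)).Normal := by
    refine ⟨fun m hm g => ?_⟩
    rw [Subgroup.mem_centralizer_iff] at hm ⊢
    intro n hn
    have hn' : g⁻¹ * n * g ∈ N := by
      have := hN.conj_mem n hn g⁻¹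
      rwa [inv_inv] at this
    have h1 := hm _ hn'
    calc n * (g * m * g⁻¹) = g * ((g⁻¹ * n * g) * m) * g⁻¹ := by group
      _ = g * (m * (g⁻¹ * n * g)) * g⁻¹ := by rw [h1]
      _ = g * m * g⁻¹ * n := by group
  haveI : ((Subgroup.centralizer (N : Set G)).comap φ).Normal := Subgroup.Normal.comap hCn φ
  have htK : t ∈ (Subgroup.centralizer (N : Set G)).comap φ := by
    rw [Subgroup.mem_comap, Subgroup.mem_centralizer_iff]
    intro n hn
    exact Subgroup.mem_centralizer_iff.1 (hNle hn) (φ t) (Set.mem_singleton _) |>.symm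
  have ht1 : t ≠ 1 := by
    intro h
    rw [h, orderOf_one] at ht
    exact hq.out.one_lt.ne ht
  rcases hM.eq_bot_or_eq_top_of_normal ((Subgroup.centralizer (N : Set G)).comap φ)
    inferInstance with h | h
  · rw [h, Subgroup.mem_bot] at htK
    exact ht1 htK
  · have hsK : s ∈ (Subgroup.centralizer (N : Set G)).comap φ := by
      rw [h]; exact Subgroup.mem_top _
    rw [Subgroup.mem_comap, Subgroup.mem_centralizer_iff] at hsK
    apply hbot
    rw [Subgroup.eq_bot_iff_forall]
    intro n hn
    exact hcentN n hn (hsK n hn)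

end Cfsg.Agent.Helper3
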