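import Mathlib
import Cfsg.Agent.Helper3.LeechMono2
import Cfsg.Agent.Helper3.M24Trans
import Cfsg.Agent.Helper3.HSFinal
import Cfsg.Agent.Helper3.MathieuSimple
import Cfsg.Agent.Helper3.SylowSimple

set_option autoImplicit false
set_option linter.unusedSectionVars false
set_option linter.style.haveILetI false
set_option linter.unusedSimpArgs false
set_option linter.unusedVariables false
set_option linter.deprecated false
set_option linter.unnecessarySeqFocus false

namespace Cfsg.Agent.Helper3

open Cfsg Cfsg.Agent.Helper28.Leech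
open scoped Pointwise

/-- the standard third Conway group -/
abbrev G3 : Subgroup Co0 := MulAction.stabilizer Co0 u5L

/-- the Mathieu group of degree 23 -/
abbrev M23t : Subgroup M24 := MulAction.stabilizer M24 (none : GolayPt)

theorem permAut_u5 (σ : Equiv.Perm GolayPt) (hσ : σ ∈ M24) (h1 : σ none = none) :
    permAut σ hσ u5L = u5L := by
  apply Subtype.ext
  funext k
  rw [permAut_apply]
  show u5 (σ k) = u5 k
  unfold u5
  have e1 : σ k = none ↔ k = none :=
    ⟨fun h => σ.injective (h.trans h1.symm), fun h => h ▸ h1⟩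
  simp only [e1]

theorem permAut_yP (σ : Equiv.Perm GolayPt) (hσ : σ ∈ M24) (h1 : σ none = none) :
    permAut σ hσ (yPL none) = yPL none := by
  apply Subtype.ext
  funext k
  rw [permAut_apply]
  show yP none (σ k) = yP none k
  unfold yP
  have e1 : σ k = none ↔ k = none :=
    ⟨fun h => σ.injective (h.trans h1.symm), fun h => h ▸ h1⟩
  simp only [e1]

/-- `M23` inside the standard third Conway group -/
noncomputable def co3Hom : ↥M23t →* ↥G3 :=
  MonoidHom.mk' (fun m =>
    ⟨⟨permAut ((m : M24) : Equiv.Perm GolayPt)⁻¹ (M24.inv_mem (m : M24).2), permAut_mem _ _⟩,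
      permAut_u5 _ _ (Equiv.Perm.inv_eq_iff_eq.2
        (m.2 : ((m : M24) : Equiv.Perm GolayPt) none = none).symm)⟩)
    (by
      intro a b
      apply Subtype.ext
      apply Subtype.ext
      exact permAut_mul_inv _ _ (a : M24).2 (b : M24).2)

theorem co3Hom_coe (m : ↥M23t) : (((co3Hom m : ↥G3) : Co0) : Equiv.Perm leechLattice) =
    permAut ((m : M24) : Equiv.Perm GolayPt)⁻¹ (M24.inv_mem (m : M24).2) := rfl

theorem permAut_inv_inj (a b : Equiv.Perm GolayPt) (ha : a ∈ M24) (hb : b ∈ M24)
    (h1 : permAut a⁻¹ (M24.inv_mem ha) = permAut b⁻¹ (M24.inv_mem hb)) : a = b := by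
  have h2 : ∀ i : GolayPt, a⁻¹ i = b⁻¹ i := by
    intro i
    have e : ((permAut a⁻¹ (M24.inv_mem ha) (E8 (a⁻¹ i)) : leechLattice) : GolayPt → ℤ) i =
        ((permAut b⁻¹ (M24.inv_mem hb) (E8 (a⁻¹ i)) : leechLattice) : GolayPt → ℤ) i := by
      rw [h1]
    rw [permAut_apply, permAut_apply, E8_apply, E8_apply, if_pos rfl] at e
    by_contra hne
    rw [if_neg (Ne.symm hne)] at e
    norm_num at e
  exact inv_injective (Equiv.ext h2)

theorem co3Hom_inj : Function.Injective co3Hom := by
  intro a b hab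
  have h1 : permAut ((a : M24) : Equiv.Perm GolayPt)⁻¹ (M24.inv_mem (a : M24).2) =
      permAut ((b : M24) : Equiv.Perm GolayPt)⁻¹ (M24.inv_mem (b : M24).2) := by
    have := congrArg (fun t : ↥G3 => ((t : Co0) : Equiv.Perm leechLattice)) hab
    exact this
  apply Subtype.ext
  apply Subtype.ext
  exact permAut_inv_inj _ _ (a : M24).2 (b : M24).2 h1

/-- the element of order 23 -/
def sEl : ↥M23t := ⟨⟨gShift, gShift_mem_M24⟩, gShift_none⟩

/-- an element of order 11 -/
def tEl : ↥M23t := ⟨⟨gMu, gMu_mem_M24⟩, gMu_none⟩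

theorem sEl_order : orderOf sEl = 23 := by
  rw [← Subgroup.orderOf_coe, ← Subgroup.orderOf_coe]
  exact gShift_order

theorem tEl_order : orderOf tEl = 11 := by
  rw [← Subgroup.orderOf_coe, ← Subgroup.orderOf_coe]
  exact gMu_order

theorem sEl_tEl : sEl * tEl ≠ tEl * sEl := by
  intro h
  have h2 : gShift (gMu (some 0)) = gMu (gShift (some 0)) :=
    congrArg (fun m : ↥M23t => ((m : M24) : Equiv.Perm GolayPt) (some 0)) h
  rw [gMu_some, gShift_some, gShift_some, gMu_some] at h2
  revert h2
  decide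

theorem sEl_cent (a b : ↥M23t) (ha : a * sEl = sEl * a) (hb : b * sEl = sEl * b) :
    a * b = b * a := by
  have ha' : ((a : M24) : Equiv.Perm GolayPt) * gShift = gShift * ((a : M24) : Equiv.Perm GolayPt) :=
    congrArg (fun m : ↥M23t => ((m : M24) : Equiv.Perm GolayPt)) ha
  have hb' : ((b : M24) : Equiv.Perm GolayPt) * gShift = gShift * ((b : M24) : Equiv.Perm GolayPt) :=
    congrArg (fun m : ↥M23t => ((m : M24) : Equiv.Perm GolayPt)) hb
  have := shift_cent_comm (a.2 : ((a : M24) : Equiv.Perm GolayPt) none = none)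
    (b.2 : ((b : M24) : Equiv.Perm GolayPt) none = none) ha' hb'
  apply Subtype.ext
  apply Subtype.ext
  exact this

set_option maxRecDepth 100000 in
theorem yPn_facts : sqNorm (yP none) = 32 ∧ dotInt u5 (yP none) = 8 ∧
    ∀ k : GolayPt, u5 k - yP none k = (Pi.single none 8 : GolayPt → ℤ) k := by decide +kernel

theorem E8_eq : E8 none = u5L - yPL none := by
  apply Subtype.ext
  funext k
  exact (yPn_facts.2.2 k).symm

/-- a lattice automorphism fixing `(5, 1, ..., 1)` and `(-3, 1, ..., 1)` is a permutation -/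
theorem mono_of_fix (g : Equiv.Perm leechLattice) (hg : g ∈ Co0) (hu : g u5L = u5L)
    (hf : g (yPL none) = yPL none) :
    ∃ π : Equiv.Perm GolayPt, ∃ hπ : π ∈ M24, π none = none ∧
      g = permAut π⁻¹ (M24.inv_mem hπ) := by
  have h8 : g (E8 none) = E8 none := by
    rw [E8_eq, co0_sub g hg, hu, hf]
  have hcross := stab_crossP ⟨g, hg⟩ h8
  obtain ⟨σ, hσ, c, hc, hform⟩ := cross_stab_mono g hg hcross
  have hval : ∀ i : GolayPt, u5 i = if i ∈ c then -u5 (σ.symm i) else u5 (σ.symm i) := by
    intro i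
    have e := congrFun (hform u5L) i
    rw [hu] at e
    exact e
  have hcE : ∀ i : GolayPt, i ∉ c := by
    intro i hi
    have e := hval i
    rw [if_pos hi] at e
    have p1 := u5_pos i
    have p2 := u5_pos (σ.symm i)
    omega
  have hnone : σ.symm none = none := by
    have e := hval none
    rw [if_neg (hcE none)] at e
    unfold u5 at e
    rw [if_pos rfl] at e
    by_contra hne
    rw [if_neg hne] at e
    omega
  refine ⟨σ, hσ, ?_, ?_⟩
  · have := congrArg σ hnone
    rw [Equiv.apply_symm_apply] at this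
    exact this.symm
  · apply Equiv.ext
    intro v
    apply Subtype.ext
    funext i
    rw [hform v, permAut_apply]
    unfold signedPerm
    rw [if_neg (hcE i)]
    rfl

theorem fix23_const (w : leechLattice)
    (hw : permAut gShift⁻¹ (M24.inv_mem gShift_mem_M24) w = w) :
    ∀ x : ZMod 23, (w : GolayPt → ℤ) (some x) = (w : GolayPt → ℤ) (some 0) := by
  have hstep : ∀ x : ZMod 23, (w : GolayPt → ℤ) (some (x + 1)) = (w : GolayPt → ℤ) (some x) := by
    intro x
    have e : ((permAut gShift⁻¹ (M24.inv_mem gShift_mem_M24) w : leechLattice) : GolayPt → ℤ)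
        (some (x + 1)) = (w : GolayPt → ℤ) (some (x + 1)) := by rw [hw]
    rw [permAut_apply] at e
    have e2 : gShift⁻¹ (some (x + 1)) = some x := by
      rw [Equiv.Perm.inv_eq_iff_eq, gShift_some]
    rw [e2] at e
    exact e.symm
  have hnat : ∀ n : ℕ, (w : GolayPt → ℤ) (some (n : ZMod 23)) = (w : GolayPt → ℤ) (some 0) := by
    intro n
    induction n with
    | zero => simp
    | succ n ih =>
      rw [Nat.cast_succ, hstep, ih]
  intro x
  have := hnat x.val
  rwa [ZMod.natCast_zmod_val] at this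

theorem fix23_eq (w : leechLattice)
    (hw : permAut gShift⁻¹ (M24.inv_mem gShift_mem_M24) w = w)
    (hn : sqNorm (w : GolayPt → ℤ) = 32) (hd : dotInt u5 (w : GolayPt → ℤ) = 8) :
    w = yPL none := by
  have hc := fix23_const w hw
  have h1 : sqNorm (w : GolayPt → ℤ) = (w : GolayPt → ℤ) none ^ 2 +
      23 * (w : GolayPt → ℤ) (some 0) ^ 2 := by
    unfold sqNorm
    rw [Fintype.sum_option]
    simp only [hc]
    rw [Finset.sum_const, Finset.card_univ, ZMod.card]
    simp
  have h2 : dotInt u5 (w : GolayPt → ℤ) = 5 * (w : GolayPt → ℤ) none +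
      23 * (w : GolayPt → ℤ) (some 0) := by
    unfold dotInt
    rw [Fintype.sum_option]
    simp only [hc]
    have e1 : u5 none = 5 := rfl
    have e2 : ∀ x : ZMod 23, u5 (some x) = 1 := fun x => rfl
    simp only [e1, e2, one_mul]
    rw [Finset.sum_const, Finset.card_univ, ZMod.card]
    simp
  rw [h1] at hn
  rw [h2] at hd
  have hb : (w : GolayPt → ℤ) (some 0) = 1 ∧ (w : GolayPt → ℤ) none = -3 := by
    have hb1 : (w : GolayPt → ℤ) (some 0) ≤ 1 := by nlinarith [sq_nonneg ((w : GolayPt → ℤ) none)]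
    have hb2 : -1 ≤ (w : GolayPt → ℤ) (some 0) := by nlinarith [sq_nonneg ((w : GolayPt → ℤ) none)]
    have hcases : (w : GolayPt → ℤ) (some 0) = -1 ∨ (w : GolayPt → ℤ) (some 0) = 0 ∨
        (w : GolayPt → ℤ) (some 0) = 1 := by omega
    rcases hcases with h | h | h
    · rw [h] at hd; omega
    · rw [h] at hd; omega
    · rw [h] at hd; exact ⟨h, by omega⟩
  apply Subtype.ext
  funext i
  show (w : GolayPt → ℤ) i = yP none i
  unfold yP
  cases i with
  | none => rw [if_pos rfl]; exact hb.2
  | some x => rw [if_neg (by simp), hc x]; exact hb.1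

theorem co3_K (g : ↥G3)
    (h : g * co3Hom sEl * g⁻¹ ∈ Subgroup.zpowers (co3Hom sEl)) : g ∈ co3Hom.range := by
  haveI := co0_finite
  have hgC : ((g : Co0) : Equiv.Perm leechLattice) ∈ Co0 := (g : Co0).2
  have hgu : ((g : Co0) : Equiv.Perm leechLattice) u5L = u5L := g.2
  have hxf : co3Hom sEl • yPL none = yPL none :=
    permAut_yP _ _ (Equiv.Perm.inv_eq_iff_eq.2 gShift_none.symm)
  have hy : g * co3Hom sEl * g⁻¹ ∈ MulAction.stabilizer ↥G3 (g • yPL none) := by
    rw [MulAction.mem_stabilizer_iff, mul_smul, mul_smul, inv_smul_smul, hxf]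
  have ho : orderOf (g * co3Hom sEl * g⁻¹) = orderOf (co3Hom sEl) :=
    (MulAut.conj g).orderOf_eq (co3Hom sEl)
  have hzeq : Subgroup.zpowers (g * co3Hom sEl * g⁻¹) = Subgroup.zpowers (co3Hom sEl) := by
    apply Subgroup.eq_of_le_of_card_ge (Subgroup.zpowers_le.2 h)
    rw [Nat.card_zpowers, Nat.card_zpowers, ho]
  have hx : co3Hom sEl ∈ MulAction.stabilizer ↥G3 (g • yPL none) := by
    have : co3Hom sEl ∈ Subgroup.zpowers (g * co3Hom sEl * g⁻¹) := by
      rw [hzeq]; exact Subgroup.mem_zpowers _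
    exact (Subgroup.zpowers_le.2 hy) this
  have hw : permAut gShift⁻¹ (M24.inv_mem gShift_mem_M24)
      (((g : Co0) : Equiv.Perm leechLattice) (yPL none)) =
      ((g : Co0) : Equiv.Perm leechLattice) (yPL none) := hx
  have hn : sqNorm ((((g : Co0) : Equiv.Perm leechLattice) (yPL none) : leechLattice) :
      GolayPt → ℤ) = 32 := by
    rw [hgC.2]; exact yPn_facts.1
  have hd : dotInt u5 ((((g : Co0) : Equiv.Perm leechLattice) (yPL none) : leechLattice) :
      GolayPt → ℤ) = 8 := by
    have d := co0_dot ((g : Co0) : Equiv.Perm leechLattice) hgC u5L (yPL none)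
    rw [hgu] at d
    exact d.trans yPn_facts.2.1
  have hfix := fix23_eq _ hw hn hd
  obtain ⟨π, hπ, hπn, hgπ⟩ := mono_of_fix _ hgC hgu hfix
  refine ⟨⟨⟨π, hπ⟩, hπn⟩, ?_⟩
  apply Subtype.ext
  apply Subtype.ext
  exact hgπ.symm

set_option maxRecDepth 100000 in
theorem co3_num : ∀ d ∈ List.range 487, d ∣ 486 → d % 23 = 1 → d ≠ 1 →
    ∀ c ∈ List.range 487, c ∣ d → c % 11 = d % 11 → c = d := by decide +kernel

theorem co3_std_simple : IsSimpleGroup ↥G3 := by
  haveI := co0_finite
  haveI : Fact (Nat.Prime 23) := ⟨by norm_num⟩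
  haveI : Fact (Nat.Prime 11) := ⟨by norm_num⟩
  haveI : IsSimpleGroup ↥M23t := simple_stab_point none
  haveI : IsSimpleGroup ↥GS := hs_std_simple
  have cG : Nat.card ↥G3 = 495766656000 := co3_card u5L sqNorm_u5
  have cM : Nat.card ↥M23t = 10200960 := card_stabilizer_point none
  have cH : Nat.card ↥GS = 44352000 := hs_card u5L (-u5bL) std_v std_w std_vw
  refine simple_of_sylow_normalizer 23 co3Hom co3Hom_inj sEl tEl sEl_order sEl_tEl ?_ co3_K
    sEl_cent ?_
  · rw [cG]; norm_num
  · intro N hN hbot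
    refine normal_dvd_of_two_simple 23 11 co3Hom co3Hom_inj
      (Subgroup.inclusion (inf_le_left : GS ≤ G3)) (Subgroup.inclusion_injective _) sEl tEl
      sEl_order tEl_order ?_ ?_ ?_ N hN hbot
    · intro g hg
      apply co3_K
      rw [hg, mul_inv_cancel_right]
      exact Subgroup.mem_zpowers _
    · rw [cG, cM, cH]; norm_num
    · rw [cG, cM, cH]
      intro d h1 h2 h3 h4 c h5 h6
      have e1 : (495766656000 : ℕ) / 10200960 = 48600 := by norm_num
      have e2 : (495766656000 : ℕ) / 44352000 = 11178 := by norm_num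
      rw [e1] at h1
      rw [e2] at h2
      have h7 : d ∣ 486 := by
        have := Nat.dvd_gcd h1 h2
        have e3 : Nat.gcd 48600 11178 = 486 := by norm_num
        rwa [e3] at this
      have h8 : d ≤ 486 := Nat.le_of_dvd (by norm_num) h7
      have h9 : 0 < d := Nat.pos_of_dvd_of_pos h7 (by norm_num)
      have h10 : c ≤ d := Nat.le_of_dvd h9 h5
      exact co3_num d (List.mem_range.2 (by omega)) h7 h3 h4 c (List.mem_range.2 (by omega)) h5 h6

/-- the stabiliser of a vector of norm 48 is simple -/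
theorem co3_simple (u : leechLattice) (hu : sqNorm (u : GolayPt → ℤ) = 48) :
    IsSimpleGroup ↥(MulAction.stabilizer Co0 u) := by
  obtain ⟨k, hk⟩ := co0_trans_48 u5L u sqNorm_u5 hu
  exact ((MulAction.stabilizerEquivStabilizer hk.symm).isSimpleGroup_congr).1 co3_std_simple

end Cfsg.Agent.Helper3
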