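import Mathlib
import Cfsg.Agent.Helper3.LeechHS3

set_option autoImplicit false
set_option linter.unusedSectionVars false
set_option linter.style.haveILetI false
set_option linter.unusedSimpArgs false
set_option linter.unusedVariables false
set_option linter.deprecated false
set_option linter.unnecessarySeqFocus false

namespace Cfsg.Agent.Helper3

open Cfsg Cfsg.Agent.Helper28.Leech
open scoped Pointwise

theorem dot_sub_left (x y z : GolayPt → ℤ) : dotInt (x - y) z = dotInt x z - dotInt y z := by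
  unfold dotInt
  rw [← Finset.sum_sub_distrib]
  apply Finset.sum_congr rfl
  intro i _
  simp only [Pi.sub_apply]
  ring

theorem dot_sub_right (x y z : GolayPt → ℤ) : dotInt x (y - z) = dotInt x y - dotInt x z := by
  unfold dotInt
  rw [← Finset.sum_sub_distrib]
  apply Finset.sum_congr rfl
  intro i _
  simp only [Pi.sub_apply]
  ring

/-- equivalence under the joint stabiliser of `v0` and `wA` -/
def stab2Rel (w w' : leechLattice) : Prop := ∃ g ∈ Co0, g v0 = v0 ∧ g wA = wA ∧ g w = w'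

theorem stab2Rel_symm {w w' : leechLattice} (h : stab2Rel w w') : stab2Rel w' w := by
  obtain ⟨g, hg, e1, e2, e3⟩ := h
  exact ⟨g⁻¹, Co0.inv_mem hg, Equiv.Perm.inv_eq_iff_eq.2 e1.symm,
    Equiv.Perm.inv_eq_iff_eq.2 e2.symm, Equiv.Perm.inv_eq_iff_eq.2 e3.symm⟩

theorem stab2Rel_trans {w w' w'' : leechLattice} (h1 : stab2Rel w w') (h2 : stab2Rel w' w'') :
    stab2Rel w w'' := by
  obtain ⟨g, hg, e1, e2, e3⟩ := h1
  obtain ⟨g', hg', e1', e2', e3'⟩ := h2
  exact ⟨g' * g, Co0.mul_mem hg' hg, by rw [Equiv.Perm.mul_apply, e1, e1'],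
    by rw [Equiv.Perm.mul_apply, e2, e2'], by rw [Equiv.Perm.mul_apply, e3, e3']⟩

theorem wA_apply (k : GolayPt) : (wA : GolayPt → ℤ) k =
    (if k = gPt 0 then -4 else 0) + (if k = gPt 1 then 4 else 0) := by
  show (Pi.single (gPt 0) (-4) + Pi.single (gPt 1) 4 : GolayPt → ℤ) k = _
  rw [Pi.add_apply, Pi.single_apply, Pi.single_apply]

theorem wA_norm : sqNorm (wA : GolayPt → ℤ) = 32 := by
  show sqNorm (Pi.single (gPt 0) (-4) + Pi.single (gPt 1) 4 : GolayPt → ℤ) = 32
  rw [sqNorm_two _ _ (by decide)]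
  norm_num

theorem dot_wA (w : GolayPt → ℤ) :
    dotInt (wA : GolayPt → ℤ) w = 4 * (w (gPt 1) - w (gPt 0)) := by
  show dotInt (Pi.single (gPt 0) (-4) + Pi.single (gPt 1) 4) w = _
  rw [dot_add_left, dot_single_left, dot_single_left]
  ring

/-- a tetrad move fixing both `v0` and `wA` -/
theorem dstab_move (b : GolayPt) (hb0 : b ≠ gPt 0) (hb1 : b ≠ gPt 1) (hbn : b ≠ none)
    (β2 β2' : Bool) :
    ∃ g ∈ Co0, g v0 = v0 ∧ g wA = wA ∧ ∀ x : leechLattice, ∀ y0 y1 y2 y3 : ℤ,
      y0 = (x : GolayPt → ℤ) (gPt 0) → y1 = (x : GolayPt → ℤ) (gPt 1) →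
      y2 = sg β2 * (x : GolayPt → ℤ) b → y3 = -(x : GolayPt → ℤ) none →
      (2 * ((g x : leechLattice) : GolayPt → ℤ) (gPt 0) = 2 * y0 - (y0 + y1 + y2 + y3) ∧
       2 * ((g x : leechLattice) : GolayPt → ℤ) (gPt 1) = 2 * y1 - (y0 + y1 + y2 + y3) ∧
       2 * ((g x : leechLattice) : GolayPt → ℤ) none = -(2 * y3 - (y0 + y1 + y2 + y3))) := by
  obtain ⟨g, hg, hgv, hmove⟩ := stab_move (gPt 1) b (Ne.symm hb1) (by decide) (by decide) hb0 hbn
    false β2 true β2'
  have key : ∀ x : leechLattice, ∀ y0 y1 y2 y3 : ℤ,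
      y0 = (x : GolayPt → ℤ) (gPt 0) → y1 = (x : GolayPt → ℤ) (gPt 1) →
      y2 = sg β2 * (x : GolayPt → ℤ) b → y3 = -(x : GolayPt → ℤ) none →
      (2 * ((g x : leechLattice) : GolayPt → ℤ) (gPt 0) = 2 * y0 - (y0 + y1 + y2 + y3) ∧
       2 * ((g x : leechLattice) : GolayPt → ℤ) (gPt 1) = 2 * y1 - (y0 + y1 + y2 + y3) ∧
       2 * ((g x : leechLattice) : GolayPt → ℤ) none = -(2 * y3 - (y0 + y1 + y2 + y3))) := by
    intro x y0 y1 y2 y3 e0 e1 e2 e3
    obtain ⟨m0, m1, m2, m3⟩ := hmove x y0 y1 y2 y3 e0 (by rw [e1, sg_false, one_mul]) e2 e3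
    refine ⟨m0, ?_, m3⟩
    rw [m1, sg_true]
    ring
  refine ⟨g, hg, hgv, ?_, key⟩
  obtain ⟨m0, m1, m3⟩ := key wA (-4) 4 0 0
    (by rw [wA_apply, if_pos rfl, if_neg (by decide)]; norm_num)
    (by rw [wA_apply, if_neg (by decide), if_pos rfl]; norm_num)
    (by rw [wA_apply, if_neg hb0, if_neg hb1]; norm_num)
    (by rw [wA_apply, if_neg (by decide), if_neg (by decide)]; norm_num)
  have hn : sqNorm ((g wA : leechLattice) : GolayPt → ℤ) = 32 := by rw [hg.2, wA_norm]
  exact eq_two_single (g wA) hn (gPt 0) (gPt 1) (by decide) (-4) 4 (by omega) (by omega)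
    (by norm_num) wA rfl

theorem sign_fix_wA (c : ℕ) (hcc : Helper28.Code.ofSet (gSup c) ∈ golayCode)
    (h0 : gPt 0 ∉ gSup c) (h1 : gPt 1 ∉ gSup c) : signAut (gSup c) hcc wA = wA := by
  apply Subtype.ext
  funext k
  rw [signAut_apply]
  by_cases hk : k ∈ gSup c
  · rw [if_pos hk, wA_apply, if_neg (fun h : k = gPt 0 => h0 (h ▸ hk)),
      if_neg (fun h : k = gPt 1 => h1 (h ▸ hk))]
    norm_num
  · rw [if_neg hk]

/-- the normal form `(1, 1, -3, ±1, ...)` -/
theorem C1_norm (w : leechLattice) (hn : sqNorm (w : GolayPt → ℤ) = 32)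
    (hinf : (w : GolayPt → ℤ) none = 1) (h0 : (w : GolayPt → ℤ) (gPt 0) = 1)
    (h1 : (w : GolayPt → ℤ) (gPt 1) = -3) : stab2Rel w (yPL (gPt 1)) := by
  have hC := type_C_of w hn none (Or.inr (Or.inr (Or.inl hinf)))
  obtain ⟨i0, hi0⟩ := alC_one3 _ hn hC
  have hi01 : i0 = gPt 1 := ((hi0 (gPt 1)).1 (Or.inr h1)).symm
  have hy1 : ∀ k, k ≠ gPt 1 → ((w : GolayPt → ℤ) k = 1 ∨ (w : GolayPt → ℤ) k = -1) := by
    intro k hk
    exact alC_pm1 _ hC i0 hi0 k (by rw [hi01]; exact hk)
  have hwL := w.2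
  rw [mem_leech_iff_fibre] at hwL
  obtain ⟨m, hm, c, hc, hres, -⟩ := hwL
  have hm1 : m = 1 := by
    rcases hm with h | h
    · exfalso
      have e := hres none
      unfold lres at e
      rw [h, hinf] at e
      split_ifs at e <;> omega
    · exact h
  subst hm1
  have hcc : Helper28.Code.ofSet (gSup c) ∈ golayCode :=
    (Helper28.Code.mem_supports_iff golayCode _).1 ((mem_supports_iff _).2 ⟨c, hc, rfl⟩)
  have hnc : none ∉ gSup c := by
    intro hmem
    have e := hres none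
    unfold lres at e
    rw [if_pos hmem, hinf] at e
    omega
  have h0c : gPt 0 ∉ gSup c := by
    intro hmem
    have e := hres (gPt 0)
    unfold lres at e
    rw [if_pos hmem, h0] at e
    omega
  have h1c : gPt 1 ∉ gSup c := by
    intro hmem
    have e := hres (gPt 1)
    unfold lres at e
    rw [if_pos hmem, h1] at e
    omega
  have hyw : w = signAut (gSup c) hcc (yPL (gPt 1)) := by
    apply Subtype.ext
    funext k
    rw [signAut_apply]
    show _ = if k ∈ gSup c then -yP (gPt 1) k else yP (gPt 1) k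
    have e := hres k
    unfold lres at e
    unfold yP
    by_cases hk : k = gPt 1
    · subst hk
      rw [if_neg h1c, if_pos rfl]
      exact h1
    · rw [if_neg hk]
      by_cases hkc : k ∈ gSup c
      · rw [if_pos hkc] at e ⊢
        rcases hy1 k hk with h' | h' <;> rw [h'] at e ⊢ <;> omega
      · rw [if_neg hkc] at e ⊢
        rcases hy1 k hk with h' | h' <;> rw [h'] at e ⊢ <;> omega
  have r : stab2Rel (yPL (gPt 1)) w :=
    ⟨_, signAut_mem _ hcc, sign_fix_v0 c hcc hnc h0c, sign_fix_wA c hcc h0c h1c, hyw.symm⟩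
  exact stab2Rel_symm r

/-- the third vertex of a standard triangle -/
def isW (w : leechLattice) : Prop :=
  sqNorm (w : GolayPt → ℤ) = 32 ∧ (w : GolayPt → ℤ) none + (w : GolayPt → ℤ) (gPt 0) = 2 ∧
    (w : GolayPt → ℤ) (gPt 1) - (w : GolayPt → ℤ) (gPt 0) = -4

theorem W_rel (w : leechLattice) (hW : isW w) : stab2Rel w (yPL (gPt 1)) := by
  obtain ⟨hn, hs, hd⟩ := hW
  rcases min_alphabet _ w.2 hn with h | h | h
  · exfalso
    have a1 := (mem_alA _).1 (h none)
    have a2 := (mem_alA _).1 (h (gPt 0))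
    have a3 := (mem_alA _).1 (h (gPt 1))
    omega
  · have a1 := (mem_alB _).1 (h none)
    have a2 := (mem_alB _).1 (h (gPt 0))
    have a3 := (mem_alB _).1 (h (gPt 1))
    have e0 : (w : GolayPt → ℤ) (gPt 0) = 2 := by omega
    have e1 : (w : GolayPt → ℤ) (gPt 1) = -2 := by omega
    have en : (w : GolayPt → ℤ) none = 0 := by omega
    obtain ⟨a, b, hab, han, ha0, hbn, hb0, hav, hbv⟩ := alB_two _ hn h none (gPt 0)
    have hex : ∃ b', b' ≠ gPt 0 ∧ b' ≠ gPt 1 ∧ b' ≠ none ∧
        ((w : GolayPt → ℤ) b' = 2 ∨ (w : GolayPt → ℤ) b' = -2) := by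
      by_cases ha1 : a = gPt 1
      · exact ⟨b, hb0, fun hb1 => hab (ha1.trans hb1.symm), hbn, hbv⟩
      · exact ⟨a, ha0, ha1, han, hav⟩
    obtain ⟨b', hb0', hb1', hbn', hbv'⟩ := hex
    obtain ⟨g, hg, hgv, hgw, hmove⟩ := dstab_move b' hb0' hb1' hbn'
      (decide ((w : GolayPt → ℤ) b' = -2)) false
    obtain ⟨m0, m1, m3⟩ := hmove w 2 (-2) 2 0 e0.symm e1.symm
      (by rcases hbv' with h' | h' <;> simp [sg, h']) (by simp [en])
    have r : stab2Rel w (g w) := ⟨g, hg, hgv, hgw, rfl⟩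
    have hn' : sqNorm ((g w : leechLattice) : GolayPt → ℤ) = 32 := by rw [hg.2, hn]
    exact stab2Rel_trans r (C1_norm (g w) hn' (by omega) (by omega) (by omega))
  · have a1 := (mem_alC _).1 (h none)
    have a2 := (mem_alC _).1 (h (gPt 0))
    have a3 := (mem_alC _).1 (h (gPt 1))
    have hcase : ((w : GolayPt → ℤ) none = 1 ∧ (w : GolayPt → ℤ) (gPt 0) = 1 ∧
        (w : GolayPt → ℤ) (gPt 1) = -3) ∨ ((w : GolayPt → ℤ) none = -1 ∧
        (w : GolayPt → ℤ) (gPt 0) = 3 ∧ (w : GolayPt → ℤ) (gPt 1) = -1) := by omega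
    rcases hcase with ⟨en, e0, e1⟩ | ⟨en, e0, e1⟩
    · exact C1_norm w hn en e0 e1
    · obtain ⟨i0, hi0⟩ := alC_one3 _ hn h
      have hi00 : i0 = gPt 0 := ((hi0 (gPt 0)).1 (Or.inl e0)).symm
      obtain ⟨b, hb0, hb1, hbn⟩ := exists_other (gPt 0) (gPt 1) none
      have hbv : (w : GolayPt → ℤ) b = 1 ∨ (w : GolayPt → ℤ) b = -1 :=
        alC_pm1 _ h i0 hi0 b (by rw [hi00]; exact hb0)
      obtain ⟨g, hg, hgv, hgw, hmove⟩ := dstab_move b hb0 hb1 hbn
        (decide ((w : GolayPt → ℤ) b = -1)) false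
      obtain ⟨m0, m1, m3⟩ := hmove w 3 (-1) 1 1 e0.symm e1.symm
        (by rcases hbv with h' | h' <;> simp [sg, h']) (by simp [en])
      have r : stab2Rel w (g w) := ⟨g, hg, hgv, hgw, rfl⟩
      have hn' : sqNorm ((g w : leechLattice) : GolayPt → ℤ) = 32 := by rw [hg.2, hn]
      exact stab2Rel_trans r (C1_norm (g w) hn' (by omega) (by omega) (by omega))

theorem pair16_norm (x t : leechLattice) (hx : sqNorm (x : GolayPt → ℤ) = 32)
    (ht : sqNorm (t : GolayPt → ℤ) = 32)
    (hd : dotInt (x : GolayPt → ℤ) (t : GolayPt → ℤ) = -16) :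
    ∃ g ∈ Co0, g x = v0 ∧ g t = wA := by
  obtain ⟨h, hh, hv0⟩ := min_rel x hx
  have r := rel16 (h t) (by rw [hh.2, ht]) (sum_of_dot x t h hh hv0 (-16) (-4) hd (by norm_num))
  obtain ⟨g1, hg1, e1, e2⟩ := r
  exact ⟨g1 * h, Co0.mul_mem hg1 hh, by rw [Equiv.Perm.mul_apply, hv0, e1],
    by rw [Equiv.Perm.mul_apply, e2]⟩

/-- the vectors completing a triangle of type 2-2-3 on a given norm-48 vector, with a
prescribed inner product with a given one -/
def mclX (u v : leechLattice) (d : ℤ) : Set leechLattice :=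
  {x | sqNorm (x : GolayPt → ℤ) = 32 ∧
    sqNorm ((u : GolayPt → ℤ) - (x : GolayPt → ℤ)) = 32 ∧
    dotInt (v : GolayPt → ℤ) (x : GolayPt → ℤ) = d}

theorem dot_of_tri (u y : leechLattice) (hu : sqNorm (u : GolayPt → ℤ) = 48)
    (h1 : sqNorm (y : GolayPt → ℤ) = 32)
    (h2 : sqNorm ((u : GolayPt → ℤ) - (y : GolayPt → ℤ)) = 32) :
    dotInt (u : GolayPt → ℤ) (y : GolayPt → ℤ) = 24 := by
  have := Helper28.Leech.sqNorm_sub (u : GolayPt → ℤ) (y : GolayPt → ℤ)
  rw [h2, hu, h1] at this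
  omega

/-- the McLaughlin configuration: transitivity -/
theorem mcl_trans (u v x x' : leechLattice) (hu : sqNorm (u : GolayPt → ℤ) = 48)
    (hv : sqNorm (v : GolayPt → ℤ) = 32 ∧
      sqNorm ((u : GolayPt → ℤ) - (v : GolayPt → ℤ)) = 32)
    (hx : x ∈ mclX u v 16) (hx' : x' ∈ mclX u v 16) :
    ∃ g : Co0, g • u = u ∧ g • v = v ∧ g • x = x' := by
  have huv := dot_of_tri u v hu hv.1 hv.2
  have key : ∀ y : leechLattice, y ∈ mclX u v 16 →
      ∃ g ∈ Co0, g y = v0 ∧ g (v - y) = wA ∧ isW (g (u - v)) := by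
    rintro y ⟨hy1, hy2, hy3⟩
    have huy := dot_of_tri u y hu hy1 hy2
    have ht : sqNorm ((v - y : leechLattice) : GolayPt → ℤ) = 32 := by
      rw [AddSubgroup.coe_sub, Helper28.Leech.sqNorm_sub, hv.1, hy1, hy3]; norm_num
    have hd : dotInt (y : GolayPt → ℤ) ((v - y : leechLattice) : GolayPt → ℤ) = -16 := by
      rw [AddSubgroup.coe_sub, dot_sub_right, dotInt_symm (y : GolayPt → ℤ) (v : GolayPt → ℤ),
        hy3, ← sqNorm_eq_dot, hy1]; norm_num
    obtain ⟨g, hg, e1, e2⟩ := pair16_norm y (v - y) hy1 ht hd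
    have d1 : dotInt (y : GolayPt → ℤ) ((u - v : leechLattice) : GolayPt → ℤ) = 8 := by
      rw [AddSubgroup.coe_sub, dot_sub_right, dotInt_symm (y : GolayPt → ℤ) (u : GolayPt → ℤ),
        dotInt_symm (y : GolayPt → ℤ) (v : GolayPt → ℤ), huy, hy3]; norm_num
    have d1' : dotInt (y : GolayPt → ℤ) ((u : GolayPt → ℤ) - (v : GolayPt → ℤ)) = 8 := by
      rw [← AddSubgroup.coe_sub]; exact d1
    have d2 : dotInt ((v - y : leechLattice) : GolayPt → ℤ)
        ((u - v : leechLattice) : GolayPt → ℤ) = -16 := by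
      rw [AddSubgroup.coe_sub, AddSubgroup.coe_sub, dot_sub_left, d1', dot_sub_right,
        dotInt_symm (v : GolayPt → ℤ) (u : GolayPt → ℤ), huv, ← sqNorm_eq_dot, hv.1]
      norm_num
    refine ⟨g, hg, e1, e2, ?_, ?_, ?_⟩
    · rw [hg.2, AddSubgroup.coe_sub]; exact hv.2
    · have d := co0_dot g hg y (u - v)
      rw [e1, dot_v0, d1] at d
      have e : (gPt 0 : GolayPt) = some 0 := rfl
      rw [e]
      omega
    · have d := co0_dot g hg (v - y) (u - v)
      rw [e2, dot_wA, d2] at d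
      omega
  obtain ⟨g1, hg1, a1, b1, c1⟩ := key x hx
  obtain ⟨g2, hg2, a2, b2, c2⟩ := key x' hx'
  obtain ⟨h, hh, d1, d2, d3⟩ := stab2Rel_trans (W_rel _ c1) (stab2Rel_symm (W_rel _ c2))
  have hk : g2⁻¹ * h * g1 ∈ Co0 := Co0.mul_mem (Co0.mul_mem (Co0.inv_mem hg2) hh) hg1
  have ex : (g2⁻¹ * h * g1) x = x' := by
    simp only [Equiv.Perm.mul_apply]
    rw [a1, d1, ← a2]; simp
  have et : (g2⁻¹ * h * g1) (v - x) = v - x' := by
    simp only [Equiv.Perm.mul_apply]
    rw [b1, d2, ← b2]; simp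
  have ew : (g2⁻¹ * h * g1) (u - v) = u - v := by
    simp only [Equiv.Perm.mul_apply]
    rw [d3]; simp
  have ev : (g2⁻¹ * h * g1) v = v := by
    have e := hk.1 x (v - x)
    rw [add_sub_cancel, ex, et, add_sub_cancel] at e
    exact e
  have eu : (g2⁻¹ * h * g1) u = u := by
    have e := hk.1 v (u - v)
    rw [add_sub_cancel, ev, ew, add_sub_cancel] at e
    exact e
  exact ⟨⟨_, hk⟩, eu, ev, ex⟩

/-- the McLaughlin configuration: the count -/
theorem mcl_count (u v : leechLattice) (hu : sqNorm (u : GolayPt → ℤ) = 48)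
    (hv : sqNorm (v : GolayPt → ℤ) = 32 ∧
      sqNorm ((u : GolayPt → ℤ) - (v : GolayPt → ℤ)) = 32) :
    (mclX u v 16).ncard = 275 := by
  have huv := dot_of_tri u v hu hv.1 hv.2
  have hP : {x : leechLattice | sqNorm (x : GolayPt → ℤ) = 32 ∧
      sqNorm ((u : GolayPt → ℤ) - (x : GolayPt → ℤ)) = 32}.ncard = 552 := count552 u hu
  have hfin : {x : leechLattice | sqNorm (x : GolayPt → ℤ) = 32 ∧
      sqNorm ((u : GolayPt → ℤ) - (x : GolayPt → ℤ)) = 32}.Finite :=
    Set.finite_of_ncard_ne_zero (by rw [hP]; norm_num)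
  have hXP : ∀ d : ℤ, mclX u v d ⊆ {x : leechLattice | sqNorm (x : GolayPt → ℤ) = 32 ∧
      sqNorm ((u : GolayPt → ℤ) - (x : GolayPt → ℤ)) = 32} := fun d x hx => ⟨hx.1, hx.2.1⟩
  have hvv : dotInt (v : GolayPt → ℤ) ((u - v : leechLattice) : GolayPt → ℤ) = -8 := by
    rw [AddSubgroup.coe_sub, dot_sub_right, dotInt_symm (v : GolayPt → ℤ) (u : GolayPt → ℤ),
      huv, ← sqNorm_eq_dot, hv.1]; norm_num
  have hmap : ∀ d : ℤ, ∀ x ∈ mclX u v d, u - x ∈ mclX u v (24 - d) := by
    rintro d x ⟨h1, h2, h3⟩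
    refine ⟨?_, ?_, ?_⟩
    · rw [AddSubgroup.coe_sub]; exact h2
    · rw [AddSubgroup.coe_sub, sub_sub_cancel]; exact h1
    · rw [AddSubgroup.coe_sub, dot_sub_right, dotInt_symm (v : GolayPt → ℤ) (u : GolayPt → ℤ),
        huv, h3]
  have hXY : (mclX u v 16).ncard = (mclX u v 8).ncard := by
    have e : mclX u v 8 = (fun x : leechLattice => u - x) '' mclX u v 16 := by
      ext y
      constructor
      · intro hy
        refine ⟨u - y, ?_, sub_sub_cancel u y⟩
        have := hmap 8 y hy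
        norm_num at this
        exact this
      · rintro ⟨x, hx, rfl⟩
        have := hmap 16 x hx
        norm_num at this
        exact this
    rw [e, Set.ncard_image_of_injective _ sub_right_injective]
  have hPeq : {x : leechLattice | sqNorm (x : GolayPt → ℤ) = 32 ∧
      sqNorm ((u : GolayPt → ℤ) - (x : GolayPt → ℤ)) = 32} =
      insert v (insert (u - v) (mclX u v 16 ∪ mclX u v 8)) := by
    ext y
    constructor
    · rintro ⟨h1, h2⟩
      by_cases e1 : y = v
      · exact Or.inl e1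
      · by_cases e2 : y = u - v
        · exact Or.inr (Or.inl e2)
        · right; right
          have huy := dot_of_tri u y hu h1 h2
          have hle : dotInt (v : GolayPt → ℤ) (y : GolayPt → ℤ) ≤ 16 := by
            have hne : (y : GolayPt → ℤ) - (v : GolayPt → ℤ) ≠ 0 :=
              fun h => e1 (Subtype.ext (sub_eq_zero.1 h))
            have hm := leech_min_norm _ (leechLattice.sub_mem y.2 v.2) hne
            rw [Helper28.Leech.sqNorm_sub, h1, hv.1, dotInt_symm] at hm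
            omega
          have hge : 8 ≤ dotInt (v : GolayPt → ℤ) (y : GolayPt → ℤ) := by
            have hne : ((u : GolayPt → ℤ) - (y : GolayPt → ℤ)) - (v : GolayPt → ℤ) ≠ 0 := by
              intro h
              apply e2
              apply Subtype.ext
              rw [AddSubgroup.coe_sub]
              have h' := sub_eq_zero.1 h
              rw [← h']
              abel
            have hm := leech_min_norm _
              (leechLattice.sub_mem (leechLattice.sub_mem u.2 y.2) v.2) hne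
            rw [Helper28.Leech.sqNorm_sub, h2, hv.1, dot_sub_left, huv,
              dotInt_symm (y : GolayPt → ℤ) (v : GolayPt → ℤ)] at hm
            omega
          have hdvd : (16 : ℤ) ∣ 32 + 32 + 2 * dotInt (v : GolayPt → ℤ) (y : GolayPt → ℤ) := by
            have hm := leech_dvd _ (leechLattice.add_mem v.2 y.2)
            rw [Helper28.Leech.sqNorm_add, hv.1, h1] at hm
            exact hm
          have hc : dotInt (v : GolayPt → ℤ) (y : GolayPt → ℤ) = 8 ∨
              dotInt (v : GolayPt → ℤ) (y : GolayPt → ℤ) = 16 := by omega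
          rcases hc with h8 | h16
          · exact Or.inr ⟨h1, h2, h8⟩
          · exact Or.inl ⟨h1, h2, h16⟩
    · rintro (h | h | h | h)
      · rw [h]; exact hv
      · rw [h]
        exact ⟨by rw [AddSubgroup.coe_sub]; exact hv.2,
          by rw [AddSubgroup.coe_sub, sub_sub_cancel]; exact hv.1⟩
      · exact hXP 16 h
      · exact hXP 8 h
  have hdis : Disjoint (mclX u v 16) (mclX u v 8) := by
    rw [Set.disjoint_left]
    intro y hy hy'
    have a := hy.2.2
    have b := hy'.2.2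
    omega
  have h1 : u - v ∉ mclX u v 16 ∪ mclX u v 8 := by
    rintro (h | h)
    · have := h.2.2
      rw [hvv] at this
      omega
    · have := h.2.2
      rw [hvv] at this
      omega
  have h2 : v ∉ insert (u - v) (mclX u v 16 ∪ mclX u v 8) := by
    rintro (h | h | h)
    · have e : dotInt (v : GolayPt → ℤ) ((u - v : leechLattice) : GolayPt → ℤ) =
          dotInt (v : GolayPt → ℤ) (v : GolayPt → ℤ) := by rw [← h]
      rw [hvv, ← sqNorm_eq_dot, hv.1] at e
      omega
    · have := h.2.2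
      rw [← sqNorm_eq_dot, hv.1] at this
      omega
    · have := h.2.2
      rw [← sqNorm_eq_dot, hv.1] at this
      omega
  have fX : (mclX u v 16).Finite := hfin.subset (hXP 16)
  have fY : (mclX u v 8).Finite := hfin.subset (hXP 8)
  have hcount : (mclX u v 16).ncard + (mclX u v 8).ncard + 1 + 1 = 552 := by
    rw [← hP, hPeq, Set.ncard_insert_of_notMem h2 ((fX.union fY).insert _),
      Set.ncard_insert_of_notMem h1 (fX.union fY), Set.ncard_union_eq hdis fX fY]
  omega

end Cfsg.Agent.Helper3
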