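import Mathlib
import Cfsg.Agent.Helper3.LeechMcL

set_option autoImplicit false
set_option linter.unusedSectionVars false
set_option linter.style.haveILetI false
set_option linter.unusedSimpArgs false
set_option linter.unusedVariables false
set_option linter.deprecated false
set_option linter.unnecessarySeqFocus false

namespace Cfsg.Agent.Helper3

open Cfsg Cfsg.Agent.Helper28.Leech
open scoped Pointwise

/-- the vector `4e_0 + 4e_1` -/
def mcA3 : leechLattice := ⟨Pi.single (gPt 0) 4 + Pi.single (gPt 1) 4,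
  four_pair_mem _ _ 4 4 (by norm_num) (by norm_num) (by norm_num)⟩

theorem mcA3_dot (w : GolayPt → ℤ) :
    dotInt (mcA3 : GolayPt → ℤ) w = 4 * (w (gPt 0) + w (gPt 1)) := by
  show dotInt (Pi.single (gPt 0) 4 + Pi.single (gPt 1) 4) w = _
  rw [dot_add_left, dot_single_left, dot_single_left]
  ring

theorem stab2Rel_refl (w : leechLattice) : stab2Rel w w :=
  ⟨1, Co0.one_mem, rfl, rfl, rfl⟩

/-- the class of the third vertex of a triangle with all inner products `16` -/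
def mcCl (y : leechLattice) : Prop :=
  sqNorm (y : GolayPt → ℤ) = 32 ∧ (y : GolayPt → ℤ) none + (y : GolayPt → ℤ) (gPt 0) = 4 ∧
    (y : GolayPt → ℤ) (gPt 1) = (y : GolayPt → ℤ) (gPt 0)

theorem mcCl_A (y : leechLattice) (hn : sqNorm (y : GolayPt → ℤ) = 32)
    (hinf : (y : GolayPt → ℤ) none = 4) (h0 : (y : GolayPt → ℤ) (gPt 0) = 0)
    (h1 : (y : GolayPt → ℤ) (gPt 1) = 0) : stab2Rel y mcA3 := by
  have hA : ∀ i, (y : GolayPt → ℤ) i ∈ alA := by
    rcases min_alphabet _ y.2 hn with h | h | h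
    · exact h
    · exfalso
      have := (mem_alB _).1 (h none)
      omega
    · exfalso
      have := (mem_alC _).1 (h none)
      omega
  obtain ⟨j, hjn, hjv, hrest⟩ := alA_other _ hn hA none (by rw [hinf]; norm_num)
  have hj0 : j ≠ gPt 0 := by
    rintro rfl
    rw [h0] at hjv
    omega
  have hj1 : j ≠ gPt 1 := by
    rintro rfl
    rw [h1] at hjv
    omega
  obtain ⟨g, hg, hgv, hgw, hmove⟩ := dstab_move j hj0 hj1 hjn
    (decide ((y : GolayPt → ℤ) j = 4)) false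
  obtain ⟨m0, m1, m3⟩ := hmove y 0 0 (-4) (-4) h0.symm h1.symm
    (by rcases hjv with h' | h' <;> simp [sg, h']) (by simp [hinf])
  have hn' : sqNorm ((g y : leechLattice) : GolayPt → ℤ) = 32 := by rw [hg.2, hn]
  have e : g y = mcA3 := eq_two_single (g y) hn' (gPt 0) (gPt 1) (by decide) 4 4 (by omega)
    (by omega) (by norm_num) mcA3 rfl
  exact ⟨g, hg, hgv, hgw, e⟩

theorem mcCl_B (y : leechLattice) (hn : sqNorm (y : GolayPt → ℤ) = 32)
    (hinf : (y : GolayPt → ℤ) none = 2) (h0 : (y : GolayPt → ℤ) (gPt 0) = 2)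
    (h1 : (y : GolayPt → ℤ) (gPt 1) = 2) : stab2Rel y mcA3 := by
  have hB : ∀ i, (y : GolayPt → ℤ) i ∈ alB := by
    rcases min_alphabet _ y.2 hn with h | h | h
    · exfalso
      have := (mem_alA _).1 (h none)
      omega
    · exact h
    · exfalso
      have := (mem_alC _).1 (h none)
      omega
  obtain ⟨a, b, hab, han, ha0, hbn, hb0, hav, hbv⟩ := alB_two _ hn hB none (gPt 0)
  have hex : ∃ b', b' ≠ gPt 0 ∧ b' ≠ gPt 1 ∧ b' ≠ none ∧
      ((y : GolayPt → ℤ) b' = 2 ∨ (y : GolayPt → ℤ) b' = -2) := by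
    by_cases ha1 : a = gPt 1
    · exact ⟨b, hb0, fun hb1 => hab (ha1.trans hb1.symm), hbn, hbv⟩
    · exact ⟨a, ha0, ha1, han, hav⟩
  obtain ⟨b', hb0', hb1', hbn', hbv'⟩ := hex
  obtain ⟨g, hg, hgv, hgw, hmove⟩ := dstab_move b' hb0' hb1' hbn'
    (decide ((y : GolayPt → ℤ) b' = -2)) false
  obtain ⟨m0, m1, m3⟩ := hmove y 2 2 2 (-2) h0.symm h1.symm
    (by rcases hbv' with h' | h' <;> simp [sg, h']) (by simp [hinf])
  have r : stab2Rel y (g y) := ⟨g, hg, hgv, hgw, rfl⟩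
  have hn' : sqNorm ((g y : leechLattice) : GolayPt → ℤ) = 32 := by rw [hg.2, hn]
  exact stab2Rel_trans r (mcCl_A (g y) hn' (by omega) (by omega) (by omega))

theorem mcCl_C (y : leechLattice) (hn : sqNorm (y : GolayPt → ℤ) = 32)
    (hinf : (y : GolayPt → ℤ) none = 3) (h0 : (y : GolayPt → ℤ) (gPt 0) = 1)
    (h1 : (y : GolayPt → ℤ) (gPt 1) = 1) : stab2Rel y mcA3 := by
  have hC := type_C_of y hn none (Or.inl hinf)
  obtain ⟨i0, hi0⟩ := alC_one3 _ hn hC
  have hi0n : i0 = none := ((hi0 none).1 (Or.inl hinf)).symm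
  obtain ⟨b, hb0, hb1, hbn⟩ := exists_other (gPt 0) (gPt 1) none
  have hbv : (y : GolayPt → ℤ) b = 1 ∨ (y : GolayPt → ℤ) b = -1 :=
    alC_pm1 _ hC i0 hi0 b (by rw [hi0n]; exact hbn)
  obtain ⟨g, hg, hgv, hgw, hmove⟩ := dstab_move b hb0 hb1 hbn
    (decide ((y : GolayPt → ℤ) b = 1)) false
  obtain ⟨m0, m1, m3⟩ := hmove y 1 1 (-1) (-3) h0.symm h1.symm
    (by rcases hbv with h' | h' <;> simp [sg, h']) (by simp [hinf])
  have r : stab2Rel y (g y) := ⟨g, hg, hgv, hgw, rfl⟩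
  have hn' : sqNorm ((g y : leechLattice) : GolayPt → ℤ) = 32 := by rw [hg.2, hn]
  exact stab2Rel_trans r (mcCl_B (g y) hn' (by omega) (by omega) (by omega))

theorem mcCl_rel (y : leechLattice) (hy : mcCl y) : stab2Rel y mcA3 := by
  obtain ⟨hn, hs, hd⟩ := hy
  rcases min_alphabet _ y.2 hn with h | h | h
  · have a1 := (mem_alA _).1 (h none)
    have a2 := (mem_alA _).1 (h (gPt 0))
    have a3 := (mem_alA _).1 (h (gPt 1))
    have hcase : ((y : GolayPt → ℤ) none = 4 ∧ (y : GolayPt → ℤ) (gPt 0) = 0 ∧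
        (y : GolayPt → ℤ) (gPt 1) = 0) ∨ ((y : GolayPt → ℤ) none = 0 ∧
        (y : GolayPt → ℤ) (gPt 0) = 4 ∧ (y : GolayPt → ℤ) (gPt 1) = 4) := by omega
    rcases hcase with ⟨en, e0, e1⟩ | ⟨en, e0, e1⟩
    · exact mcCl_A y hn en e0 e1
    · have e : y = mcA3 := eq_two_single y hn (gPt 0) (gPt 1) (by decide) 4 4 e0 e1
        (by norm_num) mcA3 rfl
      rw [e]
      exact stab2Rel_refl _
  · have a1 := (mem_alB _).1 (h none)
    have a2 := (mem_alB _).1 (h (gPt 0))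
    have a3 := (mem_alB _).1 (h (gPt 1))
    exact mcCl_B y hn (by omega) (by omega) (by omega)
  · have a1 := (mem_alC _).1 (h none)
    have a2 := (mem_alC _).1 (h (gPt 0))
    have a3 := (mem_alC _).1 (h (gPt 1))
    have hcase : ((y : GolayPt → ℤ) none = 3 ∧ (y : GolayPt → ℤ) (gPt 0) = 1 ∧
        (y : GolayPt → ℤ) (gPt 1) = 1) ∨ ((y : GolayPt → ℤ) none = 1 ∧
        (y : GolayPt → ℤ) (gPt 0) = 3 ∧ (y : GolayPt → ℤ) (gPt 1) = 3) := by omega
    rcases hcase with ⟨en, e0, e1⟩ | ⟨en, e0, e1⟩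
    · exact mcCl_C y hn en e0 e1
    · exfalso
      obtain ⟨i0, hi0⟩ := alC_one3 _ hn h
      have f0 : gPt 0 = i0 := (hi0 (gPt 0)).1 (Or.inl e0)
      have f1 : gPt 1 = i0 := (hi0 (gPt 1)).1 (Or.inl e1)
      exact absurd (f0.trans f1.symm) (by decide)

/-! ### norm 48 vectors with three coordinates `3` -/

def mcU3 (w : leechLattice) : Prop :=
  sqNorm (w : GolayPt → ℤ) = 48 ∧ (w : GolayPt → ℤ) none = 3 ∧
    (w : GolayPt → ℤ) (gPt 0) = 3 ∧ (w : GolayPt → ℤ) (gPt 1) = 3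

def mcN3f : GolayPt → ℤ := fun k => if k = none ∨ k = gPt 0 ∨ k = gPt 1 then -3 else 1

set_option maxRecDepth 100000 in
theorem mcN3_test : ltest mcN3f = true := by decide +kernel

def mcN3 : leechLattice := ⟨mcN3f, ltest_sound _ mcN3_test⟩

theorem mcU3_norm (u : leechLattice) (hU : mcU3 u) :
    ∃ c ∈ gCode, none ∈ gSup c ∧ gPt 0 ∈ gSup c ∧ gPt 1 ∈ gSup c ∧
      ∃ hcc : Helper28.Code.ofSet (gSup c) ∈ golayCode, signAut (gSup c) hcc u = mcN3 := by
  classical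
  obtain ⟨hn, hinf, h0, h1⟩ := hU
  have hodd := odd_all _ u.2 none (by rw [hinf]; norm_num)
  have huL := u.2
  rw [mem_leech_iff_fibre] at huL
  obtain ⟨m, hm, c, hc, hres, -⟩ := huL
  have hm1 : m = 1 := by
    rcases hm with h | h
    · exfalso
      have e := hres none
      unfold lres at e
      rw [h, hinf] at e
      split_ifs at e <;> omega
    · exact h
  subst hm1
  have hcc : Helper28.Code.ofSet (gSup c) ∈ golayCode :=
    (Helper28.Code.mem_supports_iff golayCode _).1 ((mem_supports_iff _).2 ⟨c, hc, rfl⟩)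
  have hmem3 : ∀ k, (u : GolayPt → ℤ) k = 3 → k ∈ gSup c := by
    intro k hk
    by_contra hmem
    have e := hres k
    unfold lres at e
    rw [if_neg hmem, hk] at e
    omega
  refine ⟨c, hc, hmem3 _ hinf, hmem3 _ h0, hmem3 _ h1, hcc, ?_⟩
  have hsub : ({none, gPt 0, gPt 1} : Finset GolayPt) ⊆ Finset.univ.filter
      (fun i => (u : GolayPt → ℤ) i = 3 ∨ (u : GolayPt → ℤ) i = -3) := by
    intro k hk
    rw [Finset.mem_insert, Finset.mem_insert, Finset.mem_singleton] at hk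
    rw [Finset.mem_filter]
    refine ⟨Finset.mem_univ _, ?_⟩
    rcases hk with rfl | rfl | rfl
    · exact Or.inl hinf
    · exact Or.inl h0
    · exact Or.inl h1
  have hc3 : ({none, gPt 0, gPt 1} : Finset GolayPt).card = 3 := by decide
  have hpm : ∀ k, k ≠ none → k ≠ gPt 0 → k ≠ gPt 1 →
      ((u : GolayPt → ℤ) k = 1 ∨ (u : GolayPt → ℤ) k = -1) := by
    intro k hk1 hk2 hk3
    rcases odd48_count _ hn hodd with ⟨hA, hB⟩ | ⟨hA, -⟩
    · have heq := Finset.eq_of_subset_of_card_le hsub (by rw [hA, hc3])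
      have hnot : k ∉ Finset.univ.filter
          (fun i => (u : GolayPt → ℤ) i = 3 ∨ (u : GolayPt → ℤ) i = -3) := by
        rw [← heq, Finset.mem_insert, Finset.mem_insert, Finset.mem_singleton]
        tauto
      have hnot5 : k ∉ Finset.univ.filter
          (fun i => (u : GolayPt → ℤ) i = 5 ∨ (u : GolayPt → ℤ) i = -5) := by
        rw [Finset.card_eq_zero.1 hB]
        exact Finset.notMem_empty _
      rw [Finset.mem_filter] at hnot hnot5
      rcases odd48_vals _ hn hodd k with h | h | h | h | h | h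
      · exact Or.inl h
      · exact Or.inr h
      · exact absurd ⟨Finset.mem_univ _, Or.inl h⟩ hnot
      · exact absurd ⟨Finset.mem_univ _, Or.inr h⟩ hnot
      · exact absurd ⟨Finset.mem_univ _, Or.inl h⟩ hnot5
      · exact absurd ⟨Finset.mem_univ _, Or.inr h⟩ hnot5
    · exfalso
      have : none ∈ Finset.univ.filter
          (fun i => (u : GolayPt → ℤ) i = 3 ∨ (u : GolayPt → ℤ) i = -3) := by simp [hinf]
      rw [Finset.card_eq_zero.1 hA] at this
      exact absurd this (Finset.notMem_empty _)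
  apply Subtype.ext
  funext k
  rw [signAut_apply]
  show _ = if k = none ∨ k = gPt 0 ∨ k = gPt 1 then (-3 : ℤ) else 1
  have e := hres k
  unfold lres at e
  by_cases hk : k = none ∨ k = gPt 0 ∨ k = gPt 1
  · rw [if_pos hk]
    rcases hk with rfl | rfl | rfl
    · rw [if_pos (hmem3 _ hinf), hinf]
    · rw [if_pos (hmem3 _ h0), h0]
    · rw [if_pos (hmem3 _ h1), h1]
  · rw [if_neg hk]
    have hk' : k ≠ none ∧ k ≠ gPt 0 ∧ k ≠ gPt 1 := by tauto
    by_cases hkc : k ∈ gSup c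
    · rw [if_pos hkc] at e ⊢
      rcases hpm k hk'.1 hk'.2.1 hk'.2.2 with h' | h' <;> rw [h'] at e ⊢ <;> omega
    · rw [if_neg hkc] at e ⊢
      rcases hpm k hk'.1 hk'.2.1 hk'.2.2 with h' | h' <;> rw [h'] at e ⊢ <;> omega

theorem mcSign2_fix (w : leechLattice)
    (hw : ∀ k, k ≠ none → k ≠ gPt 0 → k ≠ gPt 1 → (w : GolayPt → ℤ) k = 0)
    (c c' : ℕ) (hcc : Helper28.Code.ofSet (gSup c) ∈ golayCode)
    (hcc' : Helper28.Code.ofSet (gSup c') ∈ golayCode) (hn : none ∈ gSup c)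
    (h0 : gPt 0 ∈ gSup c) (h1 : gPt 1 ∈ gSup c) (hn' : none ∈ gSup c')
    (h0' : gPt 0 ∈ gSup c') (h1' : gPt 1 ∈ gSup c') :
    signAut (gSup c') hcc' (signAut (gSup c) hcc w) = w := by
  apply Subtype.ext
  funext k
  rw [signAut_apply, signAut_apply]
  by_cases hk : k = none
  · subst hk
    rw [if_pos hn', if_pos hn]
    norm_num
  · by_cases hk0 : k = gPt 0
    · subst hk0
      rw [if_pos h0', if_pos h0]
      norm_num
    · by_cases hk1 : k = gPt 1
      · subst hk1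
        rw [if_pos h1', if_pos h1]
        norm_num
      · rw [hw k hk hk0 hk1]
        split_ifs <;> norm_num

theorem mcU3_rel (u u' : leechLattice) (hU : mcU3 u) (hU' : mcU3 u') :
    ∃ g ∈ Co0, g v0 = v0 ∧ g wA = wA ∧ g mcA3 = mcA3 ∧ g u = u' := by
  obtain ⟨c, hc, hn, h0, h1, hcc, e⟩ := mcU3_norm u hU
  obtain ⟨c', hc', hn', h0', h1', hcc', e'⟩ := mcU3_norm u' hU'
  have hg : signAut (gSup c') hcc' * signAut (gSup c) hcc ∈ Co0 :=
    Co0.mul_mem (signAut_mem _ hcc') (signAut_mem _ hcc)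
  refine ⟨signAut (gSup c') hcc' * signAut (gSup c) hcc, hg, ?_, ?_, ?_, ?_⟩
  · rw [Equiv.Perm.mul_apply]
    apply mcSign2_fix v0 _ c c' hcc hcc' hn h0 h1 hn' h0' h1'
    intro k hk hk0 hk1
    rw [v0_apply, if_neg hk, if_neg hk0]
    norm_num
  · rw [Equiv.Perm.mul_apply]
    apply mcSign2_fix wA _ c c' hcc hcc' hn h0 h1 hn' h0' h1'
    intro k hk hk0 hk1
    rw [wA_apply, if_neg hk0, if_neg hk1]
    norm_num
  · rw [Equiv.Perm.mul_apply]
    apply mcSign2_fix mcA3 _ c c' hcc hcc' hn h0 h1 hn' h0' h1'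
    intro k hk hk0 hk1
    show (Pi.single (gPt 0) 4 + Pi.single (gPt 1) 4 : GolayPt → ℤ) k = 0
    rw [Pi.add_apply, Pi.single_apply, Pi.single_apply, if_neg hk0, if_neg hk1]
    norm_num
  · rw [Equiv.Perm.mul_apply, e, ← e', signAut_invol]

/-! ### transitivity on the non-neighbours -/

theorem mcl_trans16 (u v x y y' : leechLattice) (hu : sqNorm (u : GolayPt → ℤ) = 48)
    (hv : sqNorm (v : GolayPt → ℤ) = 32 ∧
      sqNorm ((u : GolayPt → ℤ) - (v : GolayPt → ℤ)) = 32)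
    (hx : x ∈ mclX u v 16) (hy : y ∈ mclX u v 16) (hy' : y' ∈ mclX u v 16)
    (hd : dotInt (x : GolayPt → ℤ) (y : GolayPt → ℤ) = 16)
    (hd' : dotInt (x : GolayPt → ℤ) (y' : GolayPt → ℤ) = 16) :
    ∃ g : Co0, g • u = u ∧ g • v = v ∧ g • x = x ∧ g • y = y' := by
  have huv := dot_of_tri u v hu hv.1 hv.2
  obtain ⟨hx1, hx2, hx3⟩ := hx
  have hux := dot_of_tri u x hu hx1 hx2
  have ht : sqNorm ((v - x : leechLattice) : GolayPt → ℤ) = 32 := by
    rw [AddSubgroup.coe_sub, Helper28.Leech.sqNorm_sub, hv.1, hx1, hx3]; norm_num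
  have hdx : dotInt (x : GolayPt → ℤ) ((v - x : leechLattice) : GolayPt → ℤ) = -16 := by
    rw [AddSubgroup.coe_sub, dot_sub_right, dotInt_symm (x : GolayPt → ℤ) (v : GolayPt → ℤ),
      hx3, ← sqNorm_eq_dot, hx1]; norm_num
  obtain ⟨g1, hg1, e1, e2⟩ := pair16_norm x (v - x) hx1 ht hdx
  have e00 : (gPt 0 : GolayPt) = some 0 := rfl
  have key : ∀ z : leechLattice, z ∈ mclX u v 16 →
      dotInt (x : GolayPt → ℤ) (z : GolayPt → ℤ) = 16 →
      ∃ g ∈ Co0, g x = v0 ∧ g (v - x) = wA ∧ g z = mcA3 ∧ mcU3 (g u) := by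
    rintro z ⟨hz1, hz2, hz3⟩ hdz
    have huz := dot_of_tri u z hu hz1 hz2
    have c1 : mcCl (g1 z) := by
      refine ⟨by rw [hg1.2, hz1], ?_, ?_⟩
      · have d := co0_dot g1 hg1 x z
        rw [e1, dot_v0, hdz] at d
        rw [e00]
        omega
      · have d := co0_dot g1 hg1 (v - x) z
        rw [e2, dot_wA, AddSubgroup.coe_sub, dot_sub_left, hz3, hdz] at d
        omega
    obtain ⟨h, hh, f1, f2, f3⟩ := mcCl_rel _ c1
    have hg : h * g1 ∈ Co0 := Co0.mul_mem hh hg1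
    have a1 : (h * g1) x = v0 := by rw [Equiv.Perm.mul_apply, e1, f1]
    have a2 : (h * g1) (v - x) = wA := by rw [Equiv.Perm.mul_apply, e2, f2]
    have a3 : (h * g1) z = mcA3 := by rw [Equiv.Perm.mul_apply, f3]
    refine ⟨h * g1, hg, a1, a2, a3, ?_⟩
    have d1 := co0_dot (h * g1) hg x u
    rw [a1, dot_v0, dotInt_symm (x : GolayPt → ℤ) (u : GolayPt → ℤ), hux] at d1
    have d2 := co0_dot (h * g1) hg (v - x) u
    rw [a2, dot_wA, AddSubgroup.coe_sub, dot_sub_left,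
      dotInt_symm (v : GolayPt → ℤ) (u : GolayPt → ℤ), huv,
      dotInt_symm (x : GolayPt → ℤ) (u : GolayPt → ℤ), hux] at d2
    have d3 := co0_dot (h * g1) hg z u
    rw [a3, mcA3_dot, dotInt_symm (z : GolayPt → ℤ) (u : GolayPt → ℤ), huz] at d3
    rw [← e00] at d1
    exact ⟨by rw [hg.2, hu], by omega, by omega, by omega⟩
  obtain ⟨k1, hk1, a1, b1, c1, u1⟩ := key y hy hd
  obtain ⟨k2, hk2, a2, b2, c2, u2⟩ := key y' hy' hd'
  obtain ⟨s, hs, s1, s2, s3, s4⟩ := mcU3_rel _ _ u1 u2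
  have hk : k2⁻¹ * s * k1 ∈ Co0 := Co0.mul_mem (Co0.mul_mem (Co0.inv_mem hk2) hs) hk1
  have ex : (k2⁻¹ * s * k1) x = x := by
    simp only [Equiv.Perm.mul_apply]
    rw [a1, s1, ← a2]; simp
  have et : (k2⁻¹ * s * k1) (v - x) = v - x := by
    simp only [Equiv.Perm.mul_apply]
    rw [b1, s2, ← b2]; simp
  have ey : (k2⁻¹ * s * k1) y = y' := by
    simp only [Equiv.Perm.mul_apply]
    rw [c1, s3, ← c2]; simp
  have eu : (k2⁻¹ * s * k1) u = u := by
    simp only [Equiv.Perm.mul_apply]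
    rw [s4]; simp
  have ev : (k2⁻¹ * s * k1) v = v := by
    have e := hk.1 x (v - x)
    rw [add_sub_cancel, ex, et, add_sub_cancel] at e
    exact e
  exact ⟨⟨_, hk⟩, eu, ev, ex, ey⟩

/-! ### the standard position -/

/-- the vector `4e_∞ + 4e_1` -/
def mcV1 : leechLattice := v0 + wA

theorem mcV1_dot (w : GolayPt → ℤ) :
    dotInt (mcV1 : GolayPt → ℤ) w = 4 * (w none + w (gPt 1)) := by
  show dotInt ((v0 : GolayPt → ℤ) + (wA : GolayPt → ℤ)) w = _
  rw [dot_add_left, dot_v0, dot_wA]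
  have e00 : (gPt 0 : GolayPt) = some 0 := rfl
  rw [e00]
  ring

set_option maxRecDepth 100000 in
theorem mcStd_sum : ∀ k : GolayPt, (Pi.single none 4 + Pi.single (some 0) 4 : GolayPt → ℤ) k +
    (Pi.single (gPt 0) (-4) + Pi.single (gPt 1) 4 : GolayPt → ℤ) k + yP (gPt 1) k = u5 k := by
  decide +kernel

theorem mcStd_u : mcV1 + yPL (gPt 1) = u5L := by
  apply Subtype.ext
  funext k
  exact mcStd_sum k

theorem mcStd_triple (u v x : leechLattice) (hu : sqNorm (u : GolayPt → ℤ) = 48)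
    (hv : sqNorm (v : GolayPt → ℤ) = 32 ∧
      sqNorm ((u : GolayPt → ℤ) - (v : GolayPt → ℤ)) = 32)
    (hx : x ∈ mclX u v 16) :
    ∃ g ∈ Co0, g u = u5L ∧ g v = mcV1 ∧ g x = v0 := by
  have huv := dot_of_tri u v hu hv.1 hv.2
  obtain ⟨hy1, hy2, hy3⟩ := hx
  have huy := dot_of_tri u x hu hy1 hy2
  have ht : sqNorm ((v - x : leechLattice) : GolayPt → ℤ) = 32 := by
    rw [AddSubgroup.coe_sub, Helper28.Leech.sqNorm_sub, hv.1, hy1, hy3]; norm_num
  have hd : dotInt (x : GolayPt → ℤ) ((v - x : leechLattice) : GolayPt → ℤ) = -16 := by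
    rw [AddSubgroup.coe_sub, dot_sub_right, dotInt_symm (x : GolayPt → ℤ) (v : GolayPt → ℤ),
      hy3, ← sqNorm_eq_dot, hy1]; norm_num
  obtain ⟨g, hg, e1, e2⟩ := pair16_norm x (v - x) hy1 ht hd
  have d1 : dotInt (x : GolayPt → ℤ) ((u - v : leechLattice) : GolayPt → ℤ) = 8 := by
    rw [AddSubgroup.coe_sub, dot_sub_right, dotInt_symm (x : GolayPt → ℤ) (u : GolayPt → ℤ),
      dotInt_symm (x : GolayPt → ℤ) (v : GolayPt → ℤ), huy, hy3]; norm_num
  have d1' : dotInt (x : GolayPt → ℤ) ((u : GolayPt → ℤ) - (v : GolayPt → ℤ)) = 8 := by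
    rw [← AddSubgroup.coe_sub]; exact d1
  have d2 : dotInt ((v - x : leechLattice) : GolayPt → ℤ)
      ((u - v : leechLattice) : GolayPt → ℤ) = -16 := by
    rw [AddSubgroup.coe_sub, AddSubgroup.coe_sub, dot_sub_left, d1', dot_sub_right,
      dotInt_symm (v : GolayPt → ℤ) (u : GolayPt → ℤ), huv, ← sqNorm_eq_dot, hv.1]
    norm_num
  have hW : isW (g (u - v)) := by
    refine ⟨?_, ?_, ?_⟩
    · rw [hg.2, AddSubgroup.coe_sub]; exact hv.2
    · have d := co0_dot g hg x (u - v)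
      rw [e1, dot_v0, d1] at d
      have e : (gPt 0 : GolayPt) = some 0 := rfl
      rw [e]
      omega
    · have d := co0_dot g hg (v - x) (u - v)
      rw [e2, dot_wA, d2] at d
      omega
  obtain ⟨h, hh, f1, f2, f3⟩ := W_rel _ hW
  have hk : h * g ∈ Co0 := Co0.mul_mem hh hg
  have a1 : (h * g) x = v0 := by rw [Equiv.Perm.mul_apply, e1, f1]
  have a2 : (h * g) (v - x) = wA := by rw [Equiv.Perm.mul_apply, e2, f2]
  have a3 : (h * g) (u - v) = yPL (gPt 1) := by rw [Equiv.Perm.mul_apply, f3]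
  have av : (h * g) v = mcV1 := by
    have e := hk.1 x (v - x)
    rw [add_sub_cancel, a1, a2] at e
    exact e
  have au : (h * g) u = u5L := by
    have e := hk.1 v (u - v)
    rw [add_sub_cancel, av, a3, mcStd_u] at e
    exact e
  exact ⟨h * g, hk, au, av, a1⟩

end Cfsg.Agent.Helper3
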