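import Mathlib
import Cfsg.Agent.Helper3.LeechMcL2
import Cfsg.Agent.Helper3.LeechHS4

set_option autoImplicit false
set_option linter.unusedSectionVars false
set_option linter.style.haveILetI false
set_option linter.unusedSimpArgs false
set_option linter.unusedVariables false
set_option linter.deprecated false
set_option linter.unnecessarySeqFocus false

namespace Cfsg.Agent.Helper3

open Cfsg Cfsg.Agent.Helper28.Leech
open scoped Pointwise

/-! ### explicit vectors of the standard McLaughlin configuration -/

/-- `(0, k)`: `4e_∞ + 4e_k`; `(1, c)`: `2` on the octad `c`; `(2, c)`: `3` at `∞`, `-1` on the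
rest of the octad `c`, `1` elsewhere -/
def mcMv (p : ℕ × ℕ) : GolayPt → ℤ := fun i =>
  if p.1 = 0 then (if i = none then 4 else if gIdx i = p.2 then 4 else 0)
  else if p.1 = 1 then (if p.2.testBit (gIdx i) = true then 2 else 0)
  else (if i = none then 3 else if p.2.testBit (gIdx i) = true then -1 else 1)

def mcL16 : List (ℕ × ℕ) :=
  ((List.range 23).filter (fun k => decide (2 ≤ k))).map (fun k => (0, k)) ++
  ((gCode.filter (fun c => pc24 c == 8 && c.testBit 23 && c.testBit 0 && c.testBit 1)).map
    (fun c => (1, c)) ++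
  (gCode.filter (fun c => pc24 c == 8 && c.testBit 23 && !c.testBit 0 && !c.testBit 1)).map
    (fun c => (2, c)))

def mcL8 : List (ℕ × ℕ) :=
  (gCode.filter (fun c => pc24 c == 8 && c.testBit 23 && !c.testBit 0 && c.testBit 1)).map
    (fun c => (1, c)) ++
  (gCode.filter (fun c => pc24 c == 8 && c.testBit 23 && c.testBit 0 && !c.testBit 1)).map
    (fun c => (2, c))

set_option maxRecDepth 100000 in
theorem mcL16_len : mcL16.length = 162 := by decide +kernel

set_option maxRecDepth 100000 in
theorem mcL8_len : mcL8.length = 112 := by decide +kernel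

set_option maxRecDepth 100000 in
theorem mcL16_nodup : mcL16.Nodup := by decide +kernel

set_option maxRecDepth 100000 in
theorem mcL8_nodup : mcL8.Nodup := by decide +kernel

set_option maxRecDepth 100000 in
theorem mcFacts16 : ∀ p ∈ mcL16, ltest (mcMv p) = true ∧ sqNorm (mcMv p) = 32 ∧
    sqNorm (u5 - mcMv p) = 32 ∧ mcMv p none + mcMv p (gPt 1) = 4 ∧
    mcMv p none + mcMv p (some 0) = 4 ∧ mcMv p (some 0) ≠ 4 := by decide +kernel

set_option maxRecDepth 100000 in
theorem mcFacts8 : ∀ p ∈ mcL8, ltest (mcMv p) = true ∧ sqNorm (mcMv p) = 32 ∧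
    sqNorm (u5 - mcMv p) = 32 ∧ mcMv p none + mcMv p (gPt 1) = 4 ∧
    mcMv p none + mcMv p (some 0) = 2 := by decide +kernel

set_option maxRecDepth 100000 in
theorem mcInj16' : ∀ p ∈ mcL16, ∀ q ∈ mcL16,
    (∀ j ∈ List.range 24, mcMv p (gPt j) = mcMv q (gPt j)) → p = q := by decide +kernel

set_option maxRecDepth 100000 in
theorem mcInj8' : ∀ p ∈ mcL8, ∀ q ∈ mcL8,
    (∀ j ∈ List.range 24, mcMv p (gPt j) = mcMv q (gPt j)) → p = q := by decide +kernel

end Cfsg.Agent.Helper3
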