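import Mathlib
import Cfsg.Agent.Helper3.LeechMcL3a

set_option autoImplicit false
set_option linter.unusedSectionVars false
set_option linter.style.haveILetI false
set_option linter.unusedSimpArgs false
set_option linter.unusedVariables false
set_option linter.deprecated false
set_option linter.unnecessarySeqFocus false

namespace Cfsg.Agent.Helper3

open Cfsg Cfsg.Agent.Helper28.Leech
open scoped Pointwise

set_option maxRecDepth 100000 in
theorem mcTag8 : ∀ p ∈ mcL8, (p.1 = 1 ∧ mcMv p none = 2) ∨ (p.1 = 2 ∧ mcMv p none = 3) := by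
  decide +kernel

set_option maxRecDepth 100000 in
theorem mcBit8 : ∀ p ∈ mcL8, ∀ i : GolayPt, i ≠ none →
    (p.2.testBit (gIdx i) = true ↔ mcMv p i = (if p.1 = 1 then 2 else -1)) := by
  decide +kernel

set_option maxRecDepth 100000 in
theorem mcPick : ∀ p ∈ mcL8, ∃ a ∈ List.range 23, ∃ b ∈ List.range 23, 2 ≤ a ∧ 2 ≤ b ∧ a ≠ b ∧
    p.2.testBit a = true ∧ p.2.testBit b = true := by
  decide +kernel

set_option maxRecDepth 100000 in
theorem mcOrb : ∀ p ∈ mcL8, p.2.testBit 2 = true → p.2.testBit 3 = true →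
    ∃ q ∈ orb6, p.2.testBit q = true := by
  decide +kernel

/-- the standard octads of the two families of neighbours -/
def mcStd (t : ℕ) : ℕ := if t = 1 then 8683614 else 10486557

set_option maxRecDepth 100000 in
theorem mcUniq : ∀ p ∈ mcL8, p.2.testBit 2 = true → p.2.testBit 3 = true →
    p.2.testBit 4 = true → p.2 = mcStd p.1 := by
  decide +kernel

def mcLA1 : List (ℕ × ℕ) :=
  mcL8.filter (fun p => decide (p.1 = 1 ∧ dotInt (mcMv (1, 8536111)) (mcMv p) = 16))

def mcLA2 : List (ℕ × ℕ) :=
  mcL8.filter (fun p => decide (p.1 = 1 ∧ dotInt (mcMv (0, 2)) (mcMv p) = 16))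

set_option maxRecDepth 100000 in
theorem mcLA1_len : mcLA1.length = 40 := by decide +kernel

set_option maxRecDepth 100000 in
theorem mcLA2_len : mcLA2.length = 16 := by decide +kernel

set_option maxRecDepth 100000 in
theorem mcZ_mem : (1, 8536111) ∈ mcL16 ∧ (0, 2) ∈ mcL16 := by decide +kernel

set_option maxRecDepth 100000 in
theorem mcPt_ne : ∀ a ∈ List.range 23, ∀ b ∈ List.range 23, a ≠ b → gPt a ≠ gPt b := by
  decide +kernel

set_option maxRecDepth 100000 in
theorem mcPt_nn : ∀ a ∈ List.range 23, gPt a ≠ none := by decide +kernel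

theorem mcOrb_lt : ∀ q ∈ orb6, q < 24 := by decide

set_option maxRecDepth 100000 in
theorem mcV1_norm : sqNorm ((Pi.single none 4 + Pi.single (some 0) 4 : GolayPt → ℤ) +
    (Pi.single (gPt 0) (-4) + Pi.single (gPt 1) 4)) = 32 := by decide +kernel

set_option maxRecDepth 100000 in
theorem mcV1_norm' : sqNorm (u5 - ((Pi.single none 4 + Pi.single (some 0) 4 : GolayPt → ℤ) +
    (Pi.single (gPt 0) (-4) + Pi.single (gPt 1) 4))) = 32 := by decide +kernel

set_option maxRecDepth 100000 in
theorem mcV0_norm' : sqNorm (u5 - (Pi.single none 4 + Pi.single (some 0) 4 : GolayPt → ℤ)) = 32 := by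
  decide +kernel

set_option maxRecDepth 100000 in
theorem mcV0_dot : dotInt ((Pi.single none 4 + Pi.single (some 0) 4 : GolayPt → ℤ) +
    (Pi.single (gPt 0) (-4) + Pi.single (gPt 1) 4))
    (Pi.single none 4 + Pi.single (some 0) 4 : GolayPt → ℤ) = 16 := by decide +kernel

end Cfsg.Agent.Helper3
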