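import Mathlib
import Cfsg.Agent.Helper3.LeechMcL3b

set_option autoImplicit false
set_option linter.unusedSectionVars false
set_option linter.style.haveILetI false
set_option linter.unusedSimpArgs false
set_option linter.unusedVariables false
set_option linter.deprecated false
set_option linter.unnecessarySeqFocus false

namespace Cfsg.Agent.Helper3

open Cfsg Cfsg.Agent.Helper28.Leech
open scoped Pointwise

open Classical in
/-- the lattice vector of an index pair -/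
noncomputable def mcMvL (p : ℕ × ℕ) : leechLattice :=
  if h : ltest (mcMv p) = true then ⟨mcMv p, ltest_sound _ h⟩ else 0

theorem mcMvL_coe {p : ℕ × ℕ} (hp : ltest (mcMv p) = true) :
    ((mcMvL p : leechLattice) : GolayPt → ℤ) = mcMv p := by
  unfold mcMvL
  rw [dif_pos hp]

theorem mcInj8 {p q : ℕ × ℕ} (hp : p ∈ mcL8) (hq : q ∈ mcL8) (h : mcMvL p = mcMvL q) :
    p = q := by
  have e : ((mcMvL p : leechLattice) : GolayPt → ℤ) = ((mcMvL q : leechLattice) : GolayPt → ℤ) := by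
    rw [h]
  rw [mcMvL_coe (mcFacts8 p hp).1, mcMvL_coe (mcFacts8 q hq).1] at e
  exact mcInj8' p hp q hq (fun j _ => by rw [e])

theorem mcInj16 {p q : ℕ × ℕ} (hp : p ∈ mcL16) (hq : q ∈ mcL16) (h : mcMvL p = mcMvL q) :
    p = q := by
  have e : ((mcMvL p : leechLattice) : GolayPt → ℤ) = ((mcMvL q : leechLattice) : GolayPt → ℤ) := by
    rw [h]
  rw [mcMvL_coe (mcFacts16 p hp).1, mcMvL_coe (mcFacts16 q hq).1] at e
  exact mcInj16' p hp q hq (fun j _ => by rw [e])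

/-! ### the standard configuration -/

def mcX0 : Set leechLattice := mclX u5L mcV1 16

def mcY8 : Set leechLattice :=
  {y | y ∈ mcX0 ∧ dotInt (v0 : GolayPt → ℤ) (y : GolayPt → ℤ) = 8}

def mcY16 : Set leechLattice :=
  {y | y ∈ mcX0 ∧ y ≠ v0 ∧ dotInt (v0 : GolayPt → ℤ) (y : GolayPt → ℤ) = 16}

noncomputable def mcT8 : Set leechLattice := mcMvL '' (↑mcL8.toFinset : Set (ℕ × ℕ))

noncomputable def mcT16 : Set leechLattice := mcMvL '' (↑mcL16.toFinset : Set (ℕ × ℕ))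

theorem mcStd_hv : sqNorm ((mcV1 : leechLattice) : GolayPt → ℤ) = 32 ∧
    sqNorm ((u5L : GolayPt → ℤ) - (mcV1 : GolayPt → ℤ)) = 32 := ⟨mcV1_norm, mcV1_norm'⟩

theorem mcX0_ncard : mcX0.ncard = 275 := mcl_count u5L mcV1 sqNorm_u5 mcStd_hv

theorem mclX_iff (u v y : leechLattice) (hu : sqNorm (u : GolayPt → ℤ) = 48) :
    y ∈ mclX u v 16 ↔ sqNorm (y : GolayPt → ℤ) = 32 ∧
      dotInt (u : GolayPt → ℤ) (y : GolayPt → ℤ) = 24 ∧
      dotInt (v : GolayPt → ℤ) (y : GolayPt → ℤ) = 16 := by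
  constructor
  · rintro ⟨h1, h2, h3⟩
    exact ⟨h1, dot_of_tri u y hu h1 h2, h3⟩
  · rintro ⟨h1, h2, h3⟩
    refine ⟨h1, ?_, h3⟩
    rw [Helper28.Leech.sqNorm_sub, hu, h1, h2]; norm_num

theorem mcV0_mem : v0 ∈ mcX0 := ⟨v0_norm, mcV0_norm', mcV0_dot⟩

theorem mcT8_sub : mcT8 ⊆ mcY8 := by
  rintro y ⟨p, hp, rfl⟩
  rw [Finset.mem_coe, List.mem_toFinset] at hp
  obtain ⟨f0, f1, f2, f3, f4⟩ := mcFacts8 p hp
  refine ⟨⟨?_, ?_, ?_⟩, ?_⟩
  · rw [mcMvL_coe f0]; exact f1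
  · rw [mcMvL_coe f0]; exact f2
  · rw [mcV1_dot, mcMvL_coe f0, f3]; norm_num
  · rw [dot_v0, mcMvL_coe f0, f4]; norm_num

theorem mcT16_sub : mcT16 ⊆ mcY16 := by
  rintro y ⟨p, hp, rfl⟩
  rw [Finset.mem_coe, List.mem_toFinset] at hp
  obtain ⟨f0, f1, f2, f3, f4, f5⟩ := mcFacts16 p hp
  refine ⟨⟨?_, ?_, ?_⟩, ?_, ?_⟩
  · rw [mcMvL_coe f0]; exact f1
  · rw [mcMvL_coe f0]; exact f2
  · rw [mcV1_dot, mcMvL_coe f0, f3]; norm_num
  · intro h
    have e : ((mcMvL p : leechLattice) : GolayPt → ℤ) (some 0) = (v0 : GolayPt → ℤ) (some 0) := by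
      rw [h]
    rw [mcMvL_coe f0] at e
    apply f5
    rw [e]
    rfl
  · rw [dot_v0, mcMvL_coe f0, f4]; norm_num

theorem mcT8_ncard : mcT8.ncard = 112 := by
  unfold mcT8
  rw [Set.ncard_image_of_injOn, Set.ncard_coe_finset, List.toFinset_card_of_nodup mcL8_nodup]
  · exact mcL8_len
  · intro p hp q hq h
    rw [Finset.mem_coe, List.mem_toFinset] at hp hq
    exact mcInj8 hp hq h

theorem mcT16_ncard : mcT16.ncard = 162 := by
  unfold mcT16
  rw [Set.ncard_image_of_injOn, Set.ncard_coe_finset, List.toFinset_card_of_nodup mcL16_nodup]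
  · exact mcL16_len
  · intro p hp q hq h
    rw [Finset.mem_coe, List.mem_toFinset] at hp hq
    exact mcInj16 hp hq h

theorem mcClass : mcY8.ncard = 112 ∧ mcY16.ncard = 162 ∧ mcY8 = mcT8 ∧
    (∀ y ∈ mcX0, y ≠ v0 → dotInt (v0 : GolayPt → ℤ) (y : GolayPt → ℤ) ≠ 16 → y ∈ mcY8) := by
  have hfin : mcX0.Finite := Set.finite_of_ncard_ne_zero (by rw [mcX0_ncard]; norm_num)
  have h8 : mcY8 ⊆ mcX0 := fun y hy => hy.1
  have h16 : mcY16 ⊆ mcX0 := fun y hy => hy.1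
  have f8 : mcY8.Finite := hfin.subset h8
  have f16 : mcY16.Finite := hfin.subset h16
  have hdis : Disjoint mcY8 mcY16 := by
    rw [Set.disjoint_left]
    intro y hy hy'
    have a := hy.2
    have b := hy'.2.2
    omega
  have hv0 : v0 ∉ mcY8 ∪ mcY16 := by
    rintro (h | h)
    · have := h.2
      rw [← sqNorm_eq_dot, v0_norm] at this
      omega
    · exact h.2.1 rfl
  have hsub : insert v0 (mcY8 ∪ mcY16) ⊆ mcX0 := by
    rintro y (h | h | h)
    · rw [h]; exact mcV0_mem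
    · exact h.1
    · exact h.1
  have hcount : (insert v0 (mcY8 ∪ mcY16)).ncard = mcY8.ncard + mcY16.ncard + 1 := by
    rw [Set.ncard_insert_of_notMem hv0 (f8.union f16), Set.ncard_union_eq hdis f8 f16]
  have hle : (insert v0 (mcY8 ∪ mcY16)).ncard ≤ 275 := by
    rw [← mcX0_ncard]; exact Set.ncard_le_ncard hsub hfin
  have g8 : 112 ≤ mcY8.ncard := by
    rw [← mcT8_ncard]; exact Set.ncard_le_ncard mcT8_sub f8
  have g16 : 162 ≤ mcY16.ncard := by
    rw [← mcT16_ncard]; exact Set.ncard_le_ncard mcT16_sub f16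
  have c8 : mcY8.ncard = 112 := by omega
  have c16 : mcY16.ncard = 162 := by omega
  have hX : insert v0 (mcY8 ∪ mcY16) = mcX0 :=
    Set.eq_of_subset_of_ncard_le hsub (by rw [mcX0_ncard, hcount, c8, c16]) hfin
  refine ⟨c8, c16, ?_, ?_⟩
  · exact (Set.eq_of_subset_of_ncard_le mcT8_sub (by rw [c8, mcT8_ncard]) f8).symm
  · intro y hy hne hd
    rw [← hX] at hy
    rcases hy with h | h | h
    · exact absurd h hne
    · exact h
    · exact absurd h.2.2 hd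

/-! ### the stabiliser of the standard triple -/

def mcStab (y y' : leechLattice) : Prop :=
  ∃ g ∈ Co0, g u5L = u5L ∧ g mcV1 = mcV1 ∧ g v0 = v0 ∧ g y = y'

theorem mcStab_symm {y y' : leechLattice} (h : mcStab y y') : mcStab y' y := by
  obtain ⟨g, hg, e1, e2, e3, e4⟩ := h
  exact ⟨g⁻¹, Co0.inv_mem hg, Equiv.Perm.inv_eq_iff_eq.2 e1.symm,
    Equiv.Perm.inv_eq_iff_eq.2 e2.symm, Equiv.Perm.inv_eq_iff_eq.2 e3.symm,
    Equiv.Perm.inv_eq_iff_eq.2 e4.symm⟩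

theorem mcStab_trans {y y' y'' : leechLattice} (h1 : mcStab y y') (h2 : mcStab y' y'') :
    mcStab y y'' := by
  obtain ⟨g, hg, e1, e2, e3, e4⟩ := h1
  obtain ⟨g', hg', e1', e2', e3', e4'⟩ := h2
  exact ⟨g' * g, Co0.mul_mem hg' hg, by rw [Equiv.Perm.mul_apply, e1, e1'],
    by rw [Equiv.Perm.mul_apply, e2, e2'], by rw [Equiv.Perm.mul_apply, e3, e3'],
    by rw [Equiv.Perm.mul_apply, e4, e4']⟩

theorem mcStab_Y8 {y y' : leechLattice} (h : mcStab y y') (hy : y ∈ mcY8) : y' ∈ mcY8 := by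
  obtain ⟨g, hg, e1, e2, e3, rfl⟩ := h
  obtain ⟨hx, hd⟩ := hy
  obtain ⟨a1, a2, a3⟩ := (mclX_iff u5L mcV1 y sqNorm_u5).1 hx
  have d1 := co0_dot g hg u5L y
  have d2 := co0_dot g hg mcV1 y
  have d3 := co0_dot g hg v0 y
  rw [e1] at d1
  rw [e2] at d2
  rw [e3] at d3
  exact ⟨(mclX_iff u5L mcV1 (g y) sqNorm_u5).2 ⟨by rw [hg.2]; exact a1, d1.trans a2,
    d2.trans a3⟩, d3.trans hd⟩

theorem mcPerm_fix (σ : Equiv.Perm GolayPt) (hσ : σ ∈ M24) (h1 : σ none = none)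
    (h2 : σ (gPt 0) = gPt 0) (h3 : σ (gPt 1) = gPt 1) (y : leechLattice) :
    mcStab y (permAut σ hσ y) := by
  obtain ⟨p1, -, p3⟩ := perm_fix σ hσ h1 h2
  have e2 : ∀ k, σ k = gPt 0 ↔ k = gPt 0 :=
    fun k => ⟨fun h => σ.injective (h.trans h2.symm), fun h => h ▸ h2⟩
  have e3 : ∀ k, σ k = gPt 1 ↔ k = gPt 1 :=
    fun k => ⟨fun h => σ.injective (h.trans h3.symm), fun h => h ▸ h3⟩
  have pw : permAut σ hσ wA = wA := by
    apply Subtype.ext
    funext k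
    rw [permAut_apply, wA_apply, wA_apply]
    simp only [e2, e3]
  have pv : permAut σ hσ mcV1 = mcV1 := by
    show permAut σ hσ (v0 + wA) = v0 + wA
    rw [(permAut_mem σ hσ).1, p3, pw]
  exact ⟨permAut σ hσ, permAut_mem σ hσ, p1, pv, p3, rfl⟩

theorem mcStage (p : ℕ × ℕ) (hp : p ∈ mcL8) (σ : Equiv.Perm GolayPt) (hσ : σ ∈ M24)
    (h1 : σ none = none) (h2 : σ (gPt 0) = gPt 0) (h3 : σ (gPt 1) = gPt 1) :
    ∃ q ∈ mcL8, q.1 = p.1 ∧ mcStab (mcMvL p) (mcMvL q) ∧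
      ∀ i : GolayPt, i ≠ none →
        (q.2.testBit (gIdx i) = true ↔ p.2.testBit (gIdx (σ i)) = true) := by
  have r := mcPerm_fix σ hσ h1 h2 h3 (mcMvL p)
  have hmem : permAut σ hσ (mcMvL p) ∈ mcY8 :=
    mcStab_Y8 r (mcT8_sub ⟨p, by rw [Finset.mem_coe, List.mem_toFinset]; exact hp, rfl⟩)
  rw [mcClass.2.2.1] at hmem
  obtain ⟨q, hq, e⟩ := hmem
  rw [Finset.mem_coe, List.mem_toFinset] at hq
  have hval : ∀ i : GolayPt, mcMv q i = mcMv p (σ i) := by
    intro i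
    have h' : ((mcMvL q : leechLattice) : GolayPt → ℤ) i =
        ((permAut σ hσ (mcMvL p) : leechLattice) : GolayPt → ℤ) i := by rw [e]
    rw [mcMvL_coe (mcFacts8 q hq).1, permAut_apply, mcMvL_coe (mcFacts8 p hp).1] at h'
    exact h'
  have htag : q.1 = p.1 := by
    have hv := hval none
    rw [h1] at hv
    rcases mcTag8 p hp with ⟨a, b⟩ | ⟨a, b⟩ <;> rcases mcTag8 q hq with ⟨a', b'⟩ | ⟨a', b'⟩ <;>
      omega
  refine ⟨q, hq, htag, ?_, ?_⟩
  · rw [e]; exact r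
  · intro i hi
    have hσi : σ i ≠ none := fun h => hi (σ.injective (h.trans h1.symm))
    have b1 := mcBit8 q hq i hi
    have b2 := mcBit8 p hp (σ i) hσi
    rw [hval i, htag] at b1
    exact b1.trans b2.symm

theorem mcIdx (i : ℕ) (hi : i < 24) : gIdx (gPt i) = i := gIdx_pt hi

theorem mcFam (p : ℕ × ℕ) (hp : p ∈ mcL8) : mcStab (mcMvL p) (mcMvL (p.1, mcStd p.1)) := by
  obtain ⟨a, ha, b, hb, ha2, hb2, hab, hpa, hpb⟩ := mcPick p hp
  have ha' : a < 23 := List.mem_range.1 ha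
  have hb' : b < 23 := List.mem_range.1 hb
  have i0 : (0 : ℕ) ∈ List.range 23 := by decide
  have i1 : (1 : ℕ) ∈ List.range 23 := by decide
  obtain ⟨σ, hσ, s23, s0, s1, s2, s3⟩ := M24_five none (gPt 0) (gPt 1) (gPt a) (gPt b) (by
    simp only [List.nodup_cons, List.mem_cons, List.not_mem_nil, or_false, not_or,
      List.nodup_nil, and_true, not_false_eq_true]
    exact ⟨⟨by decide, by decide, Ne.symm (mcPt_nn a ha), Ne.symm (mcPt_nn b hb)⟩,
      ⟨by decide, mcPt_ne 0 i0 a ha (by omega), mcPt_ne 0 i0 b hb (by omega)⟩,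
      ⟨mcPt_ne 1 i1 a ha (by omega), mcPt_ne 1 i1 b hb (by omega)⟩, mcPt_ne a ha b hb hab⟩)
  obtain ⟨q, hq, tq, r1, bq⟩ := mcStage p hp σ hσ s23 s0 s1
  have q2 : q.2.testBit 2 = true := by
    have := (bq (gPt 2) (by decide)).2 (by rw [s2, mcIdx a (by omega)]; exact hpa)
    rw [mcIdx 2 (by norm_num)] at this
    exact this
  have q3 : q.2.testBit 3 = true := by
    have := (bq (gPt 3) (by decide)).2 (by rw [s3, mcIdx b (by omega)]; exact hpb)
    rw [mcIdx 3 (by norm_num)] at this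
    exact this
  obtain ⟨j, hj, hqj⟩ := mcOrb q hq q2 q3
  obtain ⟨τ, hτ, hτ4⟩ := findTab_sound sound_M24 (lvl6' j hj)
  have t23 : τ none = none := hτ.2 23 (by decide)
  have t0 : τ (gPt 0) = gPt 0 := hτ.2 0 (by decide)
  have t1 : τ (gPt 1) = gPt 1 := hτ.2 1 (by decide)
  have t2 : τ (gPt 2) = gPt 2 := hτ.2 2 (by decide)
  have t3 : τ (gPt 3) = gPt 3 := hτ.2 3 (by decide)
  have t4 : τ (gPt 4) = gPt j := hτ4
  obtain ⟨q', hq', tq', r2, bq'⟩ := mcStage q hq τ hτ.1 t23 t0 t1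
  have q2' : q'.2.testBit 2 = true := by
    have := (bq' (gPt 2) (by decide)).2 (by rw [t2, mcIdx 2 (by norm_num)]; exact q2)
    rw [mcIdx 2 (by norm_num)] at this
    exact this
  have q3' : q'.2.testBit 3 = true := by
    have := (bq' (gPt 3) (by decide)).2 (by rw [t3, mcIdx 3 (by norm_num)]; exact q3)
    rw [mcIdx 3 (by norm_num)] at this
    exact this
  have q4' : q'.2.testBit 4 = true := by
    have := (bq' (gPt 4) (by decide)).2 (by rw [t4, mcIdx j (mcOrb_lt j hj)]; exact hqj)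
    rw [mcIdx 4 (by norm_num)] at this
    exact this
  have hu := mcUniq q' hq' q2' q3' q4'
  have e : q' = (p.1, mcStd p.1) := by
    rw [← tq, ← tq', ← hu]
  rw [← e]
  exact mcStab_trans r1 r2

/-! ### merging the two families -/

theorem mcMerge : mcStab (mcMvL (1, mcStd 1)) (mcMvL (2, mcStd 2)) := by
  classical
  by_contra hneg
  have claim : ∀ p ∈ mcL8, p.1 = 1 → ∀ y, mcStab (mcMvL p) y →
      ∃ q ∈ mcL8, q.1 = 1 ∧ y = mcMvL q := by
    intro p hp hp1 y hy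
    have hmem : y ∈ mcY8 :=
      mcStab_Y8 hy (mcT8_sub ⟨p, by rw [Finset.mem_coe, List.mem_toFinset]; exact hp, rfl⟩)
    rw [mcClass.2.2.1] at hmem
    obtain ⟨q, hq, e⟩ := hmem
    rw [Finset.mem_coe, List.mem_toFinset] at hq
    refine ⟨q, hq, ?_, e.symm⟩
    rcases mcTag8 q hq with ⟨a, -⟩ | ⟨a, -⟩
    · exact a
    · exfalso
      apply hneg
      have r1 := mcFam p hp
      have r2 := mcFam q hq
      rw [hp1] at r1
      rw [a] at r2
      rw [← e] at hy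
      exact mcStab_trans (mcStab_symm r1) (mcStab_trans hy r2)
  have z1 : mcMvL (1, 8536111) ∈ mcY16 :=
    mcT16_sub ⟨_, by rw [Finset.mem_coe, List.mem_toFinset]; exact mcZ_mem.1, rfl⟩
  have z2 : mcMvL (0, 2) ∈ mcY16 :=
    mcT16_sub ⟨_, by rw [Finset.mem_coe, List.mem_toFinset]; exact mcZ_mem.2, rfl⟩
  obtain ⟨g, g1, g2, g3, g4⟩ := mcl_trans16 u5L mcV1 v0 (mcMvL (1, 8536111)) (mcMvL (0, 2))
    sqNorm_u5 mcStd_hv mcV0_mem z1.1 z2.1 z1.2.2 z2.2.2
  have hstab : ∀ y, mcStab y ((g : Equiv.Perm leechLattice) y) :=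
    fun y => ⟨g.1, g.2, g1, g2, g3, rfl⟩
  have hmap : (g : Equiv.Perm leechLattice) '' (mcMvL '' (↑mcLA1.toFinset : Set (ℕ × ℕ))) ⊆
      mcMvL '' (↑mcLA2.toFinset : Set (ℕ × ℕ)) := by
    rintro _ ⟨_, ⟨p, hp, rfl⟩, rfl⟩
    rw [Finset.mem_coe, List.mem_toFinset] at hp
    have hp' := List.mem_filter.1 hp
    have hp2 := of_decide_eq_true hp'.2
    obtain ⟨q, hq, hq1, e⟩ := claim p hp'.1 hp2.1 _ (hstab (mcMvL p))
    refine ⟨q, ?_, e.symm⟩
    rw [Finset.mem_coe, List.mem_toFinset]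
    apply List.mem_filter.2
    refine ⟨hq, decide_eq_true ⟨hq1, ?_⟩⟩
    have d := co0_dot g.1 g.2 (mcMvL (1, 8536111)) (mcMvL p)
    have g4' : (g : Equiv.Perm leechLattice) (mcMvL (1, 8536111)) = mcMvL (0, 2) := g4
    rw [g4', e, mcMvL_coe (mcFacts16 _ mcZ_mem.2).1, mcMvL_coe (mcFacts8 q hq).1,
      mcMvL_coe (mcFacts16 _ mcZ_mem.1).1, mcMvL_coe (mcFacts8 p hp'.1).1] at d
    rw [d]
    exact hp2.2
  have c1 : (mcMvL '' (↑mcLA1.toFinset : Set (ℕ × ℕ))).ncard = 40 := by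
    rw [Set.ncard_image_of_injOn, Set.ncard_coe_finset,
      List.toFinset_card_of_nodup (show mcLA1.Nodup from mcL8_nodup.filter _)]
    · exact mcLA1_len
    · intro p hp q hq h
      rw [Finset.mem_coe, List.mem_toFinset] at hp hq
      exact mcInj8 (List.mem_filter.1 hp).1 (List.mem_filter.1 hq).1 h
  have f2 : (mcMvL '' (↑mcLA2.toFinset : Set (ℕ × ℕ))).Finite :=
    (Finset.finite_toSet _).image _
  have c2 : (mcMvL '' (↑mcLA2.toFinset : Set (ℕ × ℕ))).ncard ≤ 16 := by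
    refine (Set.ncard_image_le (Finset.finite_toSet _)).trans ?_
    rw [Set.ncard_coe_finset, ← mcLA2_len]
    exact List.toFinset_card_le _
  have c3 : ((g : Equiv.Perm leechLattice) '' (mcMvL '' (↑mcLA1.toFinset : Set (ℕ × ℕ)))).ncard =
      (mcMvL '' (↑mcLA1.toFinset : Set (ℕ × ℕ))).ncard :=
    Set.ncard_image_of_injective _ (g : Equiv.Perm leechLattice).injective
  have c4 := Set.ncard_le_ncard hmap f2
  omega

theorem mcY8_trans (y y' : leechLattice) (hy : y ∈ mcY8) (hy' : y' ∈ mcY8) : mcStab y y' := by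
  rw [mcClass.2.2.1] at hy hy'
  obtain ⟨p, hp, rfl⟩ := hy
  obtain ⟨q, hq, rfl⟩ := hy'
  rw [Finset.mem_coe, List.mem_toFinset] at hp hq
  have r1 := mcFam p hp
  have r2 := mcFam q hq
  rcases mcTag8 p hp with ⟨a, -⟩ | ⟨a, -⟩ <;> rcases mcTag8 q hq with ⟨b, -⟩ | ⟨b, -⟩
  · rw [a] at r1; rw [b] at r2
    exact mcStab_trans r1 (mcStab_symm r2)
  · rw [a] at r1; rw [b] at r2
    exact mcStab_trans r1 (mcStab_trans mcMerge (mcStab_symm r2))
  · rw [a] at r1; rw [b] at r2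
    exact mcStab_trans r1 (mcStab_trans (mcStab_symm mcMerge) (mcStab_symm r2))
  · rw [a] at r1; rw [b] at r2
    exact mcStab_trans r1 (mcStab_symm r2)

/-- the McLaughlin graph has rank three -/
theorem mcl_rank3 (u v x : leechLattice) (hu : sqNorm (u : GolayPt → ℤ) = 48)
    (hv : sqNorm (v : GolayPt → ℤ) = 32 ∧
      sqNorm ((u : GolayPt → ℤ) - (v : GolayPt → ℤ)) = 32)
    (hx : x ∈ mclX u v 16) :
    {y : leechLattice | y ∈ mclX u v 16 ∧
      dotInt (x : GolayPt → ℤ) (y : GolayPt → ℤ) = 8}.ncard = 112 ∧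
    {y : leechLattice | y ∈ mclX u v 16 ∧ y ≠ x ∧
      dotInt (x : GolayPt → ℤ) (y : GolayPt → ℤ) = 16}.ncard = 162 ∧
    ∀ y ∈ mclX u v 16, ∀ y' ∈ mclX u v 16, y ≠ x → y' ≠ x →
      dotInt (x : GolayPt → ℤ) (y : GolayPt → ℤ) = dotInt (x : GolayPt → ℤ) (y' : GolayPt → ℤ) →
      ∃ g : Co0, g • u = u ∧ g • v = v ∧ g • x = x ∧ g • y = y' := by
  obtain ⟨h, hh, e1, e2, e3⟩ := mcStd_triple u v x hu hv hx
  have key : ∀ y : leechLattice, y ∈ mclX u v 16 ↔ h y ∈ mcX0 := by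
    intro y
    show _ ↔ h y ∈ mclX u5L mcV1 16
    rw [mclX_iff u v y hu, mclX_iff u5L mcV1 (h y) sqNorm_u5, ← e1, ← e2, co0_dot h hh,
      co0_dot h hh, hh.2]
  have kd : ∀ y : leechLattice, dotInt (v0 : GolayPt → ℤ) ((h y : leechLattice) : GolayPt → ℤ) =
      dotInt (x : GolayPt → ℤ) (y : GolayPt → ℤ) := by
    intro y
    rw [← e3, co0_dot h hh]
  have kn : ∀ y : leechLattice, h y = v0 ↔ y = x := by
    intro y
    rw [← e3]
    exact h.injective.eq_iff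
  refine ⟨?_, ?_, ?_⟩
  · have t := ncard_transfer h (fun y : leechLattice => y ∈ mclX u v 16 ∧
        dotInt (x : GolayPt → ℤ) (y : GolayPt → ℤ) = 8) (fun y' : leechLattice => y' ∈ mcY8)
      (fun y => by
        show _ ↔ (h y ∈ mcX0 ∧
          dotInt (v0 : GolayPt → ℤ) ((h y : leechLattice) : GolayPt → ℤ) = 8)
        rw [← key y, kd y])
    exact t.trans mcClass.1
  · have t := ncard_transfer h (fun y : leechLattice => y ∈ mclX u v 16 ∧ y ≠ x ∧
        dotInt (x : GolayPt → ℤ) (y : GolayPt → ℤ) = 16) (fun y' : leechLattice => y' ∈ mcY16)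
      (fun y => by
        show _ ↔ (h y ∈ mcX0 ∧ h y ≠ v0 ∧
          dotInt (v0 : GolayPt → ℤ) ((h y : leechLattice) : GolayPt → ℤ) = 16)
        rw [← key y, kd y, ne_eq (h y) v0, kn y])
    exact t.trans mcClass.2.1
  · intro y hy y' hy' hne hne' hdot
    by_cases h16 : dotInt (x : GolayPt → ℤ) (y : GolayPt → ℤ) = 16
    · exact mcl_trans16 u v x y y' hu hv hx hy hy' h16 (hdot.symm.trans h16)
    · have m1 : h y ∈ mcY8 := mcClass.2.2.2 (h y) ((key y).1 hy)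
        (fun hh' => hne ((kn y).1 hh')) (by rw [kd y]; exact h16)
      have m2 : h y' ∈ mcY8 := ⟨(key y').1 hy', by rw [kd y', ← hdot, ← kd y]; exact m1.2⟩
      obtain ⟨τ, hτ, t1, t2, t3, t4⟩ := mcY8_trans _ _ m1 m2
      have hk : h⁻¹ * τ * h ∈ Co0 := Co0.mul_mem (Co0.mul_mem (Co0.inv_mem hh) hτ) hh
      refine ⟨⟨h⁻¹ * τ * h, hk⟩, ?_, ?_, ?_, ?_⟩
      · show (h⁻¹ * τ * h) u = u
        simp only [Equiv.Perm.mul_apply]
        rw [e1, t1, ← e1]; simp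
      · show (h⁻¹ * τ * h) v = v
        simp only [Equiv.Perm.mul_apply]
        rw [e2, t2, ← e2]; simp
      · show (h⁻¹ * τ * h) x = x
        simp only [Equiv.Perm.mul_apply]
        rw [e3, t3, ← e3]; simp
      · show (h⁻¹ * τ * h) y = y'
        simp only [Equiv.Perm.mul_apply]
        rw [t4]; simp

end Cfsg.Agent.Helper3
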