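import Mathlib
import Cfsg.Agent.Helper3.Co3Simple
import Cfsg.Agent.Helper3.LeechMcL3

set_option autoImplicit false
set_option linter.unusedSectionVars false
set_option linter.style.haveILetI false
set_option linter.unusedSimpArgs false
set_option linter.unusedVariables false
set_option linter.deprecated false
set_option linter.unnecessarySeqFocus false

namespace Cfsg.Agent.Helper3

open Cfsg Cfsg.Agent.Helper28.Leech
open scoped Pointwise

/-- the standard McLaughlin group -/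
abbrev GM : Subgroup Co0 := MulAction.stabilizer Co0 u5L ⊓ MulAction.stabilizer Co0 v0

/-- the Mathieu group of degree 22 -/
abbrev M22t : Subgroup M24 :=
  MulAction.stabilizer M24 (none : GolayPt) ⊓ MulAction.stabilizer M24 (gPt 0)

/-- `M22` inside the standard McLaughlin group -/
noncomputable def mclHom : ↥M22t →* ↥GM :=
  MonoidHom.mk' (fun m =>
    ⟨⟨permAut ((m : M24) : Equiv.Perm GolayPt)⁻¹ (M24.inv_mem (m : M24).2), permAut_mem _ _⟩,
      ⟨(perm_fix_inv _ (m : M24).2 m.2.1 m.2.2).1, (perm_fix_inv _ (m : M24).2 m.2.1 m.2.2).2.2⟩⟩)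
    (by
      intro a b
      apply Subtype.ext
      apply Subtype.ext
      exact permAut_mul_inv _ _ (a : M24).2 (b : M24).2)

theorem mclHom_coe (m : ↥M22t) : (((mclHom m : ↥GM) : Co0) : Equiv.Perm leechLattice) =
    permAut ((m : M24) : Equiv.Perm GolayPt)⁻¹ (M24.inv_mem (m : M24).2) := rfl

theorem mclHom_inj : Function.Injective mclHom := by
  intro a b hab
  have h1 : permAut ((a : M24) : Equiv.Perm GolayPt)⁻¹ (M24.inv_mem (a : M24).2) =
      permAut ((b : M24) : Equiv.Perm GolayPt)⁻¹ (M24.inv_mem (b : M24).2) := by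
    have := congrArg (fun t : ↥GM => ((t : Co0) : Equiv.Perm leechLattice)) hab
    exact this
  apply Subtype.ext
  apply Subtype.ext
  exact permAut_inv_inj _ _ (a : M24).2 (b : M24).2 h1

/-- the element of order 11 -/
def sElM : ↥M22t := ⟨⟨gMu, gMu_mem_M24⟩, ⟨gMu_none, by
  show gMu (gPt 0) = gPt 0
  have e : (gPt 0 : GolayPt) = some 0 := rfl
  rw [e, gMu_some, mul_zero]⟩⟩

theorem sElM_order : orderOf sElM = 11 := by
  rw [← Subgroup.orderOf_coe, ← Subgroup.orderOf_coe]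
  exact gMu_order

theorem mem5_orb2 : (5 : ℕ) ∈ orb2 := by decide

theorem not_sq5 : ¬ ∃ r : ZMod 23, (5 : ZMod 23) = r * r := by decide

theorem sElM_noncomm : ∃ t : ↥M22t, sElM * t ≠ t * sElM := by
  obtain ⟨g, hg, hg1⟩ := findTab_sound sound_M24 (lvl2 5 mem5_orb2)
  have hn : g none = none := hg.2 23 (by simp)
  have h0 : g (some 0) = some 0 := hg.2 0 (by simp)
  refine ⟨⟨⟨g, hg.1⟩, ⟨hn, h0⟩⟩, ?_⟩
  intro h
  have h2 : gMu * g = g * gMu :=
    congrArg (fun m : ↥M22t => ((m : M24) : Equiv.Perm GolayPt)) h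
  have hc : CentMu g := ⟨hg.1, hn, h0, h2.symm⟩
  have e1 : g (some 1) = some 5 := hg1
  exact not_sq5 (centMu_sq hc e1).2

theorem sElM_cent (a b : ↥M22t) (ha : a * sElM = sElM * a) (hb : b * sElM = sElM * b) :
    a * b = b * a := by
  have ha' : ((a : M24) : Equiv.Perm GolayPt) * gMu = gMu * ((a : M24) : Equiv.Perm GolayPt) :=
    congrArg (fun m : ↥M22t => ((m : M24) : Equiv.Perm GolayPt)) ha
  have hb' : ((b : M24) : Equiv.Perm GolayPt) * gMu = gMu * ((b : M24) : Equiv.Perm GolayPt) :=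
    congrArg (fun m : ↥M22t => ((m : M24) : Equiv.Perm GolayPt)) hb
  have ca : CentMu ((a : M24) : Equiv.Perm GolayPt) := ⟨(a : M24).2, a.2.1, a.2.2, ha'⟩
  have cb : CentMu ((b : M24) : Equiv.Perm GolayPt) := ⟨(b : M24).2, b.2.1, b.2.2, hb'⟩
  have := centMu_comm ca cb
  apply Subtype.ext
  apply Subtype.ext
  exact this

/-! ### the normaliser of the subgroup of order 11 -/

theorem fix11_step (w : leechLattice)
    (hw : permAut gMu⁻¹ (M24.inv_mem gMu_mem_M24) w = w) (x : ZMod 23) :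
    (w : GolayPt → ℤ) (some (2 * x)) = (w : GolayPt → ℤ) (some x) := by
  have e : ((permAut gMu⁻¹ (M24.inv_mem gMu_mem_M24) w : leechLattice) : GolayPt → ℤ)
      (some (2 * x)) = (w : GolayPt → ℤ) (some (2 * x)) := by rw [hw]
  rw [permAut_apply] at e
  have e2 : gMu⁻¹ (some (2 * x)) = some x := by
    rw [Equiv.Perm.inv_eq_iff_eq, gMu_some]
  rw [e2] at e
  exact e.symm

theorem fix11_pow (w : leechLattice)
    (hw : permAut gMu⁻¹ (M24.inv_mem gMu_mem_M24) w = w) (k : ℕ) (x : ZMod 23) :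
    (w : GolayPt → ℤ) (some (2 ^ k * x)) = (w : GolayPt → ℤ) (some x) := by
  induction k with
  | zero => simp
  | succ k ih => rw [pow_succ, mul_comm (2 ^ k) 2, mul_assoc, fix11_step w hw, ih]

theorem zmod23_class : ∀ x : ZMod 23, x ≠ 0 →
    (x ^ 11 = 1 ∧ ∃ k ∈ List.range 11, x = 2 ^ k * 1) ∨
    (x ^ 11 ≠ 1 ∧ ∃ k ∈ List.range 11, x = 2 ^ k * (-1)) := by decide +kernel

/-- vectors invariant under the doubling map -/
def W11 (a b c d : ℤ) : GolayPt → ℤ := fun i =>
  match i with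
  | none => a
  | some x => if x = 0 then b else if x ^ 11 = 1 then c else d

def rng5 : List ℤ := [-5, -4, -3, -2, -1, 0, 1, 2, 3, 4, 5]

set_option maxRecDepth 100000 in
theorem w11_dec : ∀ a ∈ rng5, ∀ c ∈ rng5, ∀ d ∈ rng5,
    sqNorm (W11 a (-2 - a) c d) = 32 → dotInt u5 (W11 a (-2 - a) c d) = 8 →
    a = -3 ∧ c = 1 ∧ d = 1 := by decide +kernel

theorem entry_rng5 (w : GolayPt → ℤ) (hn : sqNorm w = 32) (i : GolayPt) : w i ∈ rng5 := by
  have h1 : w i ^ 2 ≤ sqNorm w := by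
    unfold sqNorm
    exact Finset.single_le_sum (f := fun j => w j ^ 2) (fun j _ => sq_nonneg _) (Finset.mem_univ i)
  rw [hn] at h1
  have h2 : w i ≤ 5 := by nlinarith
  have h3 : -5 ≤ w i := by nlinarith
  have h4 : w i = -5 ∨ w i = -4 ∨ w i = -3 ∨ w i = -2 ∨ w i = -1 ∨ w i = 0 ∨ w i = 1 ∨
      w i = 2 ∨ w i = 3 ∨ w i = 4 ∨ w i = 5 := by omega
  unfold rng5
  simp only [List.mem_cons, List.mem_singleton, List.not_mem_nil, or_false]
  omega

theorem fix11_eq (w : leechLattice)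
    (hw : permAut gMu⁻¹ (M24.inv_mem gMu_mem_M24) w = w)
    (hn : sqNorm (w : GolayPt → ℤ) = 32) (hd : dotInt u5 (w : GolayPt → ℤ) = 8)
    (hv : dotInt (v0 : GolayPt → ℤ) (w : GolayPt → ℤ) = -8) :
    w = yPL none := by
  have hb : (w : GolayPt → ℤ) (some 0) = -2 - (w : GolayPt → ℤ) none := by
    rw [dot_v0] at hv
    omega
  have hW : (w : GolayPt → ℤ) = W11 ((w : GolayPt → ℤ) none) (-2 - (w : GolayPt → ℤ) none)
      ((w : GolayPt → ℤ) (some 1)) ((w : GolayPt → ℤ) (some (-1))) := by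
    funext i
    cases i with
    | none => rfl
    | some x =>
      show _ = if x = 0 then _ else if x ^ 11 = 1 then _ else _
      by_cases hx : x = 0
      · rw [if_pos hx, hx, hb]
      · rw [if_neg hx]
        rcases zmod23_class x hx with ⟨h1, k, -, hk⟩ | ⟨h1, k, -, hk⟩
        · rw [if_pos h1, hk, fix11_pow w hw]
        · rw [if_neg h1, hk, fix11_pow w hw]
  have key := w11_dec _ (entry_rng5 _ hn none) _ (entry_rng5 _ hn (some 1)) _
    (entry_rng5 _ hn (some (-1))) (by rw [← hW]; exact hn) (by rw [← hW]; exact hd)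
  apply Subtype.ext
  show (w : GolayPt → ℤ) = yP none
  rw [hW, key.1, key.2.1, key.2.2]
  funext i
  cases i with
  | none => rfl
  | some x =>
    show (if x = 0 then (-2 - -3 : ℤ) else if x ^ 11 = 1 then 1 else 1) =
      (if (some x : GolayPt) = none then -3 else 1)
    rw [if_neg (Option.some_ne_none x)]
    split_ifs <;> norm_num

set_option maxRecDepth 100000 in
theorem yPn_v0 : dotInt (Pi.single none 4 + Pi.single (some 0) 4 : GolayPt → ℤ) (yP none) = -8 := by
  decide +kernel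

theorem mcl_K (g : ↥GM)
    (h : g * mclHom sElM * g⁻¹ ∈ Subgroup.zpowers (mclHom sElM)) : g ∈ mclHom.range := by
  haveI := co0_finite
  have hgC : ((g : Co0) : Equiv.Perm leechLattice) ∈ Co0 := (g : Co0).2
  have hgu : ((g : Co0) : Equiv.Perm leechLattice) u5L = u5L := g.2.1
  have hgv : ((g : Co0) : Equiv.Perm leechLattice) v0 = v0 := g.2.2
  have hxf : mclHom sElM • yPL none = yPL none :=
    permAut_yP _ _ (Equiv.Perm.inv_eq_iff_eq.2 gMu_none.symm)
  have hy : g * mclHom sElM * g⁻¹ ∈ MulAction.stabilizer ↥GM (g • yPL none) := by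
    rw [MulAction.mem_stabilizer_iff, mul_smul, mul_smul, inv_smul_smul, hxf]
  have ho : orderOf (g * mclHom sElM * g⁻¹) = orderOf (mclHom sElM) :=
    (MulAut.conj g).orderOf_eq (mclHom sElM)
  have hzeq : Subgroup.zpowers (g * mclHom sElM * g⁻¹) = Subgroup.zpowers (mclHom sElM) := by
    apply Subgroup.eq_of_le_of_card_ge (Subgroup.zpowers_le.2 h)
    rw [Nat.card_zpowers, Nat.card_zpowers, ho]
  have hx : mclHom sElM ∈ MulAction.stabilizer ↥GM (g • yPL none) := by
    have : mclHom sElM ∈ Subgroup.zpowers (g * mclHom sElM * g⁻¹) := by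
      rw [hzeq]; exact Subgroup.mem_zpowers _
    exact (Subgroup.zpowers_le.2 hy) this
  have hw : permAut gMu⁻¹ (M24.inv_mem gMu_mem_M24)
      (((g : Co0) : Equiv.Perm leechLattice) (yPL none)) =
      ((g : Co0) : Equiv.Perm leechLattice) (yPL none) := hx
  have hn : sqNorm ((((g : Co0) : Equiv.Perm leechLattice) (yPL none) : leechLattice) :
      GolayPt → ℤ) = 32 := by
    rw [hgC.2]; exact yPn_facts.1
  have hd : dotInt u5 ((((g : Co0) : Equiv.Perm leechLattice) (yPL none) : leechLattice) :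
      GolayPt → ℤ) = 8 := by
    have d := co0_dot ((g : Co0) : Equiv.Perm leechLattice) hgC u5L (yPL none)
    rw [hgu] at d
    exact d.trans yPn_facts.2.1
  have hd2 : dotInt (v0 : GolayPt → ℤ)
      ((((g : Co0) : Equiv.Perm leechLattice) (yPL none) : leechLattice) : GolayPt → ℤ) = -8 := by
    have d := co0_dot ((g : Co0) : Equiv.Perm leechLattice) hgC v0 (yPL none)
    rw [hgv] at d
    exact d.trans yPn_v0
  have hfix := fix11_eq _ hw hn hd hd2
  obtain ⟨π, hπ, hπn, hgπ⟩ := mono_of_fix _ hgC hgu hfix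
  have hπ0 : π (gPt 0) = gPt 0 := by
    have e : ((((g : Co0) : Equiv.Perm leechLattice) v0 : leechLattice) : GolayPt → ℤ)
        (π (gPt 0)) = (v0 : GolayPt → ℤ) (π (gPt 0)) := by rw [hgv]
    have e3 : π⁻¹ (π (gPt 0)) = gPt 0 := by rw [Equiv.Perm.inv_eq_iff_eq]
    rw [hgπ, permAut_apply, e3, v0_apply, v0_apply] at e
    have hne : π (gPt 0) ≠ none := by
      intro hc
      have := π.injective (hc.trans hπn.symm)
      revert this
      decide
    rw [if_neg hne, if_pos rfl] at e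
    by_contra hc
    rw [if_neg hc] at e
    revert e
    decide
  refine ⟨⟨⟨π, hπ⟩, ⟨hπn, hπ0⟩⟩, ?_⟩
  apply Subtype.ext
  apply Subtype.ext
  exact hgπ.symm

/-! ### the order -/

theorem mcStd0 : sqNorm ((v0 : leechLattice) : GolayPt → ℤ) = 32 ∧
    sqNorm ((u5L : GolayPt → ℤ) - (v0 : GolayPt → ℤ)) = 32 := ⟨v0_norm, mcV0_norm'⟩

theorem mcV1_mem : mcV1 ∈ mclX u5L v0 16 :=
  ⟨mcV1_norm, mcV1_norm', (dotInt_symm _ _).trans mcV0_dot⟩

/-- the order of the McLaughlin stabiliser -/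
theorem mcl_card (u v : leechLattice) (hu : sqNorm (u : GolayPt → ℤ) = 48)
    (hv : sqNorm (v : GolayPt → ℤ) = 32 ∧
      sqNorm ((u : GolayPt → ℤ) - (v : GolayPt → ℤ)) = 32) :
    Nat.card ↥(MulAction.stabilizer Co0 u ⊓ MulAction.stabilizer Co0 v) = 898128000 := by
  have h1 := Subgroup.card_mul_index (MulAction.stabilizer (MulAction.stabilizer Co0 u) v)
  rw [MulAction.index_stabilizer] at h1
  have horb : MulAction.orbit (MulAction.stabilizer Co0 u) v =
      {v' : leechLattice | sqNorm (v' : GolayPt → ℤ) = 32 ∧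
        sqNorm ((u : GolayPt → ℤ) - (v' : GolayPt → ℤ)) = 32} := by
    ext v'
    constructor
    · rintro ⟨k, rfl⟩
      have e : ((k : Co0) : Equiv.Perm leechLattice) u = u := k.2
      refine ⟨?_, ?_⟩
      · show sqNorm ((((k : Co0) : Equiv.Perm leechLattice) v : leechLattice) : GolayPt → ℤ) = 32
        rw [(k : Co0).2.2]
        exact hv.1
      · show sqNorm ((u : GolayPt → ℤ) -
          ((((k : Co0) : Equiv.Perm leechLattice) v : leechLattice) : GolayPt → ℤ)) = 32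
        have e2 : ((((k : Co0) : Equiv.Perm leechLattice) (u - v) : leechLattice) : GolayPt → ℤ) =
            (u : GolayPt → ℤ) -
              ((((k : Co0) : Equiv.Perm leechLattice) v : leechLattice) : GolayPt → ℤ) := by
          rw [co0_sub _ (k : Co0).2, e, AddSubgroup.coe_sub]
        rw [← e2, (k : Co0).2.2, AddSubgroup.coe_sub]
        exact hv.2
    · rintro ⟨a1, a2⟩
      obtain ⟨g, e1, e2⟩ := pair552 u v v' hu hv ⟨a1, a2⟩
      exact ⟨⟨g, e1⟩, e2⟩
  have hcount : {v' : leechLattice | sqNorm (v' : GolayPt → ℤ) = 32 ∧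
      sqNorm ((u : GolayPt → ℤ) - (v' : GolayPt → ℤ)) = 32}.ncard = 552 := count552 u hu
  rw [horb, hcount, co3_card u hu] at h1
  have hequiv : Nat.card (MulAction.stabilizer (MulAction.stabilizer Co0 u) v) =
      Nat.card ↥(MulAction.stabilizer Co0 u ⊓ MulAction.stabilizer Co0 v) := by
    apply Nat.card_congr
    exact
      { toFun := fun k => ⟨(k.1 : Co0), ⟨k.1.2, k.2⟩⟩
        invFun := fun m => ⟨⟨m.1, m.2.1⟩, m.2.2⟩
        left_inv := fun k => rfl
        right_inv := fun m => rfl }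
  rw [← hequiv]
  have key : ∀ S : ℕ, S * 552 = 495766656000 → S = 898128000 := by
    intro S e
    omega
  exact key _ h1

/-! ### primitivity on the 275 points -/

theorem orbit_three_cases {α : Type*} (O S8 S16 : Set α) (x₁ : α) (hx : x₁ ∈ O)
    (hpart : ∀ y ∈ O, y = x₁ ∨ y ∈ S8 ∨ y ∈ S16)
    (h8 : ∀ y ∈ S8, y ∈ O → S8 ⊆ O) (h16 : ∀ y ∈ S16, y ∈ O → S16 ⊆ O)
    (c8 : S8.ncard = 112) (c16 : S16.ncard = 162) (hx8 : x₁ ∉ S8) (hx16 : x₁ ∉ S16)
    (hdisj : Disjoint S8 S16) (hne : ∃ y ∈ O, y ≠ x₁) :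
    O.ncard = 113 ∨ O.ncard = 163 ∨ O.ncard = 275 := by
  have f8 : S8.Finite := Set.finite_of_ncard_ne_zero (by rw [c8]; norm_num)
  have f16 : S16.Finite := Set.finite_of_ncard_ne_zero (by rw [c16]; norm_num)
  by_cases e8 : ∃ y ∈ S8, y ∈ O
  · obtain ⟨y8, m8, o8⟩ := e8
    have s8 := h8 y8 m8 o8
    by_cases e16 : ∃ y ∈ S16, y ∈ O
    · obtain ⟨y16, m16, o16⟩ := e16
      have s16 := h16 y16 m16 o16
      right; right
      have hO : O = insert x₁ (S8 ∪ S16) := by
        ext y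
        constructor
        · intro hy
          rcases hpart y hy with h | h | h
          · exact Or.inl h
          · exact Or.inr (Or.inl h)
          · exact Or.inr (Or.inr h)
        · rintro (h | h | h)
          · rw [h]; exact hx
          · exact s8 h
          · exact s16 h
      have hnm : x₁ ∉ S8 ∪ S16 := by
        rintro (h | h)
        · exact hx8 h
        · exact hx16 h
      rw [hO, Set.ncard_insert_of_notMem hnm (f8.union f16), Set.ncard_union_eq hdisj f8 f16,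
        c8, c16]
    · left
      have hO : O = insert x₁ S8 := by
        ext y
        constructor
        · intro hy
          rcases hpart y hy with h | h | h
          · exact Or.inl h
          · exact Or.inr h
          · exact absurd ⟨y, h, hy⟩ e16
        · rintro (h | h)
          · rw [h]; exact hx
          · exact s8 h
      rw [hO, Set.ncard_insert_of_notMem hx8 f8, c8]
  · by_cases e16 : ∃ y ∈ S16, y ∈ O
    · obtain ⟨y16, m16, o16⟩ := e16
      have s16 := h16 y16 m16 o16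
      right; left
      have hO : O = insert x₁ S16 := by
        ext y
        constructor
        · intro hy
          rcases hpart y hy with h | h | h
          · exact Or.inl h
          · exact absurd ⟨y, h, hy⟩ e8
          · exact Or.inr h
        · rintro (h | h)
          · rw [h]; exact hx
          · exact s16 h
      rw [hO, Set.ncard_insert_of_notMem hx16 f16, c16]
    · exfalso
      obtain ⟨y, hy, hne'⟩ := hne
      rcases hpart y hy with h | h | h
      · exact hne' h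
      · exact e8 ⟨y, h, hy⟩
      · exact e16 ⟨y, h, hy⟩

/-- the vectors `(4, 0, ..., 4, ..., 0)` -/
def y44 (k : GolayPt) : leechLattice := ⟨Pi.single none 4 + Pi.single k 4,
  four_pair_mem _ _ 4 4 (by norm_num) (by norm_num) (by norm_num)⟩

set_option maxRecDepth 100000 in
theorem y44_facts : ∀ k : GolayPt, k ≠ none → k ≠ some 0 →
    sqNorm (Pi.single none 4 + Pi.single k 4 : GolayPt → ℤ) = 32 ∧
    dotInt u5 (Pi.single none 4 + Pi.single k 4 : GolayPt → ℤ) = 24 ∧
    dotInt (Pi.single none 4 + Pi.single (some 0) 4 : GolayPt → ℤ)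
      (Pi.single none 4 + Pi.single k 4 : GolayPt → ℤ) = 16 := by decide +kernel

theorem y44_mem (k : GolayPt) (h1 : k ≠ none) (h2 : k ≠ some 0) : y44 k ∈ mclX u5L v0 16 := by
  rw [mclX_iff u5L v0 _ sqNorm_u5]
  exact y44_facts k h1 h2

theorem dot_y44 (k : GolayPt) (w : GolayPt → ℤ) :
    dotInt (y44 k : GolayPt → ℤ) w = 4 * (w none + w k) := by
  show dotInt (Pi.single none 4 + Pi.single k 4) w = _
  rw [dot_add_left, dot_single_left, dot_single_left]
  ring

theorem dot_u5_expand (w : GolayPt → ℤ) :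
    dotInt u5 w = 5 * w none + ∑ x : ZMod 23, w (some x) := by
  unfold dotInt
  rw [Fintype.sum_option]
  have e1 : u5 none = 5 := rfl
  have e2 : ∀ x : ZMod 23, u5 (some x) = 1 := fun x => rfl
  simp only [e1, e2, one_mul]

theorem mcl_faithful (n : Equiv.Perm leechLattice) (hn : n ∈ Co0) (hu : n u5L = u5L)
    (hv : n v0 = v0) (hX : ∀ y ∈ mclX u5L v0 16, n y = y) : n = 1 := by
  apply Equiv.ext
  intro z
  show n z = z
  have horth : ∀ y : leechLattice, n y = y →
      dotInt (y : GolayPt → ℤ) ((n z : leechLattice) : GolayPt → ℤ) =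
        dotInt (y : GolayPt → ℤ) (z : GolayPt → ℤ) := by
    intro y hy
    have d := co0_dot n hn y z
    rw [hy] at d
    exact d
  have h1 : ∀ k : GolayPt, k ≠ none →
      ((n z : leechLattice) : GolayPt → ℤ) none + ((n z : leechLattice) : GolayPt → ℤ) k =
        (z : GolayPt → ℤ) none + (z : GolayPt → ℤ) k := by
    intro k hk
    by_cases hk0 : k = some 0
    · have := horth v0 hv
      rw [dot_v0, dot_v0] at this
      rw [hk0]; omega
    · have := horth (y44 k) (hX _ (y44_mem k hk hk0))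
      rw [dot_y44, dot_y44] at this
      omega
  have h2 : dotInt u5 ((n z : leechLattice) : GolayPt → ℤ) = dotInt u5 (z : GolayPt → ℤ) :=
    horth u5L hu
  rw [dot_u5_expand, dot_u5_expand] at h2
  have h3 : ∀ x : ZMod 23, ((n z : leechLattice) : GolayPt → ℤ) (some x) =
      (z : GolayPt → ℤ) (some x) -
        (((n z : leechLattice) : GolayPt → ℤ) none - (z : GolayPt → ℤ) none) := by
    intro x
    have := h1 (some x) (Option.some_ne_none x)
    omega
  have h4 : ∑ x : ZMod 23, ((n z : leechLattice) : GolayPt → ℤ) (some x) =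
      ∑ x : ZMod 23, (z : GolayPt → ℤ) (some x) -
        23 * (((n z : leechLattice) : GolayPt → ℤ) none - (z : GolayPt → ℤ) none) := by
    rw [Finset.sum_congr rfl (fun x _ => h3 x), Finset.sum_sub_distrib, Finset.sum_const,
      Finset.card_univ, ZMod.card]
    simp
  rw [h4] at h2
  have h5 : ((n z : leechLattice) : GolayPt → ℤ) none = (z : GolayPt → ℤ) none := by omega
  apply Subtype.ext
  funext k
  cases k with
  | none => exact h5
  | some x =>
    have := h3 x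
    omega

theorem mclX_smul (g : Equiv.Perm leechLattice) (hg : g ∈ Co0) (hu : g u5L = u5L)
    (hv : g v0 = v0) (y : leechLattice) (hy : y ∈ mclX u5L v0 16) : g y ∈ mclX u5L v0 16 := by
  rw [mclX_iff u5L v0 _ sqNorm_u5] at hy ⊢
  have d1 := co0_dot g hg u5L y
  have d2 := co0_dot g hg v0 y
  rw [hu] at d1
  rw [hv] at d2
  exact ⟨by rw [hg.2]; exact hy.1, d1.trans hy.2.1, d2.trans hy.2.2⟩

theorem mcl_normal_dvd (N : Subgroup ↥GM) (hN : N.Normal) (hbot : N ≠ ⊥) : 11 ∣ Nat.card N := by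
  haveI := co0_finite
  obtain ⟨c8, c16, htr⟩ := mcl_rank3 u5L v0 mcV1 sqNorm_u5 mcStd0 mcV1_mem
  have hXc : (mclX u5L v0 16).ncard = 275 := mcl_count u5L v0 sqNorm_u5 mcStd0
  have cG : Nat.card ↥GM = 898128000 := mcl_card u5L v0 sqNorm_u5 mcStd0
  -- an element of `N` moving the base point
  have hmove : ∃ n ∈ N, (n : ↥GM) • mcV1 ≠ mcV1 := by
    by_contra hcon
    push Not at hcon
    apply hbot
    rw [Subgroup.eq_bot_iff_forall]
    intro n hn
    have hfixX : ∀ y ∈ mclX u5L v0 16, ((n : Co0) : Equiv.Perm leechLattice) y = y := by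
      intro y hy
      obtain ⟨g, g1, g2, g3⟩ := mcl_trans u5L v0 mcV1 y sqNorm_u5 mcStd0 mcV1_mem hy
      have hk : (⟨g, ⟨g1, g2⟩⟩ : ↥GM)⁻¹ * n * (⟨g, ⟨g1, g2⟩⟩ : ↥GM) ∈ N := by
        have := hN.conj_mem n hn (⟨g, ⟨g1, g2⟩⟩ : ↥GM)⁻¹
        rwa [inv_inv] at this
      have e := hcon _ hk
      have e2 : n • ((⟨g, ⟨g1, g2⟩⟩ : ↥GM) • mcV1) = (⟨g, ⟨g1, g2⟩⟩ : ↥GM) • mcV1 := by
        have : (⟨g, ⟨g1, g2⟩⟩ : ↥GM) •
            (((⟨g, ⟨g1, g2⟩⟩ : ↥GM)⁻¹ * n * (⟨g, ⟨g1, g2⟩⟩ : ↥GM)) • mcV1) =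
            (⟨g, ⟨g1, g2⟩⟩ : ↥GM) • mcV1 := by rw [e]
        rwa [← mul_smul, ← mul_assoc, ← mul_assoc, mul_inv_cancel, one_mul, mul_smul] at this
      have e3 : (⟨g, ⟨g1, g2⟩⟩ : ↥GM) • mcV1 = y := g3
      rw [e3] at e2
      exact e2
    apply Subtype.ext
    apply Subtype.ext
    exact mcl_faithful _ (n : Co0).2 n.2.1 n.2.2 hfixX
  -- the partition of the 275 points
  have hx8 : mcV1 ∉ {y : leechLattice | y ∈ mclX u5L v0 16 ∧
      dotInt (mcV1 : GolayPt → ℤ) (y : GolayPt → ℤ) = 8} := by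
    intro h
    have h2 := h.2
    have h3 : dotInt (mcV1 : GolayPt → ℤ) (mcV1 : GolayPt → ℤ) = 32 := by
      rw [← sqNorm_eq_dot]; exact mcV1_norm
    omega
  have hx16 : mcV1 ∉ {y : leechLattice | y ∈ mclX u5L v0 16 ∧ y ≠ mcV1 ∧
      dotInt (mcV1 : GolayPt → ℤ) (y : GolayPt → ℤ) = 16} := fun h => h.2.1 rfl
  have hdisj : Disjoint {y : leechLattice | y ∈ mclX u5L v0 16 ∧
      dotInt (mcV1 : GolayPt → ℤ) (y : GolayPt → ℤ) = 8}
      {y : leechLattice | y ∈ mclX u5L v0 16 ∧ y ≠ mcV1 ∧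
      dotInt (mcV1 : GolayPt → ℤ) (y : GolayPt → ℤ) = 16} := by
    rw [Set.disjoint_left]
    intro y h8 h16
    have a := h8.2
    have b := h16.2.2
    omega
  have f8 : {y : leechLattice | y ∈ mclX u5L v0 16 ∧
      dotInt (mcV1 : GolayPt → ℤ) (y : GolayPt → ℤ) = 8}.Finite :=
    Set.finite_of_ncard_ne_zero (by rw [c8]; norm_num)
  have f16 : {y : leechLattice | y ∈ mclX u5L v0 16 ∧ y ≠ mcV1 ∧
      dotInt (mcV1 : GolayPt → ℤ) (y : GolayPt → ℤ) = 16}.Finite :=
    Set.finite_of_ncard_ne_zero (by rw [c16]; norm_num)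
  have hXeq : insert mcV1 ({y : leechLattice | y ∈ mclX u5L v0 16 ∧
      dotInt (mcV1 : GolayPt → ℤ) (y : GolayPt → ℤ) = 8} ∪
      {y : leechLattice | y ∈ mclX u5L v0 16 ∧ y ≠ mcV1 ∧
      dotInt (mcV1 : GolayPt → ℤ) (y : GolayPt → ℤ) = 16}) = mclX u5L v0 16 := by
    apply Set.eq_of_subset_of_ncard_le
    · rintro y (h | h | h)
      · rw [h]; exact mcV1_mem
      · exact h.1
      · exact h.1
    · have hnm : mcV1 ∉ ({y : leechLattice | y ∈ mclX u5L v0 16 ∧
          dotInt (mcV1 : GolayPt → ℤ) (y : GolayPt → ℤ) = 8} ∪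
          {y : leechLattice | y ∈ mclX u5L v0 16 ∧ y ≠ mcV1 ∧
          dotInt (mcV1 : GolayPt → ℤ) (y : GolayPt → ℤ) = 16}) := by
        rintro (h | h)
        · exact hx8 h
        · exact hx16 h
      rw [Set.ncard_insert_of_notMem hnm (f8.union f16), Set.ncard_union_eq hdisj f8 f16,
        c8, c16, hXc]
    · exact Set.finite_of_ncard_ne_zero (by rw [hXc]; norm_num)
  have hOX : ∀ y ∈ MulAction.orbit ↥N mcV1, y ∈ mclX u5L v0 16 := by
    rintro y ⟨n, rfl⟩
    exact mclX_smul _ ((n : ↥GM) : Co0).2 (n : ↥GM).2.1 (n : ↥GM).2.2 _ mcV1_mem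
  have hpart : ∀ y ∈ MulAction.orbit ↥N mcV1, y = mcV1 ∨
      y ∈ {y : leechLattice | y ∈ mclX u5L v0 16 ∧
        dotInt (mcV1 : GolayPt → ℤ) (y : GolayPt → ℤ) = 8} ∨
      y ∈ {y : leechLattice | y ∈ mclX u5L v0 16 ∧ y ≠ mcV1 ∧
        dotInt (mcV1 : GolayPt → ℤ) (y : GolayPt → ℤ) = 16} := by
    intro y hy
    have h := hOX y hy
    rw [← hXeq] at h
    rcases h with h | h | h
    · exact Or.inl h
    · exact Or.inr (Or.inl h)
    · exact Or.inr (Or.inr h)
  have hconj : ∀ y y' : leechLattice, y ∈ MulAction.orbit ↥N mcV1 →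
      (∃ g : Co0, g • u5L = u5L ∧ g • v0 = v0 ∧ g • mcV1 = mcV1 ∧ g • y = y') →
      y' ∈ MulAction.orbit ↥N mcV1 := by
    rintro y y' ⟨n, hn⟩ ⟨g, g1, g2, g3, g4⟩
    refine ⟨⟨(⟨g, ⟨g1, g2⟩⟩ : ↥GM) * n * (⟨g, ⟨g1, g2⟩⟩ : ↥GM)⁻¹,
      hN.conj_mem n n.2 (⟨g, ⟨g1, g2⟩⟩ : ↥GM)⟩, ?_⟩
    show ((⟨g, ⟨g1, g2⟩⟩ : ↥GM) * (n : ↥GM) * (⟨g, ⟨g1, g2⟩⟩ : ↥GM)⁻¹) • mcV1 = y'
    have hk1 : (⟨g, ⟨g1, g2⟩⟩ : ↥GM)⁻¹ • mcV1 = mcV1 := by
      rw [inv_smul_eq_iff]; exact g3.symm
    have hn' : (n : ↥GM) • mcV1 = y := hn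
    rw [mul_smul, mul_smul, hk1, hn']
    exact g4
  have h8 : ∀ y ∈ {y : leechLattice | y ∈ mclX u5L v0 16 ∧
      dotInt (mcV1 : GolayPt → ℤ) (y : GolayPt → ℤ) = 8}, y ∈ MulAction.orbit ↥N mcV1 →
      {y : leechLattice | y ∈ mclX u5L v0 16 ∧
        dotInt (mcV1 : GolayPt → ℤ) (y : GolayPt → ℤ) = 8} ⊆ MulAction.orbit ↥N mcV1 := by
    intro y hy hyO y' hy'
    exact hconj y y' hyO (htr y hy.1 y' hy'.1 (fun h => hx8 (h ▸ hy)) (fun h => hx8 (h ▸ hy'))
      (hy.2.trans hy'.2.symm))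
  have h16 : ∀ y ∈ {y : leechLattice | y ∈ mclX u5L v0 16 ∧ y ≠ mcV1 ∧
      dotInt (mcV1 : GolayPt → ℤ) (y : GolayPt → ℤ) = 16}, y ∈ MulAction.orbit ↥N mcV1 →
      {y : leechLattice | y ∈ mclX u5L v0 16 ∧ y ≠ mcV1 ∧
        dotInt (mcV1 : GolayPt → ℤ) (y : GolayPt → ℤ) = 16} ⊆ MulAction.orbit ↥N mcV1 := by
    intro y hy hyO y' hy'
    exact hconj y y' hyO (htr y hy.1 y' hy'.1 hy.2.1 hy'.2.1 (hy.2.2.trans hy'.2.2.symm))
  have hne : ∃ y ∈ MulAction.orbit ↥N mcV1, y ≠ mcV1 := by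
    obtain ⟨n, hn, hne⟩ := hmove
    exact ⟨n • mcV1, ⟨⟨n, hn⟩, rfl⟩, hne⟩
  have cases := orbit_three_cases (MulAction.orbit ↥N mcV1) _ _ mcV1
    (MulAction.mem_orbit_self _) hpart h8 h16 c8 c16 hx8 hx16 hdisj hne
  have hdvd : (MulAction.orbit ↥N mcV1).ncard ∣ Nat.card ↥N := by
    rw [← MulAction.index_stabilizer]; exact Subgroup.index_dvd_card _
  have hNG : Nat.card ↥N ∣ Nat.card ↥GM := Subgroup.card_subgroup_dvd_card N
  rw [cG] at hNG
  rcases cases with h | h | h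
  · exfalso
    rw [h] at hdvd
    have := hdvd.trans hNG
    revert this
    norm_num
  · exfalso
    rw [h] at hdvd
    have := hdvd.trans hNG
    revert this
    norm_num
  · rw [h] at hdvd
    exact (by norm_num : (11 : ℕ) ∣ 275).trans hdvd

theorem mcl_std_simple : IsSimpleGroup ↥GM := by
  haveI := co0_finite
  haveI : Fact (Nat.Prime 11) := ⟨by norm_num⟩
  haveI : IsSimpleGroup ↥M22t := simple_stab_two_points none (gPt 0) (by decide)
  have cG : Nat.card ↥GM = 898128000 := mcl_card u5L v0 sqNorm_u5 mcStd0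
  obtain ⟨t, ht⟩ := sElM_noncomm
  refine simple_of_sylow_normalizer 11 mclHom mclHom_inj sElM t sElM_order ht ?_ mcl_K
    sElM_cent ?_
  · rw [cG]; norm_num
  · intro N hN hbot
    exact mcl_normal_dvd N hN hbot

theorem mcl_pair_std (u v : leechLattice) (hu : sqNorm (u : GolayPt → ℤ) = 48)
    (hv : sqNorm (v : GolayPt → ℤ) = 32 ∧
      sqNorm ((u : GolayPt → ℤ) - (v : GolayPt → ℤ)) = 32) :
    ∃ h : Co0, h • u = u5L ∧ h • v = v0 := by
  obtain ⟨k, hk⟩ := co0_trans_48 u u5L hu sqNorm_u5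
  have hku : (k : Equiv.Perm leechLattice) u = u5L := hk
  have hkv : sqNorm ((k • v : leechLattice) : GolayPt → ℤ) = 32 ∧
      sqNorm ((u5L : GolayPt → ℤ) - ((k • v : leechLattice) : GolayPt → ℤ)) = 32 := by
    refine ⟨?_, ?_⟩
    · show sqNorm (((k : Equiv.Perm leechLattice) v : leechLattice) : GolayPt → ℤ) = 32
      rw [k.2.2]; exact hv.1
    · have e2 : (((k : Equiv.Perm leechLattice) (u - v) : leechLattice) : GolayPt → ℤ) =
          (u5L : GolayPt → ℤ) - (((k : Equiv.Perm leechLattice) v : leechLattice) : GolayPt → ℤ) := by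
        rw [co0_sub _ k.2, AddSubgroup.coe_sub, hku]
      show sqNorm ((u5L : GolayPt → ℤ) -
        (((k : Equiv.Perm leechLattice) v : leechLattice) : GolayPt → ℤ)) = 32
      rw [← e2, k.2.2, AddSubgroup.coe_sub]; exact hv.2
  obtain ⟨g, g1, g2⟩ := pair552 u5L (k • v) v0 sqNorm_u5 hkv mcStd0
  refine ⟨g * k, ?_, ?_⟩
  · rw [mul_smul, hk, g1]
  · rw [mul_smul, g2]

/-- the McLaughlin stabiliser is simple -/
theorem mcl_simple (u v : leechLattice) (hu : sqNorm (u : GolayPt → ℤ) = 48)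
    (hv : sqNorm (v : GolayPt → ℤ) = 32 ∧
      sqNorm ((u : GolayPt → ℤ) - (v : GolayPt → ℤ)) = 32) :
    IsSimpleGroup ↥(MulAction.stabilizer Co0 u ⊓ MulAction.stabilizer Co0 v) := by
  obtain ⟨h, k1, k2⟩ := mcl_pair_std u v hu hv
  have heq : GM = (MulAction.stabilizer Co0 u ⊓ MulAction.stabilizer Co0 v).map
      (MulAut.conj h).toMonoidHom := by
    show MulAction.stabilizer Co0 u5L ⊓ MulAction.stabilizer Co0 v0 = _
    rw [← k1, ← k2, MulAction.stabilizer_smul_eq_stabilizer_map_conj,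
      MulAction.stabilizer_smul_eq_stabilizer_map_conj,
      ← Subgroup.map_inf _ _ _ (MulAut.conj h).injective]
  haveI : IsSimpleGroup ↥GM := mcl_std_simple
  exact ((Subgroup.equivMapOfInjective _ _ (MulAut.conj h).injective).trans
    (MulEquiv.subgroupCongr heq.symm)).isSimpleGroup

theorem mcl_final (v w : leechLattice) (hv : sqNorm (v : GolayPt → ℤ) = 32)
    (hw : sqNorm (w : GolayPt → ℤ) = 32)
    (hvw : dotInt (v : GolayPt → ℤ) (w : GolayPt → ℤ) = -8) :
    IsSimpleGroup ↥(MulAction.stabilizer Co0 v ⊓ MulAction.stabilizer Co0 w) ∧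
      Nat.card ↥(MulAction.stabilizer Co0 v ⊓ MulAction.stabilizer Co0 w) = 898128000 := by
  have hu : sqNorm ((v + w : leechLattice) : GolayPt → ℤ) = 48 := by
    rw [AddSubgroup.coe_add, Helper28.Leech.sqNorm_add, hv, hw, hvw]; norm_num
  have hv' : sqNorm (v : GolayPt → ℤ) = 32 ∧
      sqNorm (((v + w : leechLattice) : GolayPt → ℤ) - (v : GolayPt → ℤ)) = 32 := by
    refine ⟨hv, ?_⟩
    rw [AddSubgroup.coe_add, add_sub_cancel_left]; exact hw
  have hst : MulAction.stabilizer Co0 v ⊓ MulAction.stabilizer Co0 w =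
      MulAction.stabilizer Co0 (v + w) ⊓ MulAction.stabilizer Co0 v := by
    ext g
    simp only [Subgroup.mem_inf, MulAction.mem_stabilizer_iff]
    constructor
    · rintro ⟨a, b⟩
      refine ⟨?_, a⟩
      have a' : (g : Equiv.Perm leechLattice) v = v := a
      have b' : (g : Equiv.Perm leechLattice) w = w := b
      show (g : Equiv.Perm leechLattice) (v + w) = v + w
      rw [g.2.1, a', b']
    · rintro ⟨a, b⟩
      refine ⟨b, ?_⟩
      have a' : (g : Equiv.Perm leechLattice) (v + w) = v + w := a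
      have b' : (g : Equiv.Perm leechLattice) v = v := b
      rw [g.2.1, b'] at a'
      exact add_left_cancel a'
  rw [hst]
  exact ⟨mcl_simple _ _ hu hv', mcl_card _ _ hu hv'⟩

end Cfsg.Agent.Helper3
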