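import Mathlib
import Cfsg.Agent.Helper3.McLSimple

set_option autoImplicit false
set_option linter.unusedSectionVars false
set_option linter.style.haveILetI false
set_option linter.unusedSimpArgs false
set_option linter.unusedVariables false
set_option linter.deprecated false
set_option linter.unnecessarySeqFocus false

namespace Cfsg.Agent.Helper3

open Cfsg Cfsg.Agent.Helper28.Leech
open scoped Pointwise

/-! ### abstract lemmas on normal subgroups of order prime to `p` -/

theorem normal_card_facts {G M : Type*} [Group G] [Finite G] [Group M] [hM : IsSimpleGroup M]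
    (p : ℕ) [hp : Fact p.Prime] (φ : M →* G) (hφ : Function.Injective φ) (s : M)
    (hs : orderOf s = p) (hK : ∀ g : G, g * φ s = φ s * g → g ∈ φ.range)
    (N : Subgroup G) (hN : N.Normal) (hpN : ¬ p ∣ Nat.card N) :
    Nat.card N % p = 1 ∧ Nat.card N ∣ Nat.card G / Nat.card M := by
  haveI := hN
  have hσ : orderOf (φ s) = p := by rw [orderOf_injective φ hφ, hs]
  haveI : (N.comap φ).Normal := Subgroup.Normal.comap hN φ
  have hφbot : N.comap φ = ⊥ := by
    rcases hM.eq_bot_or_eq_top_of_normal (N.comap φ) inferInstance with h | h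
    · exact h
    · exfalso
      apply hpN
      have hsN : φ s ∈ N := by
        have : s ∈ N.comap φ := by rw [h]; exact Subgroup.mem_top _
        exact this
      have h1 : orderOf (⟨φ s, hsN⟩ : N) ∣ Nat.card N := orderOf_dvd_natCard _
      rw [Subgroup.orderOf_mk, hσ] at h1
      exact h1
  have hcentN : ∀ n ∈ N, n * φ s = φ s * n → n = 1 := by
    intro n hn hc
    obtain ⟨m, rfl⟩ := hK n hc
    have : m ∈ N.comap φ := hn
    rw [hφbot, Subgroup.mem_bot] at this
    rw [this, map_one]
  exact ⟨card_mod_one_of_cent N (φ s) p hσ hcentN, card_dvd_of_comap_bot φ N hφbot⟩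

theorem normal_card_simple_sub {G H : Type*} [Group G] [Finite G] [Group H]
    [hH : IsSimpleGroup H] (ψ : H →* G) (hψ : Function.Injective ψ)
    (N : Subgroup G) (hN : N.Normal) :
    Nat.card N ∣ Nat.card G / Nat.card H ∨ Nat.card H ∣ Nat.card N := by
  haveI := hN
  haveI : (N.comap ψ).Normal := Subgroup.Normal.comap hN ψ
  rcases hH.eq_bot_or_eq_top_of_normal (N.comap ψ) inferInstance with h | h
  · exact Or.inl (card_dvd_of_comap_bot ψ N h)
  · right
    have hall : ∀ x : H, ψ x ∈ N := by
      intro x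
      have : x ∈ N.comap ψ := by rw [h]; exact Subgroup.mem_top _
      exact this
    have hinj : Function.Injective (ψ.codRestrict N hall) := by
      intro a b hab
      apply hψ
      exact congrArg Subtype.val hab
    haveI : Finite H := Finite.of_injective _ hinj
    exact Subgroup.card_dvd_of_injective _ hinj

/-! ### the second Conway group -/

/-- the standard second Conway group -/
abbrev G2 : Subgroup Co0 := MulAction.stabilizer Co0 (yPL none)

/-- `M23` inside the standard second Conway group -/
noncomputable def co2Hom : ↥M23t →* ↥G2 :=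
  MonoidHom.mk' (fun m =>
    ⟨⟨permAut ((m : M24) : Equiv.Perm GolayPt)⁻¹ (M24.inv_mem (m : M24).2), permAut_mem _ _⟩,
      permAut_yP _ _ (Equiv.Perm.inv_eq_iff_eq.2
        (m.2 : ((m : M24) : Equiv.Perm GolayPt) none = none).symm)⟩)
    (by
      intro a b
      apply Subtype.ext
      apply Subtype.ext
      exact permAut_mul_inv _ _ (a : M24).2 (b : M24).2)

theorem co2Hom_inj : Function.Injective co2Hom := by
  intro a b hab
  have h1 : permAut ((a : M24) : Equiv.Perm GolayPt)⁻¹ (M24.inv_mem (a : M24).2) =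
      permAut ((b : M24) : Equiv.Perm GolayPt)⁻¹ (M24.inv_mem (b : M24).2) := by
    have := congrArg (fun t : ↥G2 => ((t : Co0) : Equiv.Perm leechLattice)) hab
    exact this
  apply Subtype.ext
  apply Subtype.ext
  exact permAut_inv_inj _ _ (a : M24).2 (b : M24).2 h1

theorem fix23_eq48 (w : leechLattice)
    (hw : permAut gShift⁻¹ (M24.inv_mem gShift_mem_M24) w = w)
    (hn : sqNorm (w : GolayPt → ℤ) = 48) (hd : dotInt (yP none) (w : GolayPt → ℤ) = 8) :
    w = u5L := by
  have hc := fix23_const w hw
  have h1 : sqNorm (w : GolayPt → ℤ) = (w : GolayPt → ℤ) none ^ 2 +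
      23 * (w : GolayPt → ℤ) (some 0) ^ 2 := by
    unfold sqNorm
    rw [Fintype.sum_option]
    simp only [hc]
    rw [Finset.sum_const, Finset.card_univ, ZMod.card]
    simp
  have h2 : dotInt (yP none) (w : GolayPt → ℤ) = -3 * (w : GolayPt → ℤ) none +
      23 * (w : GolayPt → ℤ) (some 0) := by
    unfold dotInt
    rw [Fintype.sum_option]
    simp only [hc]
    have e1 : yP none none = -3 := rfl
    have e2 : ∀ x : ZMod 23, yP none (some x) = 1 := fun x => rfl
    simp only [e1, e2, one_mul]
    rw [Finset.sum_const, Finset.card_univ, ZMod.card]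
    simp
  rw [h1] at hn
  rw [h2] at hd
  have hb : (w : GolayPt → ℤ) (some 0) = 1 ∧ (w : GolayPt → ℤ) none = 5 := by
    have hb1 : (w : GolayPt → ℤ) (some 0) ≤ 1 := by nlinarith [sq_nonneg ((w : GolayPt → ℤ) none)]
    have hb2 : -1 ≤ (w : GolayPt → ℤ) (some 0) := by nlinarith [sq_nonneg ((w : GolayPt → ℤ) none)]
    have hcases : (w : GolayPt → ℤ) (some 0) = -1 ∨ (w : GolayPt → ℤ) (some 0) = 0 ∨
        (w : GolayPt → ℤ) (some 0) = 1 := by omega
    rcases hcases with h | h | h
    · rw [h] at hd; omega
    · rw [h] at hd; omega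
    · rw [h] at hd; exact ⟨h, by omega⟩
  apply Subtype.ext
  funext i
  show (w : GolayPt → ℤ) i = u5 i
  unfold u5
  cases i with
  | none => rw [if_pos rfl]; exact hb.2
  | some x => rw [if_neg (Option.some_ne_none x), hc x]; exact hb.1

theorem co2_K (g : ↥G2)
    (h : g * co2Hom sEl * g⁻¹ ∈ Subgroup.zpowers (co2Hom sEl)) : g ∈ co2Hom.range := by
  haveI := co0_finite
  have hgC : ((g : Co0) : Equiv.Perm leechLattice) ∈ Co0 := (g : Co0).2
  have hgy : ((g : Co0) : Equiv.Perm leechLattice) (yPL none) = yPL none := g.2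
  have hxf : co2Hom sEl • u5L = u5L :=
    permAut_u5 _ _ (Equiv.Perm.inv_eq_iff_eq.2 gShift_none.symm)
  have hy : g * co2Hom sEl * g⁻¹ ∈ MulAction.stabilizer ↥G2 (g • u5L) := by
    rw [MulAction.mem_stabilizer_iff, mul_smul, mul_smul, inv_smul_smul, hxf]
  have ho : orderOf (g * co2Hom sEl * g⁻¹) = orderOf (co2Hom sEl) :=
    (MulAut.conj g).orderOf_eq (co2Hom sEl)
  have hzeq : Subgroup.zpowers (g * co2Hom sEl * g⁻¹) = Subgroup.zpowers (co2Hom sEl) := by
    apply Subgroup.eq_of_le_of_card_ge (Subgroup.zpowers_le.2 h)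
    rw [Nat.card_zpowers, Nat.card_zpowers, ho]
  have hx : co2Hom sEl ∈ MulAction.stabilizer ↥G2 (g • u5L) := by
    have : co2Hom sEl ∈ Subgroup.zpowers (g * co2Hom sEl * g⁻¹) := by
      rw [hzeq]; exact Subgroup.mem_zpowers _
    exact (Subgroup.zpowers_le.2 hy) this
  have hw : permAut gShift⁻¹ (M24.inv_mem gShift_mem_M24)
      (((g : Co0) : Equiv.Perm leechLattice) u5L) =
      ((g : Co0) : Equiv.Perm leechLattice) u5L := hx
  have hn : sqNorm ((((g : Co0) : Equiv.Perm leechLattice) u5L : leechLattice) :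
      GolayPt → ℤ) = 48 := by
    rw [hgC.2]; exact sqNorm_u5
  have hd : dotInt (yP none) ((((g : Co0) : Equiv.Perm leechLattice) u5L : leechLattice) :
      GolayPt → ℤ) = 8 := by
    have d := co0_dot ((g : Co0) : Equiv.Perm leechLattice) hgC (yPL none) u5L
    rw [hgy] at d
    exact d.trans ((dotInt_symm _ _).trans yPn_facts.2.1)
  have hfix := fix23_eq48 _ hw hn hd
  obtain ⟨π, hπ, hπn, hgπ⟩ := mono_of_fix _ hgC hfix hgy
  refine ⟨⟨⟨π, hπ⟩, hπn⟩, ?_⟩
  apply Subtype.ext
  apply Subtype.ext
  exact hgπ.symm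

/-- the stabiliser of a minimal vector has the order of `Co2` -/
theorem co2_card (v : leechLattice) (hv : sqNorm (v : GolayPt → ℤ) = 32) :
    Nat.card (MulAction.stabilizer Co0 v) = 42305421312000 := by
  have h1 := Subgroup.card_mul_index (MulAction.stabilizer Co0 v)
  rw [MulAction.index_stabilizer] at h1
  have horb : MulAction.orbit Co0 v = normSet 32 := by
    ext w
    constructor
    · rintro ⟨g, rfl⟩
      show sqNorm (((g : Equiv.Perm leechLattice) v : leechLattice) : GolayPt → ℤ) = 32
      rw [g.2.2]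
      exact hv
    · intro hw
      obtain ⟨g, hg⟩ := co0_trans_min v w hv hw
      exact ⟨g, hg⟩
  rw [horb, normSet_ncard, leech_count_32, co0_card] at h1
  have key : ∀ S : ℕ, S * 196560 = 8315553613086720000 → S = 42305421312000 := by
    intro S e
    omega
  exact key _ h1

/-- a Higman–Sims subgroup of the standard second Conway group -/
theorem co2_hs_sub : ∃ a b : leechLattice, sqNorm (a : GolayPt → ℤ) = 48 ∧
    sqNorm (b : GolayPt → ℤ) = 48 ∧ dotInt (a : GolayPt → ℤ) (b : GolayPt → ℤ) = -32 ∧
    MulAction.stabilizer Co0 a ⊓ MulAction.stabilizer Co0 b ≤ G2 := by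
  have hs0 : sqNorm ((u5L + (-u5bL) : leechLattice) : GolayPt → ℤ) = 32 := by
    rw [AddSubgroup.coe_add, Helper28.Leech.sqNorm_add, std_v, std_w, std_vw]; norm_num
  obtain ⟨k, hk⟩ := co0_trans_min (u5L + (-u5bL)) (yPL none) hs0 yPn_facts.1
  refine ⟨k • u5L, k • (-u5bL), ?_, ?_, ?_, ?_⟩
  · show sqNorm (((k : Equiv.Perm leechLattice) u5L : leechLattice) : GolayPt → ℤ) = 48
    rw [k.2.2]; exact std_v
  · show sqNorm (((k : Equiv.Perm leechLattice) (-u5bL) : leechLattice) : GolayPt → ℤ) = 48
    rw [k.2.2]; exact std_w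
  · show dotInt (((k : Equiv.Perm leechLattice) u5L : leechLattice) : GolayPt → ℤ)
      (((k : Equiv.Perm leechLattice) (-u5bL) : leechLattice) : GolayPt → ℤ) = -32
    rw [co0_dot _ k.2]; exact std_vw
  · intro g hg
    have a : (g : Equiv.Perm leechLattice) ((k : Equiv.Perm leechLattice) u5L) =
        (k : Equiv.Perm leechLattice) u5L := hg.1
    have b : (g : Equiv.Perm leechLattice) ((k : Equiv.Perm leechLattice) (-u5bL)) =
        (k : Equiv.Perm leechLattice) (-u5bL) := hg.2
    have e : yPL none = (k : Equiv.Perm leechLattice) u5L +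
        (k : Equiv.Perm leechLattice) (-u5bL) := by
      rw [← k.2.1]; exact hk.symm
    show (g : Equiv.Perm leechLattice) (yPL none) = yPL none
    rw [e, g.2.1, a, b]

set_option maxRecDepth 100000 in
theorem co2_num : ∀ d ∈ List.range 513, d ∣ 512 → d % 23 = 1 → d = 1 := by decide +kernel

theorem co2_std_simple : IsSimpleGroup ↥G2 := by
  haveI := co0_finite
  haveI : Fact (Nat.Prime 23) := ⟨by norm_num⟩
  haveI : IsSimpleGroup ↥M23t := simple_stab_point none
  have cG : Nat.card ↥G2 = 42305421312000 := co2_card (yPL none) yPn_facts.1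
  have cM : Nat.card ↥M23t = 10200960 := card_stabilizer_point none
  refine simple_of_sylow_normalizer 23 co2Hom co2Hom_inj sEl tEl sEl_order sEl_tEl ?_ co2_K
    sEl_cent ?_
  · rw [cG]; norm_num
  · intro N hN hbot
    by_contra hpN
    obtain ⟨hd1, hdA⟩ := normal_card_facts 23 co2Hom co2Hom_inj sEl sEl_order (by
      intro g hg
      apply co2_K
      rw [hg, mul_inv_cancel_right]
      exact Subgroup.mem_zpowers _) N hN hpN
    rw [cG, cM] at hdA
    obtain ⟨a, b, ha, hb, hab, hle⟩ := co2_hs_sub
    haveI : IsSimpleGroup ↥(MulAction.stabilizer Co0 a ⊓ MulAction.stabilizer Co0 b) :=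
      hs_simple a b ha hb hab
    have cH1 := hs_card a b ha hb hab
    have hB1 := normal_card_simple_sub (Subgroup.inclusion hle) (Subgroup.inclusion_injective _)
      N hN
    rw [cG, cH1] at hB1
    have hle2 : MulAction.stabilizer Co0 (yPL none) ⊓ MulAction.stabilizer Co0 v0 ≤ G2 :=
      inf_le_left
    obtain ⟨sM, cH2⟩ := mcl_final (yPL none) v0 yPn_facts.1 v0_norm
      ((dotInt_symm _ _).trans yPn_v0)
    haveI := sM
    have hB2 := normal_card_simple_sub (Subgroup.inclusion hle2)
      (Subgroup.inclusion_injective _) N hN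
    rw [cG, cH2] at hB2
    have e1 : (42305421312000 : ℕ) / 10200960 = 4147200 := by norm_num
    have e2 : (42305421312000 : ℕ) / 44352000 = 953856 := by norm_num
    have e3 : (42305421312000 : ℕ) / 898128000 = 47104 := by norm_num
    rw [e1] at hdA
    rw [e2] at hB1
    rw [e3] at hB2
    have hd2 : Nat.card N ∣ 953856 := by
      rcases hB1 with h | h
      · exact h
      · exfalso
        have := h.trans hdA
        revert this
        norm_num
    have hd3 : Nat.card N ∣ 47104 := by
      rcases hB2 with h | h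
      · exact h
      · exfalso
        have := h.trans hdA
        revert this
        norm_num
    have h512 : Nat.card N ∣ 512 := by
      have := Nat.dvd_gcd (Nat.dvd_gcd hdA hd2) hd3
      have e : Nat.gcd (Nat.gcd 4147200 953856) 47104 = 512 := by norm_num
      rwa [e] at this
    have hle512 : Nat.card N ≤ 512 := Nat.le_of_dvd (by norm_num) h512
    have := co2_num _ (List.mem_range.2 (by omega)) h512 hd1
    exact hbot (Subgroup.card_eq_one.1 this)

/-- the stabiliser of a minimal vector is simple of the order of `Co2` -/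
theorem co2_final (v : leechLattice) (hv : sqNorm (v : GolayPt → ℤ) = 32) :
    IsSimpleGroup ↥(MulAction.stabilizer Co0 v) ∧
      Nat.card ↥(MulAction.stabilizer Co0 v) = 42305421312000 := by
  obtain ⟨k, hk⟩ := co0_trans_min (yPL none) v yPn_facts.1 hv
  exact ⟨((MulAction.stabilizerEquivStabilizer hk.symm).isSimpleGroup_congr).1 co2_std_simple,
    co2_card v hv⟩

end Cfsg.Agent.Helper3
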