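import Mathlib
import Cfsg.Agent.Helper3.Co2Simple

set_option autoImplicit false
set_option linter.unusedSectionVars false
set_option linter.style.haveILetI false
set_option linter.unusedSimpArgs false
set_option linter.unusedVariables false
set_option linter.deprecated false
set_option linter.unnecessarySeqFocus false

namespace Cfsg.Agent.Helper3

open Cfsg Cfsg.Agent.Helper28.Leech
open scoped Pointwise

/-! ### abstract lemmas -/

/-- simplicity of the quotient by the centre, from a simple subgroup which together with the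
centre contains the normaliser of a Sylow subgroup of prime order -/
theorem quot_center_simple {G M : Type*} [Group G] [Finite G] [Group M] [hM : IsSimpleGroup M]
    (p : ℕ) [hp : Fact p.Prime] (φ : M →* G) (hφ : Function.Injective φ) (s : M)
    (hs : orderOf s = p) (hp2 : ¬ p ^ 2 ∣ Nat.card G)
    (hK : ∀ g : G, g * φ s * g⁻¹ ∈ Subgroup.zpowers (φ s) →
      ∃ z ∈ Subgroup.center G, ∃ m : M, g = z * φ m)
    (hN : ∀ N : Subgroup G, N.Normal → Subgroup.center G ≤ N → N ≠ Subgroup.center G →
      p ∣ Nat.card N)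
    (hnc : ∃ g : G, g ∉ Subgroup.center G) :
    IsSimpleGroup (G ⧸ Subgroup.center G) := by
  have hσ : orderOf (φ s) = p := by rw [orderOf_injective φ hφ, hs]
  have hs1 : s ≠ 1 := by
    intro h
    rw [h, orderOf_one] at hs
    exact hp.out.one_lt.ne hs
  have key : ∀ N : Subgroup G, N.Normal → Subgroup.center G ≤ N →
      N = Subgroup.center G ∨ N = ⊤ := by
    intro N hNn hZ
    by_cases hne : N = Subgroup.center G
    · exact Or.inl hne
    · right
      haveI := hNn
      have hpN := hN N hNn hZ hne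
      have hsN : φ s ∈ N := by
        by_contra hsN
        have h1 : orderOf (QuotientGroup.mk' N (φ s)) ∣ p := by
          rw [← hσ]; exact orderOf_map_dvd (QuotientGroup.mk' N) (φ s)
        have h2 : orderOf (QuotientGroup.mk' N (φ s)) ≠ 1 := by
          rw [Ne, orderOf_eq_one_iff]
          intro h
          exact hsN ((QuotientGroup.eq_one_iff _).1 h)
        have h3 : orderOf (QuotientGroup.mk' N (φ s)) = p :=
          ((Nat.dvd_prime hp.out).1 h1).resolve_left h2
        have h4 : p ∣ Nat.card (G ⧸ N) := by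
          rw [← h3]; exact orderOf_dvd_natCard _
        apply hp2
        rw [Subgroup.card_eq_card_quotient_mul_card_subgroup N, pow_two]
        exact Nat.mul_dvd_mul h4 hpN
      haveI : (N.comap φ).Normal := Subgroup.Normal.comap hNn φ
      have hall : ∀ m : M, φ m ∈ N := by
        rcases hM.eq_bot_or_eq_top_of_normal (N.comap φ) inferInstance with h | h
        · exfalso
          have : s ∈ N.comap φ := hsN
          rw [h, Subgroup.mem_bot] at this
          exact hs1 this
        · intro m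
          have : m ∈ N.comap φ := by rw [h]; exact Subgroup.mem_top _
          exact this
      have hcard : Nat.card (Subgroup.zpowers (φ s)) = p ^ 1 := by
        rw [Nat.card_zpowers, hσ, pow_one]
      have hpg : IsPGroup p (Subgroup.zpowers (φ s)) := IsPGroup.of_card hcard
      have hidx : ¬ p ∣ (Subgroup.zpowers (φ s)).index := by
        intro hdvd
        apply hp2
        rw [← Subgroup.card_mul_index (Subgroup.zpowers (φ s)), hcard, pow_one, pow_two]
        exact Nat.mul_dvd_mul_left p hdvd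
      let P : Sylow p G := hpg.toSylow hidx
      have hP : (P : Subgroup G) = Subgroup.zpowers (φ s) := rfl
      have hPN : (P : Subgroup G) ≤ N := by
        rw [hP, Subgroup.zpowers_le]; exact hsN
      have hF := Sylow.normalizer_sup_eq_top' P hPN
      have hle : Subgroup.normalizer (P : Subgroup G) ≤ N := by
        intro g hg
        rw [Subgroup.mem_normalizer_iff] at hg
        have hm : g * φ s * g⁻¹ ∈ Subgroup.zpowers (φ s) := by
          rw [← hP]
          exact (hg (φ s)).1 (by rw [hP]; exact Subgroup.mem_zpowers _)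
        obtain ⟨z, hz, m, rfl⟩ := hK g hm
        exact N.mul_mem (hZ hz) (hall m)
      rw [eq_top_iff, ← hF]
      exact sup_le hle le_rfl
  obtain ⟨g0, hg0⟩ := hnc
  haveI : Nontrivial (G ⧸ Subgroup.center G) :=
    ⟨⟨QuotientGroup.mk g0, 1, fun h => hg0 ((QuotientGroup.eq_one_iff g0).1 h)⟩⟩
  refine ⟨fun K hKn => ?_⟩
  have hNn : (K.comap (QuotientGroup.mk' (Subgroup.center G))).Normal :=
    Subgroup.Normal.comap hKn _
  have hZ : Subgroup.center G ≤ K.comap (QuotientGroup.mk' (Subgroup.center G)) := by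
    intro z hz
    rw [Subgroup.mem_comap, QuotientGroup.mk'_apply, (QuotientGroup.eq_one_iff z).2 hz]
    exact K.one_mem
  rcases key _ hNn hZ with h | h
  · left
    rw [Subgroup.eq_bot_iff_forall]
    intro k hk
    obtain ⟨g, rfl⟩ := QuotientGroup.mk_surjective k
    have : g ∈ K.comap (QuotientGroup.mk' (Subgroup.center G)) := hk
    rw [h] at this
    exact (QuotientGroup.eq_one_iff g).2 this
  · right
    rw [eq_top_iff]
    intro k _
    obtain ⟨g, rfl⟩ := QuotientGroup.mk_surjective k
    have : g ∈ K.comap (QuotientGroup.mk' (Subgroup.center G)) := by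
      rw [h]; exact Subgroup.mem_top _
    exact this

theorem comap_bot_of_simple {G H : Type*} [Group G] [Finite G] [Group H] [hH : IsSimpleGroup H]
    (ψ : H →* G) (hψ : Function.Injective ψ) (N : Subgroup G) (hN : N.Normal)
    (h : ¬ Nat.card H ∣ Nat.card N) : N.comap ψ = ⊥ := by
  haveI : (N.comap ψ).Normal := Subgroup.Normal.comap hN ψ
  rcases hH.eq_bot_or_eq_top_of_normal (N.comap ψ) inferInstance with h' | h'
  · exact h'
  · exfalso
    apply h
    have hall : ∀ x : H, ψ x ∈ N := fun x => by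
      have : x ∈ N.comap ψ := by rw [h']; exact Subgroup.mem_top _
      exact this
    have hinj : Function.Injective (ψ.codRestrict N hall) := by
      intro a b hab
      apply hψ
      exact congrArg Subtype.val hab
    haveI : Finite H := Finite.of_injective _ hinj
    exact Subgroup.card_dvd_of_injective _ hinj

theorem smul_fixed_of_normalize {G α : Type*} [Group G] [Finite G] [MulAction G α] (g a : G)
    (x : α) (h : g * a * g⁻¹ ∈ Subgroup.zpowers a) (hx : a • x = x) : a • (g • x) = g • x := by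
  have hy : g * a * g⁻¹ ∈ MulAction.stabilizer G (g • x) := by
    rw [MulAction.mem_stabilizer_iff, mul_smul, mul_smul, inv_smul_smul, hx]
  have ho : orderOf (g * a * g⁻¹) = orderOf a := (MulAut.conj g).orderOf_eq a
  have hzeq : Subgroup.zpowers (g * a * g⁻¹) = Subgroup.zpowers a := by
    apply Subgroup.eq_of_le_of_card_ge (Subgroup.zpowers_le.2 h)
    rw [Nat.card_zpowers, Nat.card_zpowers, ho]
  have hx' : a ∈ MulAction.stabilizer G (g • x) := by
    have : a ∈ Subgroup.zpowers (g * a * g⁻¹) := by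
      rw [hzeq]; exact Subgroup.mem_zpowers _
    exact (Subgroup.zpowers_le.2 hy) this
  exact hx'

/-! ### the normaliser of the subgroup of order 23 in the full automorphism group -/

/-- `M23` inside the automorphism group -/
noncomputable def co1Hom : ↥M23t →* Co0 := (Subgroup.subtype G3).comp co3Hom

theorem co1Hom_inj : Function.Injective co1Hom :=
  (Subgroup.subtype_injective G3).comp co3Hom_inj

/-- the central involution -/
def negC : Co0 := ⟨negAut, negAut_mem⟩

theorem negC_center : negC ∈ Subgroup.center Co0 := by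
  rw [Subgroup.mem_center_iff]
  intro k
  apply Subtype.ext
  apply Equiv.ext
  intro x
  show (k : Equiv.Perm leechLattice) (negAut x) = negAut ((k : Equiv.Perm leechLattice) x)
  rw [negAut_apply, negAut_apply, co0_map_neg _ k.2]

theorem negC_smul (x : leechLattice) : negC • x = -x := rfl

theorem negC_sq : negC * negC = 1 := by
  apply Subtype.ext
  apply Equiv.ext
  intro x
  show negAut (negAut x) = x
  rw [negAut_apply, negAut_apply, neg_neg]

theorem arith48 (a b : ℤ) (hn : a ^ 2 + 23 * b ^ 2 = 48)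
    (h3 : (16 : ℤ) ∣ 48 + 48 - 2 * (5 * a + 23 * b)) :
    (a = 5 ∧ b = 1) ∨ (a = -5 ∧ b = -1) := by
  have hb1 : b ≤ 1 := by nlinarith [sq_nonneg a]
  have hb2 : -1 ≤ b := by nlinarith [sq_nonneg a]
  have ha1 : a ≤ 6 := by nlinarith [sq_nonneg b]
  have ha2 : -6 ≤ a := by nlinarith [sq_nonneg b]
  have hb3 : b = -1 ∨ b = 0 ∨ b = 1 := by omega
  rcases hb3 with h | h | h
  · rw [h] at hn h3
    have : (a - 5) * (a + 5) = 0 := by nlinarith
    rcases mul_eq_zero.1 this with h' | h'
    · exfalso
      have : a = 5 := by omega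
      rw [this] at h3
      omega
    · right; exact ⟨by omega, h⟩
  · rw [h] at hn
    exfalso
    nlinarith
  · rw [h] at hn h3
    have : (a - 5) * (a + 5) = 0 := by nlinarith
    rcases mul_eq_zero.1 this with h' | h'
    · left; exact ⟨by omega, h⟩
    · exfalso
      have : a = -5 := by omega
      rw [this] at h3
      omega

theorem fix23_48pm (w : leechLattice)
    (hw : permAut gShift⁻¹ (M24.inv_mem gShift_mem_M24) w = w)
    (hn : sqNorm (w : GolayPt → ℤ) = 48) : w = u5L ∨ w = -u5L := by
  have hc := fix23_const w hw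
  have h1 : sqNorm (w : GolayPt → ℤ) = (w : GolayPt → ℤ) none ^ 2 +
      23 * (w : GolayPt → ℤ) (some 0) ^ 2 := by
    unfold sqNorm
    rw [Fintype.sum_option]
    simp only [hc]
    rw [Finset.sum_const, Finset.card_univ, ZMod.card]
    simp
  have h2 : dotInt u5 (w : GolayPt → ℤ) = 5 * (w : GolayPt → ℤ) none +
      23 * (w : GolayPt → ℤ) (some 0) := by
    unfold dotInt
    rw [Fintype.sum_option]
    simp only [hc]
    have e1 : u5 none = 5 := rfl
    have e2 : ∀ x : ZMod 23, u5 (some x) = 1 := fun x => rfl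
    simp only [e1, e2, one_mul]
    rw [Finset.sum_const, Finset.card_univ, ZMod.card]
    simp
  have h3 : (16 : ℤ) ∣ sqNorm ((w - u5L : leechLattice) : GolayPt → ℤ) :=
    leech_dvd _ (w - u5L).2
  have e5 : sqNorm ((u5L : leechLattice) : GolayPt → ℤ) = 48 := sqNorm_u5
  have e6 : dotInt (w : GolayPt → ℤ) ((u5L : leechLattice) : GolayPt → ℤ) =
      5 * (w : GolayPt → ℤ) none + 23 * (w : GolayPt → ℤ) (some 0) := by
    rw [dotInt_symm]; exact h2
  rw [AddSubgroup.coe_sub, Helper28.Leech.sqNorm_sub, hn, e5, e6] at h3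
  rw [h1] at hn
  rcases arith48 _ _ hn h3 with ⟨ha, hb⟩ | ⟨ha, hb⟩
  · left
    apply Subtype.ext
    funext i
    show (w : GolayPt → ℤ) i = u5 i
    unfold u5
    cases i with
    | none => rw [if_pos rfl]; exact ha
    | some x => rw [if_neg (Option.some_ne_none x), hc x]; exact hb
  · right
    apply Subtype.ext
    funext i
    show (w : GolayPt → ℤ) i = -(u5 i)
    unfold u5
    cases i with
    | none => rw [if_pos rfl]; exact ha
    | some x => rw [if_neg (Option.some_ne_none x), hc x]; exact hb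

theorem co1_K_pos (g : Co0) (hgu : g • u5L = u5L)
    (h : g * co1Hom sEl * g⁻¹ ∈ Subgroup.zpowers (co1Hom sEl)) :
    ∃ m : ↥M23t, g = co1Hom m := by
  have h' : (⟨g, hgu⟩ : ↥G3) * co3Hom sEl * (⟨g, hgu⟩ : ↥G3)⁻¹ ∈
      Subgroup.zpowers (co3Hom sEl) := by
    obtain ⟨k, hk⟩ := Subgroup.mem_zpowers_iff.1 h
    refine Subgroup.mem_zpowers_iff.2 ⟨k, ?_⟩
    apply Subtype.ext
    rw [Subgroup.coe_zpow]
    exact hk
  obtain ⟨m, hm⟩ := co3_K _ h'
  exact ⟨m, (congrArg Subtype.val hm).symm⟩

theorem co1_K (g : Co0)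
    (h : g * co1Hom sEl * g⁻¹ ∈ Subgroup.zpowers (co1Hom sEl)) :
    (∃ m : ↥M23t, g = co1Hom m) ∨ (∃ m : ↥M23t, g = negC * co1Hom m) := by
  haveI := co0_finite
  have hxf : co1Hom sEl • u5L = u5L :=
    permAut_u5 _ _ (Equiv.Perm.inv_eq_iff_eq.2 gShift_none.symm)
  have hw := smul_fixed_of_normalize g (co1Hom sEl) u5L h hxf
  have hw' : permAut gShift⁻¹ (M24.inv_mem gShift_mem_M24)
      ((g : Equiv.Perm leechLattice) u5L) = (g : Equiv.Perm leechLattice) u5L := hw
  have hn : sqNorm (((g : Equiv.Perm leechLattice) u5L : leechLattice) : GolayPt → ℤ) = 48 := by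
    rw [g.2.2]; exact sqNorm_u5
  rcases fix23_48pm _ hw' hn with h1 | h1
  · left
    exact co1_K_pos g h1 h
  · right
    have h2 : (negC * g) • u5L = u5L := by
      rw [mul_smul]
      have : g • u5L = -u5L := h1
      rw [this, negC_smul, neg_neg]
    have h3 : (negC * g) * co1Hom sEl * (negC * g)⁻¹ ∈ Subgroup.zpowers (co1Hom sEl) := by
      have hc := Subgroup.mem_center_iff.1 negC_center
      have e : (negC * g) * co1Hom sEl * (negC * g)⁻¹ = g * co1Hom sEl * g⁻¹ := by
        calc (negC * g) * co1Hom sEl * (negC * g)⁻¹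
            = negC * (g * co1Hom sEl * g⁻¹) * negC⁻¹ := by group
          _ = (g * co1Hom sEl * g⁻¹) * negC * negC⁻¹ := by rw [hc (g * co1Hom sEl * g⁻¹)]
          _ = g * co1Hom sEl * g⁻¹ := by group
      rw [e]; exact h
    obtain ⟨m, hm⟩ := co1_K_pos (negC * g) h2 h3
    refine ⟨m, ?_⟩
    rw [← hm, ← mul_assoc, negC_sq, one_mul]

theorem co1_cent_in_center (N : Subgroup Co0) (hN : N.Normal) (hZ : Subgroup.center Co0 ≤ N)
    (hpN : ¬ 23 ∣ Nat.card N) (n : Co0) (hn : n ∈ N)
    (hc : n * co1Hom sEl = co1Hom sEl * n) : n ∈ Subgroup.center Co0 := by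
  haveI := co0_finite
  haveI : IsSimpleGroup ↥M23t := simple_stab_point none
  have cM : Nat.card ↥M23t = 10200960 := card_stabilizer_point none
  have hφbot : N.comap co1Hom = ⊥ :=
    comap_bot_of_simple co1Hom co1Hom_inj N hN (by
      rw [cM]
      intro h
      exact hpN ((by norm_num : 23 ∣ 10200960).trans h))
  have hmem : n * co1Hom sEl * n⁻¹ ∈ Subgroup.zpowers (co1Hom sEl) := by
    rw [hc, mul_inv_cancel_right]; exact Subgroup.mem_zpowers _
  rcases co1_K n hmem with ⟨m, rfl⟩ | ⟨m, rfl⟩
  · have : m ∈ N.comap co1Hom := hn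
    rw [hφbot, Subgroup.mem_bot] at this
    rw [this, map_one]; exact Subgroup.one_mem _
  · have h1 : co1Hom m ∈ N := by
      have := N.mul_mem (hZ negC_center) hn
      rwa [← mul_assoc, negC_sq, one_mul] at this
    have : m ∈ N.comap co1Hom := h1
    rw [hφbot, Subgroup.mem_bot] at this
    rw [this, map_one, mul_one]; exact negC_center

/-! ### orbits of a normal subgroup on the minimal vectors -/

/-- minimal vectors with a given inner product with the standard one -/
def T0 (c : ℤ) : Set leechLattice :=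
  {w | sqNorm (w : GolayPt → ℤ) = 32 ∧ dotInt (v0 : GolayPt → ℤ) (w : GolayPt → ℤ) = c}

theorem T0_ncard (c t : ℤ) (hc : c = 4 * t) :
    (T0 c).ncard = (pairSel alFull sqw 32 t).ncard := by
  rw [← census_v0_set c t hc]
  have e : {w : GolayPt → ℤ | w ∈ leechLattice ∧ sqNorm w = 32 ∧
      dotInt (v0 : GolayPt → ℤ) w = c} = Subtype.val '' T0 c := by
    ext w
    constructor
    · rintro ⟨hw, h1, h2⟩; exact ⟨⟨w, hw⟩, ⟨h1, h2⟩, rfl⟩
    · rintro ⟨w', ⟨h1, h2⟩, rfl⟩; exact ⟨w'.2, h1, h2⟩
  rw [e, Set.ncard_image_of_injective _ Subtype.val_injective]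

theorem min_dot_cases (v w : leechLattice) (hv : sqNorm (v : GolayPt → ℤ) = 32)
    (hw : sqNorm (w : GolayPt → ℤ) = 32) (h1 : w ≠ v) (h2 : w ≠ -v) :
    dotInt (v : GolayPt → ℤ) (w : GolayPt → ℤ) = -16 ∨
    dotInt (v : GolayPt → ℤ) (w : GolayPt → ℤ) = -8 ∨
    dotInt (v : GolayPt → ℤ) (w : GolayPt → ℤ) = 0 ∨
    dotInt (v : GolayPt → ℤ) (w : GolayPt → ℤ) = 8 ∨
    dotInt (v : GolayPt → ℤ) (w : GolayPt → ℤ) = 16 := by
  have a1 : (32 : ℤ) ≤ sqNorm ((v - w : leechLattice) : GolayPt → ℤ) := by
    apply leech_min_norm _ (v - w).2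
    intro h0
    apply h1
    have : v - w = 0 := Subtype.ext h0
    exact (sub_eq_zero.1 this).symm
  have a2 : (32 : ℤ) ≤ sqNorm ((v + w : leechLattice) : GolayPt → ℤ) := by
    apply leech_min_norm _ (v + w).2
    intro h0
    apply h2
    have : v + w = 0 := Subtype.ext h0
    exact eq_neg_of_add_eq_zero_right this
  have a3 : (16 : ℤ) ∣ sqNorm ((v + w : leechLattice) : GolayPt → ℤ) := leech_dvd _ (v + w).2
  rw [AddSubgroup.coe_sub, Helper28.Leech.sqNorm_sub, hv, hw] at a1
  rw [AddSubgroup.coe_add, Helper28.Leech.sqNorm_add, hv, hw] at a2 a3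
  omega

theorem co1_orbit_big (N : Subgroup Co0) (hN : N.Normal) (hneg : negC ∈ N)
    (w : leechLattice) (hw : w ∈ MulAction.orbit ↥N v0) (h1 : w ≠ v0) (h2 : w ≠ -v0) :
    9200 ≤ (MulAction.orbit ↥N v0).ncard := by
  haveI := co0_finite
  have hfin : (MulAction.orbit ↥N v0).Finite := Set.finite_range _
  have hmin : ∀ y ∈ MulAction.orbit ↥N v0, sqNorm (y : GolayPt → ℤ) = 32 := by
    rintro y ⟨n, rfl⟩
    show sqNorm ((((n : Co0) : Equiv.Perm leechLattice) v0 : leechLattice) : GolayPt → ℤ) = 32
    rw [(n : Co0).2.2]; exact v0_norm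
  have hsym : ∀ y ∈ MulAction.orbit ↥N v0, -y ∈ MulAction.orbit ↥N v0 := by
    rintro y ⟨n, rfl⟩
    exact ⟨⟨negC * n, N.mul_mem hneg n.2⟩, rfl⟩
  have hinv : ∀ y ∈ MulAction.orbit ↥N v0, ∀ g : Co0, g • v0 = v0 →
      g • y ∈ MulAction.orbit ↥N v0 := by
    rintro y ⟨n, rfl⟩ g hg
    refine ⟨⟨g * n * g⁻¹, hN.conj_mem n n.2 g⟩, ?_⟩
    show (g * (n : Co0) * g⁻¹) • v0 = g • ((n : Co0) • v0)
    have hg' : g⁻¹ • v0 = v0 := by rw [inv_smul_eq_iff]; exact hg.symm
    rw [mul_smul, mul_smul, hg']
  have main : ∀ y ∈ MulAction.orbit ↥N v0,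
      (dotInt (v0 : GolayPt → ℤ) (y : GolayPt → ℤ) = -16 ∨
        dotInt (v0 : GolayPt → ℤ) (y : GolayPt → ℤ) = -8 ∨
        dotInt (v0 : GolayPt → ℤ) (y : GolayPt → ℤ) = 0) →
      9200 ≤ (MulAction.orbit ↥N v0).ncard := by
    intro y hy hd
    rcases hd with hd | hd | hd
    · have hT : T0 (-16) ⊆ MulAction.orbit ↥N v0 := by
        intro y' hy'
        obtain ⟨g, g1, g2⟩ := pair16 v0 y y' v0_norm (hmin y hy) hy'.1 hd hy'.2
        rw [← g2]; exact hinv y hy g g1
      have hsub : T0 (-16) ∪ (fun x : leechLattice => -x) '' T0 (-16) ⊆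
          MulAction.orbit ↥N v0 := by
        rintro x (hx | ⟨x', hx', rfl⟩)
        · exact hT hx
        · exact hsym _ (hT hx')
      have hdisj : Disjoint (T0 (-16)) ((fun x : leechLattice => -x) '' T0 (-16)) := by
        rw [Set.disjoint_left]
        rintro x hx ⟨x', hx', rfl⟩
        have a := hx.2
        have b := hx'.2
        rw [AddSubgroup.coe_neg, dot_neg_right] at a
        omega
      have c1 : (T0 (-16)).ncard = 4600 := (T0_ncard (-16) (-4) (by norm_num)).trans census_v0_a
      have f1 : (T0 (-16)).Finite := Set.finite_of_ncard_ne_zero (by rw [c1]; norm_num)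
      have c2 : ((fun x : leechLattice => -x) '' T0 (-16)).ncard = 4600 := by
        rw [Set.ncard_image_of_injective _ neg_injective, c1]
      have := Set.ncard_le_ncard hsub hfin
      rw [Set.ncard_union_eq hdisj f1 (f1.image _), c1, c2] at this
      omega
    · have hT : T0 (-8) ⊆ MulAction.orbit ↥N v0 := by
        intro y' hy'
        obtain ⟨g, g1, g2⟩ := pair8 v0 y y' v0_norm (hmin y hy) hy'.1 hd hy'.2
        rw [← g2]; exact hinv y hy g g1
      have c1 : (T0 (-8)).ncard = 47104 := (T0_ncard (-8) (-2) (by norm_num)).trans census_v0_b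
      have := Set.ncard_le_ncard hT hfin
      omega
    · have hT : T0 0 ⊆ MulAction.orbit ↥N v0 := by
        intro y' hy'
        obtain ⟨g, g1, g2 | g2⟩ := pair0 v0 y y' v0_norm (hmin y hy) hy'.1 hd hy'.2
        · rw [← g2]; exact hinv y hy g g1
        · have := hsym _ (hinv y hy g g1)
          rw [g2, neg_neg] at this
          exact this
      have c1 : (T0 0).ncard = 93150 := (T0_ncard 0 0 (by norm_num)).trans census_v0_c
      have := Set.ncard_le_ncard hT hfin
      omega
  rcases min_dot_cases v0 w v0_norm (hmin w hw) h1 h2 with hd | hd | hd | hd | hd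
  · exact main w hw (Or.inl hd)
  · exact main w hw (Or.inr (Or.inl hd))
  · exact main w hw (Or.inr (Or.inr hd))
  · refine main (-w) (hsym w hw) (Or.inr (Or.inl ?_))
    rw [AddSubgroup.coe_neg, dot_neg_right, hd]
  · refine main (-w) (hsym w hw) (Or.inl ?_)
    rw [AddSubgroup.coe_neg, dot_neg_right, hd]

theorem co1_num (d : ℕ) (h1 : d ∣ 65520) (h2 : d % 23 = 1 ∨ d % 23 = 2) (h3 : 9200 ≤ d) :
    False := by
  obtain ⟨k, hk⟩ := h1
  have hk1 : k ≤ 7 := by nlinarith
  have hk0 : 1 ≤ k := by
    rcases Nat.eq_zero_or_pos k with h | h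
    · rw [h] at hk; omega
    · exact h
  interval_cases k <;> omega

theorem co0_normal_dvd (N : Subgroup Co0) (hN : N.Normal) (hZ : Subgroup.center Co0 ≤ N)
    (hne : N ≠ Subgroup.center Co0) : 23 ∣ Nat.card N := by
  haveI := co0_finite
  haveI : Fact (Nat.Prime 23) := ⟨by norm_num⟩
  haveI := hN
  by_contra hpN
  have hσ : orderOf (co1Hom sEl) = 23 := by
    rw [orderOf_injective co1Hom co1Hom_inj, sEl_order]
  have hcong := conj_fixed_count N (co1Hom sEl) 23 hσ
  have hCle : N ⊓ Subgroup.centralizer {co1Hom sEl} ≤ Subgroup.center Co0 := by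
    rintro n ⟨hn, hc⟩
    exact co1_cent_in_center N hN hZ hpN n hn ((Subgroup.mem_centralizer_iff.1 hc _ rfl).symm)
  have hC2 : Nat.card ↥(N ⊓ Subgroup.centralizer {co1Hom sEl}) ∣ 2 := by
    rw [← co0_center_card]; exact Subgroup.card_dvd_of_le hCle
  have hmod : Nat.card N % 23 = 1 ∨ Nat.card N % 23 = 2 := by
    have h12 : Nat.card ↥(N ⊓ Subgroup.centralizer {co1Hom sEl}) = 1 ∨
        Nat.card ↥(N ⊓ Subgroup.centralizer {co1Hom sEl}) = 2 := by
      have := Nat.le_of_dvd (by norm_num) hC2
      have hpos : 0 < Nat.card ↥(N ⊓ Subgroup.centralizer {co1Hom sEl}) := Nat.card_pos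
      omega
    have hm : Nat.card N % 23 = Nat.card ↥(N ⊓ Subgroup.centralizer {co1Hom sEl}) % 23 := hcong
    rcases h12 with h | h
    · left; rw [hm, h]
    · right; rw [hm, h]
  obtain ⟨s2, c2⟩ := co2_final v0 v0_norm
  haveI := s2
  have hb2 : N.comap (Subgroup.subtype (MulAction.stabilizer Co0 v0)) = ⊥ :=
    comap_bot_of_simple _ (Subgroup.subtype_injective _) N hN (by
      rw [c2]
      intro h
      exact hpN ((by norm_num : 23 ∣ 42305421312000).trans h))
  have hd2 := card_dvd_of_comap_bot _ N hb2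
  rw [co0_card, c2] at hd2
  haveI : IsSimpleGroup ↥G3 := co3_std_simple
  have c3 : Nat.card ↥G3 = 495766656000 := co3_card u5L sqNorm_u5
  have hb3 : N.comap (Subgroup.subtype G3) = ⊥ :=
    comap_bot_of_simple _ (Subgroup.subtype_injective _) N hN (by
      rw [c3]
      intro h
      exact hpN ((by norm_num : 23 ∣ 495766656000).trans h))
  have hd3 := card_dvd_of_comap_bot _ N hb3
  rw [co0_card, c3] at hd3
  have hd : Nat.card N ∣ 65520 := by
    have e2 : (8315553613086720000 : ℕ) / 42305421312000 = 196560 := by norm_num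
    have e3 : (8315553613086720000 : ℕ) / 495766656000 = 16773120 := by norm_num
    rw [e2] at hd2
    rw [e3] at hd3
    have := Nat.dvd_gcd hd2 hd3
    have e : Nat.gcd 196560 16773120 = 65520 := by norm_num
    rwa [e] at this
  have hstab : MulAction.stabilizer ↥N v0 = ⊥ := by
    rw [Subgroup.eq_bot_iff_forall]
    intro n hn
    have h1 : (⟨(n : Co0), hn⟩ : ↥(MulAction.stabilizer Co0 v0)) ∈
        N.comap (Subgroup.subtype (MulAction.stabilizer Co0 v0)) := n.2
    rw [hb2, Subgroup.mem_bot] at h1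
    have h3 : ((⟨(n : Co0), hn⟩ : ↥(MulAction.stabilizer Co0 v0)) : Co0) =
        ((1 : ↥(MulAction.stabilizer Co0 v0)) : Co0) := by rw [h1]
    apply Subtype.ext
    exact h3
  have hOc : (MulAction.orbit ↥N v0).ncard = Nat.card ↥N := by
    rw [← MulAction.index_stabilizer, hstab, Subgroup.index_bot]
  by_cases hO : ∃ w ∈ MulAction.orbit ↥N v0, w ≠ v0 ∧ w ≠ -v0
  · obtain ⟨w, hw, h1, h2⟩ := hO
    have := co1_orbit_big N hN (hZ negC_center) w hw h1 h2
    rw [hOc] at this
    exact co1_num _ hd hmod this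
  · push Not at hO
    have hsub : MulAction.orbit ↥N v0 ⊆ {v0, -v0} := by
      intro w hw
      by_cases h1 : w = v0
      · exact Or.inl h1
      · exact Or.inr (hO w hw h1)
    have h2 : (MulAction.orbit ↥N v0).ncard ≤ 2 := by
      refine (Set.ncard_le_ncard hsub (Set.toFinite _)).trans ?_
      refine (Set.ncard_insert_le _ _).trans ?_
      rw [Set.ncard_singleton]
    rw [hOc] at h2
    apply hne
    exact (Subgroup.eq_of_le_of_card_ge hZ (by rw [co0_center_card]; exact h2)).symm

/-- the first Conway group is simple -/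
theorem co1_final : IsSimpleGroup (Co0 ⧸ Subgroup.center Co0) ∧
    Nat.card (Co0 ⧸ Subgroup.center Co0) = 4157776806543360000 := by
  haveI := co0_finite
  haveI : Fact (Nat.Prime 23) := ⟨by norm_num⟩
  haveI : IsSimpleGroup ↥M23t := simple_stab_point none
  constructor
  · refine quot_center_simple 23 co1Hom co1Hom_inj sEl sEl_order ?_ ?_ co0_normal_dvd ?_
    · rw [co0_card]; norm_num
    · intro g hg
      rcases co1_K g hg with ⟨m, hm⟩ | ⟨m, hm⟩
      · exact ⟨1, Subgroup.one_mem _, m, by rw [one_mul]; exact hm⟩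
      · exact ⟨negC, negC_center, m, hm⟩
    · by_contra hcon
      push Not at hcon
      have htop : Subgroup.center Co0 = ⊤ := by
        rw [eq_top_iff]
        intro g _
        exact hcon g
      have := co0_center_card
      rw [htop, Subgroup.card_top, co0_card] at this
      omega
  · have h := Subgroup.card_eq_card_quotient_mul_card_subgroup (Subgroup.center Co0)
    rw [co0_card, co0_center_card] at h
    omega

end Cfsg.Agent.Helper3
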