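import Mathlib

set_option autoImplicit false

namespace Cfsg.Agent.Helper3

open scoped Classical

noncomputable section

variable {F : Type*} [Field F] [Fintype F] {ι : Type*} [Fintype ι] [DecidableEq ι]

/-- An affine hyperplane `{y | ∑ x_i y_i = c}` (with `x ≠ 0`) has `q ^ (n - 1)` points. -/
theorem card_hyperplane (x : ι → F) (hx : x ≠ 0) (c : F) :
    (Finset.univ.filter (fun y : ι → F => ∑ i, x i * y i = c)).card =
      Fintype.card F ^ (Fintype.card ι - 1) := by
  let φ : (ι → F) →+ F :=
    { toFun := fun y => ∑ i, x i * y i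
      map_zero' := by simp
      map_add' := by
        intro a b
        simp [mul_add, Finset.sum_add_distrib] }
  obtain ⟨i0, hi0⟩ : ∃ i0, x i0 ≠ 0 := by
    by_contra h
    simp only [not_exists, not_not] at h
    exact hx (funext h)
  have hsurj : ∀ d : F, d ∈ Set.range φ := by
    intro d
    refine ⟨Pi.single i0 (d / x i0), ?_⟩
    show ∑ i, x i * (Pi.single i0 (d / x i0) : ι → F) i = d
    rw [Finset.sum_eq_single i0]
    · simp
      field_simp
    · intro j _ hj
      simp [Pi.single_apply, hj]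
    · simp
  have hfib : ∀ d : F, (Finset.univ.filter (fun y : ι → F => φ y = d)).card =
      (Finset.univ.filter (fun y : ι → F => φ y = c)).card :=
    fun d => AddMonoidHom.card_fiber_eq_of_mem_range φ (hsurj d) (hsurj c)
  have htot := Finset.card_eq_sum_card_fiberwise (f := φ) (s := (Finset.univ : Finset (ι → F)))
    (t := (Finset.univ : Finset F)) (fun _ _ => Finset.mem_univ _)
  rw [Finset.sum_congr rfl (fun d _ => hfib d), Finset.sum_const, Finset.card_univ,
    Finset.card_univ, Fintype.card_fun, smul_eq_mul] at htot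
  have hpos : 0 < Fintype.card ι := Fintype.card_pos_iff.mpr ⟨i0⟩
  have hq : 0 < Fintype.card F := Fintype.card_pos
  have e : Fintype.card F ^ Fintype.card ι = Fintype.card F * Fintype.card F ^ (Fintype.card ι - 1) := by
    rw [← pow_succ']
    congr 1
    omega
  rw [e] at htot
  exact (Nat.eq_of_mul_eq_mul_left hq htot).symm

/-- The basic count: solutions of `∑ x_i y_i + f z = 0`. -/
theorem card_hyperbolic_add {Z : Type*} [Fintype Z] (f : Z → F) :
    (Finset.univ.filter (fun p : ((ι → F) × (ι → F)) × Z =>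
        ∑ i, p.1.1 i * p.1.2 i + f p.2 = 0)).card =
      (Finset.univ.filter (fun z : Z => f z = 0)).card * Fintype.card F ^ Fintype.card ι +
        Fintype.card Z * (Fintype.card F ^ Fintype.card ι - 1) *
          Fintype.card F ^ (Fintype.card ι - 1) := by
  rw [Finset.card_filter, Fintype.sum_prod_type, Fintype.sum_prod_type]
  have hinner : ∀ x : ι → F, (∑ y : ι → F, ∑ z : Z,
      (if ∑ i, x i * y i + f z = 0 then 1 else 0 : ℕ)) =
      if x = 0 then (Finset.univ.filter (fun z : Z => f z = 0)).card *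
          Fintype.card F ^ Fintype.card ι
        else Fintype.card Z * Fintype.card F ^ (Fintype.card ι - 1) := by
    intro x
    rw [Finset.sum_comm]
    split_ifs with hx
    · subst hx
      simp only [Pi.zero_apply, zero_mul, Finset.sum_const_zero, zero_add]
      rw [Finset.card_filter, Finset.sum_mul]
      apply Finset.sum_congr rfl
      intro z _
      split_ifs
      · simp [Fintype.card_fun]
      · simp
    · have : ∀ z : Z, (∑ y : ι → F, (if ∑ i, x i * y i + f z = 0 then 1 else 0 : ℕ)) =
          Fintype.card F ^ (Fintype.card ι - 1) := by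
        intro z
        rw [← Finset.card_filter, ← card_hyperplane x hx (-(f z))]
        congr 1
        ext y
        simp only [Finset.mem_filter, Finset.mem_univ, true_and]
        constructor
        · intro h; linear_combination h
        · intro h; linear_combination h
      rw [Finset.sum_congr rfl (fun z _ => this z), Finset.sum_const, Finset.card_univ,
        smul_eq_mul]
  rw [Finset.sum_congr rfl (fun x _ => hinner x)]
  rw [← Finset.add_sum_erase Finset.univ _ (Finset.mem_univ (0 : ι → F))]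
  rw [if_pos rfl]
  congr 1
  rw [Finset.sum_congr rfl (fun x hx => if_neg (Finset.ne_of_mem_erase hx)), Finset.sum_const,
    Finset.card_erase_of_mem (Finset.mem_univ _), Finset.card_univ, Fintype.card_fun, smul_eq_mul]
  ring

theorem card_subtype_of_equiv {α β : Type*} [Fintype β] (e : α ≃ β) (P : α → Prop) (Q : β → Prop)
    (h : ∀ a, P a ↔ Q (e a)) : Nat.card {a // P a} = (Finset.univ.filter Q).card := by
  rw [Nat.card_congr (e.subtypeEquiv h), Nat.card_eq_fintype_card, Fintype.card_subtype]

end

end Cfsg.Agent.Helper3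

namespace Cfsg.Agent.Helper3

theorem arith_plus (q m : ℕ) (hq : 0 < q) (hm : 1 ≤ m) :
    q ^ m + (q ^ m - 1) * q ^ (m - 1) = q ^ (2 * m - 1) + q ^ m - q ^ (m - 1) := by
  obtain ⟨k, rfl⟩ : ∃ k, m = k + 1 := ⟨m - 1, by omega⟩
  have e1 : q ^ (2 * (k + 1) - 1) = q ^ (k + 1) * q ^ k := by
    rw [← pow_add]; congr 1; omega
  have e2 : k + 1 - 1 = k := by omega
  rw [e1, e2, Nat.sub_mul, one_mul]
  have h1 : q ^ k ≤ q ^ (k + 1) * q ^ k := Nat.le_mul_of_pos_left _ (pow_pos hq _)
  omega

end Cfsg.Agent.Helper3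

namespace Cfsg.Agent.Helper3

theorem arith_odd (q m : ℕ) (hq : 0 < q) :
    q ^ m + q * (q ^ m - 1) * q ^ (m - 1) = q ^ (2 * m) := by
  rcases m with _ | k
  · simp
  · have e2 : k + 1 - 1 = k := by omega
    have e3 : q * (q ^ (k + 1) - 1) * q ^ k = (q ^ (k + 1) - 1) * q ^ (k + 1) := by
      rw [pow_succ q k]; ring
    have e4 : q ^ (2 * (k + 1)) = q ^ (k + 1) * q ^ (k + 1) := by
      rw [← pow_add]; congr 1; omega
    obtain ⟨Y, hY⟩ : ∃ Y, q ^ (k + 1) = Y + 1 := ⟨q ^ (k + 1) - 1, by
      have := pow_pos hq (k + 1); omega⟩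
    rw [e2, e3, e4, hY, Nat.add_sub_cancel]
    ring

theorem arith_minus (q m : ℕ) (hq : 0 < q) (hm : 1 ≤ m) :
    q ^ (m - 1) + q ^ 2 * (q ^ (m - 1) - 1) * q ^ (m - 1 - 1) =
      q ^ (2 * m - 1) + q ^ (m - 1) - q ^ m := by
  rcases m with _ | k
  · omega
  rcases k with _ | j
  · simp
  · have e1 : j + 1 + 1 - 1 = j + 1 := by omega
    have e2 : j + 1 - 1 = j := by omega
    have e3 : 2 * (j + 1 + 1) - 1 = (j + 1) + (j + 2) := by omega
    rw [e1, e2, e3]
    have e4 : q ^ 2 * (q ^ (j + 1) - 1) * q ^ j = (q ^ (j + 1) - 1) * q ^ (j + 2) := by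
      rw [pow_add q j 2]; ring
    rw [e4, Nat.sub_mul, one_mul, ← pow_add]
    have h1 : q ^ (j + 2) ≤ q ^ (j + 1 + (j + 2)) :=
      Nat.pow_le_pow_right hq (by omega)
    have e5 : j + 1 + 1 = j + 2 := rfl
    rw [e5]
    omega

end Cfsg.Agent.Helper3
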