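import Mathlib

set_option autoImplicit false

namespace Cfsg.Agent.Helper3

open Matrix
open scoped Pointwise

variable {F : Type*} [Field F]

/-- the upper triangular matrix `[[x, y], [0, w]]` in `GL₂` -/
noncomputable def ut (x w : Fˣ) (y : F) : GL (Fin 2) F :=
  Matrix.GeneralLinearGroup.mkOfDetNeZero !![(x : F), y; 0, (w : F)] (by
    rw [Matrix.det_fin_two_of]; simp)

theorem ut_val (x w : Fˣ) (y : F) :
    ((ut x w y : GL (Fin 2) F) : Matrix (Fin 2) (Fin 2) F) = !![(x : F), y; 0, (w : F)] := rfl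

theorem ut_mul (x w x' w' : Fˣ) (y y' : F) :
    ut x w y * ut x' w' y' = ut (x * x') (w * w') (x * y' + y * w') := by
  apply Units.ext
  rw [Units.val_mul, ut_val, ut_val, ut_val]
  ext i j
  fin_cases i <;> fin_cases j <;> simp [Matrix.mul_apply, Fin.sum_univ_two]

theorem ut_one : ut (1 : Fˣ) 1 (0 : F) = 1 := by
  apply Units.ext
  rw [ut_val]
  ext i j
  fin_cases i <;> fin_cases j <;> simp

theorem ut_inj {x w x' w' : Fˣ} {y y' : F} (h : ut x w y = ut x' w' y') :
    x = x' ∧ w = w' ∧ y = y' := by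
  have h' := congrArg (fun g : GL (Fin 2) F => (g : Matrix (Fin 2) (Fin 2) F)) h
  simp only [ut_val] at h'
  have h00 := congrFun (congrFun h' 0) 0
  have h01 := congrFun (congrFun h' 0) 1
  have h11 := congrFun (congrFun h' 1) 1
  simp at h00 h01 h11
  exact ⟨Units.ext h00, Units.ext h11, h01⟩

theorem exists_ut (g : GL (Fin 2) F) (h : (g : Matrix (Fin 2) (Fin 2) F) 1 0 = 0) :
    ∃ (x w : Fˣ) (y : F), g = ut x w y := by
  have hdet : (g : Matrix (Fin 2) (Fin 2) F).det ≠ 0 :=
    ((Matrix.isUnit_iff_isUnit_det (g : Matrix (Fin 2) (Fin 2) F)).mp g.isUnit).ne_zero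
  rw [Matrix.det_fin_two, h, mul_zero, sub_zero] at hdet
  refine ⟨Units.mk0 _ (left_ne_zero_of_mul hdet), Units.mk0 _ (right_ne_zero_of_mul hdet),
    (g : Matrix (Fin 2) (Fin 2) F) 0 1, ?_⟩
  apply Units.ext
  rw [ut_val]
  ext i j
  fin_cases i <;> fin_cases j <;> simp [h]

theorem ut_apply_one_zero (x w : Fˣ) (y : F) :
    ((ut x w y : GL (Fin 2) F) : Matrix (Fin 2) (Fin 2) F) 1 0 = 0 := by
  rw [ut_val]; simp

/-- the unipotent radical, as a homomorphism from the additive group of the field -/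
noncomputable def tHom : Multiplicative F →* GL (Fin 2) F where
  toFun b := ut 1 1 (Multiplicative.toAdd b)
  map_one' := ut_one
  map_mul' a b := by
    rw [ut_mul]
    simp [add_comm]

theorem mem_tHom_range (g : GL (Fin 2) F) : g ∈ (tHom (F := F)).range ↔ ∃ b : F, g = ut 1 1 b := by
  constructor
  · rintro ⟨b, rfl⟩
    exact ⟨Multiplicative.toAdd b, rfl⟩
  · rintro ⟨b, rfl⟩
    exact ⟨Multiplicative.ofAdd b, rfl⟩

theorem tHom_injective : Function.Injective (tHom (F := F)) := by
  intro a b h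
  exact (ut_inj h).2.2

/-- conjugating a unipotent by an upper triangular element -/
theorem ut_mul_unip (x w : Fˣ) (y b : F) :
    ut x w y * ut 1 1 b = ut 1 1 ((x : F) * b / (w : F)) * ut x w y := by
  rw [ut_mul, ut_mul]
  have hw : (w : F) ≠ 0 := w.ne_zero
  congr 1
  · simp
  · simp
  · simp only [Units.val_one, one_mul, mul_one]
    field_simp
    ring

theorem mem_normalizer_U (g : GL (Fin 2) F) :
    g ∈ Subgroup.normalizer ((tHom (F := F)).range : Set (GL (Fin 2) F)) ↔
      (g : Matrix (Fin 2) (Fin 2) F) 1 0 = 0 := by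
  rw [Subgroup.mem_normalizer_iff]
  constructor
  · intro h
    have h1 : ut 1 1 (1 : F) ∈ (tHom (F := F)).range := (mem_tHom_range _).mpr ⟨1, rfl⟩
    obtain ⟨b, hb⟩ := (mem_tHom_range _).mp ((h _).mp h1)
    have h2 : g * ut 1 1 (1 : F) = ut 1 1 b * g := by
      rw [← hb]; group
    have h3 := congrArg (fun m : GL (Fin 2) F => (m : Matrix (Fin 2) (Fin 2) F) 1 1) h2
    simp only [Units.val_mul, ut_val, Matrix.mul_apply, Fin.sum_univ_two] at h3
    simpa using h3
  · intro h0 h
    obtain ⟨x, w, y, rfl⟩ := exists_ut g h0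
    have hx : (x : F) ≠ 0 := x.ne_zero
    have hw : (w : F) ≠ 0 := w.ne_zero
    constructor
    · intro hh
      obtain ⟨b, rfl⟩ := (mem_tHom_range _).mp hh
      rw [ut_mul_unip, mul_inv_cancel_right]
      exact (mem_tHom_range _).mpr ⟨_, rfl⟩
    · intro hh
      obtain ⟨b', hb'⟩ := (mem_tHom_range _).mp hh
      have e := ut_mul_unip x w y ((w : F) * b' / (x : F))
      have e2 : (x : F) * ((w : F) * b' / (x : F)) / (w : F) = b' := by
        field_simp
      rw [e2, ← hb'] at e
      have e3 : h = ut 1 1 ((w : F) * b' / (x : F)) := by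
        have := congrArg (fun m => (ut x w y)⁻¹ * m) e
        simp only [inv_mul_cancel_left] at this
        rw [this]; group
      rw [e3]
      exact (mem_tHom_range _).mpr ⟨_, rfl⟩

theorem mem_centralizer_unip (b : F) (hb : b ≠ 0) (g : GL (Fin 2) F) :
    g ∈ Subgroup.centralizer ({ut 1 1 b} : Set (GL (Fin 2) F)) ↔
      ∃ (x : Fˣ) (y : F), g = ut x x y := by
  rw [Subgroup.mem_centralizer_singleton_iff]
  constructor
  · intro h
    have h00 := congrArg (fun m : GL (Fin 2) F => (m : Matrix (Fin 2) (Fin 2) F) 0 0) h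
    have h01 := congrArg (fun m : GL (Fin 2) F => (m : Matrix (Fin 2) (Fin 2) F) 0 1) h
    simp only [Units.val_mul, ut_val, Matrix.mul_apply, Fin.sum_univ_two] at h00 h01
    simp at h00 h01
    have h10 : (g : Matrix (Fin 2) (Fin 2) F) 1 0 = 0 := by
      rcases h00 with h | h
      · exact absurd h hb
      · exact h
    obtain ⟨x, w, y, rfl⟩ := exists_ut g h10
    rw [ut_val] at h01
    simp at h01
    have hxw : x = w := by
      apply Units.ext
      have : (x : F) * b = b * (w : F) := by linear_combination h01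
      have h2 : b * (x : F) = b * (w : F) := by rw [← this]; ring
      exact mul_left_cancel₀ hb h2
    subst hxw
    exact ⟨x, y, rfl⟩
  · rintro ⟨x, y, rfl⟩
    rw [ut_mul, ut_mul]
    congr 1
    · simp
    · simp
    · simp only [Units.val_one, one_mul, mul_one]
      ring

theorem card_borel [Fintype F] :
    Nat.card {g : GL (Fin 2) F // (g : Matrix (Fin 2) (Fin 2) F) 1 0 = 0} =
      Fintype.card F * (Fintype.card F - 1) ^ 2 := by
  have hbij : Function.Bijective (fun p : (Fˣ × Fˣ) × F =>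
      (⟨ut p.1.1 p.1.2 p.2, ut_apply_one_zero _ _ _⟩ :
        {g : GL (Fin 2) F // (g : Matrix (Fin 2) (Fin 2) F) 1 0 = 0})) := by
    constructor
    · rintro ⟨⟨x, w⟩, y⟩ ⟨⟨x', w'⟩, y'⟩ h
      obtain ⟨h1, h2, h3⟩ := ut_inj (congrArg Subtype.val h)
      exact Prod.ext (Prod.ext h1 h2) h3
    · rintro ⟨g, hg⟩
      obtain ⟨x, w, y, rfl⟩ := exists_ut g hg
      exact ⟨((x, w), y), rfl⟩
  rw [← Nat.card_congr (Equiv.ofBijective _ hbij), Nat.card_prod, Nat.card_prod, Nat.card_units,
    Nat.card_eq_fintype_card]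
  ring

theorem card_centralizer_unip [Fintype F] (b : F) (hb : b ≠ 0) :
    Nat.card (Subgroup.centralizer ({ut 1 1 b} : Set (GL (Fin 2) F))) =
      Fintype.card F * (Fintype.card F - 1) := by
  have hbij : Function.Bijective (fun p : Fˣ × F =>
      (⟨ut p.1 p.1 p.2, (mem_centralizer_unip b hb _).mpr ⟨_, _, rfl⟩⟩ :
        Subgroup.centralizer ({ut 1 1 b} : Set (GL (Fin 2) F)))) := by
    constructor
    · rintro ⟨x, y⟩ ⟨x', y'⟩ h
      obtain ⟨h1, h2, h3⟩ := ut_inj (congrArg Subtype.val h)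
      exact Prod.ext h1 h3
    · rintro ⟨g, hg⟩
      obtain ⟨x, y, rfl⟩ := (mem_centralizer_unip b hb g).mp hg
      exact ⟨(x, y), rfl⟩
  rw [← Nat.card_congr (Equiv.ofBijective _ hbij), Nat.card_prod, Nat.card_units,
    Nat.card_eq_fintype_card]
  ring

theorem card_U [Fintype F] : Nat.card (tHom (F := F)).range = Fintype.card F := by
  rw [← Nat.card_congr (MonoidHom.ofInjective tHom_injective).toEquiv]
  show Nat.card F = Fintype.card F
  exact Nat.card_eq_fintype_card

theorem gl2_factorization [Fintype F] (p : ℕ) [Fact p.Prime] [CharP F p] :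
    p ^ (Nat.card (GL (Fin 2) F)).factorization p = Fintype.card F := by
  have hp : p.Prime := Fact.out
  obtain ⟨k, -, hk⟩ := FiniteField.card F p
  have hcard : Nat.card (GL (Fin 2) F) =
      Fintype.card F * ((Fintype.card F ^ 2 - 1) * (Fintype.card F - 1)) := by
    rw [Matrix.card_GL_field, Fin.prod_univ_two]
    simp only [Fin.val_zero, Fin.val_one, pow_zero, pow_one]
    have h1 : Fintype.card F ^ 2 - Fintype.card F = Fintype.card F * (Fintype.card F - 1) := by
      rw [Nat.mul_sub, mul_one, sq]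
    rw [h1]
    ring
  have hq1 : 1 < Fintype.card F := Fintype.one_lt_card
  have hpq : p ∣ Fintype.card F := by
    rw [hk]; exact dvd_pow_self p k.pos.ne'
  have hnd1 : ¬ p ∣ Fintype.card F - 1 := by
    intro h
    have h2 : p ∣ Fintype.card F - (Fintype.card F - 1) := Nat.dvd_sub hpq h
    have h3 : Fintype.card F - (Fintype.card F - 1) = 1 := by omega
    rw [h3] at h2
    exact hp.one_lt.ne' (Nat.dvd_one.mp h2)
  have hnd2 : ¬ p ∣ Fintype.card F ^ 2 - 1 := by
    intro h
    have h2 : p ∣ Fintype.card F ^ 2 - (Fintype.card F ^ 2 - 1) :=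
      Nat.dvd_sub (dvd_pow hpq two_ne_zero) h
    have h4 : 1 ≤ Fintype.card F ^ 2 := Nat.one_le_pow _ _ (by omega)
    have h3 : Fintype.card F ^ 2 - (Fintype.card F ^ 2 - 1) = 1 := by omega
    rw [h3] at h2
    exact hp.one_lt.ne' (Nat.dvd_one.mp h2)
  have hM : ¬ p ∣ (Fintype.card F ^ 2 - 1) * (Fintype.card F - 1) := by
    intro h
    rcases hp.dvd_mul.mp h with h | h
    · exact hnd2 h
    · exact hnd1 h
  have hM0 : (Fintype.card F ^ 2 - 1) * (Fintype.card F - 1) ≠ 0 := by
    intro h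
    rw [h] at hM
    exact hM (dvd_zero p)
  rw [hcard, Nat.factorization_mul (by omega) hM0, Finsupp.add_apply,
    Nat.factorization_eq_zero_of_not_dvd hM, add_zero]
  conv_lhs => rw [hk, Nat.factorization_pow]
  simp [hp.factorization_self, hk]

theorem exists_sylow_U [Fintype F] (p : ℕ) [Fact p.Prime] [CharP F p] :
    ∃ Q : Sylow p (GL (Fin 2) F), (Q : Subgroup (GL (Fin 2) F)) = (tHom (F := F)).range :=
  ⟨Sylow.ofCard (tHom (F := F)).range (by rw [card_U, gl2_factorization]), rfl⟩

theorem card_centralizer_conj {G : Type*} [Group G] (c t : G) :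
    Nat.card (Subgroup.centralizer ({c * t * c⁻¹} : Set G)) =
      Nat.card (Subgroup.centralizer ({t} : Set G)) := by
  apply Nat.card_congr
  refine
    { toFun := fun g => ⟨c⁻¹ * g * c, ?_⟩
      invFun := fun h => ⟨c * h * c⁻¹, ?_⟩
      left_inv := ?_
      right_inv := ?_ }
  · have hg := Subgroup.mem_centralizer_singleton_iff.mp g.2
    rw [Subgroup.mem_centralizer_singleton_iff]
    calc c⁻¹ * g * c * t = c⁻¹ * (g * (c * t * c⁻¹)) * c := by group
      _ = c⁻¹ * ((c * t * c⁻¹) * g) * c := by rw [hg]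
      _ = t * (c⁻¹ * g * c) := by group
  · have hh := Subgroup.mem_centralizer_singleton_iff.mp h.2
    rw [Subgroup.mem_centralizer_singleton_iff]
    calc c * h * c⁻¹ * (c * t * c⁻¹) = c * (h * t) * c⁻¹ := by group
      _ = c * (t * h) * c⁻¹ := by rw [hh]
      _ = c * t * c⁻¹ * (c * h * c⁻¹) := by group
  · intro g
    apply Subtype.ext
    show c * (c⁻¹ * g * c) * c⁻¹ = g
    group
  · intro h
    apply Subtype.ext
    show c⁻¹ * (c * h * c⁻¹) * c = h
    group

/-- The normalizer of a Sylow `p`-subgroup of `GL₂(q)` has order `q (q - 1)²`. -/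
theorem card_normalizer_sylow [Fintype F] (p : ℕ) [Fact p.Prime] [CharP F p]
    (P : Sylow p (GL (Fin 2) F)) :
    Nat.card (Subgroup.normalizer ((P : Subgroup (GL (Fin 2) F)) : Set (GL (Fin 2) F))) =
      Fintype.card F * (Fintype.card F - 1) ^ 2 := by
  obtain ⟨Q, hQ⟩ := exists_sylow_U (F := F) p
  have h1 : Nat.card (Sylow p (GL (Fin 2) F)) =
      (Subgroup.normalizer ((P : Subgroup (GL (Fin 2) F)) : Set (GL (Fin 2) F))).index :=
    Sylow.card_eq_index_normalizer P
  have h2 : Nat.card (Sylow p (GL (Fin 2) F)) =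
      (Subgroup.normalizer ((Q : Subgroup (GL (Fin 2) F)) : Set (GL (Fin 2) F))).index :=
    Sylow.card_eq_index_normalizer Q
  have h3 := Subgroup.card_mul_index
    (Subgroup.normalizer ((P : Subgroup (GL (Fin 2) F)) : Set (GL (Fin 2) F)))
  have h4 := Subgroup.card_mul_index
    (Subgroup.normalizer ((Q : Subgroup (GL (Fin 2) F)) : Set (GL (Fin 2) F)))
  rw [← h1] at h3
  rw [← h2] at h4
  have hpos : 0 < Nat.card (Sylow p (GL (Fin 2) F)) := Nat.card_pos
  have h5 : Nat.card (Subgroup.normalizer ((P : Subgroup (GL (Fin 2) F)) : Set (GL (Fin 2) F))) =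
      Nat.card (Subgroup.normalizer ((Q : Subgroup (GL (Fin 2) F)) : Set (GL (Fin 2) F))) :=
    Nat.eq_of_mul_eq_mul_right hpos (h3.trans h4.symm)
  rw [h5, hQ, ← card_borel]
  exact Nat.card_congr (Equiv.subtypeEquivRight (fun g => mem_normalizer_U g))

/-- The centralizer of a nontrivial `p`-element of `GL₂(q)` has order `q (q - 1)`. -/
theorem card_centralizer_p_elt [Fintype F] (p : ℕ) [Fact p.Prime] [CharP F p]
    (P : Sylow p (GL (Fin 2) F)) (a : GL (Fin 2) F) (ha : a ∈ P) (ha1 : a ≠ 1) :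
    Nat.card (Subgroup.centralizer ({a} : Set (GL (Fin 2) F))) =
      Fintype.card F * (Fintype.card F - 1) := by
  obtain ⟨Q, hQ⟩ := exists_sylow_U (F := F) p
  obtain ⟨c, hc⟩ := MulAction.exists_smul_eq (GL (Fin 2) F) Q P
  have ha' : a ∈ ((c • Q : Sylow p (GL (Fin 2) F)) : Subgroup (GL (Fin 2) F)) := by
    rw [hc]; exact ha
  rw [Sylow.coe_subgroup_smul, Subgroup.mem_pointwise_smul_iff_inv_smul_mem, hQ] at ha'
  have ha'' : c⁻¹ * a * c ∈ (tHom (F := F)).range := by
    simpa [MulAut.smul_def] using ha'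
  obtain ⟨b, hb⟩ := (mem_tHom_range _).mp ha''
  have hb0 : b ≠ 0 := by
    rintro rfl
    rw [ut_one] at hb
    apply ha1
    have : a = c * (c⁻¹ * a * c) * c⁻¹ := by group
    rw [this, hb]; group
  have hab : a = c * ut 1 1 b * c⁻¹ := by
    rw [← hb]; group
  rw [hab, card_centralizer_conj, card_centralizer_unip b hb0]

end Cfsg.Agent.Helper3
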