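import Mathlib
import Cfsg.Agent.Helper3.McLSimple

set_option autoImplicit false
set_option linter.unusedSectionVars false
set_option linter.style.haveILetI false
set_option linter.unusedSimpArgs false
set_option linter.unusedVariables false
set_option linter.deprecated false
set_option linter.unnecessarySeqFocus false

namespace Cfsg.Agent.Helper3

open Cfsg Cfsg.Agent.Helper28.Leech

/-! ### explicit vectors of the rank four configuration of the McLaughlin group -/

/-- `(0, c, _)`: `2` on the octad `c`; `(1, c, k)`: `2` on the octad `c` with signs changed at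
`0` and `k`; `(2, c, k)`: `1` off the octad `c`, `3` at `k` and `-1` on the rest of `c` -/
def m4Mv (p : ℕ × ℕ × ℕ) : GolayPt → ℤ := fun i =>
  if p.1 = 0 then (if p.2.1.testBit (gIdx i) = true then 2 else 0)
  else if p.1 = 1 then
    (if p.2.1.testBit (gIdx i) = true then
      (if gIdx i = 23 then 2 else if gIdx i = 0 then -2 else if gIdx i = p.2.2 then -2 else 2)
     else 0)
  else (if p.2.1.testBit (gIdx i) = true then (if gIdx i = p.2.2 then 3 else -1) else 1)

def m4L0 : List (ℕ × ℕ × ℕ) :=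
  (gCode.filter (fun c => pc24 c == 8 && !c.testBit 23 && !c.testBit 0)).map (fun c => (0, c, 0))

def m4L16 : List (ℕ × ℕ × ℕ) :=
  (gCode.filter (fun c => pc24 c == 8 && c.testBit 23 && c.testBit 0)).flatMap
    (fun c => ((List.range 23).filter (fun k => decide (1 ≤ k) && c.testBit k)).map
      (fun k => (1, c, k)))

def m4L8 : List (ℕ × ℕ × ℕ) :=
  (gCode.filter (fun c => pc24 c == 8 && !c.testBit 23 && c.testBit 0)).flatMap
    (fun c => ((List.range 23).filter (fun k => decide (1 ≤ k) && c.testBit k)).map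
      (fun k => (2, c, k)))

/-- the index of a vector: recovers `c * 32 + k` -/
def m4Dec (y : GolayPt → ℤ) : ℕ :=
  ((List.range 24).foldl
    (fun acc k => if y (gPt k) ≠ 0 ∧ y (gPt k) ≠ 1 then acc + 2 ^ k else acc) 0) * 32 +
  (List.range 23).foldl
    (fun acc k => if 1 ≤ k ∧ (y (gPt k) = 3 ∨ y (gPt k) = -2) then acc + k else acc) 0

/-- the facts checked for every listed vector -/
def m4Fact (a b : ℤ) (p : ℕ × ℕ × ℕ) : Prop :=
  m4Dec (m4Mv p) = p.2.1 * 32 + p.2.2 ∧ lmask (m4Mv p) (m4Mv p none % 2) = p.2.1 ∧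
  (∀ i : GolayPt, m4Mv p i % 4 =
    if p.2.1.testBit (gIdx i) then (m4Mv p none % 2 + 2) % 4 else m4Mv p none % 2) ∧
  (∑ i, m4Mv p i) % 8 = 4 * (m4Mv p none % 2) ∧ sqNorm (m4Mv p) = 32 ∧
  dotInt u5 (m4Mv p) = 16 ∧ m4Mv p none = a ∧ m4Mv p (gPt 0) = b

instance m4FactDec (a b : ℤ) (p : ℕ × ℕ × ℕ) : Decidable (m4Fact a b p) := by
  unfold m4Fact; infer_instance

def m4S0 : ℕ × ℕ × ℕ := (0, 10558, 0)

def m4S16 : ℕ × ℕ × ℕ := (1, 8536111, 1)

def m4S8 : ℕ × ℕ × ℕ := (2, 5279, 1)

end Cfsg.Agent.Helper3
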