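import Mathlib
import Cfsg.Agent.Helper3.LeechM4d

set_option autoImplicit false
set_option linter.unusedSectionVars false
set_option linter.style.haveILetI false
set_option linter.unusedSimpArgs false
set_option linter.unusedVariables false
set_option linter.deprecated false
set_option linter.unnecessarySeqFocus false

namespace Cfsg.Agent.Helper3

open Cfsg Cfsg.Agent.Helper28.Leech

set_option maxRecDepth 100000 in
theorem m4L0_len : m4L0.length = 330 := by decide +kernel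

set_option maxRecDepth 100000 in
theorem m4L16_len : m4L16.length = 462 := by decide +kernel

set_option maxRecDepth 100000 in
theorem m4Sort0 : isSortedLt (m4L0.map (fun p => p.2.1 * 32 + p.2.2)) = true := by decide +kernel

set_option maxRecDepth 100000 in
theorem m4Sort16 : isSortedLt (m4L16.map (fun p => p.2.1 * 32 + p.2.2)) = true := by
  decide +kernel

set_option maxRecDepth 100000 in
theorem m4F0 : ∀ p ∈ m4L0, m4Fact 0 0 p := by decide +kernel

set_option maxRecDepth 100000 in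
theorem m4F16 : ∀ p ∈ m4L16, m4Fact 2 (-2) p := by decide +kernel

set_option maxRecDepth 100000 in
theorem m4Pick0 : ∀ p ∈ m4L0, ∃ a ∈ List.range 23, (1 ≤ a ∧ m4Mv p (gPt a) = 2) ∧
    ∃ b ∈ List.range 23, (a < b ∧ m4Mv p (gPt b) = 2) ∧
    ∃ c ∈ List.range 23, b < c ∧ m4Mv p (gPt c) = 2 := by decide +kernel

set_option maxRecDepth 100000 in
theorem m4St5 : ∀ p ∈ m4L0, m4Mv p (gPt 1) = 2 → m4Mv p (gPt 2) = 2 → m4Mv p (gPt 3) = 2 →
    ∃ e ∈ orb5, m4Mv p (gPt e) = 2 := by decide +kernel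

set_option maxRecDepth 100000 in
theorem m4St6 : ∀ p ∈ m4L0, m4Mv p (gPt 1) = 2 → m4Mv p (gPt 2) = 2 → m4Mv p (gPt 3) = 2 →
    m4Mv p (gPt 5) = 2 → ∃ j ∈ orb6, m4Mv p (gPt j) = 2 := by decide +kernel

set_option maxRecDepth 100000 in
theorem m4Uniq0 : ∀ p ∈ m4L0, m4Mv p (gPt 1) = 2 → m4Mv p (gPt 2) = 2 → m4Mv p (gPt 3) = 2 →
    m4Mv p (gPt 5) = 2 → m4Mv p (gPt 4) = 2 → p = m4S0 := by decide +kernel

set_option maxRecDepth 100000 in
theorem m4Pick16 : ∀ p ∈ m4L16, (1 ≤ p.2.2 ∧ p.2.2 < 23 ∧ m4Mv p (gPt p.2.2) = -2) ∧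
    ∃ a ∈ List.range 23, (1 ≤ a ∧ a ≠ p.2.2 ∧ m4Mv p (gPt a) = 2) ∧
    ∃ b ∈ List.range 23, a < b ∧ b ≠ p.2.2 ∧ m4Mv p (gPt b) = 2 := by decide +kernel

set_option maxRecDepth 100000 in
theorem m4Uniq16 : ∀ p ∈ m4L16, m4Mv p (gPt 1) = -2 → m4Mv p (gPt 2) = 2 →
    m4Mv p (gPt 3) = 2 → p = m4S16 := by decide +kernel

set_option maxRecDepth 100000 in
theorem m4S_mem : m4S0 ∈ m4L0 ∧ m4S16 ∈ m4L16 := by decide +kernel

end Cfsg.Agent.Helper3
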