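import Mathlib
import Cfsg.Agent.Helper3.LeechM4d

set_option autoImplicit false
set_option linter.unusedSectionVars false
set_option linter.style.haveILetI false
set_option linter.unusedSimpArgs false
set_option linter.unusedVariables false
set_option linter.deprecated false
set_option linter.unnecessarySeqFocus false

namespace Cfsg.Agent.Helper3

open Cfsg Cfsg.Agent.Helper28.Leech

set_option maxRecDepth 100000 in
theorem m4L8_len : m4L8.length = 1232 := by decide +kernel

set_option maxRecDepth 100000 in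
theorem m4Sort8 : isSortedLt (m4L8.map (fun p => p.2.1 * 32 + p.2.2)) = true := by decide +kernel

set_option maxRecDepth 100000 in
theorem m4F8_1 : ∀ p ∈ m4L8, p.2.2 = 1 → m4Fact 1 (-1) p := by decide +kernel

set_option maxRecDepth 100000 in
theorem m4F8_2 : ∀ p ∈ m4L8, p.2.2 = 2 → m4Fact 1 (-1) p := by decide +kernel

set_option maxRecDepth 100000 in
theorem m4F8_3 : ∀ p ∈ m4L8, p.2.2 = 3 → m4Fact 1 (-1) p := by decide +kernel

set_option maxRecDepth 100000 in
theorem m4F8_4 : ∀ p ∈ m4L8, p.2.2 = 4 → m4Fact 1 (-1) p := by decide +kernel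

set_option maxRecDepth 100000 in
theorem m4F8_5 : ∀ p ∈ m4L8, p.2.2 = 5 → m4Fact 1 (-1) p := by decide +kernel

set_option maxRecDepth 100000 in
theorem m4F8_6 : ∀ p ∈ m4L8, p.2.2 = 6 → m4Fact 1 (-1) p := by decide +kernel

set_option maxRecDepth 100000 in
theorem m4F8_7 : ∀ p ∈ m4L8, p.2.2 = 7 → m4Fact 1 (-1) p := by decide +kernel

set_option maxRecDepth 100000 in
theorem m4F8_8 : ∀ p ∈ m4L8, p.2.2 = 8 → m4Fact 1 (-1) p := by decide +kernel

end Cfsg.Agent.Helper3
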