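import Mathlib
import Cfsg.Agent.Helper3.LeechM4d

set_option autoImplicit false
set_option linter.unusedSectionVars false
set_option linter.style.haveILetI false
set_option linter.unusedSimpArgs false
set_option linter.unusedVariables false
set_option linter.deprecated false
set_option linter.unnecessarySeqFocus false

namespace Cfsg.Agent.Helper3

open Cfsg Cfsg.Agent.Helper28.Leech

set_option maxRecDepth 100000 in
theorem m4Pick8 : ∀ p ∈ m4L8, (1 ≤ p.2.2 ∧ p.2.2 < 23 ∧ m4Mv p (gPt p.2.2) = 3) ∧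
    ∃ a ∈ List.range 23, (1 ≤ a ∧ m4Mv p (gPt a) = -1) ∧
    ∃ b ∈ List.range 23, a < b ∧ m4Mv p (gPt b) = -1 := by decide +kernel

set_option maxRecDepth 100000 in
theorem m4St8 : ∀ p ∈ m4L8, m4Mv p (gPt 1) = 3 → m4Mv p (gPt 2) = -1 →
    m4Mv p (gPt 3) = -1 → ∃ j ∈ orb6, m4Mv p (gPt j) = -1 := by decide +kernel

set_option maxRecDepth 100000 in
theorem m4Uniq8 : ∀ p ∈ m4L8, m4Mv p (gPt 1) = 3 → m4Mv p (gPt 2) = -1 →
    m4Mv p (gPt 3) = -1 → m4Mv p (gPt 4) = -1 → p = m4S8 := by decide +kernel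

set_option maxRecDepth 100000 in
theorem m4S8_mem : m4S8 ∈ m4L8 := by decide +kernel

end Cfsg.Agent.Helper3
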