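import Mathlib
import Cfsg.Agent.Helper3.LeechM4d

set_option autoImplicit false
set_option linter.unusedSectionVars false
set_option linter.style.haveILetI false
set_option linter.unusedSimpArgs false
set_option linter.unusedVariables false
set_option linter.deprecated false
set_option linter.unnecessarySeqFocus false

namespace Cfsg.Agent.Helper3

open Cfsg Cfsg.Agent.Helper28.Leech

set_option maxRecDepth 100000 in
theorem m4F8_16 : ∀ p ∈ m4L8, p.2.2 = 16 → m4Fact 1 (-1) p := by decide +kernel

set_option maxRecDepth 100000 in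
theorem m4F8_17 : ∀ p ∈ m4L8, p.2.2 = 17 → m4Fact 1 (-1) p := by decide +kernel

set_option maxRecDepth 100000 in
theorem m4F8_18 : ∀ p ∈ m4L8, p.2.2 = 18 → m4Fact 1 (-1) p := by decide +kernel

set_option maxRecDepth 100000 in
theorem m4F8_19 : ∀ p ∈ m4L8, p.2.2 = 19 → m4Fact 1 (-1) p := by decide +kernel

set_option maxRecDepth 100000 in
theorem m4F8_20 : ∀ p ∈ m4L8, p.2.2 = 20 → m4Fact 1 (-1) p := by decide +kernel

set_option maxRecDepth 100000 in
theorem m4F8_21 : ∀ p ∈ m4L8, p.2.2 = 21 → m4Fact 1 (-1) p := by decide +kernel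

set_option maxRecDepth 100000 in
theorem m4F8_22 : ∀ p ∈ m4L8, p.2.2 = 22 → m4Fact 1 (-1) p := by decide +kernel

end Cfsg.Agent.Helper3
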