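import Mathlib
import Cfsg.Agent.Helper3.LeechM4a
import Cfsg.Agent.Helper3.LeechM4b
import Cfsg.Agent.Helper3.LeechM4c
import Cfsg.Agent.Helper3.LeechM4e
import Cfsg.Agent.Helper3.LeechM4f

set_option autoImplicit false
set_option linter.unusedSectionVars false
set_option linter.style.haveILetI false
set_option linter.unusedSimpArgs false
set_option linter.unusedVariables false
set_option linter.deprecated false
set_option linter.unnecessarySeqFocus false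

namespace Cfsg.Agent.Helper3

open Cfsg Cfsg.Agent.Helper28.Leech
open scoped Pointwise

/-- the points of the rank four action of the McLaughlin group -/
def m4X (v w : leechLattice) : Set leechLattice :=
  {x | sqNorm (x : GolayPt → ℤ) = 32 ∧ dotInt (v : GolayPt → ℤ) (x : GolayPt → ℤ) = 0 ∧
    dotInt (w : GolayPt → ℤ) (x : GolayPt → ℤ) = 16}

/-! ### transitivity on configurations -/

theorem m4_cfg (v w x : leechLattice) (hv : sqNorm (v : GolayPt → ℤ) = 32)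
    (hw : sqNorm (w : GolayPt → ℤ) = 32)
    (hvw : dotInt (v : GolayPt → ℤ) (w : GolayPt → ℤ) = -8) (hx : x ∈ m4X v w) :
    ∃ g ∈ Co0, g x = v0 ∧ g v = w0s ∧ isV (g (v + w)) := by
  obtain ⟨h1, h2, h3⟩ := hx
  obtain ⟨g, hg, e1, e2⟩ := orth_norm x v h1 hv (by rw [dotInt_symm]; exact h2)
  have d1 := co0_dot g hg x (v + w)
  have d2 := co0_dot g hg v (v + w)
  rw [e1, dot_v0] at d1
  rw [e2, dot_w0s] at d2
  have k1 : dotInt (x : GolayPt → ℤ) ((v + w : leechLattice) : GolayPt → ℤ) = 16 := by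
    rw [AddSubgroup.coe_add, dotInt_symm, dot_add_left, h2, h3]; norm_num
  have k2 : dotInt (v : GolayPt → ℤ) ((v + w : leechLattice) : GolayPt → ℤ) = 24 := by
    rw [AddSubgroup.coe_add, dotInt_symm, dot_add_left, ← sqNorm_eq_dot, hv,
      dotInt_symm, hvw]; norm_num
  rw [k1] at d1
  rw [k2] at d2
  have e : (gPt 0 : GolayPt) = some 0 := rfl
  rw [e] at d2
  refine ⟨g, hg, e1, e2, ?_, ?_, ?_⟩
  · rw [hg.2, AddSubgroup.coe_add, Helper28.Leech.sqNorm_add, hv, hw, hvw]; norm_num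
  · omega
  · rw [e]; omega

theorem m4_trans (v w x v' w' x' : leechLattice) (hv : sqNorm (v : GolayPt → ℤ) = 32)
    (hw : sqNorm (w : GolayPt → ℤ) = 32)
    (hvw : dotInt (v : GolayPt → ℤ) (w : GolayPt → ℤ) = -8) (hx : x ∈ m4X v w)
    (hv' : sqNorm (v' : GolayPt → ℤ) = 32) (hw' : sqNorm (w' : GolayPt → ℤ) = 32)
    (hvw' : dotInt (v' : GolayPt → ℤ) (w' : GolayPt → ℤ) = -8) (hx' : x' ∈ m4X v' w') :
    ∃ k ∈ Co0, k v = v' ∧ k w = w' ∧ k x = x' := by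
  obtain ⟨g1, hg1, a1, b1, c1⟩ := m4_cfg v w x hv hw hvw hx
  obtain ⟨g2, hg2, a2, b2, c2⟩ := m4_cfg v' w' x' hv' hw' hvw' hx'
  obtain ⟨h, hh, d1, d2, d3⟩ := V_rel _ _ c1 c2
  have hk : g2⁻¹ * h * g1 ∈ Co0 := Co0.mul_mem (Co0.mul_mem (Co0.inv_mem hg2) hh) hg1
  have ev : (g2⁻¹ * h * g1) v = v' := by
    simp only [Equiv.Perm.mul_apply]
    rw [b1, d2, ← b2]; simp
  have ex : (g2⁻¹ * h * g1) x = x' := by
    simp only [Equiv.Perm.mul_apply]
    rw [a1, d1, ← a2]; simp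
  have eu : (g2⁻¹ * h * g1) (v + w) = v' + w' := by
    simp only [Equiv.Perm.mul_apply]
    rw [d3]; simp
  have ew : (g2⁻¹ * h * g1) w = w' := by
    have e := hk.1 v w
    rw [eu, ev] at e
    exact (add_left_cancel e).symm
  exact ⟨_, hk, ev, ew, ex⟩

/-! ### the standard frame -/

/-- the second vector of the standard frame -/
noncomputable def m4W : leechLattice := u5L - v0

theorem m4W_coe : ((m4W : leechLattice) : GolayPt → ℤ) = u5 - (v0 : GolayPt → ℤ) := rfl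

theorem m4_dot_v0_u5 : dotInt (v0 : GolayPt → ℤ) u5 = 24 := by
  rw [dot_v0]; rfl

theorem m4_dot_w0s_u5 : dotInt (w0s : GolayPt → ℤ) u5 = 16 := by
  rw [dot_w0s]; rfl

theorem m4W_norm : sqNorm ((m4W : leechLattice) : GolayPt → ℤ) = 32 := mcStd0.2

theorem m4W_dot : dotInt (v0 : GolayPt → ℤ) ((m4W : leechLattice) : GolayPt → ℤ) = -8 := by
  rw [m4W_coe, dot_sub_right, m4_dot_v0_u5, ← sqNorm_eq_dot, v0_norm]; norm_num

theorem m4_dot_v0_w0s : dotInt (v0 : GolayPt → ℤ) (w0s : GolayPt → ℤ) = 0 := by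
  rw [dot_v0]
  have h1 : (w0s : GolayPt → ℤ) none = 4 := w0s_none
  have h2 : (w0s : GolayPt → ℤ) (some 0) = -4 := w0s_zero
  rw [h1, h2]; norm_num

theorem m4X_iff (y : leechLattice) : y ∈ m4X v0 m4W ↔ sqNorm (y : GolayPt → ℤ) = 32 ∧
    (y : GolayPt → ℤ) none + (y : GolayPt → ℤ) (some 0) = 0 ∧
    dotInt u5 (y : GolayPt → ℤ) = 16 := by
  show (sqNorm (y : GolayPt → ℤ) = 32 ∧ dotInt (v0 : GolayPt → ℤ) (y : GolayPt → ℤ) = 0 ∧
    dotInt ((m4W : leechLattice) : GolayPt → ℤ) (y : GolayPt → ℤ) = 16) ↔ _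
  rw [m4W_coe, dot_sub_left, dot_v0]
  constructor
  · rintro ⟨h1, h2, h3⟩
    exact ⟨h1, by omega, by omega⟩
  · rintro ⟨h1, h2, h3⟩
    exact ⟨h1, by omega, by omega⟩

theorem m4_w0s_mem : w0s ∈ m4X v0 m4W := by
  rw [m4X_iff]
  have h1 : (w0s : GolayPt → ℤ) none = 4 := w0s_none
  have h2 : (w0s : GolayPt → ℤ) (some 0) = -4 := w0s_zero
  refine ⟨w0s_norm, by rw [h1, h2]; norm_num, ?_⟩
  rw [dotInt_symm]; exact m4_dot_w0s_u5

set_option maxRecDepth 100000 in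
theorem m4_E8_fn : ∀ k : GolayPt, (Pi.single none 8 : GolayPt → ℤ) k =
    (Pi.single none 4 + Pi.single (some 0) 4 : GolayPt → ℤ) k +
      (Pi.single none 4 + Pi.single (gPt 0) (-4) : GolayPt → ℤ) k := by decide +kernel

theorem m4_E8 : E8 none = v0 + w0s := by
  apply Subtype.ext
  funext k
  exact m4_E8_fn k

theorem perm_fix_w0s (σ : Equiv.Perm GolayPt) (hσ : σ ∈ M24) (h1 : σ none = none)
    (h2 : σ (gPt 0) = gPt 0) : permAut σ hσ w0s = w0s := by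
  have e1 : ∀ k, σ k = none ↔ k = none :=
    fun k => ⟨fun h => σ.injective (h.trans h1.symm), fun h => h ▸ h1⟩
  have e2 : ∀ k, σ k = gPt 0 ↔ k = gPt 0 :=
    fun k => ⟨fun h => σ.injective (h.trans h2.symm), fun h => h ▸ h2⟩
  apply Subtype.ext
  funext k
  rw [permAut_apply]
  show (Pi.single none 4 + Pi.single (gPt 0) (-4) : GolayPt → ℤ) (σ k) =
    (Pi.single none 4 + Pi.single (gPt 0) (-4) : GolayPt → ℤ) k
  simp only [Pi.add_apply, Pi.single_apply, e1, e2]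

/-- an automorphism fixing the standard frame is a permutation -/
theorem m4_stab_mono (g : Equiv.Perm leechLattice) (hg : g ∈ Co0) (hu : g u5L = u5L)
    (hv : g v0 = v0) (hx : g w0s = w0s) :
    ∃ π : Equiv.Perm GolayPt, ∃ hπ : π ∈ M24, π none = none ∧ π (gPt 0) = gPt 0 ∧
      g = permAut π⁻¹ (M24.inv_mem hπ) := by
  have h8 : g (E8 none) = E8 none := by rw [m4_E8, hg.1, hv, hx]
  have hy : g (yPL none) = yPL none := by
    have e : yPL none = u5L - E8 none := by rw [E8_eq]; abel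
    rw [e, co0_sub g hg, hu, h8]
  obtain ⟨π, hπ, hπn, hgπ⟩ := mono_of_fix g hg hu hy
  have hπ0 : π (gPt 0) = gPt 0 := by
    have e : ((g v0 : leechLattice) : GolayPt → ℤ) (π (gPt 0)) =
        (v0 : GolayPt → ℤ) (π (gPt 0)) := by rw [hv]
    have e3 : π⁻¹ (π (gPt 0)) = gPt 0 := by rw [Equiv.Perm.inv_eq_iff_eq]
    rw [hgπ, permAut_apply, e3, v0_apply, v0_apply] at e
    have hne : π (gPt 0) ≠ none := by
      intro hc
      have := π.injective (hc.trans hπn.symm)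
      revert this
      decide
    rw [if_neg hne, if_pos rfl] at e
    by_contra hc
    rw [if_neg hc] at e
    revert e
    decide
  exact ⟨π, hπ, hπn, hπ0, hgπ⟩

theorem m4_stab_card : Nat.card (MulAction.stabilizer ↥GM w0s) = 443520 := by
  have heq : MulAction.stabilizer ↥GM w0s = mclHom.range := by
    ext k
    constructor
    · intro hk
      have hk' : ((k : Co0) : Equiv.Perm leechLattice) w0s = w0s := hk
      obtain ⟨π, hπ, h1, h2, e⟩ := m4_stab_mono _ (k : Co0).2 k.2.1 k.2.2 hk'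
      refine ⟨⟨⟨π, hπ⟩, ⟨h1, h2⟩⟩, ?_⟩
      apply Subtype.ext
      apply Subtype.ext
      exact e.symm
    · rintro ⟨m, rfl⟩
      show permAut ((m : M24) : Equiv.Perm GolayPt)⁻¹ (M24.inv_mem (m : M24).2) w0s = w0s
      exact perm_fix_w0s _ _ (Equiv.Perm.inv_eq_iff_eq.2 (m.2.1 : _ = _).symm)
        (Equiv.Perm.inv_eq_iff_eq.2 (m.2.2 : _ = _).symm)
  rw [heq, ← Nat.card_congr (MonoidHom.ofInjective mclHom_inj).toEquiv]
  exact card_stabilizer_two_points none (gPt 0) (by decide)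

theorem m4_orbit : MulAction.orbit ↥GM w0s = m4X v0 m4W := by
  ext y
  constructor
  · rintro ⟨k, rfl⟩
    have hkC : ((k : Co0) : Equiv.Perm leechLattice) ∈ Co0 := (k : Co0).2
    have e1 : ((k : Co0) : Equiv.Perm leechLattice) u5L = u5L := k.2.1
    have e2 : ((k : Co0) : Equiv.Perm leechLattice) v0 = v0 := k.2.2
    have e3 : ((k : Co0) : Equiv.Perm leechLattice) m4W = m4W := by
      show ((k : Co0) : Equiv.Perm leechLattice) (u5L - v0) = u5L - v0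
      rw [co0_sub _ hkC, e1, e2]
    have d1 := co0_dot _ hkC v0 w0s
    have d2 := co0_dot _ hkC m4W w0s
    rw [e2] at d1
    rw [e3] at d2
    refine ⟨?_, d1.trans m4_w0s_mem.2.1, d2.trans m4_w0s_mem.2.2⟩
    show sqNorm ((((k : Co0) : Equiv.Perm leechLattice) w0s : leechLattice) : GolayPt → ℤ) = 32
    rw [hkC.2]; exact w0s_norm
  · intro hy
    obtain ⟨k, hk, k1, k2, k3⟩ := m4_trans v0 m4W w0s v0 m4W y v0_norm m4W_norm m4W_dot
      m4_w0s_mem v0_norm m4W_norm m4W_dot hy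
    have ku : k u5L = u5L := by
      have e : u5L = v0 + m4W := by
        show u5L = v0 + (u5L - v0)
        abel
      rw [e, hk.1, k1, k2]
    exact ⟨⟨⟨k, hk⟩, ⟨ku, k1⟩⟩, k3⟩

theorem m4X_std_ncard : (m4X v0 m4W).ncard = 2025 := by
  haveI := co0_finite
  have h1 := Subgroup.card_mul_index (MulAction.stabilizer ↥GM w0s)
  rw [MulAction.index_stabilizer, m4_orbit, m4_stab_card, mcl_card u5L v0 sqNorm_u5 mcStd0] at h1
  omega

/-! ### the explicit lists -/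

theorem m4L0_code : ∀ p ∈ m4L0, p.2.1 ∈ gCode := by
  intro p hp
  unfold m4L0 at hp
  rw [List.mem_map] at hp
  obtain ⟨c, hc, rfl⟩ := hp
  exact (List.mem_filter.1 hc).1

theorem m4L16_code : ∀ p ∈ m4L16, p.2.1 ∈ gCode := by
  intro p hp
  unfold m4L16 at hp
  rw [List.mem_flatMap] at hp
  obtain ⟨c, hc, hp⟩ := hp
  rw [List.mem_map] at hp
  obtain ⟨k, hk, rfl⟩ := hp
  exact (List.mem_filter.1 hc).1

theorem m4L8_code : ∀ p ∈ m4L8, p.2.1 ∈ gCode := by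
  intro p hp
  unfold m4L8 at hp
  rw [List.mem_flatMap] at hp
  obtain ⟨c, hc, hp⟩ := hp
  rw [List.mem_map] at hp
  obtain ⟨k, hk, rfl⟩ := hp
  exact (List.mem_filter.1 hc).1

theorem m4F8 : ∀ p ∈ m4L8, m4Fact 1 (-1) p := by
  intro p hp
  obtain ⟨⟨h1, h2, -⟩, -⟩ := m4Pick8 p hp
  have hk : p.2.2 = 1 ∨ p.2.2 = 2 ∨ p.2.2 = 3 ∨ p.2.2 = 4 ∨ p.2.2 = 5 ∨ p.2.2 = 6 ∨ p.2.2 = 7 ∨
      p.2.2 = 8 ∨ p.2.2 = 9 ∨ p.2.2 = 10 ∨ p.2.2 = 11 ∨ p.2.2 = 12 ∨ p.2.2 = 13 ∨ p.2.2 = 14 ∨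
      p.2.2 = 15 ∨ p.2.2 = 16 ∨ p.2.2 = 17 ∨ p.2.2 = 18 ∨ p.2.2 = 19 ∨ p.2.2 = 20 ∨ p.2.2 = 21 ∨
      p.2.2 = 22 := by omega
  rcases hk with h | h | h | h | h | h | h | h | h | h | h | h | h | h | h | h | h | h | h | h |
    h | h
  · exact m4F8_1 p hp h
  · exact m4F8_2 p hp h
  · exact m4F8_3 p hp h
  · exact m4F8_4 p hp h
  · exact m4F8_5 p hp h
  · exact m4F8_6 p hp h
  · exact m4F8_7 p hp h
  · exact m4F8_8 p hp h
  · exact m4F8_9 p hp h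
  · exact m4F8_10 p hp h
  · exact m4F8_11 p hp h
  · exact m4F8_12 p hp h
  · exact m4F8_13 p hp h
  · exact m4F8_14 p hp h
  · exact m4F8_15 p hp h
  · exact m4F8_16 p hp h
  · exact m4F8_17 p hp h
  · exact m4F8_18 p hp h
  · exact m4F8_19 p hp h
  · exact m4F8_20 p hp h
  · exact m4F8_21 p hp h
  · exact m4F8_22 p hp h

theorem ltest_of (y : GolayPt → ℤ) (c : ℕ) (h1 : lmask y (y none % 2) = c) (h2 : c ∈ gCode)
    (h3 : ∀ i : GolayPt, y i % 4 =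
      if c.testBit (gIdx i) then (y none % 2 + 2) % 4 else y none % 2)
    (h4 : (∑ i, y i) % 8 = 4 * (y none % 2)) : ltest y = true := by
  unfold ltest
  rw [h1]
  simp only [Bool.and_eq_true, decide_eq_true_eq]
  exact ⟨⟨by simpa using h2, h3⟩, h4⟩

open Classical in
/-- the lattice vector of an index triple -/
noncomputable def m4MvL (p : ℕ × ℕ × ℕ) : leechLattice :=
  if h : ltest (m4Mv p) = true then ⟨m4Mv p, ltest_sound _ h⟩ else 0

theorem m4MvL_coe {p : ℕ × ℕ × ℕ} (hp : ltest (m4Mv p) = true) :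
    ((m4MvL p : leechLattice) : GolayPt → ℤ) = m4Mv p := by
  unfold m4MvL
  rw [dif_pos hp]

/-- the classes of points by inner product with the base point -/
def m4D (c : ℤ) : Set leechLattice :=
  {y | y ∈ m4X v0 m4W ∧ dotInt (w0s : GolayPt → ℤ) (y : GolayPt → ℤ) = c}

/-- the vectors of a list -/
noncomputable def m4T (L : List (ℕ × ℕ × ℕ)) : Set leechLattice :=
  m4MvL '' (↑L.toFinset : Set (ℕ × ℕ × ℕ))

theorem m4_lt (L : List (ℕ × ℕ × ℕ)) (a b : ℤ) (hF : ∀ p ∈ L, m4Fact a b p)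
    (hC : ∀ p ∈ L, p.2.1 ∈ gCode) (p : ℕ × ℕ × ℕ) (hp : p ∈ L) : ltest (m4Mv p) = true :=
  ltest_of _ _ (hF p hp).2.1 (hC p hp) (hF p hp).2.2.1 (hF p hp).2.2.2.1

theorem m4T_sub (L : List (ℕ × ℕ × ℕ)) (a b : ℤ) (hF : ∀ p ∈ L, m4Fact a b p)
    (hC : ∀ p ∈ L, p.2.1 ∈ gCode) (hab : a + b = 0) : m4T L ⊆ m4D (4 * (a - b)) := by
  rintro y ⟨p, hp, rfl⟩
  rw [Finset.mem_coe, List.mem_toFinset] at hp
  obtain ⟨-, -, -, -, f1, f2, f3, f4⟩ := hF p hp
  have hl := m4_lt L a b hF hC p hp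
  have e : (gPt 0 : GolayPt) = some 0 := rfl
  refine ⟨(m4X_iff _).2 ⟨?_, ?_, ?_⟩, ?_⟩
  · rw [m4MvL_coe hl]; exact f1
  · rw [m4MvL_coe hl, f3, ← e, f4]; exact hab
  · rw [m4MvL_coe hl]; exact f2
  · rw [dot_w0s, m4MvL_coe hl, f3, f4]

theorem m4_inj (L : List (ℕ × ℕ × ℕ)) (a b : ℤ) (hF : ∀ p ∈ L, m4Fact a b p)
    (hC : ∀ p ∈ L, p.2.1 ∈ gCode)
    (hS : isSortedLt (L.map (fun p => p.2.1 * 32 + p.2.2)) = true)
    (p q : ℕ × ℕ × ℕ) (hp : p ∈ L) (hq : q ∈ L) (h : m4MvL p = m4MvL q) : p = q := by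
  have e : ((m4MvL p : leechLattice) : GolayPt → ℤ) = ((m4MvL q : leechLattice) : GolayPt → ℤ) := by
    rw [h]
  rw [m4MvL_coe (m4_lt L a b hF hC p hp), m4MvL_coe (m4_lt L a b hF hC q hq)] at e
  have hnd : (L.map (fun p => p.2.1 * 32 + p.2.2)).Nodup :=
    (pairwise_of_isSortedLt _ hS).imp (fun h => ne_of_lt h)
  have k : p.2.1 * 32 + p.2.2 = q.2.1 * 32 + q.2.2 := by
    rw [← (hF p hp).1, ← (hF q hq).1, e]
  exact List.inj_on_of_nodup_map hnd hp hq k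

theorem m4T_ncard (L : List (ℕ × ℕ × ℕ)) (a b : ℤ) (hF : ∀ p ∈ L, m4Fact a b p)
    (hC : ∀ p ∈ L, p.2.1 ∈ gCode)
    (hS : isSortedLt (L.map (fun p => p.2.1 * 32 + p.2.2)) = true) :
    (m4T L).ncard = L.length := by
  have hnd : (L.map (fun p => p.2.1 * 32 + p.2.2)).Nodup :=
    (pairwise_of_isSortedLt _ hS).imp (fun h => ne_of_lt h)
  unfold m4T
  rw [Set.ncard_image_of_injOn, Set.ncard_coe_finset, List.toFinset_card_of_nodup hnd.of_map]
  intro p hp q hq h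
  rw [Finset.mem_coe, List.mem_toFinset] at hp hq
  exact m4_inj L a b hF hC hS p q hp hq h

theorem m4T0_sub : m4T m4L0 ⊆ m4D 0 := by
  have := m4T_sub m4L0 0 0 m4F0 m4L0_code (by norm_num)
  simpa using this

theorem m4T16_sub : m4T m4L16 ⊆ m4D 16 := by
  have := m4T_sub m4L16 2 (-2) m4F16 m4L16_code (by norm_num)
  norm_num at this
  exact this

theorem m4T8_sub : m4T m4L8 ⊆ m4D 8 := by
  have := m4T_sub m4L8 1 (-1) m4F8 m4L8_code (by norm_num)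
  norm_num at this
  exact this

theorem m4_w0s_self : dotInt (w0s : GolayPt → ℤ) (w0s : GolayPt → ℤ) = 32 := by
  rw [← sqNorm_eq_dot]; exact w0s_norm

theorem m4_partition : insert w0s (m4T m4L0 ∪ m4T m4L16 ∪ m4T m4L8) = m4X v0 m4W := by
  have hfin : (m4X v0 m4W).Finite :=
    Set.finite_of_ncard_ne_zero (by rw [m4X_std_ncard]; norm_num)
  have f0 : (m4T m4L0).Finite := hfin.subset (fun y hy => (m4T0_sub hy).1)
  have f16 : (m4T m4L16).Finite := hfin.subset (fun y hy => (m4T16_sub hy).1)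
  have f8 : (m4T m4L8).Finite := hfin.subset (fun y hy => (m4T8_sub hy).1)
  have d1 : Disjoint (m4T m4L0) (m4T m4L16) := by
    rw [Set.disjoint_left]
    intro y h h'
    have a := (m4T0_sub h).2
    have b := (m4T16_sub h').2
    omega
  have d2 : Disjoint (m4T m4L0 ∪ m4T m4L16) (m4T m4L8) := by
    rw [Set.disjoint_left]
    rintro y (h | h) h'
    · have a := (m4T0_sub h).2
      have b := (m4T8_sub h').2
      omega
    · have a := (m4T16_sub h).2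
      have b := (m4T8_sub h').2
      omega
  have hw : w0s ∉ m4T m4L0 ∪ m4T m4L16 ∪ m4T m4L8 := by
    have e := m4_w0s_self
    rintro ((h | h) | h)
    · have a := (m4T0_sub h).2
      omega
    · have a := (m4T16_sub h).2
      omega
    · have a := (m4T8_sub h).2
      omega
  apply Set.eq_of_subset_of_ncard_le
  · rintro y (h | (h | h) | h)
    · rw [h]; exact m4_w0s_mem
    · exact (m4T0_sub h).1
    · exact (m4T16_sub h).1
    · exact (m4T8_sub h).1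
  · rw [Set.ncard_insert_of_notMem hw ((f0.union f16).union f8),
      Set.ncard_union_eq d2 (f0.union f16) f8, Set.ncard_union_eq d1 f0 f16,
      m4T_ncard m4L0 0 0 m4F0 m4L0_code m4Sort0, m4T_ncard m4L16 2 (-2) m4F16 m4L16_code m4Sort16,
      m4T_ncard m4L8 1 (-1) m4F8 m4L8_code m4Sort8, m4L0_len, m4L16_len, m4L8_len,
      m4X_std_ncard]
  · exact hfin

theorem m4_class0 (y : leechLattice) (hy : y ∈ m4D 0) : ∃ p ∈ m4L0, m4MvL p = y := by
  have h := hy.1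
  have hd := hy.2
  rw [← m4_partition] at h
  rcases h with h | (h | h) | h
  · rw [h, m4_w0s_self] at hd; omega
  · obtain ⟨p, hp, e⟩ := h
    rw [Finset.mem_coe, List.mem_toFinset] at hp
    exact ⟨p, hp, e⟩
  · have a := (m4T16_sub h).2
    omega
  · have a := (m4T8_sub h).2
    omega

theorem m4_class16 (y : leechLattice) (hy : y ∈ m4D 16) : ∃ p ∈ m4L16, m4MvL p = y := by
  have h := hy.1
  have hd := hy.2
  rw [← m4_partition] at h
  rcases h with h | (h | h) | h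
  · rw [h, m4_w0s_self] at hd; omega
  · have a := (m4T0_sub h).2
    omega
  · obtain ⟨p, hp, e⟩ := h
    rw [Finset.mem_coe, List.mem_toFinset] at hp
    exact ⟨p, hp, e⟩
  · have a := (m4T8_sub h).2
    omega

theorem m4_class8 (y : leechLattice) (hy : y ∈ m4D 8) : ∃ p ∈ m4L8, m4MvL p = y := by
  have h := hy.1
  have hd := hy.2
  rw [← m4_partition] at h
  rcases h with h | (h | h) | h
  · rw [h, m4_w0s_self] at hd; omega
  · have a := (m4T0_sub h).2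
    omega
  · have a := (m4T16_sub h).2
    omega
  · obtain ⟨p, hp, e⟩ := h
    rw [Finset.mem_coe, List.mem_toFinset] at hp
    exact ⟨p, hp, e⟩

theorem m4D0_ncard : (m4D 0).ncard = 330 := by
  have e : m4D 0 = m4T m4L0 := by
    apply Set.Subset.antisymm
    · intro y hy
      obtain ⟨p, hp, e⟩ := m4_class0 y hy
      exact ⟨p, by rw [Finset.mem_coe, List.mem_toFinset]; exact hp, e⟩
    · exact m4T0_sub
  rw [e, m4T_ncard m4L0 0 0 m4F0 m4L0_code m4Sort0, m4L0_len]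

theorem m4D16_ncard : (m4D 16).ncard = 462 := by
  have e : m4D 16 = m4T m4L16 := by
    apply Set.Subset.antisymm
    · intro y hy
      obtain ⟨p, hp, e⟩ := m4_class16 y hy
      exact ⟨p, by rw [Finset.mem_coe, List.mem_toFinset]; exact hp, e⟩
    · exact m4T16_sub
  rw [e, m4T_ncard m4L16 2 (-2) m4F16 m4L16_code m4Sort16, m4L16_len]

theorem m4D8_ncard : (m4D 8).ncard = 1232 := by
  have e : m4D 8 = m4T m4L8 := by
    apply Set.Subset.antisymm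
    · intro y hy
      obtain ⟨p, hp, e⟩ := m4_class8 y hy
      exact ⟨p, by rw [Finset.mem_coe, List.mem_toFinset]; exact hp, e⟩
    · exact m4T8_sub
  rw [e, m4T_ncard m4L8 1 (-1) m4F8 m4L8_code m4Sort8, m4L8_len]

/-! ### the stabiliser of the standard frame -/

def m4Rel (y y' : leechLattice) : Prop :=
  ∃ g ∈ Co0, g u5L = u5L ∧ g v0 = v0 ∧ g w0s = w0s ∧ g y = y'

theorem m4Rel_symm {y y' : leechLattice} (h : m4Rel y y') : m4Rel y' y := by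
  obtain ⟨g, hg, e1, e2, e3, e4⟩ := h
  exact ⟨g⁻¹, Co0.inv_mem hg, Equiv.Perm.inv_eq_iff_eq.2 e1.symm,
    Equiv.Perm.inv_eq_iff_eq.2 e2.symm, Equiv.Perm.inv_eq_iff_eq.2 e3.symm,
    Equiv.Perm.inv_eq_iff_eq.2 e4.symm⟩

theorem m4Rel_trans {y y' y'' : leechLattice} (h1 : m4Rel y y') (h2 : m4Rel y' y'') :
    m4Rel y y'' := by
  obtain ⟨g, hg, e1, e2, e3, e4⟩ := h1
  obtain ⟨g', hg', e1', e2', e3', e4'⟩ := h2
  exact ⟨g' * g, Co0.mul_mem hg' hg, by rw [Equiv.Perm.mul_apply, e1, e1'],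
    by rw [Equiv.Perm.mul_apply, e2, e2'], by rw [Equiv.Perm.mul_apply, e3, e3'],
    by rw [Equiv.Perm.mul_apply, e4, e4']⟩

theorem m4Rel_D {y y' : leechLattice} (h : m4Rel y y') (c : ℤ) (hy : y ∈ m4D c) : y' ∈ m4D c := by
  obtain ⟨g, hg, e1, e2, e3, rfl⟩ := h
  obtain ⟨⟨a1, a2, a3⟩, hd⟩ := hy
  have e4 : g m4W = m4W := by
    show g (u5L - v0) = u5L - v0
    rw [co0_sub g hg, e1, e2]
  have d1 := co0_dot g hg v0 y
  have d2 := co0_dot g hg m4W y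
  have d3 := co0_dot g hg w0s y
  rw [e2] at d1
  rw [e4] at d2
  rw [e3] at d3
  exact ⟨⟨by rw [hg.2]; exact a1, d1.trans a2, d2.trans a3⟩, d3.trans hd⟩

theorem m4Perm_rel (σ : Equiv.Perm GolayPt) (hσ : σ ∈ M24) (h1 : σ none = none)
    (h2 : σ (gPt 0) = gPt 0) (y : leechLattice) : m4Rel y (permAut σ hσ y) :=
  ⟨permAut σ hσ, permAut_mem σ hσ, (perm_fix σ hσ h1 h2).1, (perm_fix σ hσ h1 h2).2.2,
    perm_fix_w0s σ hσ h1 h2, rfl⟩

theorem m4Stage (L : List (ℕ × ℕ × ℕ)) (a b : ℤ) (hF : ∀ p ∈ L, m4Fact a b p)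
    (hC : ∀ p ∈ L, p.2.1 ∈ gCode) (hab : a + b = 0)
    (hcl : ∀ y ∈ m4D (4 * (a - b)), ∃ q ∈ L, m4MvL q = y)
    (p : ℕ × ℕ × ℕ) (hp : p ∈ L) (σ : Equiv.Perm GolayPt) (hσ : σ ∈ M24)
    (h1 : σ none = none) (h2 : σ (gPt 0) = gPt 0) :
    ∃ q ∈ L, m4Rel (m4MvL p) (m4MvL q) ∧ ∀ i : GolayPt, m4Mv q i = m4Mv p (σ i) := by
  have r := m4Perm_rel σ hσ h1 h2 (m4MvL p)
  have hmem := m4Rel_D r _ (m4T_sub L a b hF hC hab
    ⟨p, by rw [Finset.mem_coe, List.mem_toFinset]; exact hp, rfl⟩)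
  obtain ⟨q, hq, e⟩ := hcl _ hmem
  refine ⟨q, hq, by rw [e]; exact r, ?_⟩
  intro i
  have h' : ((m4MvL q : leechLattice) : GolayPt → ℤ) i =
      ((permAut σ hσ (m4MvL p) : leechLattice) : GolayPt → ℤ) i := by rw [e]
  rw [m4MvL_coe (m4_lt L a b hF hC q hq), permAut_apply,
    m4MvL_coe (m4_lt L a b hF hC p hp)] at h'
  exact h'

theorem m4Stage0 (p : ℕ × ℕ × ℕ) (hp : p ∈ m4L0) (σ : Equiv.Perm GolayPt) (hσ : σ ∈ M24)
    (h1 : σ none = none) (h2 : σ (gPt 0) = gPt 0) :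
    ∃ q ∈ m4L0, m4Rel (m4MvL p) (m4MvL q) ∧ ∀ i : GolayPt, m4Mv q i = m4Mv p (σ i) :=
  m4Stage m4L0 0 0 m4F0 m4L0_code (by norm_num)
    (fun y hy => m4_class0 y (by simpa using hy)) p hp σ hσ h1 h2

theorem m4Stage16 (p : ℕ × ℕ × ℕ) (hp : p ∈ m4L16) (σ : Equiv.Perm GolayPt) (hσ : σ ∈ M24)
    (h1 : σ none = none) (h2 : σ (gPt 0) = gPt 0) :
    ∃ q ∈ m4L16, m4Rel (m4MvL p) (m4MvL q) ∧ ∀ i : GolayPt, m4Mv q i = m4Mv p (σ i) :=
  m4Stage m4L16 2 (-2) m4F16 m4L16_code (by norm_num)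
    (fun y hy => m4_class16 y (by norm_num at hy; exact hy)) p hp σ hσ h1 h2

theorem m4Stage8 (p : ℕ × ℕ × ℕ) (hp : p ∈ m4L8) (σ : Equiv.Perm GolayPt) (hσ : σ ∈ M24)
    (h1 : σ none = none) (h2 : σ (gPt 0) = gPt 0) :
    ∃ q ∈ m4L8, m4Rel (m4MvL p) (m4MvL q) ∧ ∀ i : GolayPt, m4Mv q i = m4Mv p (σ i) :=
  m4Stage m4L8 1 (-1) m4F8 m4L8_code (by norm_num)
    (fun y hy => m4_class8 y (by norm_num at hy; exact hy)) p hp σ hσ h1 h2

theorem m4_nodup5 (a b c : ℕ) (ha : a ∈ List.range 23) (hb : b ∈ List.range 23)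
    (hc : c ∈ List.range 23) (h0a : 1 ≤ a) (h0b : 1 ≤ b) (h0c : 1 ≤ c) (hab : a ≠ b)
    (hac : a ≠ c) (hbc : b ≠ c) : [none, gPt 0, gPt a, gPt b, gPt c].Nodup := by
  have i0 : (0 : ℕ) ∈ List.range 23 := by decide
  simp only [List.nodup_cons, List.mem_cons, List.not_mem_nil, or_false, not_or,
    List.nodup_nil, and_true, not_false_eq_true]
  exact ⟨⟨by decide, Ne.symm (mcPt_nn a ha), Ne.symm (mcPt_nn b hb), Ne.symm (mcPt_nn c hc)⟩,
    ⟨mcPt_ne 0 i0 a ha (by omega), mcPt_ne 0 i0 b hb (by omega), mcPt_ne 0 i0 c hc (by omega)⟩,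
    ⟨mcPt_ne a ha b hb hab, mcPt_ne a ha c hc hac⟩, mcPt_ne b hb c hc hbc⟩

theorem m4Red0 (p : ℕ × ℕ × ℕ) (hp : p ∈ m4L0) : m4Rel (m4MvL p) (m4MvL m4S0) := by
  obtain ⟨a, ha, ⟨ha1, hpa⟩, b, hb, ⟨hab, hpb⟩, c, hc, hbc, hpc⟩ := m4Pick0 p hp
  obtain ⟨σ, hσ, s23, s0, s1, s2, s3⟩ := M24_five none (gPt 0) (gPt a) (gPt b) (gPt c)
    (m4_nodup5 a b c ha hb hc ha1 (by omega) (by omega) (by omega) (by omega) (by omega))
  obtain ⟨q, hq, r1, vq⟩ := m4Stage0 p hp σ hσ s23 s0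
  have q1 : m4Mv q (gPt 1) = 2 := by rw [vq, s1]; exact hpa
  have q2 : m4Mv q (gPt 2) = 2 := by rw [vq, s2]; exact hpb
  have q3 : m4Mv q (gPt 3) = 2 := by rw [vq, s3]; exact hpc
  obtain ⟨e, he, hqe⟩ := m4St5 q hq q1 q2 q3
  obtain ⟨τ, hτ, hτ5⟩ := findTab_sound sound_M24 (lvl5 e he)
  have t23 : τ none = none := hτ.2 23 (by decide)
  have t0 : τ (gPt 0) = gPt 0 := hτ.2 0 (by decide)
  have t1 : τ (gPt 1) = gPt 1 := hτ.2 1 (by decide)
  have t2 : τ (gPt 2) = gPt 2 := hτ.2 2 (by decide)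
  have t3 : τ (gPt 3) = gPt 3 := hτ.2 3 (by decide)
  have t5 : τ (gPt 5) = gPt e := hτ5
  obtain ⟨q', hq', r2, vq'⟩ := m4Stage0 q hq τ hτ.1 t23 t0
  have q1' : m4Mv q' (gPt 1) = 2 := by rw [vq', t1]; exact q1
  have q2' : m4Mv q' (gPt 2) = 2 := by rw [vq', t2]; exact q2
  have q3' : m4Mv q' (gPt 3) = 2 := by rw [vq', t3]; exact q3
  have q5' : m4Mv q' (gPt 5) = 2 := by rw [vq', t5]; exact hqe
  obtain ⟨j, hj, hqj⟩ := m4St6 q' hq' q1' q2' q3' q5'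
  obtain ⟨ρ, hρ, hρ4⟩ := findTab_sound sound_M24 (lvl6 j hj)
  have u23 : ρ none = none := hρ.2 23 (by decide)
  have u0 : ρ (gPt 0) = gPt 0 := hρ.2 0 (by decide)
  have u1 : ρ (gPt 1) = gPt 1 := hρ.2 1 (by decide)
  have u2 : ρ (gPt 2) = gPt 2 := hρ.2 2 (by decide)
  have u3 : ρ (gPt 3) = gPt 3 := hρ.2 3 (by decide)
  have u5' : ρ (gPt 5) = gPt 5 := hρ.2 5 (by decide)
  have u4 : ρ (gPt 4) = gPt j := hρ4
  obtain ⟨q'', hq'', r3, vq''⟩ := m4Stage0 q' hq' ρ hρ.1 u23 u0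
  have w1 : m4Mv q'' (gPt 1) = 2 := by rw [vq'', u1]; exact q1'
  have w2 : m4Mv q'' (gPt 2) = 2 := by rw [vq'', u2]; exact q2'
  have w3 : m4Mv q'' (gPt 3) = 2 := by rw [vq'', u3]; exact q3'
  have w5 : m4Mv q'' (gPt 5) = 2 := by rw [vq'', u5']; exact q5'
  have w4 : m4Mv q'' (gPt 4) = 2 := by rw [vq'', u4]; exact hqj
  have hu := m4Uniq0 q'' hq'' w1 w2 w3 w5 w4
  rw [← hu]
  exact m4Rel_trans r1 (m4Rel_trans r2 r3)

theorem m4Red16 (p : ℕ × ℕ × ℕ) (hp : p ∈ m4L16) : m4Rel (m4MvL p) (m4MvL m4S16) := by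
  obtain ⟨⟨hk1, hk2, hpk⟩, a, ha, ⟨ha1, hak, hpa⟩, b, hb, hab, hbk, hpb⟩ := m4Pick16 p hp
  obtain ⟨σ, hσ, s23, s0, s1, s2, s3⟩ := M24_five none (gPt 0) (gPt p.2.2) (gPt a) (gPt b)
    (m4_nodup5 p.2.2 a b (List.mem_range.2 hk2) ha hb hk1 ha1 (by omega) (Ne.symm hak)
      (Ne.symm hbk) (by omega))
  obtain ⟨q, hq, r1, vq⟩ := m4Stage16 p hp σ hσ s23 s0
  have q1 : m4Mv q (gPt 1) = -2 := by rw [vq, s1]; exact hpk
  have q2 : m4Mv q (gPt 2) = 2 := by rw [vq, s2]; exact hpa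
  have q3 : m4Mv q (gPt 3) = 2 := by rw [vq, s3]; exact hpb
  have hu := m4Uniq16 q hq q1 q2 q3
  rw [← hu]
  exact r1

theorem m4Red8 (p : ℕ × ℕ × ℕ) (hp : p ∈ m4L8) : m4Rel (m4MvL p) (m4MvL m4S8) := by
  obtain ⟨⟨hk1, hk2, hpk⟩, a, ha, ⟨ha1, hpa⟩, b, hb, hab, hpb⟩ := m4Pick8 p hp
  have hak : p.2.2 ≠ a := by
    intro h
    rw [h, hpa] at hpk
    norm_num at hpk
  have hbk : p.2.2 ≠ b := by
    intro h
    rw [h, hpb] at hpk
    norm_num at hpk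
  obtain ⟨σ, hσ, s23, s0, s1, s2, s3⟩ := M24_five none (gPt 0) (gPt p.2.2) (gPt a) (gPt b)
    (m4_nodup5 p.2.2 a b (List.mem_range.2 hk2) ha hb hk1 ha1 (by omega) hak hbk (by omega))
  obtain ⟨q, hq, r1, vq⟩ := m4Stage8 p hp σ hσ s23 s0
  have q1 : m4Mv q (gPt 1) = 3 := by rw [vq, s1]; exact hpk
  have q2 : m4Mv q (gPt 2) = -1 := by rw [vq, s2]; exact hpa
  have q3 : m4Mv q (gPt 3) = -1 := by rw [vq, s3]; exact hpb
  obtain ⟨j, hj, hqj⟩ := m4St8 q hq q1 q2 q3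
  obtain ⟨ρ, hρ, hρ4⟩ := findTab_sound sound_M24 (lvl6 j hj)
  have u23 : ρ none = none := hρ.2 23 (by decide)
  have u0 : ρ (gPt 0) = gPt 0 := hρ.2 0 (by decide)
  have u1 : ρ (gPt 1) = gPt 1 := hρ.2 1 (by decide)
  have u2 : ρ (gPt 2) = gPt 2 := hρ.2 2 (by decide)
  have u3 : ρ (gPt 3) = gPt 3 := hρ.2 3 (by decide)
  have u4 : ρ (gPt 4) = gPt j := hρ4
  obtain ⟨q', hq', r2, vq'⟩ := m4Stage8 q hq ρ hρ.1 u23 u0
  have w1 : m4Mv q' (gPt 1) = 3 := by rw [vq', u1]; exact q1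
  have w2 : m4Mv q' (gPt 2) = -1 := by rw [vq', u2]; exact q2
  have w3 : m4Mv q' (gPt 3) = -1 := by rw [vq', u3]; exact q3
  have w4 : m4Mv q' (gPt 4) = -1 := by rw [vq', u4]; exact hqj
  have hu := m4Uniq8 q' hq' w1 w2 w3 w4
  rw [← hu]
  exact m4Rel_trans r1 r2

theorem m4_trans0 (y y' : leechLattice) (hy : y ∈ m4D 0) (hy' : y' ∈ m4D 0) : m4Rel y y' := by
  obtain ⟨p, hp, rfl⟩ := m4_class0 y hy
  obtain ⟨p', hp', rfl⟩ := m4_class0 y' hy'
  exact m4Rel_trans (m4Red0 p hp) (m4Rel_symm (m4Red0 p' hp'))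

theorem m4_trans16 (y y' : leechLattice) (hy : y ∈ m4D 16) (hy' : y' ∈ m4D 16) : m4Rel y y' := by
  obtain ⟨p, hp, rfl⟩ := m4_class16 y hy
  obtain ⟨p', hp', rfl⟩ := m4_class16 y' hy'
  exact m4Rel_trans (m4Red16 p hp) (m4Rel_symm (m4Red16 p' hp'))

theorem m4_trans8 (y y' : leechLattice) (hy : y ∈ m4D 8) (hy' : y' ∈ m4D 8) : m4Rel y y' := by
  obtain ⟨p, hp, rfl⟩ := m4_class8 y hy
  obtain ⟨p', hp', rfl⟩ := m4_class8 y' hy'
  exact m4Rel_trans (m4Red8 p hp) (m4Rel_symm (m4Red8 p' hp'))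

/-! ### the general frame -/

theorem m4_pair (v w : leechLattice) (hv : sqNorm (v : GolayPt → ℤ) = 32)
    (hw : sqNorm (w : GolayPt → ℤ) = 32)
    (hvw : dotInt (v : GolayPt → ℤ) (w : GolayPt → ℤ) = -8) :
    ∃ k ∈ Co0, k v = v0 ∧ k w = m4W := by
  obtain ⟨g, hg⟩ := co0_trans_min v v0 hv v0_norm
  have hgC : (g : Equiv.Perm leechLattice) ∈ Co0 := g.2
  have hg' : (g : Equiv.Perm leechLattice) v = v0 := hg
  have hn : sqNorm (((g : Equiv.Perm leechLattice) w : leechLattice) : GolayPt → ℤ) = 32 := by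
    rw [hgC.2]; exact hw
  have hd : dotInt (v0 : GolayPt → ℤ)
      (((g : Equiv.Perm leechLattice) w : leechLattice) : GolayPt → ℤ) = -8 := by
    rw [← hg', co0_dot _ hgC]; exact hvw
  obtain ⟨h, h1, h2⟩ := pair8 v0 _ m4W v0_norm hn m4W_norm hd m4W_dot
  have h1' : (h : Equiv.Perm leechLattice) v0 = v0 := h1
  have h2' : (h : Equiv.Perm leechLattice) ((g : Equiv.Perm leechLattice) w) = m4W := h2
  refine ⟨(h : Equiv.Perm leechLattice) * (g : Equiv.Perm leechLattice),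
    Co0.mul_mem h.2 g.2, ?_, ?_⟩
  · rw [Equiv.Perm.mul_apply, hg', h1']
  · rw [Equiv.Perm.mul_apply, h2']

theorem m4_key (k : Equiv.Perm leechLattice) (hk : k ∈ Co0) (v w : leechLattice)
    (e1 : k v = v0) (e2 : k w = m4W) (y : leechLattice) :
    y ∈ m4X v w ↔ k y ∈ m4X v0 m4W := by
  show (sqNorm (y : GolayPt → ℤ) = 32 ∧ dotInt (v : GolayPt → ℤ) (y : GolayPt → ℤ) = 0 ∧
    dotInt (w : GolayPt → ℤ) (y : GolayPt → ℤ) = 16) ↔
    (sqNorm ((k y : leechLattice) : GolayPt → ℤ) = 32 ∧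
      dotInt (v0 : GolayPt → ℤ) ((k y : leechLattice) : GolayPt → ℤ) = 0 ∧
      dotInt ((m4W : leechLattice) : GolayPt → ℤ) ((k y : leechLattice) : GolayPt → ℤ) = 16)
  rw [← e1, ← e2, co0_dot k hk, co0_dot k hk, hk.2]

theorem m4_sub (v w x : leechLattice) (hv : sqNorm (v : GolayPt → ℤ) = 32)
    (hw : sqNorm (w : GolayPt → ℤ) = 32)
    (hvw : dotInt (v : GolayPt → ℤ) (w : GolayPt → ℤ) = -8) (hx : x ∈ m4X v w)
    (c : ℤ) (n : ℕ) (hn : (m4D c).ncard = n) (hn0 : n ≠ 0)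
    (htr : ∀ y y' : leechLattice, y ∈ m4D c → y' ∈ m4D c → m4Rel y y') :
    ∃ y ∈ m4X v w, (MulAction.orbit ↥(MulAction.stabilizer ↥Co0 v ⊓
      MulAction.stabilizer ↥Co0 w ⊓ MulAction.stabilizer ↥Co0 x) y).ncard = n := by
  obtain ⟨k, hk, e1, e2, e3⟩ := m4_trans v w x v0 m4W w0s hv hw hvw hx v0_norm m4W_norm
    m4W_dot m4_w0s_mem
  have key := m4_key k hk v w e1 e2
  have kd : ∀ y : leechLattice,
      dotInt (w0s : GolayPt → ℤ) ((k y : leechLattice) : GolayPt → ℤ) =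
        dotInt (x : GolayPt → ℤ) (y : GolayPt → ℤ) := by
    intro y
    rw [← e3, co0_dot k hk]
  have hDn : {y : leechLattice | y ∈ m4X v w ∧
      dotInt (x : GolayPt → ℤ) (y : GolayPt → ℤ) = c}.ncard = n := by
    have t := ncard_transfer k (fun y : leechLattice => y ∈ m4X v w ∧
        dotInt (x : GolayPt → ℤ) (y : GolayPt → ℤ) = c) (fun y' : leechLattice => y' ∈ m4D c)
      (fun y => by
        show _ ↔ (k y ∈ m4X v0 m4W ∧
          dotInt (w0s : GolayPt → ℤ) ((k y : leechLattice) : GolayPt → ℤ) = c)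
        rw [← key y, kd y])
    exact t.trans hn
  have hne : {y : leechLattice | y ∈ m4X v w ∧
      dotInt (x : GolayPt → ℤ) (y : GolayPt → ℤ) = c}.Nonempty := by
    by_contra hc
    rw [Set.not_nonempty_iff_eq_empty] at hc
    rw [hc, Set.ncard_empty] at hDn
    exact hn0 hDn.symm
  obtain ⟨y, hy⟩ := hne
  refine ⟨y, hy.1, ?_⟩
  have horb : MulAction.orbit ↥(MulAction.stabilizer ↥Co0 v ⊓
      MulAction.stabilizer ↥Co0 w ⊓ MulAction.stabilizer ↥Co0 x) y =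
      {y : leechLattice | y ∈ m4X v w ∧
        dotInt (x : GolayPt → ℤ) (y : GolayPt → ℤ) = c} := by
    ext y'
    constructor
    · rintro ⟨g, rfl⟩
      have hgC : (((g : Co0) : Co0) : Equiv.Perm leechLattice) ∈ Co0 := (g : Co0).2
      have gv : (((g : Co0) : Co0) : Equiv.Perm leechLattice) v = v := g.2.1.1
      have gw : (((g : Co0) : Co0) : Equiv.Perm leechLattice) w = w := g.2.1.2
      have gx : (((g : Co0) : Co0) : Equiv.Perm leechLattice) x = x := g.2.2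
      have d1 := co0_dot _ hgC v y
      have d2 := co0_dot _ hgC w y
      have d3 := co0_dot _ hgC x y
      rw [gv] at d1
      rw [gw] at d2
      rw [gx] at d3
      refine ⟨⟨?_, d1.trans hy.1.2.1, d2.trans hy.1.2.2⟩, d3.trans hy.2⟩
      show sqNorm (((((g : Co0) : Co0) : Equiv.Perm leechLattice) y : leechLattice) :
        GolayPt → ℤ) = 32
      rw [hgC.2]; exact hy.1.1
    · intro hy'
      have m1 : k y ∈ m4D c := ⟨(key y).1 hy.1, by rw [kd y]; exact hy.2⟩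
      have m2 : k y' ∈ m4D c := ⟨(key y').1 hy'.1, by rw [kd y']; exact hy'.2⟩
      obtain ⟨τ, hτ, t1, t2, t3, t4⟩ := htr _ _ m1 m2
      have tW : τ m4W = m4W := by
        show τ (u5L - v0) = u5L - v0
        rw [co0_sub τ hτ, t1, t2]
      have hkk : k⁻¹ * τ * k ∈ Co0 := Co0.mul_mem (Co0.mul_mem (Co0.inv_mem hk) hτ) hk
      have a1 : (k⁻¹ * τ * k) v = v := by
        simp only [Equiv.Perm.mul_apply]
        rw [e1, t2, ← e1]; simp
      have a2 : (k⁻¹ * τ * k) w = w := by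
        simp only [Equiv.Perm.mul_apply]
        rw [e2, tW, ← e2]; simp
      have a3 : (k⁻¹ * τ * k) x = x := by
        simp only [Equiv.Perm.mul_apply]
        rw [e3, t3, ← e3]; simp
      have a4 : (k⁻¹ * τ * k) y = y' := by
        simp only [Equiv.Perm.mul_apply]
        rw [t4]; simp
      exact ⟨⟨⟨k⁻¹ * τ * k, hkk⟩, ⟨⟨a1, a2⟩, a3⟩⟩, a4⟩
  rw [horb, hDn]

/-- the rank four action of the McLaughlin group on 2025 points -/
theorem m4_main (v w : leechLattice) (hv : sqNorm (v : GolayPt → ℤ) = 32)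
    (hw : sqNorm (w : GolayPt → ℤ) = 32)
    (hvw : dotInt (v : GolayPt → ℤ) (w : GolayPt → ℤ) = -8) :
    (m4X v w).ncard = 2025 ∧
    (∀ x ∈ m4X v w, ∀ x' ∈ m4X v w, ∃ g : ↥Co0, g • v = v ∧ g • w = w ∧ g • x = x') ∧
    ∀ x ∈ m4X v w, ∃ y₁ ∈ m4X v w, ∃ y₂ ∈ m4X v w, ∃ y₃ ∈ m4X v w,
      (MulAction.orbit ↥(MulAction.stabilizer ↥Co0 v ⊓ MulAction.stabilizer ↥Co0 w ⊓
        MulAction.stabilizer ↥Co0 x) y₁).ncard = 330 ∧
      (MulAction.orbit ↥(MulAction.stabilizer ↥Co0 v ⊓ MulAction.stabilizer ↥Co0 w ⊓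
        MulAction.stabilizer ↥Co0 x) y₂).ncard = 462 ∧
      (MulAction.orbit ↥(MulAction.stabilizer ↥Co0 v ⊓ MulAction.stabilizer ↥Co0 w ⊓
        MulAction.stabilizer ↥Co0 x) y₃).ncard = 1232 := by
  refine ⟨?_, ?_, ?_⟩
  · obtain ⟨k, hk, e1, e2⟩ := m4_pair v w hv hw hvw
    have t := ncard_transfer k (fun y : leechLattice => y ∈ m4X v w)
      (fun y' : leechLattice => y' ∈ m4X v0 m4W) (fun y => m4_key k hk v w e1 e2 y)
    exact t.trans m4X_std_ncard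
  · intro x hx x' hx'
    obtain ⟨k, hk, e1, e2, e3⟩ := m4_trans v w x v w x' hv hw hvw hx hv hw hvw hx'
    exact ⟨⟨k, hk⟩, e1, e2, e3⟩
  · intro x hx
    obtain ⟨y1, h1, o1⟩ := m4_sub v w x hv hw hvw hx 0 330 m4D0_ncard (by norm_num)
      (fun y y' => m4_trans0 y y')
    obtain ⟨y2, h2, o2⟩ := m4_sub v w x hv hw hvw hx 16 462 m4D16_ncard (by norm_num)
      (fun y y' => m4_trans16 y y')
    obtain ⟨y3, h3, o3⟩ := m4_sub v w x hv hw hvw hx 8 1232 m4D8_ncard (by norm_num)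
      (fun y y' => m4_trans8 y y')
    exact ⟨y1, h1, y2, h2, y3, h3, o1, o2, o3⟩

end Cfsg.Agent.Helper3
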