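import Mathlib
import Cfsg.Agent.Helper3.LeechM4
import Cfsg.Agent.Helper3.HSOrder

set_option autoImplicit false
set_option linter.unusedSectionVars false
set_option linter.style.haveILetI false
set_option linter.unusedSimpArgs false
set_option linter.unusedVariables false
set_option linter.deprecated false
set_option linter.unnecessarySeqFocus false

namespace Cfsg.Agent.Helper3

open Cfsg Cfsg.Agent.Helper28.Leech
open scoped Pointwise

def c5L : List ℕ := gCode.filter (fun c => pc24 c == 8 && !c.testBit 23 && c.testBit 0)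

set_option maxRecDepth 100000 in
theorem c5L_len : c5L.length = 176 := by decide +kernel

set_option maxRecDepth 100000 in
theorem c5_oc_facts : ∀ c ∈ c5L, (ltest (oc c) = true ∧ sqNorm (oc c) = 32 ∧
    dotInt u5 (oc c) = 16 ∧ oc c none = 0 ∧ oc c (gPt 0) = 2) := by decide +kernel

set_option maxRecDepth 100000 in
theorem c5L_pick : ∀ c ∈ c5L, ∃ k ∈ List.range 23, (decide (1 ≤ k) && c.testBit k) = true := by
  decide +kernel

def c5C : ℕ := 5279

set_option maxRecDepth 100000 in
theorem c5C_mem : c5C ∈ c5L := by decide +kernel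

set_option maxRecDepth 100000 in
theorem c5_lev0 : (Finset.univ.filter (fun k : GolayPt => k ≠ none ∧ k ≠ gPt 0 ∧
      dotInt (yP k) (m4Mv m4S0) = 0)).card = 0 ∧
    (L77.filter (fun c => decide (dotInt (oc c) (m4Mv m4S0) = 0))).length = 7 := by
  decide +kernel

set_option maxRecDepth 100000 in
theorem c5_lev16 : (Finset.univ.filter (fun k : GolayPt => k ≠ none ∧ k ≠ gPt 0 ∧
      dotInt (yP k) (m4Mv m4S16) = 0)).card = 5 ∧
    (L77.filter (fun c => decide (dotInt (oc c) (m4Mv m4S16) = 0))).length = 36 := by
  decide +kernel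

set_option maxRecDepth 100000 in
theorem c5_lev8 : (Finset.univ.filter (fun k : GolayPt => k ≠ none ∧ k ≠ gPt 0 ∧
      dotInt (yP k) (m4Mv m4S8) = 0)).card = 1 ∧
    (L77.filter (fun c => decide (dotInt (oc c) (m4Mv m4S8) = 0))).length = 20 := by
  decide +kernel

set_option maxRecDepth 100000 in
theorem c5_levm8 : (Finset.univ.filter (fun k : GolayPt => k ≠ none ∧ k ≠ gPt 0 ∧
      dotInt (yP k) (oc c5C) = 8)).card = 7 ∧
    (L77.filter (fun c => decide (dotInt (oc c) (oc c5C) = 8))).length = 42 := by
  decide +kernel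

end Cfsg.Agent.Helper3
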