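import Mathlib
import Cfsg.Agent.Helper3.LeechC5a

set_option autoImplicit false
set_option linter.unusedSectionVars false
set_option linter.style.haveILetI false
set_option linter.unusedSimpArgs false
set_option linter.unusedVariables false
set_option linter.deprecated false
set_option linter.unnecessarySeqFocus false

namespace Cfsg.Agent.Helper3

open Cfsg Cfsg.Agent.Helper28.Leech
open scoped Pointwise

/-! ### the standard frame -/

/-- the points of the standard frame -/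
def c5X : Set leechLattice :=
  {y | sqNorm (y : GolayPt → ℤ) = 32 ∧ dotInt u5 (y : GolayPt → ℤ) = 16}

/-- the classes by inner product with the base point -/
def c5D (c : ℤ) : Set leechLattice :=
  {y | y ∈ c5X ∧ dotInt (w0s : GolayPt → ℤ) (y : GolayPt → ℤ) = c}

/-- related under the stabiliser of the standard frame -/
def c5Rel (y y' : leechLattice) : Prop :=
  ∃ g ∈ Co0, g u5L = u5L ∧ g w0s = w0s ∧ g y = y'

theorem c5Rel_symm {y y' : leechLattice} (h : c5Rel y y') : c5Rel y' y := by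
  obtain ⟨g, hg, e1, e2, e3⟩ := h
  exact ⟨g⁻¹, Co0.inv_mem hg, Equiv.Perm.inv_eq_iff_eq.2 e1.symm,
    Equiv.Perm.inv_eq_iff_eq.2 e2.symm, Equiv.Perm.inv_eq_iff_eq.2 e3.symm⟩

theorem c5Rel_trans {y y' y'' : leechLattice} (h1 : c5Rel y y') (h2 : c5Rel y' y'') :
    c5Rel y y'' := by
  obtain ⟨g, hg, e1, e2, e3⟩ := h1
  obtain ⟨g', hg', e1', e2', e3'⟩ := h2
  exact ⟨g' * g, Co0.mul_mem hg' hg, by rw [Equiv.Perm.mul_apply, e1, e1'],
    by rw [Equiv.Perm.mul_apply, e2, e2'], by rw [Equiv.Perm.mul_apply, e3, e3']⟩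

theorem c5Rel_of_m4 {y y' : leechLattice} (h : m4Rel y y') : c5Rel y y' := by
  obtain ⟨g, hg, e1, e2, e3, e4⟩ := h
  exact ⟨g, hg, e1, e3, e4⟩

theorem c5Rel_D {y y' : leechLattice} (h : c5Rel y y') (c : ℤ) (hy : y ∈ c5D c) :
    y' ∈ c5D c := by
  obtain ⟨g, hg, e1, e2, rfl⟩ := h
  obtain ⟨⟨a1, a2⟩, hd⟩ := hy
  have d1 := co0_dot g hg u5L y
  have d2 := co0_dot g hg w0s y
  rw [e1] at d1
  rw [e2] at d2
  exact ⟨⟨by rw [hg.2]; exact a1, d1.trans a2⟩, d2.trans hd⟩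

theorem c5X_ncard : c5X.ncard = 11178 := by
  have hn : sqNorm ((-u5L : leechLattice) : GolayPt → ℤ) = 48 := by
    rw [AddSubgroup.coe_neg, Helper28.Leech.sqNorm_neg]; exact sqNorm_u5
  rw [← count11178 (-u5L) hn]
  congr 1
  ext y
  show (sqNorm (y : GolayPt → ℤ) = 32 ∧ dotInt u5 (y : GolayPt → ℤ) = 16) ↔
    (sqNorm (y : GolayPt → ℤ) = 32 ∧
      dotInt ((-u5L : leechLattice) : GolayPt → ℤ) (y : GolayPt → ℤ) = -16)
  rw [AddSubgroup.coe_neg, dot_neg_left]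
  have e : dotInt (u5L : GolayPt → ℤ) (y : GolayPt → ℤ) = dotInt u5 (y : GolayPt → ℤ) := rfl
  rw [e]
  constructor
  · rintro ⟨h1, h2⟩; exact ⟨h1, by omega⟩
  · rintro ⟨h1, h2⟩; exact ⟨h1, by omega⟩

theorem c5X_finite : c5X.Finite :=
  Set.finite_of_ncard_ne_zero (by rw [c5X_ncard]; norm_num)

theorem c5_m4D_sub (c : ℤ) : m4D c ⊆ c5D c := by
  rintro y ⟨hy, hd⟩
  have h := (m4X_iff y).1 hy
  exact ⟨⟨h.1, h.2.2⟩, hd⟩

set_option maxRecDepth 100000 in
theorem c5_u5b_fn : ∀ k : GolayPt, u5b k =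
    u5 k - (Pi.single none 4 + Pi.single (gPt 0) (-4) : GolayPt → ℤ) k := by decide +kernel

theorem c5_u5b : u5bL = u5L - w0s := by
  apply Subtype.ext
  funext k
  exact c5_u5b_fn k

theorem c5_fix_u5b (g : Equiv.Perm leechLattice) (hg : g ∈ Co0) (e1 : g u5L = u5L)
    (e2 : g w0s = w0s) : g u5bL = u5bL := by
  rw [c5_u5b, co0_sub g hg, e1, e2]

theorem c5_XS_inv (g : Equiv.Perm leechLattice) (hg : g ∈ Co0) (e1 : g u5L = u5L)
    (e2 : g w0s = w0s) (p : leechLattice) (hp : p ∈ XS) : g p ∈ XS := by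
  have e3 := c5_fix_u5b g hg e1 e2
  have d1 := co0_dot g hg u5L p
  have d2 := co0_dot g hg u5bL p
  rw [e1] at d1
  rw [e3] at d2
  exact ⟨by rw [hg.2]; exact hp.1, d1.trans hp.2.1, d2.trans hp.2.2⟩

theorem c5_XS_trans (p : leechLattice) (hp : p ∈ XS) :
    ∃ g ∈ Co0, g u5L = u5L ∧ g w0s = w0s ∧ g v0 = p := by
  obtain ⟨g, g1, g2, g3⟩ := hs_trans u5L (-u5bL) v0 p std_v std_w std_vw
    ((XS_iff v0).2 v0_XS) ((XS_iff p).2 hp)
  have hgC : (g : Equiv.Perm leechLattice) ∈ Co0 := g.2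
  have g1' : (g : Equiv.Perm leechLattice) u5L = u5L := g1
  have g2' : (g : Equiv.Perm leechLattice) (-u5bL) = -u5bL := g2
  have g3' : (g : Equiv.Perm leechLattice) v0 = p := g3
  have g4 : (g : Equiv.Perm leechLattice) u5bL = u5bL := by
    rw [co0_map_neg _ hgC] at g2'
    exact neg_injective g2'
  refine ⟨g, hgC, g1', ?_, g3'⟩
  have e : w0s = u5L - u5bL := by rw [c5_u5b]; abel
  rw [e, co0_sub _ hgC, g1', g4]

theorem c5_XS_cases (p : leechLattice) (hp : p ∈ XS) : p = v0 ∨ p ∈ T8 ∨ p ∈ T77 := by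
  by_cases h1 : p = v0
  · exact Or.inl h1
  · by_cases h2 : dotInt (v0 : GolayPt → ℤ) (p : GolayPt → ℤ) = 8
    · right; left
      rw [← std_class.2.2.1]; exact ⟨hp, h2⟩
    · right; right
      rw [← std_class.2.2.2]; exact ⟨hp, h1, h2⟩

/-- the size of a level set of the hundred points -/
theorem c5_level (y : leechLattice) (f : GolayPt → ℤ) (hf : (y : GolayPt → ℤ) = f) (e : ℤ)
    (a b : ℕ)
    (hab : (Finset.univ.filter (fun k : GolayPt => k ≠ none ∧ k ≠ gPt 0 ∧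
        dotInt (yP k) f = e)).card = a ∧
      (L77.filter (fun c => decide (dotInt (oc c) f = e))).length = b) :
    {p : leechLattice | p ∈ XS ∧
      dotInt (p : GolayPt → ℤ) (y : GolayPt → ℤ) = e}.ncard ≤ 1 + a + b := by
  classical
  obtain ⟨Fk, hFk⟩ : ∃ F : Finset GolayPt, F = Finset.univ.filter (fun k : GolayPt =>
      k ≠ none ∧ k ≠ gPt 0 ∧ dotInt (yP k) f = e) := ⟨_, rfl⟩
  obtain ⟨Lc, hLc⟩ : ∃ L : List ℕ, L = L77.filter (fun c => decide (dotInt (oc c) f = e)) :=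
    ⟨_, rfl⟩
  rw [← hFk, ← hLc] at hab
  have hsub : {p : leechLattice | p ∈ XS ∧
      dotInt (p : GolayPt → ℤ) (y : GolayPt → ℤ) = e} ⊆
      ({v0} ∪ yPL '' (↑Fk : Set GolayPt)) ∪ ocT '' (↑Lc.toFinset : Set ℕ) := by
    rintro p ⟨hp, hd⟩
    rw [hf] at hd
    rcases c5_XS_cases p hp with h | h | h
    · left; left; exact h
    · left; right
      obtain ⟨k, hk, rfl⟩ := h
      rw [Finset.mem_coe, Finset.mem_filter] at hk
      refine ⟨k, ?_, rfl⟩
      rw [Finset.mem_coe, hFk, Finset.mem_filter]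
      exact ⟨Finset.mem_univ _, hk.2.1, hk.2.2, hd⟩
    · right
      obtain ⟨c, hc, rfl⟩ := h
      rw [Finset.mem_coe, List.mem_toFinset] at hc
      rw [ocT_coe hc] at hd
      refine ⟨c, ?_, rfl⟩
      rw [Finset.mem_coe, List.mem_toFinset, hLc, List.mem_filter]
      exact ⟨hc, decide_eq_true hd⟩
  have fB : (yPL '' (↑Fk : Set GolayPt)).Finite := (Finset.finite_toSet Fk).image _
  have fC : (ocT '' (↑Lc.toFinset : Set ℕ)).Finite := (Finset.finite_toSet _).image _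
  have hB : (yPL '' (↑Fk : Set GolayPt)).ncard ≤ a := by
    have := Set.ncard_image_le (f := yPL) (Finset.finite_toSet Fk)
    rw [Set.ncard_coe_finset, hab.1] at this
    exact this
  have hC : (ocT '' (↑Lc.toFinset : Set ℕ)).ncard ≤ b := by
    have := Set.ncard_image_le (f := ocT) (Finset.finite_toSet Lc.toFinset)
    rw [Set.ncard_coe_finset] at this
    exact this.trans ((List.toFinset_card_le _).trans hab.2.le)
  have h1 := Set.ncard_union_le ({v0} ∪ yPL '' (↑Fk : Set GolayPt))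
    (ocT '' (↑Lc.toFinset : Set ℕ))
  have h2 := Set.ncard_union_le ({v0} : Set leechLattice) (yPL '' (↑Fk : Set GolayPt))
  rw [Set.ncard_singleton] at h2
  have h0 := Set.ncard_le_ncard hsub (((Set.finite_singleton v0).union fB).union fC)
  omega

/-- double counting against the hundred points -/
theorem c5_dc (O Mset : Set leechLattice) (y : leechLattice) (e : ℤ) (nE : ℕ)
    (hOfin : O.Finite) (hO : ∀ y', y' ∈ O ↔ c5Rel y y')
    (hM : Mset ⊆ O)
    (hMe : ∀ y' ∈ Mset, dotInt (v0 : GolayPt → ℤ) (y' : GolayPt → ℤ) = e)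
    (hE : {p : leechLattice | p ∈ XS ∧
      dotInt (p : GolayPt → ℤ) (y : GolayPt → ℤ) = e}.ncard ≤ nE) :
    100 * Mset.ncard ≤ O.ncard * nE := by
  classical
  have hXfin : XS.Finite := Set.finite_of_ncard_ne_zero (by rw [XS_ncard]; norm_num)
  have key := Finset.card_mul_le_card_mul (s := hXfin.toFinset) (t := hOfin.toFinset)
    (fun (p y' : leechLattice) => dotInt (p : GolayPt → ℤ) (y' : GolayPt → ℤ) = e)
    (m := Mset.ncard) (n := nE) ?_ ?_
  · rw [← Set.ncard_eq_toFinset_card _ hXfin, ← Set.ncard_eq_toFinset_card _ hOfin,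
      XS_ncard] at key
    exact key
  · intro p hp
    rw [Set.Finite.mem_toFinset] at hp
    obtain ⟨g, hg, g1, g2, g3⟩ := c5_XS_trans p hp
    have hsub : g '' Mset ⊆ ↑(hOfin.toFinset.bipartiteAbove
        (fun (p y' : leechLattice) => dotInt (p : GolayPt → ℤ) (y' : GolayPt → ℤ) = e) p) := by
      rintro _ ⟨y', hy', rfl⟩
      rw [Finset.mem_coe, Finset.mem_bipartiteAbove]
      refine ⟨?_, ?_⟩
      · rw [Set.Finite.mem_toFinset, hO]
        exact c5Rel_trans ((hO y').1 (hM hy')) ⟨g, hg, g1, g2, rfl⟩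
      · show dotInt (p : GolayPt → ℤ) ((g y' : leechLattice) : GolayPt → ℤ) = e
        rw [← g3, co0_dot g hg]; exact hMe y' hy'
    have h1 := Set.ncard_le_ncard hsub (Finset.finite_toSet _)
    rw [Set.ncard_image_of_injective _ g.injective, Set.ncard_coe_finset] at h1
    exact h1
  · intro y' hy'
    rw [Set.Finite.mem_toFinset, hO] at hy'
    obtain ⟨g, hg, g1, g2, rfl⟩ := hy'
    have hsub : (↑(hXfin.toFinset.bipartiteBelow
        (fun (p y' : leechLattice) => dotInt (p : GolayPt → ℤ) (y' : GolayPt → ℤ) = e) (g y)) :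
        Set leechLattice) ⊆ g '' {p : leechLattice | p ∈ XS ∧
          dotInt (p : GolayPt → ℤ) (y : GolayPt → ℤ) = e} := by
      intro p hp
      rw [Finset.mem_coe, Finset.mem_bipartiteBelow, Set.Finite.mem_toFinset] at hp
      have gi1 : g⁻¹ u5L = u5L := Equiv.Perm.inv_eq_iff_eq.2 g1.symm
      have gi2 : g⁻¹ w0s = w0s := Equiv.Perm.inv_eq_iff_eq.2 g2.symm
      have e0 : g (g⁻¹ p) = p := by simp
      refine ⟨g⁻¹ p, ⟨c5_XS_inv g⁻¹ (Co0.inv_mem hg) gi1 gi2 p hp.1, ?_⟩, e0⟩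
      have d := co0_dot g hg (g⁻¹ p) y
      rw [e0] at d
      rw [← d]; exact hp.2
    have fE : {p : leechLattice | p ∈ XS ∧
        dotInt (p : GolayPt → ℤ) (y : GolayPt → ℤ) = e}.Finite :=
      hXfin.subset (fun p hp => hp.1)
    have h1 := Set.ncard_le_ncard hsub (fE.image _)
    rw [Set.ncard_coe_finset, Set.ncard_image_of_injective _ g.injective] at h1
    exact h1.trans hE

/-! ### the class of octads -/

theorem c5L_sub {c : ℕ} (hc : c ∈ c5L) : c ∈ gCode := (List.mem_filter.1 hc).1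

theorem c5_ocT_coe {c : ℕ} (hc : c ∈ c5L) :
    ((ocT c : leechLattice) : GolayPt → ℤ) = oc c := by
  unfold ocT
  rw [dif_pos (c5_oc_facts c hc).1]

theorem c5_ocT_D {c : ℕ} (hc : c ∈ c5L) : ocT c ∈ c5D (-8) := by
  obtain ⟨-, f1, f2, f3, f4⟩ := c5_oc_facts c hc
  refine ⟨⟨?_, ?_⟩, ?_⟩
  · rw [c5_ocT_coe hc]; exact f1
  · rw [c5_ocT_coe hc]; exact f2
  · rw [dot_w0s, c5_ocT_coe hc, f3, f4]; norm_num

theorem c5_ocT_v0 {c : ℕ} (hc : c ∈ c5L) :
    dotInt (v0 : GolayPt → ℤ) ((ocT c : leechLattice) : GolayPt → ℤ) = 8 := by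
  obtain ⟨-, f1, f2, f3, f4⟩ := c5_oc_facts c hc
  have e : (gPt 0 : GolayPt) = some 0 := rfl
  rw [dot_v0, c5_ocT_coe hc, f3, ← e, f4]; norm_num

/-- the octad class -/
noncomputable def c5T : Set leechLattice := ocT '' (↑c5L.toFinset : Set ℕ)

theorem c5T_ncard : c5T.ncard = 176 := by
  unfold c5T
  rw [Set.ncard_image_of_injOn, Set.ncard_coe_finset,
    List.toFinset_card_of_nodup (show c5L.Nodup from gCode_nodup.filter _)]
  · exact c5L_len
  · intro c hc c' hc' h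
    rw [Finset.mem_coe, List.mem_toFinset] at hc hc'
    have e : ((ocT c : leechLattice) : GolayPt → ℤ) =
        ((ocT c' : leechLattice) : GolayPt → ℤ) := by
      rw [h]
    rw [c5_ocT_coe hc, c5_ocT_coe hc'] at e
    exact oc_inj c c' (c5L_sub hc) (c5L_sub hc') e

theorem c5_F (c k : ℕ) (j : GolayPt) :
    oc c j = if m4Mv (2, c, k) j = 1 then 0 else 2 := by
  unfold oc m4Mv
  dsimp only
  by_cases h : c.testBit (gIdx j) = true
  · by_cases h2 : gIdx j = k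
    · subst h2
      simp [h]
    · simp [h, h2]
  · simp [h]

theorem c5_mem_m4L8 {c : ℕ} (hc : c ∈ c5L) : ∃ k : ℕ, (2, c, k) ∈ m4L8 := by
  obtain ⟨k, hk, hk2⟩ := c5L_pick c hc
  refine ⟨k, ?_⟩
  unfold m4L8
  rw [List.mem_flatMap]
  exact ⟨c, hc, List.mem_map.2 ⟨k, List.mem_filter.2 ⟨hk, hk2⟩, rfl⟩⟩

theorem c5_T_rel {c c' : ℕ} (hc : c ∈ c5L) (hc' : c' ∈ c5L) : c5Rel (ocT c) (ocT c') := by
  obtain ⟨k, hk⟩ := c5_mem_m4L8 hc
  obtain ⟨k', hk'⟩ := c5_mem_m4L8 hc'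
  have m1 : m4MvL (2, c, k) ∈ m4D 8 :=
    m4T8_sub ⟨(2, c, k), by rw [Finset.mem_coe, List.mem_toFinset]; exact hk, rfl⟩
  have m2 : m4MvL (2, c', k') ∈ m4D 8 :=
    m4T8_sub ⟨(2, c', k'), by rw [Finset.mem_coe, List.mem_toFinset]; exact hk', rfl⟩
  obtain ⟨g, hg, e1, e2, e3, e4⟩ := m4_trans8 _ _ m1 m2
  obtain ⟨π, hπ, -, -, hgπ⟩ := m4_stab_mono g hg e1 e2 e3
  refine ⟨g, hg, e1, e3, ?_⟩
  apply Subtype.ext
  funext i
  have l1 := m4_lt m4L8 1 (-1) m4F8 m4L8_code _ hk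
  have l2 := m4_lt m4L8 1 (-1) m4F8 m4L8_code _ hk'
  have h4 : ((g (m4MvL (2, c, k)) : leechLattice) : GolayPt → ℤ) i =
      ((m4MvL (2, c', k') : leechLattice) : GolayPt → ℤ) i := by rw [e4]
  rw [hgπ, permAut_apply, m4MvL_coe l1, m4MvL_coe l2] at h4
  rw [hgπ, permAut_apply, c5_ocT_coe hc, c5_ocT_coe hc', c5_F c k, c5_F c' k', h4]

/-! ### the four orbits -/

theorem c5_orbit_lb (y : leechLattice) (c : ℤ) (hy : y ∈ c5D c) (Mset : Set leechLattice)
    (e : ℤ) (nE : ℕ) (hM : ∀ y' ∈ Mset, c5Rel y y')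
    (hMe : ∀ y' ∈ Mset, dotInt (v0 : GolayPt → ℤ) (y' : GolayPt → ℤ) = e)
    (hE : {p : leechLattice | p ∈ XS ∧
      dotInt (p : GolayPt → ℤ) (y : GolayPt → ℤ) = e}.ncard ≤ nE) :
    100 * Mset.ncard ≤ {y' : leechLattice | c5Rel y y'}.ncard * nE :=
  c5_dc {y' : leechLattice | c5Rel y y'} Mset y e nE
    (c5X_finite.subset (fun y' h => (c5Rel_D h c hy).1)) (fun y' => Iff.rfl) hM hMe hE

theorem c5_rep0 : m4MvL m4S0 ∈ m4D 0 :=
  m4T0_sub ⟨m4S0, by rw [Finset.mem_coe, List.mem_toFinset]; exact m4S_mem.1, rfl⟩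

theorem c5_rep16 : m4MvL m4S16 ∈ m4D 16 :=
  m4T16_sub ⟨m4S16, by rw [Finset.mem_coe, List.mem_toFinset]; exact m4S_mem.2, rfl⟩

theorem c5_rep8 : m4MvL m4S8 ∈ m4D 8 :=
  m4T8_sub ⟨m4S8, by rw [Finset.mem_coe, List.mem_toFinset]; exact m4S8_mem, rfl⟩

theorem c5_lb0 : 4125 ≤ {y' : leechLattice | c5Rel (m4MvL m4S0) y'}.ncard := by
  have hE := c5_level (m4MvL m4S0) (m4Mv m4S0)
    (m4MvL_coe (m4_lt m4L0 0 0 m4F0 m4L0_code _ m4S_mem.1)) 0 0 7 c5_lev0
  have h := c5_orbit_lb (m4MvL m4S0) 0 (c5_m4D_sub 0 c5_rep0) (m4D 0) 0 (1 + 0 + 7)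
    (fun y' hy' => c5Rel_of_m4 (m4_trans0 _ _ c5_rep0 hy')) (fun y' hy' => hy'.1.2.1) hE
  rw [m4D0_ncard] at h
  omega

theorem c5_lb16 : 1100 ≤ {y' : leechLattice | c5Rel (m4MvL m4S16) y'}.ncard := by
  have hE := c5_level (m4MvL m4S16) (m4Mv m4S16)
    (m4MvL_coe (m4_lt m4L16 2 (-2) m4F16 m4L16_code _ m4S_mem.2)) 0 5 36 c5_lev16
  have h := c5_orbit_lb (m4MvL m4S16) 16 (c5_m4D_sub 16 c5_rep16) (m4D 16) 0 (1 + 5 + 36)
    (fun y' hy' => c5Rel_of_m4 (m4_trans16 _ _ c5_rep16 hy')) (fun y' hy' => hy'.1.2.1) hE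
  rw [m4D16_ncard] at h
  omega

theorem c5_lb8 : 5600 ≤ {y' : leechLattice | c5Rel (m4MvL m4S8) y'}.ncard := by
  have hE := c5_level (m4MvL m4S8) (m4Mv m4S8)
    (m4MvL_coe (m4_lt m4L8 1 (-1) m4F8 m4L8_code _ m4S8_mem)) 0 1 20 c5_lev8
  have h := c5_orbit_lb (m4MvL m4S8) 8 (c5_m4D_sub 8 c5_rep8) (m4D 8) 0 (1 + 1 + 20)
    (fun y' hy' => c5Rel_of_m4 (m4_trans8 _ _ c5_rep8 hy')) (fun y' hy' => hy'.1.2.1) hE
  rw [m4D8_ncard] at h
  omega

theorem c5_lbm8 : 352 ≤ {y' : leechLattice | c5Rel (ocT c5C) y'}.ncard := by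
  have hE := c5_level (ocT c5C) (oc c5C) (c5_ocT_coe c5C_mem) 8 7 42 c5_levm8
  have h := c5_orbit_lb (ocT c5C) (-8) (c5_ocT_D c5C_mem) c5T 8 (1 + 7 + 42)
    (by
      rintro y' ⟨c, hc, rfl⟩
      rw [Finset.mem_coe, List.mem_toFinset] at hc
      exact c5_T_rel c5C_mem hc)
    (by
      rintro y' ⟨c, hc, rfl⟩
      rw [Finset.mem_coe, List.mem_toFinset] at hc
      exact c5_ocT_v0 hc) hE
  rw [c5T_ncard] at h
  omega

theorem c5_class (c : ℤ) (n : ℕ) (y : leechLattice) (hy : y ∈ c5D c)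
    (hlb : n ≤ {y' : leechLattice | c5Rel y y'}.ncard) (hub : (c5D c).ncard ≤ n) :
    (∀ z ∈ c5D c, ∀ z' ∈ c5D c, c5Rel z z') ∧ (c5D c).ncard = n := by
  have hfin : (c5D c).Finite := c5X_finite.subset (fun z hz => hz.1)
  have hsub : {y' : leechLattice | c5Rel y y'} ⊆ c5D c := fun y' h => c5Rel_D h c hy
  have h1 := Set.ncard_le_ncard hsub hfin
  have heq : {y' : leechLattice | c5Rel y y'} = c5D c :=
    Set.eq_of_subset_of_ncard_le hsub (by omega) hfin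
  refine ⟨?_, by omega⟩
  intro z hz z' hz'
  rw [← heq] at hz hz'
  exact c5Rel_trans (c5Rel_symm hz) hz'

theorem c5_w0s_mem : w0s ∈ c5X :=
  ⟨w0s_norm, (dotInt_symm _ _).trans m4_dot_w0s_u5⟩

/-- the standard frame: four orbits exhausting the points -/
theorem c5_std :
    ((∀ y ∈ c5D 16, ∀ y' ∈ c5D 16, c5Rel y y') ∧ (c5D 16).ncard = 1100) ∧
    ((∀ y ∈ c5D (-8), ∀ y' ∈ c5D (-8), c5Rel y y') ∧ (c5D (-8)).ncard = 352) ∧
    ((∀ y ∈ c5D 0, ∀ y' ∈ c5D 0, c5Rel y y') ∧ (c5D 0).ncard = 4125) ∧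
    ((∀ y ∈ c5D 8, ∀ y' ∈ c5D 8, c5Rel y y') ∧ (c5D 8).ncard = 5600) ∧
    c5X = insert w0s (c5D 16 ∪ c5D (-8) ∪ c5D 0 ∪ c5D 8) := by
  have f : ∀ c : ℤ, (c5D c).Finite := fun c => c5X_finite.subset (fun z hz => hz.1)
  have r16 := c5_m4D_sub 16 c5_rep16
  have r0 := c5_m4D_sub 0 c5_rep0
  have r8 := c5_m4D_sub 8 c5_rep8
  have rm8 := c5_ocT_D c5C_mem
  have g16 : 1100 ≤ (c5D 16).ncard :=
    c5_lb16.trans (Set.ncard_le_ncard (fun y' h => c5Rel_D h 16 r16) (f 16))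
  have g0 : 4125 ≤ (c5D 0).ncard :=
    c5_lb0.trans (Set.ncard_le_ncard (fun y' h => c5Rel_D h 0 r0) (f 0))
  have g8 : 5600 ≤ (c5D 8).ncard :=
    c5_lb8.trans (Set.ncard_le_ncard (fun y' h => c5Rel_D h 8 r8) (f 8))
  have gm8 : 352 ≤ (c5D (-8)).ncard :=
    c5_lbm8.trans (Set.ncard_le_ncard (fun y' h => c5Rel_D h (-8) rm8) (f (-8)))
  have d1 : Disjoint (c5D 16) (c5D (-8)) := by
    rw [Set.disjoint_left]
    intro y h h'
    have a := h.2
    have b := h'.2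
    omega
  have d2 : Disjoint (c5D 16 ∪ c5D (-8)) (c5D 0) := by
    rw [Set.disjoint_left]
    rintro y (h | h) h'
    · have a := h.2
      have b := h'.2
      omega
    · have a := h.2
      have b := h'.2
      omega
  have d3 : Disjoint (c5D 16 ∪ c5D (-8) ∪ c5D 0) (c5D 8) := by
    rw [Set.disjoint_left]
    rintro y ((h | h) | h) h'
    · have a := h.2
      have b := h'.2
      omega
    · have a := h.2
      have b := h'.2
      omega
    · have a := h.2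
      have b := h'.2
      omega
  have hw : w0s ∉ c5D 16 ∪ c5D (-8) ∪ c5D 0 ∪ c5D 8 := by
    have e := m4_w0s_self
    rintro (((h | h) | h) | h)
    · have a := h.2
      omega
    · have a := h.2
      omega
    · have a := h.2
      omega
    · have a := h.2
      omega
  have hsub : insert w0s (c5D 16 ∪ c5D (-8) ∪ c5D 0 ∪ c5D 8) ⊆ c5X := by
    rintro y (h | ((h | h) | h) | h)
    · rw [h]; exact c5_w0s_mem
    · exact h.1
    · exact h.1
    · exact h.1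
    · exact h.1
  have hcount := Set.ncard_le_ncard hsub c5X_finite
  rw [Set.ncard_insert_of_notMem hw ((((f 16).union (f (-8))).union (f 0)).union (f 8)),
    Set.ncard_union_eq d3 (((f 16).union (f (-8))).union (f 0)) (f 8),
    Set.ncard_union_eq d2 ((f 16).union (f (-8))) (f 0),
    Set.ncard_union_eq d1 (f 16) (f (-8)), c5X_ncard] at hcount
  refine ⟨c5_class 16 1100 _ r16 c5_lb16 (by omega), c5_class (-8) 352 _ rm8 c5_lbm8 (by omega),
    c5_class 0 4125 _ r0 c5_lb0 (by omega), c5_class 8 5600 _ r8 c5_lb8 (by omega), ?_⟩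
  symm
  apply Set.eq_of_subset_of_ncard_le hsub _ c5X_finite
  rw [Set.ncard_insert_of_notMem hw ((((f 16).union (f (-8))).union (f 0)).union (f 8)),
    Set.ncard_union_eq d3 (((f 16).union (f (-8))).union (f 0)) (f 8),
    Set.ncard_union_eq d2 ((f 16).union (f (-8))) (f 0),
    Set.ncard_union_eq d1 (f 16) (f (-8)), c5X_ncard]
  omega

/-! ### the general frame -/

/-- the points of a general frame -/
def c5S (u : leechLattice) : Set leechLattice :=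
  {x | sqNorm (x : GolayPt → ℤ) = 32 ∧ dotInt (u : GolayPt → ℤ) (x : GolayPt → ℤ) = -16}

theorem c5_frame (u x : leechLattice) (hu : sqNorm (u : GolayPt → ℤ) = 48)
    (hx1 : sqNorm (x : GolayPt → ℤ) = 32)
    (hx2 : dotInt (u : GolayPt → ℤ) (x : GolayPt → ℤ) = -16) :
    ∃ h ∈ Co0, h u = -u5L ∧ h x = w0s := by
  have hw : sqNorm ((-(u + x) : leechLattice) : GolayPt → ℤ) = 48 := by
    rw [AddSubgroup.coe_neg, AddSubgroup.coe_add, Helper28.Leech.sqNorm_neg,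
      Helper28.Leech.sqNorm_add, hu, hx1, hx2]
    norm_num
  have hd : dotInt (u : GolayPt → ℤ) ((-(u + x) : leechLattice) : GolayPt → ℤ) = -32 := by
    rw [AddSubgroup.coe_neg, AddSubgroup.coe_add, dot_neg_right, dotInt_symm, dot_add_left,
      ← sqNorm_eq_dot, hu, dotInt_symm (x : GolayPt → ℤ) (u : GolayPt → ℤ), hx2]
    norm_num
  have hn : sqNorm ((-u5L : leechLattice) : GolayPt → ℤ) = 48 := by
    rw [AddSubgroup.coe_neg, Helper28.Leech.sqNorm_neg]; exact sqNorm_u5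
  have hb : sqNorm ((u5bL : leechLattice) : GolayPt → ℤ) = 48 := by
    have := std_w
    rw [AddSubgroup.coe_neg, Helper28.Leech.sqNorm_neg] at this
    exact this
  have hd' : dotInt ((-u5L : leechLattice) : GolayPt → ℤ)
      ((u5bL : leechLattice) : GolayPt → ℤ) = -32 := by
    rw [AddSubgroup.coe_neg, dot_neg_left]
    show -dotInt u5 u5b = -32
    rw [u5_u5b_dot]
  obtain ⟨h, hh, e1, e2⟩ := hs_pair_trans u (-(u + x)) (-u5L) u5bL hu hw hd hn hb hd'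
  refine ⟨h, hh, e1, ?_⟩
  rw [co0_map_neg h hh, hh.1, e1] at e2
  have e3 : h x = u5L - u5bL := by rw [← e2]; abel
  rw [e3, c5_u5b]; abel

theorem c5_key (u : leechLattice) (h : Equiv.Perm leechLattice) (hh : h ∈ Co0)
    (e1 : h u = -u5L) (y : leechLattice) : y ∈ c5S u ↔ h y ∈ c5X := by
  have d := co0_dot h hh u y
  rw [e1, AddSubgroup.coe_neg, dot_neg_left] at d
  have d' : -dotInt u5 ((h y : leechLattice) : GolayPt → ℤ) =
      dotInt (u : GolayPt → ℤ) (y : GolayPt → ℤ) := d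
  show (sqNorm (y : GolayPt → ℤ) = 32 ∧
      dotInt (u : GolayPt → ℤ) (y : GolayPt → ℤ) = -16) ↔
    (sqNorm ((h y : leechLattice) : GolayPt → ℤ) = 32 ∧
      dotInt u5 ((h y : leechLattice) : GolayPt → ℤ) = 16)
  rw [hh.2, ← d']
  constructor
  · rintro ⟨a, b⟩; exact ⟨a, by omega⟩
  · rintro ⟨a, b⟩; exact ⟨a, by omega⟩

theorem c5_sub (u x : leechLattice) (h : Equiv.Perm leechLattice) (hh : h ∈ Co0)
    (e1 : h u = -u5L) (e2 : h x = w0s) (c : ℤ) (n : ℕ)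
    (hn : (c5D c).ncard = n) (hn0 : n ≠ 0)
    (htr : ∀ y ∈ c5D c, ∀ y' ∈ c5D c, c5Rel y y') :
    ∃ y ∈ c5S u, MulAction.orbit ↥(MulAction.stabilizer ↥Co0 u ⊓
        MulAction.stabilizer ↥Co0 x) y =
        {y : leechLattice | y ∈ c5S u ∧
          dotInt (x : GolayPt → ℤ) (y : GolayPt → ℤ) = c} ∧
      {y : leechLattice | y ∈ c5S u ∧
        dotInt (x : GolayPt → ℤ) (y : GolayPt → ℤ) = c}.ncard = n := by
  have key := c5_key u h hh e1
  have kd : ∀ y : leechLattice,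
      dotInt (w0s : GolayPt → ℤ) ((h y : leechLattice) : GolayPt → ℤ) =
        dotInt (x : GolayPt → ℤ) (y : GolayPt → ℤ) := by
    intro y
    rw [← e2, co0_dot h hh]
  have hDn : {y : leechLattice | y ∈ c5S u ∧
      dotInt (x : GolayPt → ℤ) (y : GolayPt → ℤ) = c}.ncard = n := by
    have t := ncard_transfer h (fun y : leechLattice => y ∈ c5S u ∧
        dotInt (x : GolayPt → ℤ) (y : GolayPt → ℤ) = c) (fun y' : leechLattice => y' ∈ c5D c)
      (fun y => by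
        show _ ↔ (h y ∈ c5X ∧
          dotInt (w0s : GolayPt → ℤ) ((h y : leechLattice) : GolayPt → ℤ) = c)
        rw [← key y, kd y])
    exact t.trans hn
  have hne : {y : leechLattice | y ∈ c5S u ∧
      dotInt (x : GolayPt → ℤ) (y : GolayPt → ℤ) = c}.Nonempty := by
    by_contra hc
    rw [Set.not_nonempty_iff_eq_empty] at hc
    rw [hc, Set.ncard_empty] at hDn
    exact hn0 hDn.symm
  obtain ⟨y, hy⟩ := hne
  refine ⟨y, hy.1, ?_, hDn⟩
  ext y'
  constructor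
  · rintro ⟨g, rfl⟩
    have hgC : (((g : Co0) : Co0) : Equiv.Perm leechLattice) ∈ Co0 := (g : Co0).2
    have gu : (((g : Co0) : Co0) : Equiv.Perm leechLattice) u = u := g.2.1
    have gx : (((g : Co0) : Co0) : Equiv.Perm leechLattice) x = x := g.2.2
    have d1 := co0_dot _ hgC u y
    have d3 := co0_dot _ hgC x y
    rw [gu] at d1
    rw [gx] at d3
    refine ⟨⟨?_, d1.trans hy.1.2⟩, d3.trans hy.2⟩
    show sqNorm (((((g : Co0) : Co0) : Equiv.Perm leechLattice) y : leechLattice) :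
      GolayPt → ℤ) = 32
    rw [hgC.2]; exact hy.1.1
  · intro hy'
    have m1 : h y ∈ c5D c := ⟨(key y).1 hy.1, by rw [kd y]; exact hy.2⟩
    have m2 : h y' ∈ c5D c := ⟨(key y').1 hy'.1, by rw [kd y']; exact hy'.2⟩
    obtain ⟨τ, hτ, t1, t2, t3⟩ := htr _ m1 _ m2
    have hkk : h⁻¹ * τ * h ∈ Co0 := Co0.mul_mem (Co0.mul_mem (Co0.inv_mem hh) hτ) hh
    have a1 : (h⁻¹ * τ * h) u = u := by
      simp only [Equiv.Perm.mul_apply]
      rw [e1, co0_map_neg τ hτ, t1, ← e1]; simp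
    have a2 : (h⁻¹ * τ * h) x = x := by
      simp only [Equiv.Perm.mul_apply]
      rw [e2, t2, ← e2]; simp
    have a3 : (h⁻¹ * τ * h) y = y' := by
      simp only [Equiv.Perm.mul_apply]
      rw [t3]; simp
    exact ⟨⟨⟨h⁻¹ * τ * h, hkk⟩, ⟨a1, a2⟩⟩, a3⟩

/-- the rank five action of the third Conway group on 11178 points -/
theorem c5_main (u x : leechLattice) (hu : sqNorm (u : GolayPt → ℤ) = 48)
    (hx : x ∈ c5S u) :
    ∃ y₁ ∈ c5S u, ∃ y₂ ∈ c5S u, ∃ y₃ ∈ c5S u, ∃ y₄ ∈ c5S u,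
      (MulAction.orbit ↥(MulAction.stabilizer ↥Co0 u ⊓
        MulAction.stabilizer ↥Co0 x) y₁).ncard = 352 ∧
      (MulAction.orbit ↥(MulAction.stabilizer ↥Co0 u ⊓
        MulAction.stabilizer ↥Co0 x) y₂).ncard = 1100 ∧
      (MulAction.orbit ↥(MulAction.stabilizer ↥Co0 u ⊓
        MulAction.stabilizer ↥Co0 x) y₃).ncard = 4125 ∧
      (MulAction.orbit ↥(MulAction.stabilizer ↥Co0 u ⊓
        MulAction.stabilizer ↥Co0 x) y₄).ncard = 5600 ∧
      c5S u = {x} ∪ MulAction.orbit ↥(MulAction.stabilizer ↥Co0 u ⊓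
          MulAction.stabilizer ↥Co0 x) y₁ ∪
        MulAction.orbit ↥(MulAction.stabilizer ↥Co0 u ⊓
          MulAction.stabilizer ↥Co0 x) y₂ ∪
        MulAction.orbit ↥(MulAction.stabilizer ↥Co0 u ⊓
          MulAction.stabilizer ↥Co0 x) y₃ ∪
        MulAction.orbit ↥(MulAction.stabilizer ↥Co0 u ⊓
          MulAction.stabilizer ↥Co0 x) y₄ := by
  obtain ⟨h, hh, e1, e2⟩ := c5_frame u x hu hx.1 hx.2
  obtain ⟨⟨t16, n16⟩, ⟨tm8, nm8⟩, ⟨t0, n0⟩, ⟨t8, n8⟩, hX⟩ := c5_std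
  obtain ⟨y1, h1, o1, c1⟩ := c5_sub u x h hh e1 e2 (-8) 352 nm8 (by norm_num) tm8
  obtain ⟨y2, h2, o2, c2⟩ := c5_sub u x h hh e1 e2 16 1100 n16 (by norm_num) t16
  obtain ⟨y3, h3, o3, c3⟩ := c5_sub u x h hh e1 e2 0 4125 n0 (by norm_num) t0
  obtain ⟨y4, h4, o4, c4⟩ := c5_sub u x h hh e1 e2 8 5600 n8 (by norm_num) t8
  refine ⟨y1, h1, y2, h2, y3, h3, y4, h4, by rw [o1, c1], by rw [o2, c2], by rw [o3, c3],
    by rw [o4, c4], ?_⟩
  rw [o1, o2, o3, o4]
  have kd : ∀ y : leechLattice,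
      dotInt (w0s : GolayPt → ℤ) ((h y : leechLattice) : GolayPt → ℤ) =
        dotInt (x : GolayPt → ℤ) (y : GolayPt → ℤ) := by
    intro y
    rw [← e2, co0_dot h hh]
  ext y
  constructor
  · intro hy
    have hy' := (c5_key u h hh e1 y).1 hy
    rw [hX] at hy'
    rcases hy' with hw | ((hA | hB) | hC) | hD
    · exact Or.inl (Or.inl (Or.inl (Or.inl (h.injective (hw.trans e2.symm)))))
    · exact Or.inl (Or.inl (Or.inr ⟨hy, by rw [← kd]; exact hA.2⟩))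
    · exact Or.inl (Or.inl (Or.inl (Or.inr ⟨hy, by rw [← kd]; exact hB.2⟩)))
    · exact Or.inl (Or.inr ⟨hy, by rw [← kd]; exact hC.2⟩)
    · exact Or.inr ⟨hy, by rw [← kd]; exact hD.2⟩
  · rintro ((((hxx | h1) | h2) | h3) | h4)
    · rw [Set.mem_singleton_iff] at hxx
      rw [hxx]; exact hx
    · exact h1.1
    · exact h2.1
    · exact h3.1
    · exact h4.1

end Cfsg.Agent.Helper3
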