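import Mathlib
import Cfsg.Agent.Helper3.LeechNorm

set_option autoImplicit false
set_option linter.unusedSectionVars false
set_option linter.style.haveILetI false
set_option linter.unusedSimpArgs false
set_option linter.unusedVariables false
set_option linter.deprecated false

namespace Cfsg.Agent.Helper3

open Cfsg

/-- integers of absolute value at most 8 other than `±4` -/
def alNo4 : List ℤ := [-8, -7, -6, -5, -3, -2, -1, 0, 1, 2, 3, 5, 6, 7, 8]

/-- integers of absolute value at most 8 other than `±5` -/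
def alNo5 : List ℤ := [-8, -7, -6, -4, -3, -2, -1, 0, 1, 2, 3, 4, 6, 7, 8]

theorem mem_alNo4 (v : ℤ) : v ∈ alNo4 ↔ (v ∈ alFull ∧ |v| ≠ 4) := by
  rw [mem_alFull, Ne, abs_eq (by norm_num : (0 : ℤ) ≤ 4)]
  simp only [alNo4, List.mem_cons, List.not_mem_nil, or_false]
  omega

theorem mem_alNo5 (v : ℤ) : v ∈ alNo5 ↔ (v ∈ alFull ∧ |v| ≠ 5) := by
  rw [mem_alFull, Ne, abs_eq (by norm_num : (0 : ℤ) ≤ 5)]
  simp only [alNo5, List.mem_cons, List.not_mem_nil, or_false]
  omega

theorem exists_abs_ncard (N : ℕ) (hN : N ≤ 64) (t : ℤ) (al' : List ℤ)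
    (hal' : ∀ v : ℤ, v ∈ al' ↔ (v ∈ alFull ∧ |v| ≠ t)) :
    {x : GolayPt → ℤ | x ∈ leechLattice ∧ sqNorm x = (N : ℤ) ∧ ∃ i, |x i| = t}.ncard =
      (leechSel alFull sqw N).ncard - (leechSel al' sqw N).ncard := by
  have h : {x : GolayPt → ℤ | x ∈ leechLattice ∧ sqNorm x = (N : ℤ) ∧ ∃ i, |x i| = t} =
      leechSel alFull sqw N \ leechSel al' sqw N := by
    ext x
    simp only [Set.mem_diff, Set.mem_setOf_eq]
    constructor
    · rintro ⟨hx, hn, i, hi⟩
      have hxs : x ∈ leechSel alFull sqw N := by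
        rw [← norm_set_eq N hN]; exact ⟨hx, hn⟩
      refine ⟨hxs, ?_⟩
      rintro ⟨-, h2, -⟩
      exact ((hal' (x i)).mp (h2 i)).2 hi
    · rintro ⟨hxs, hnot⟩
      have hxs' := hxs
      rw [← norm_set_eq N hN] at hxs'
      refine ⟨hxs'.1, hxs'.2, ?_⟩
      by_contra hcon
      push Not at hcon
      apply hnot
      exact ⟨hxs.1, fun i => (hal' (x i)).mpr ⟨hxs.2.1 i, hcon i⟩, hxs.2.2⟩
  rw [h, Set.ncard_diff ?_ (leechSel_finite _ _ _)]
  rintro x ⟨h1, h2, h3⟩
  exact ⟨h1, fun i => ((hal' (x i)).mp (h2 i)).1, h3⟩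

set_option maxRecDepth 100000 in
theorem shape_2_12 :
    {x : GolayPt → ℤ | x ∈ leechLattice ∧ sqNorm x = 48 ∧
      ∀ i, x i = 0 ∨ x i = 2 ∨ x i = -2}.ncard = 5275648 := by
  have h : {x : GolayPt → ℤ | x ∈ leechLattice ∧ sqNorm x = 48 ∧
      ∀ i, x i = 0 ∨ x i = 2 ∨ x i = -2} = leechSel [-2, 0, 2] sqw 48 := by
    ext x
    simp only [Set.mem_setOf_eq, leechSel, List.mem_cons, List.not_mem_nil, or_false]
    constructor
    · rintro ⟨hx, hn, hs⟩
      refine ⟨hx, fun i => ?_, ?_⟩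
      · rcases hs i with h | h | h <;> simp [h]
      · rw [sqNorm_eq_cast] at hn
        exact_mod_cast hn
    · rintro ⟨hx, hs, hn⟩
      refine ⟨hx, ?_, fun i => ?_⟩
      · rw [sqNorm_eq_cast, hn]
        rfl
      · rcases hs i with h | h | h <;> simp [h]
  rw [h, leechSel_count _ (by decide) sqw 48]
  decide +kernel

set_option maxRecDepth 100000 in
theorem shape_4_2_8 :
    {x : GolayPt → ℤ | x ∈ leechLattice ∧ sqNorm x = 48 ∧ ∃ i, |x i| = 4}.ncard = 3108864 := by
  have h := exists_abs_ncard 48 (by norm_num) 4 alNo4 mem_alNo4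
  simp only [Nat.cast_ofNat] at h
  rw [h, leechSel_count alFull alFull_nodup sqw 48, leechSel_count alNo4 (by decide) sqw 48]
  decide +kernel

set_option maxRecDepth 100000 in
theorem shape_5_1_23 :
    {x : GolayPt → ℤ | x ∈ leechLattice ∧ sqNorm x = 48 ∧ ∃ i, |x i| = 5}.ncard = 98304 := by
  have h := exists_abs_ncard 48 (by norm_num) 5 alNo5 mem_alNo5
  simp only [Nat.cast_ofNat] at h
  rw [h, leechSel_count alFull alFull_nodup sqw 48, leechSel_count alNo5 (by decide) sqw 48]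
  decide +kernel

theorem leech_parity (x : GolayPt → ℤ) (hx : x ∈ leechLattice) (i l : GolayPt) :
    x l % 2 = x i % 2 := by
  obtain ⟨m, hm, c, hc, hres, hsum⟩ := (mem_leech_iff_fibre x).mp hx
  have h1 := hres l
  have h2 := hres i
  unfold lres at h1 h2
  split_ifs at h1 h2 <;> omega

theorem shape_3_3_set :
    {x : GolayPt → ℤ | x ∈ leechLattice ∧ sqNorm x = 48 ∧
      ∃ i j k, i ≠ j ∧ j ≠ k ∧ i ≠ k ∧ |x i| = 3 ∧ |x j| = 3 ∧ |x k| = 3} =
      leechSel [-3, -1, 1, 3] sqw 48 := by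
  ext x
  simp only [Set.mem_setOf_eq, leechSel, List.mem_cons, List.not_mem_nil, or_false]
  constructor
  · rintro ⟨hx, hn, i, j, k, hij, hjk, hik, hi, hj, hk⟩
    have hodd : ∀ l, x l % 2 = 1 := by
      intro l
      rw [leech_parity x hx i l]
      rcases (abs_eq (by norm_num : (0 : ℤ) ≤ 3)).mp hi with h | h <;> rw [h] <;> norm_num
    have hb : ∀ l, -8 ≤ x l ∧ x l ≤ 8 := coord_bound x 48 (by norm_num) hn
    have hf0 : ∀ l, 0 ≤ (x l) ^ 2 - 1 := by
      intro l
      have := hodd l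
      have := hb l
      have h3 : x l ≠ 0 := by omega
      have h4 : 1 ≤ (x l) ^ 2 := by
        have : 1 ≤ |x l| := Int.one_le_abs h3
        nlinarith [sq_abs (x l)]
      omega
    have hsum : ∑ l, ((x l) ^ 2 - 1) = 24 := by
      rw [Finset.sum_sub_distrib]
      have h1 : ∑ l : GolayPt, (x l) ^ 2 = 48 := hn
      have h2 : ∑ _l : GolayPt, (1 : ℤ) = 24 := by
        rw [Finset.sum_const, Finset.card_univ, Helper28.Leech.card_pts]
        norm_num
      rw [h1, h2]
      norm_num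
    have h9 : ∀ l, |x l| = 3 → (x l) ^ 2 - 1 = 8 := by
      intro l hl
      have : (x l) ^ 2 = 9 := by rw [← sq_abs, hl]; norm_num
      omega
    refine ⟨hx, fun l => ?_, ?_⟩
    · by_cases hl : l = i ∨ l = j ∨ l = k
      · have h3 : |x l| = 3 := by
          rcases hl with h | h | h <;> rw [h] <;> assumption
        rcases (abs_eq (by norm_num : (0 : ℤ) ≤ 3)).mp h3 with h | h <;> rw [h] <;> norm_num
      · push Not at hl
        have hsub : ∑ t ∈ ({i, j, k, l} : Finset GolayPt), ((x t) ^ 2 - 1) ≤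
            ∑ t, ((x t) ^ 2 - 1) :=
          Finset.sum_le_sum_of_subset_of_nonneg (Finset.subset_univ _) (fun t _ _ => hf0 t)
        rw [Finset.sum_insert (by simp [hij, hik, Ne.symm hl.1]),
          Finset.sum_insert (by simp [hjk, Ne.symm hl.2.1]),
          Finset.sum_insert (by simp [Ne.symm hl.2.2]), Finset.sum_singleton, hsum, h9 i hi,
          h9 j hj, h9 k hk] at hsub
        have h5 : (x l) ^ 2 ≤ 1 := by omega
        have := hodd l
        have h6 : -1 ≤ x l ∧ x l ≤ 1 := by constructor <;> nlinarith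
        omega
    · rw [sqNorm_eq_cast] at hn
      exact_mod_cast hn
  · rintro ⟨hx, hal, hw⟩
    have hn : sqNorm x = 48 := by
      rw [sqNorm_eq_cast, hw]; rfl
    refine ⟨hx, hn, ?_⟩
    have hval : ∀ l, (x l) ^ 2 = 1 + 8 * (if |x l| = 3 then 1 else 0) := by
      intro l
      rcases hal l with h | h | h | h <;> rw [h] <;> norm_num
    have hsum : (48 : ℤ) = 24 + 8 * ((Finset.univ.filter (fun l => |x l| = 3)).card : ℤ) := by
      have h1 : ∑ l : GolayPt, (x l) ^ 2 = 48 := hn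
      rw [← h1, Finset.sum_congr rfl (fun l _ => hval l), Finset.sum_add_distrib,
        ← Finset.mul_sum, Finset.sum_boole, Finset.sum_const, Finset.card_univ,
        Helper28.Leech.card_pts]
      norm_num
    have hcard : (Finset.univ.filter (fun l => |x l| = 3)).card = 3 := by
      have : ((Finset.univ.filter (fun l => |x l| = 3)).card : ℤ) = 3 := by omega
      exact_mod_cast this
    obtain ⟨a, b, c, hab, hac, hbc, hT⟩ := Finset.card_eq_three.mp hcard
    have ha : a ∈ Finset.univ.filter (fun l => |x l| = 3) := by rw [hT]; simp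
    have hb : b ∈ Finset.univ.filter (fun l => |x l| = 3) := by rw [hT]; simp
    have hc : c ∈ Finset.univ.filter (fun l => |x l| = 3) := by rw [hT]; simp
    exact ⟨a, b, c, hab, hbc, hac, (Finset.mem_filter.mp ha).2, (Finset.mem_filter.mp hb).2,
      (Finset.mem_filter.mp hc).2⟩

set_option maxRecDepth 100000 in
theorem shape_3_3 :
    {x : GolayPt → ℤ | x ∈ leechLattice ∧ sqNorm x = 48 ∧
      ∃ i j k, i ≠ j ∧ j ≠ k ∧ i ≠ k ∧ |x i| = 3 ∧ |x j| = 3 ∧ |x k| = 3}.ncard = 8290304 := by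
  rw [shape_3_3_set, leechSel_count _ (by decide) sqw 48]
  decide +kernel

end Cfsg.Agent.Helper3
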