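import Mathlib

set_option autoImplicit false

namespace Cfsg.Agent.Helper3

open Matrix
open scoped LinearAlgebra.Projectivization MatrixGroups

variable {F : Type*} [Field F]

/-- the `2 × 2` determinant of two vectors -/
def dd (u v : Fin 2 → F) : F := u 0 * v 1 - u 1 * v 0

theorem mk_eq_of_dd (u v : Fin 2 → F) (hu : u ≠ 0) (hv : v ≠ 0) (h : dd u v = 0) :
    Projectivization.mk F u hu = Projectivization.mk F v hv := by
  rw [Projectivization.mk_eq_mk_iff]
  unfold dd at h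
  by_cases hv0 : v 0 = 0
  · have hv1 : v 1 ≠ 0 := by
      intro h1
      apply hv
      ext i
      fin_cases i <;> simp [hv0, h1]
    have hu0 : u 0 = 0 := by
      rw [hv0, mul_zero, sub_zero] at h
      rcases mul_eq_zero.mp h with h | h
      · exact h
      · exact absurd h hv1
    have hu1 : u 1 ≠ 0 := by
      intro h1
      apply hu
      ext i
      fin_cases i <;> simp [hu0, h1]
    refine ⟨Units.mk0 (u 1 / v 1) (div_ne_zero hu1 hv1), ?_⟩
    ext i
    fin_cases i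
    · simp [hv0, hu0]
    · simp [Units.smul_def]
      field_simp
  · have hu0 : u 0 ≠ 0 := by
      intro h0
      rw [h0, zero_mul, zero_sub, neg_eq_zero] at h
      rcases mul_eq_zero.mp h with h | h
      · apply hu
        ext i
        fin_cases i <;> simp [h0, h]
      · exact hv0 h
    refine ⟨Units.mk0 (u 0 / v 0) (div_ne_zero hu0 hv0), ?_⟩
    ext i
    fin_cases i
    · simp [Units.smul_def]
      field_simp
    · simp [Units.smul_def]
      field_simp
      linear_combination h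

theorem exists_gl (v0 v1 v2 : Fin 2 → F) (h01 : dd v0 v1 ≠ 0) (h21 : dd v2 v1 ≠ 0)
    (h02 : dd v0 v2 ≠ 0) :
    ∃ g : GL (Fin 2) F, (g : Matrix (Fin 2) (Fin 2) F) *ᵥ ![1, 0] = dd v2 v1 • v0 ∧
      (g : Matrix (Fin 2) (Fin 2) F) *ᵥ ![0, 1] = dd v0 v2 • v1 ∧
      (g : Matrix (Fin 2) (Fin 2) F) *ᵥ ![1, 1] = dd v0 v1 • v2 := by
  have hdet : (!![dd v2 v1 * v0 0, dd v0 v2 * v1 0; dd v2 v1 * v0 1, dd v0 v2 * v1 1] :
      Matrix (Fin 2) (Fin 2) F).det ≠ 0 := by
    rw [Matrix.det_fin_two_of]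
    have : dd v2 v1 * v0 0 * (dd v0 v2 * v1 1) - dd v0 v2 * v1 0 * (dd v2 v1 * v0 1) =
        dd v2 v1 * dd v0 v2 * dd v0 v1 := by
      unfold dd; ring
    rw [this]
    exact mul_ne_zero (mul_ne_zero h21 h02) h01
  refine ⟨Matrix.GeneralLinearGroup.mkOfDetNeZero _ hdet, ?_, ?_, ?_⟩
  · ext i
    fin_cases i <;> simp [Matrix.mulVec, dotProduct, Fin.sum_univ_two]
  · ext i
    fin_cases i <;> simp [Matrix.mulVec, dotProduct, Fin.sum_univ_two]
  · ext i
    fin_cases i <;> simp [Matrix.mulVec, dotProduct, Fin.sum_univ_two, dd] <;> ring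

theorem e0_ne : (![1, 0] : Fin 2 → F) ≠ 0 := fun h => by
  have := congrFun h 0
  simp at this

theorem e1_ne : (![0, 1] : Fin 2 → F) ≠ 0 := fun h => by
  have := congrFun h 1
  simp at this

theorem e2_ne : (![1, 1] : Fin 2 → F) ≠ 0 := fun h => by
  have := congrFun h 0
  simp at this

theorem dd_rep_ne (p q : ℙ F (Fin 2 → F)) (h : p ≠ q) : dd p.rep q.rep ≠ 0 := by
  intro hd
  apply h
  have := mk_eq_of_dd _ _ p.rep_nonzero q.rep_nonzero hd
  rwa [Projectivization.mk_rep, Projectivization.mk_rep] at this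

/-- `PGL₂` moves the standard frame to any three distinct points. -/
theorem exists_pgl (p0 p1 p2 : ℙ F (Fin 2 → F)) (h01 : p0 ≠ p1) (h02 : p0 ≠ p2) (h12 : p1 ≠ p2) :
    ∃ g : GL (Fin 2) F,
      (ProjGenLinGroup.mk g : PGL(Fin 2, F)) • Projectivization.mk F (![1, 0] : Fin 2 → F) e0_ne = p0 ∧
      (ProjGenLinGroup.mk g : PGL(Fin 2, F)) • Projectivization.mk F (![0, 1] : Fin 2 → F) e1_ne = p1 ∧
      (ProjGenLinGroup.mk g : PGL(Fin 2, F)) • Projectivization.mk F (![1, 1] : Fin 2 → F) e2_ne = p2 := by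
  have d01 := dd_rep_ne p0 p1 h01
  have d21 := dd_rep_ne p2 p1 (Ne.symm h12)
  have d02 := dd_rep_ne p0 p2 h02
  obtain ⟨g, h0, h1, h2⟩ := exists_gl _ _ _ d01 d21 d02
  refine ⟨g, ?_, ?_, ?_⟩
  · conv_rhs => rw [← p0.mk_rep]
    rw [Projectivization.PGL.mk_smul_mk, Projectivization.mk_eq_mk_iff]
    exact ⟨Units.mk0 _ d21, h0.symm⟩
  · conv_rhs => rw [← p1.mk_rep]
    rw [Projectivization.PGL.mk_smul_mk, Projectivization.mk_eq_mk_iff]
    exact ⟨Units.mk0 _ d02, h1.symm⟩
  · conv_rhs => rw [← p2.mk_rep]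
    rw [Projectivization.PGL.mk_smul_mk, Projectivization.mk_eq_mk_iff]
    exact ⟨Units.mk0 _ d01, h2.symm⟩

/-- An element of `PGL₂` fixing the standard frame is trivial. -/
theorem eq_one_of_fix (g : GL (Fin 2) F)
    (h0 : (ProjGenLinGroup.mk g : PGL(Fin 2, F)) • Projectivization.mk F (![1, 0] : Fin 2 → F) e0_ne =
      Projectivization.mk F (![1, 0] : Fin 2 → F) e0_ne)
    (h1 : (ProjGenLinGroup.mk g : PGL(Fin 2, F)) • Projectivization.mk F (![0, 1] : Fin 2 → F) e1_ne =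
      Projectivization.mk F (![0, 1] : Fin 2 → F) e1_ne)
    (h2 : (ProjGenLinGroup.mk g : PGL(Fin 2, F)) • Projectivization.mk F (![1, 1] : Fin 2 → F) e2_ne =
      Projectivization.mk F (![1, 1] : Fin 2 → F) e2_ne) :
    (ProjGenLinGroup.mk g : PGL(Fin 2, F)) = 1 := by
  rw [Projectivization.PGL.mk_smul_mk, Projectivization.mk_eq_mk_iff] at h0 h1 h2
  obtain ⟨a, ha⟩ := h0
  obtain ⟨b, hb⟩ := h1
  obtain ⟨c, hc⟩ := h2
  have ha' : a • (![1, 0] : Fin 2 → F) = (g : Matrix (Fin 2) (Fin 2) F) *ᵥ ![1, 0] := ha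
  have hb' : b • (![0, 1] : Fin 2 → F) = (g : Matrix (Fin 2) (Fin 2) F) *ᵥ ![0, 1] := hb
  have hc' : c • (![1, 1] : Fin 2 → F) = (g : Matrix (Fin 2) (Fin 2) F) *ᵥ ![1, 1] := hc
  have ha0 := congrFun ha' 0
  have ha1 := congrFun ha' 1
  have hb0 := congrFun hb' 0
  have hb1 := congrFun hb' 1
  have hc0 := congrFun hc' 0
  have hc1 := congrFun hc' 1
  simp [Matrix.mulVec, dotProduct, Fin.sum_univ_two, Units.smul_def] at ha0 ha1 hb0 hb1 hc0 hc1
  have hg : g = Matrix.GeneralLinearGroup.scalar (Fin 2) a := by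
    apply Units.ext
    ext i j
    rw [Matrix.GeneralLinearGroup.coe_scalar]
    fin_cases i <;> fin_cases j
    · simp [← ha0]
    · simp [← hb0]
    · simp [← ha1]
    · have hba : (b : F) = a := by
        rw [hb1, ha0]
        have e1 : (g : Matrix (Fin 2) (Fin 2) F) 1 1 = c := by rw [hc1, ← ha1, zero_add]
        have e2 : (g : Matrix (Fin 2) (Fin 2) F) 0 0 = c := by rw [hc0, ← hb0, add_zero]
        rw [e1, e2]
      simp [← hb1, hba]
  rw [hg]
  exact ProjGenLinGroup.mk_scalar a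

end Cfsg.Agent.Helper3

namespace Cfsg.Agent.Helper3

open Matrix
open scoped LinearAlgebra.Projectivization MatrixGroups

variable {F : Type*} [Field F]

theorem dd_of_mk_eq (u v : Fin 2 → F) (hu : u ≠ 0) (hv : v ≠ 0)
    (h : Projectivization.mk F u hu = Projectivization.mk F v hv) : dd u v = 0 := by
  rw [Projectivization.mk_eq_mk_iff] at h
  obtain ⟨a, rfl⟩ := h
  simp [dd, Units.smul_def]
  ring

/-- an embedding of `Fin 3` from three distinct elements -/
def emb3 {α : Type*} (a b c : α) (hab : a ≠ b) (hac : a ≠ c) (hbc : b ≠ c) : Fin 3 ↪ α :=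
  ⟨![a, b, c], by
    intro i j h
    match i, j, h with
    | 0, 0, _ => rfl
    | 0, 1, h => exact absurd h hab
    | 0, 2, h => exact absurd h hac
    | 1, 0, h => exact absurd h.symm hab
    | 1, 1, _ => rfl
    | 1, 2, h => exact absurd h hbc
    | 2, 0, h => exact absurd h.symm hac
    | 2, 1, h => exact absurd h.symm hbc
    | 2, 2, _ => rfl⟩

/-- An element of `SL₂` proportional to an element of `GL₂` acts in the same way on the
projective line. -/
theorem sl_smul_eq (A : Matrix.SpecialLinearGroup (Fin 2) F) (G : GL (Fin 2) F) (c : F)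
    (hc : c ≠ 0) (h : (A : Matrix (Fin 2) (Fin 2) F) = c • (G : Matrix (Fin 2) (Fin 2) F))
    (p : ℙ F (Fin 2 → F)) : A • p = (ProjGenLinGroup.mk G : PGL(Fin 2, F)) • p := by
  induction p using Projectivization.ind with
  | h v hv =>
    rw [Projectivization.smul_mk, Projectivization.PGL.mk_smul_mk, Projectivization.mk_eq_mk_iff]
    refine ⟨Units.mk0 c hc, ?_⟩
    show c • ((G : Matrix (Fin 2) (Fin 2) F) *ᵥ v) = (A : Matrix (Fin 2) (Fin 2) F) *ᵥ v
    rw [h, Matrix.smul_mulVec]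

/-- In characteristic two (finite field), `SL₂` is `3`-transitive on the projective line. -/
theorem sl2_three_trans_of_char_two [Fintype F] (hF : ringChar F = 2) :
    MulAction.IsMultiplyPretransitive (Matrix.SpecialLinearGroup (Fin 2) F)
      (ℙ F (Fin 2 → F)) 3 := by
  rw [MulAction.isMultiplyPretransitive_iff]
  intro x y
  obtain ⟨gx, hx0, hx1, hx2⟩ := exists_pgl (x 0) (x 1) (x 2)
    (x.injective.ne (by decide)) (x.injective.ne (by decide)) (x.injective.ne (by decide))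
  obtain ⟨gy, hy0, hy1, hy2⟩ := exists_pgl (y 0) (y 1) (y 2)
    (y.injective.ne (by decide)) (y.injective.ne (by decide)) (y.injective.ne (by decide))
  obtain ⟨G, hG⟩ : ∃ G : GL (Fin 2) F, G = gy * gx⁻¹ := ⟨_, rfl⟩
  have hdet : (G : Matrix (Fin 2) (Fin 2) F).det ≠ 0 := by
    have := (Matrix.isUnit_iff_isUnit_det (G : Matrix (Fin 2) (Fin 2) F)).mp G.isUnit
    exact this.ne_zero
  obtain ⟨s, hs⟩ := FiniteField.isSquare_of_char_two hF (G : Matrix (Fin 2) (Fin 2) F).det
  have hs0 : s ≠ 0 := by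
    rintro rfl
    rw [mul_zero] at hs
    exact hdet hs
  obtain ⟨A, hA⟩ : ∃ A : Matrix.SpecialLinearGroup (Fin 2) F,
      (A : Matrix (Fin 2) (Fin 2) F) = s⁻¹ • (G : Matrix (Fin 2) (Fin 2) F) := by
    refine ⟨⟨s⁻¹ • (G : Matrix (Fin 2) (Fin 2) F), ?_⟩, rfl⟩
    rw [Matrix.det_smul, Fintype.card_fin, hs]
    field_simp
  refine ⟨A, DFunLike.ext _ _ fun i => ?_⟩
  rw [Function.Embedding.smul_apply, sl_smul_eq A G s⁻¹ (inv_ne_zero hs0) hA, hG, map_mul, map_inv]
  fin_cases i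
  · show _ • x 0 = y 0
    rw [← hx0, mul_smul, inv_smul_smul, hy0]
  · show _ • x 1 = y 1
    rw [← hx1, mul_smul, inv_smul_smul, hy1]
  · show _ • x 2 = y 2
    rw [← hx2, mul_smul, inv_smul_smul, hy2]

/-- If `SL₂` is `3`-transitive on the projective line, every nonzero element is a square. -/
theorem isSquare_of_sl2_three_trans
    (h3 : MulAction.IsMultiplyPretransitive (Matrix.SpecialLinearGroup (Fin 2) F)
      (ℙ F (Fin 2 → F)) 3) (d : F) (hd : d ≠ 0) : IsSquare d := by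
  have hd_ne : (![d, 1] : Fin 2 → F) ≠ 0 := fun h => by
    have := congrFun h 1
    simp at this
  have n01 : Projectivization.mk F (![1, 0] : Fin 2 → F) e0_ne ≠
      Projectivization.mk F (![0, 1] : Fin 2 → F) e1_ne := by
    intro h
    have := dd_of_mk_eq _ _ _ _ h
    simp [dd] at this
  have n02 : Projectivization.mk F (![1, 0] : Fin 2 → F) e0_ne ≠
      Projectivization.mk F (![1, 1] : Fin 2 → F) e2_ne := by
    intro h
    have := dd_of_mk_eq _ _ _ _ h
    simp [dd] at this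
  have n12 : Projectivization.mk F (![0, 1] : Fin 2 → F) e1_ne ≠
      Projectivization.mk F (![1, 1] : Fin 2 → F) e2_ne := by
    intro h
    have := dd_of_mk_eq _ _ _ _ h
    simp [dd] at this
  have n0d : Projectivization.mk F (![1, 0] : Fin 2 → F) e0_ne ≠
      Projectivization.mk F (![d, 1] : Fin 2 → F) hd_ne := by
    intro h
    have := dd_of_mk_eq _ _ _ _ h
    simp [dd] at this
  have n1d : Projectivization.mk F (![0, 1] : Fin 2 → F) e1_ne ≠
      Projectivization.mk F (![d, 1] : Fin 2 → F) hd_ne := by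
    intro h
    have := dd_of_mk_eq _ _ _ _ h
    simp [dd] at this
    exact hd this
  obtain ⟨g, hg⟩ := (MulAction.isMultiplyPretransitive_iff.mp h3) (emb3 _ _ _ n01 n02 n12)
    (emb3 _ _ _ n01 n0d n1d)
  have h0 : g • Projectivization.mk F (![1, 0] : Fin 2 → F) e0_ne =
      Projectivization.mk F (![1, 0] : Fin 2 → F) e0_ne := congrArg (fun e => e 0) hg
  have h1 : g • Projectivization.mk F (![0, 1] : Fin 2 → F) e1_ne =
      Projectivization.mk F (![0, 1] : Fin 2 → F) e1_ne := congrArg (fun e => e 1) hg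
  have h2 : g • Projectivization.mk F (![1, 1] : Fin 2 → F) e2_ne =
      Projectivization.mk F (![d, 1] : Fin 2 → F) hd_ne := congrArg (fun e => e 2) hg
  rw [Projectivization.smul_mk, Projectivization.mk_eq_mk_iff] at h0 h1 h2
  obtain ⟨a, ha⟩ := h0
  obtain ⟨b, hb⟩ := h1
  obtain ⟨c, hc⟩ := h2
  have ha' : a • (![1, 0] : Fin 2 → F) = (g : Matrix (Fin 2) (Fin 2) F) *ᵥ ![1, 0] := ha
  have hb' : b • (![0, 1] : Fin 2 → F) = (g : Matrix (Fin 2) (Fin 2) F) *ᵥ ![0, 1] := hb
  have hc' : c • (![d, 1] : Fin 2 → F) = (g : Matrix (Fin 2) (Fin 2) F) *ᵥ ![1, 1] := hc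
  have ha0 := congrFun ha' 0
  have ha1 := congrFun ha' 1
  have hb0 := congrFun hb' 0
  have hb1 := congrFun hb' 1
  have hc0 := congrFun hc' 0
  have hc1 := congrFun hc' 1
  simp [Matrix.mulVec, dotProduct, Fin.sum_univ_two, Units.smul_def] at ha0 ha1 hb0 hb1 hc0 hc1
  have hdet := g.det_coe
  rw [Matrix.det_fin_two, ← ha0, ← ha1, ← hb0, ← hb1] at hdet
  rw [← ha0, ← hb0, add_zero] at hc0
  rw [← ha1, ← hb1, zero_add] at hc1
  -- c * d = a, c = b, a * b = 1
  refine ⟨(a : F), ?_⟩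
  have hb0' : (b : F) ≠ 0 := b.ne_zero
  have : (b : F) * d = (b : F) * ((a : F) * (a : F)) := by
    rw [← hc1, hc0]
    have h1 : (a : F) * (c : F) = 1 := by
      rw [hc1]; linear_combination hdet
    linear_combination (-(a : F)) * h1
  exact mul_left_cancel₀ hb0' this

end Cfsg.Agent.Helper3
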