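import Mathlib

/-!
Helper lemmas for S4485 (passing a Sylow subgroup with uniform centralizers to a subgroup
containing it), Mathlib-only.
-/

set_option autoImplicit false

namespace Cfsg.Agent.S4485P

/-- The Sylow subgroup `P.subtype hPK` of `K` has the same cardinality as `P`. -/
theorem h3_sylow_sub_card {G : Type*} [Group G] {p : ℕ} (P : Sylow p G) (K : Subgroup G)
    (hPK : (P : Subgroup G) ≤ K) :
    Nat.card (P.subtype hPK : Sylow p K) = Nat.card P := by
  have e : ((P.subtype hPK : Sylow p K) : Subgroup K) = (P : Subgroup G).subgroupOf K :=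
    Sylow.coe_subtype P hPK
  have h1 : Nat.card ((P.subtype hPK : Sylow p K) : Subgroup K)
      = Nat.card ((P : Subgroup G).subgroupOf K) := by rw [e]
  exact h1.trans (Nat.card_congr (Subgroup.subgroupOfEquivOfLe hPK).toEquiv)

/-- The uniform centralizer hypothesis passes from `P ≤ G` to `P ≤ K`. -/
theorem h3_hstar_sub {G : Type*} [Group G] {p : ℕ} (P : Sylow p G) (K : Subgroup G)
    (hPK : (P : Subgroup G) ≤ K)
    (hstar : ∀ x ∈ (P : Subgroup G), x ≠ 1 →
      Subgroup.centralizer ({x} : Set G) = Subgroup.centralizer ((P : Subgroup G) : Set G)) :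
    ∀ x ∈ ((P.subtype hPK : Sylow p K) : Subgroup K), x ≠ 1 →
      Subgroup.centralizer ({x} : Set K)
        = Subgroup.centralizer (((P.subtype hPK : Sylow p K) : Subgroup K) : Set K) := by
  intro x hx hx1
  have e : ((P.subtype hPK : Sylow p K) : Subgroup K) = (P : Subgroup G).subgroupOf K :=
    Sylow.coe_subtype P hPK
  have hxP : (x : G) ∈ (P : Subgroup G) := by
    have : x ∈ (P : Subgroup G).subgroupOf K := by rw [← e]; exact hx
    exact Subgroup.mem_subgroupOf.1 this
  have hx1' : (x : G) ≠ 1 := by
    intro h
    apply hx1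
    exact Subtype.ext h
  have hs := hstar (x : G) hxP hx1'
  ext c
  rw [Subgroup.mem_centralizer_iff, Subgroup.mem_centralizer_iff]
  constructor
  · intro hc t ht
    have htP : (t : G) ∈ (P : Subgroup G) := by
      have : t ∈ (P : Subgroup G).subgroupOf K := by
        rw [← e]; exact ht
      exact Subgroup.mem_subgroupOf.1 this
    have hcx : (c : G) ∈ Subgroup.centralizer ({(x : G)} : Set G) := by
      rw [Subgroup.mem_centralizer_iff]
      intro u hu
      rw [Set.mem_singleton_iff] at hu
      subst hu
      have := hc x rfl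
      exact congrArg Subtype.val this
    rw [hs, Subgroup.mem_centralizer_iff] at hcx
    have := hcx (t : G) htP
    exact Subtype.ext this
  · intro hc t ht
    rw [Set.mem_singleton_iff] at ht
    subst ht
    exact hc t hx

/-- `p` divides the order of any subgroup containing a Sylow `p`-subgroup, when `p ∣ |G|`. -/
theorem h3_dvd_card_sub {G : Type*} [Group G] [Finite G] {p : ℕ} (P : Sylow p G)
    (K : Subgroup G) (hPK : (P : Subgroup G) ≤ K) (hp : p.Prime) (hpG : p ∣ Nat.card G) :
    p ∣ Nat.card K := by
  have : Fact p.Prime := ⟨hp⟩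
  have h1 : p ∣ Nat.card (P : Subgroup G) := P.dvd_card_of_dvd_card hpG
  exact dvd_trans h1 (Subgroup.card_dvd_of_le hPK)

/-- A proper subgroup of a finite group has smaller cardinality. -/
theorem h3_card_lt {G : Type*} [Group G] [Finite G] (K : Subgroup G) (hK : K ≠ ⊤) :
    Nat.card K < Nat.card G := by
  have hle : Nat.card K ≤ Nat.card G := Subgroup.card_le_card_group K
  rcases lt_or_eq_of_le hle with h | h
  · exact h
  · exact absurd ((Subgroup.card_eq_iff_eq_top K).1 h) hK

/-- If the Sylow subgroup `P.subtype hPK` is normal in the normal subgroup `K` of `G`,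
then `P` is normal in `G`. -/
theorem h3_normal_of_sub {G : Type*} [Group G] [Finite G] {p : ℕ} (P : Sylow p G)
    (K : Subgroup G) (hPK : (P : Subgroup G) ≤ K) (hp : p.Prime) (hK : K.Normal)
    (hN : ((P.subtype hPK : Sylow p K) : Subgroup K).Normal) :
    (P : Subgroup G).Normal := by
  have : Fact p.Prime := ⟨hp⟩
  have := hK
  have hchar : ((P.subtype hPK : Sylow p K) : Subgroup K).Characteristic :=
    Sylow.characteristic_of_normal (P.subtype hPK) hN
  have := hchar
  have hmap : (((P.subtype hPK : Sylow p K) : Subgroup K).map K.subtype).Normal :=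
    ConjAct.normal_of_characteristic_of_normal
  have e : ((P.subtype hPK : Sylow p K) : Subgroup K).map K.subtype = (P : Subgroup G) := by
    rw [Sylow.coe_subtype, Subgroup.subgroupOf_map_subtype]
    exact inf_eq_left.2 hPK
  rw [e] at hmap
  exact hmap

end Cfsg.Agent.S4485P
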