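import Mathlib
import Cfsg.Agent.Helper3.SuzukiMax2

set_option autoImplicit false
set_option linter.unusedSectionVars false
set_option linter.style.haveILetI false
set_option linter.unusedSimpArgs false
set_option linter.unusedVariables false
set_option linter.deprecated false

namespace Cfsg.Agent.Helper3

open scoped Classical Pointwise commutatorElement
open Cfsg Matrix

noncomputable section

section fieldlemma

variable {F : Type*} [Field F]

/-- a biadditive map on a field of characteristic two which is invariant under a twisted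
scaling is trivial as soon as one suitable scalar exists -/
theorem biadd_inv_trivial (h2 : (2 : F) = 0) {A : Type*} [Group A] (c : ℕ) (b : F → F → A)
    (hadd1 : ∀ x x' y, b (x + x') y = b x y * b x' y)
    (hadd2 : ∀ x y y', b x (y + y') = b x y * b x y')
    (hinv : ∀ μ : F, μ ≠ 0 → ∀ x y, b (μ * x) (μ ^ c * y) = b x y)
    (t : F) (ht0 : t ≠ 0) (ht1 : t ≠ 1) (hne : t ^ c + (1 + t) ^ c * (t ^ c + 1) ≠ 0) :
    ∀ x y, b x y = 1 := by
  have hzero : ∀ x, b x 0 = 1 := by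
    intro x
    have h := hadd2 x 0 0
    rw [add_zero] at h
    have h' : b x 0 * 1 = b x 0 * b x 0 := by rw [mul_one]; exact h
    exact (mul_left_cancel h').symm
  have hsq : ∀ x y, b x y * b x y = 1 := by
    intro x y
    rw [← hadd2, ← hzero x]
    congr 1
    linear_combination y * h2
  have h1t : (1 : F) + t ≠ 0 := by
    intro h
    apply ht1
    linear_combination h - h2
  have key : ∀ x y, b x y = b x (((1 + t) ^ c + (t⁻¹) ^ c * (1 + t) ^ c) * y) := by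
    intro x y
    have e1 := hinv (1 + t) h1t x y
    have e2 : (1 + t) * x = x + t * x := by ring
    rw [e2, hadd1] at e1
    have e3 := hinv t ht0 x ((t⁻¹) ^ c * (1 + t) ^ c * y)
    have e4 : t ^ c * ((t⁻¹) ^ c * (1 + t) ^ c * y) = (1 + t) ^ c * y := by
      rw [← mul_assoc, ← mul_assoc, ← mul_pow, mul_inv_cancel₀ ht0, one_pow, one_mul]
    rw [e4] at e3
    rw [e3, ← hadd2] at e1
    rw [← e1]
    congr 1
    ring
  intro x y
  obtain ⟨u, hu⟩ : ∃ u : F, u = (1 + t) ^ c + (t⁻¹) ^ c * (1 + t) ^ c := ⟨_, rfl⟩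
  have hu1 : 1 + u ≠ 0 := by
    intro h
    apply hne
    have e : t ^ c + (1 + t) ^ c * (t ^ c + 1) = t ^ c * (1 + u) := by
      rw [hu]
      have h3 : t ^ c * (t⁻¹) ^ c = 1 := by rw [← mul_pow, mul_inv_cancel₀ ht0, one_pow]
      linear_combination (-(1 + t) ^ c) * h3
    rw [e, h, mul_zero]
  have h3 : ∀ y', b x ((1 + u) * y') = 1 := by
    intro y'
    have e : (1 + u) * y' = y' + u * y' := by ring
    have k := key x y'
    rw [← hu] at k
    rw [e, hadd2, ← k, hsq]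
  have h4 := h3 ((1 + u)⁻¹ * y)
  rwa [← mul_assoc, mul_inv_cancel₀ hu1, one_mul] at h4

theorem exists_good_t [Fintype F] (c : ℕ) (hc0 : 0 < c) (hc : 2 * c + 2 < Fintype.card F) :
    ∃ t : F, t ≠ 0 ∧ t ≠ 1 ∧ t ^ c + (1 + t) ^ c * (t ^ c + 1) ≠ 0 := by
  obtain ⟨P, hP⟩ : ∃ P : Polynomial F,
      P = Polynomial.X ^ c + (1 + Polynomial.X) ^ c * (Polynomial.X ^ c + 1) := ⟨_, rfl⟩
  have heval : ∀ t : F, P.eval t = t ^ c + (1 + t) ^ c * (t ^ c + 1) := by
    intro t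
    rw [hP]
    simp
  have hP0 : P ≠ 0 := by
    intro h
    have h1 := heval 0
    rw [h, Polynomial.eval_zero, zero_pow hc0.ne'] at h1
    simp at h1
  have d1 : (Polynomial.X ^ c : Polynomial F).natDegree ≤ c := Polynomial.natDegree_X_pow_le c
  have d2 : ((1 + Polynomial.X : Polynomial F) ^ c).natDegree ≤ c := by
    refine le_trans Polynomial.natDegree_pow_le ?_
    have h3 : (1 + Polynomial.X : Polynomial F).natDegree ≤ 1 := by
      refine le_trans (Polynomial.natDegree_add_le _ _) ?_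
      simp
    calc c * (1 + Polynomial.X : Polynomial F).natDegree ≤ c * 1 := Nat.mul_le_mul_left c h3
      _ = c := mul_one c
  have d3 : (Polynomial.X ^ c + 1 : Polynomial F).natDegree ≤ c := by
    refine le_trans (Polynomial.natDegree_add_le _ _) ?_
    simp [d1]
  have hdeg : P.natDegree ≤ 2 * c := by
    rw [hP]
    refine le_trans (Polynomial.natDegree_add_le _ _) ?_
    apply max_le
    · omega
    · have h3 := Polynomial.natDegree_mul_le (p := (1 + Polynomial.X : Polynomial F) ^ c)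
        (q := (Polynomial.X ^ c + 1 : Polynomial F))
      omega
  have hroots : P.roots.toFinset.card ≤ 2 * c :=
    le_trans (Multiset.toFinset_card_le _) (le_trans (Polynomial.card_roots' P) hdeg)
  have hcard : (P.roots.toFinset ∪ {0, 1}).card < Fintype.card F := by
    calc (P.roots.toFinset ∪ {0, 1}).card
        ≤ P.roots.toFinset.card + ({0, 1} : Finset F).card := Finset.card_union_le _ _
      _ ≤ 2 * c + 2 := by
          have h3 : ({0, 1} : Finset F).card ≤ 2 := Finset.card_le_two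
          omega
      _ < _ := hc
  obtain ⟨t, ht⟩ : ∃ t, t ∉ P.roots.toFinset ∪ {0, 1} := by
    by_contra hcon
    push Not at hcon
    have h3 : P.roots.toFinset ∪ {0, 1} = Finset.univ := Finset.eq_univ_iff_forall.mpr hcon
    rw [h3, Finset.card_univ] at hcard
    exact lt_irrefl _ hcard
  rw [Finset.mem_union, not_or] at ht
  refine ⟨t, ?_, ?_, ?_⟩
  · intro h; apply ht.2; rw [h]; simp
  · intro h; apply ht.2; rw [h]; simp
  · intro h
    apply ht.1
    rw [Multiset.mem_toFinset, Polynomial.mem_roots hP0, Polynomial.IsRoot, heval]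
    exact h

end fieldlemma

section commlemmas

variable {Γ : Type*} [Group Γ]

theorem comm_mul_left_of_commute (x u y : Γ) (h : u * y = y * u) : ⁅x * u, y⁆ = ⁅x, y⁆ := by
  rw [commutatorElement_def, commutatorElement_def]
  calc x * u * y * (x * u)⁻¹ * y⁻¹ = x * (u * y) * u⁻¹ * x⁻¹ * y⁻¹ := by group
    _ = x * (y * u) * u⁻¹ * x⁻¹ * y⁻¹ := by rw [h]
    _ = x * y * x⁻¹ * y⁻¹ := by group

theorem comm_mul_right_of_commute (x y v : Γ) (h : v * x = x * v) : ⁅x, y * v⁆ = ⁅x, y⁆ := by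
  rw [commutatorElement_def, commutatorElement_def]
  have h' : v * x⁻¹ = x⁻¹ * v := by
    calc v * x⁻¹ = x⁻¹ * (x * v) * x⁻¹ := by group
      _ = x⁻¹ * (v * x) * x⁻¹ := by rw [h]
      _ = x⁻¹ * v := by group
  calc x * (y * v) * x⁻¹ * (y * v)⁻¹ = x * y * (v * x⁻¹) * v⁻¹ * y⁻¹ := by group
    _ = x * y * (x⁻¹ * v) * v⁻¹ * y⁻¹ := by rw [h']
    _ = x * y * x⁻¹ * y⁻¹ := by group

theorem comm_mul_left_central (x y z : Γ) (h1 : x * ⁅y, z⁆ = ⁅y, z⁆ * x)
    (h2 : ⁅x, z⁆ * ⁅y, z⁆ = ⁅y, z⁆ * ⁅x, z⁆) : ⁅x * y, z⁆ = ⁅x, z⁆ * ⁅y, z⁆ := by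
  have e : ⁅x * y, z⁆ = x * ⁅y, z⁆ * x⁻¹ * ⁅x, z⁆ := by
    rw [commutatorElement_def, commutatorElement_def, commutatorElement_def]
    group
  rw [e, h1, mul_inv_cancel_right, h2]

theorem comm_mul_right_central (x y z : Γ) (h1 : y * ⁅x, z⁆ = ⁅x, z⁆ * y) :
    ⁅x, y * z⁆ = ⁅x, y⁆ * ⁅x, z⁆ := by
  have e : ⁅x, y * z⁆ = ⁅x, y⁆ * (y * ⁅x, z⁆ * y⁻¹) := by
    rw [commutatorElement_def, commutatorElement_def, commutatorElement_def]
    group
  rw [e, h1, mul_inv_cancel_right]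

theorem conj_comm' (g x y : Γ) : g * ⁅x, y⁆ * g⁻¹ = ⁅g * x * g⁻¹, g * y * g⁻¹⁆ := by
  rw [commutatorElement_def, commutatorElement_def]
  group

/-- transfer: a central element of the commutator subgroup has its index-th power in the
commutator subgroup of any subgroup of finite index -/
theorem central_pow_index_mem_comm (H : Subgroup Γ) [H.FiniteIndex]
    (a : Γ) (hac : a ∈ Subgroup.center Γ) (had : a ∈ commutator Γ) (b : H)
    (hb : (b : Γ) = a ^ H.index) : b ∈ commutator H := by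
  have key : ∀ (k : ℕ) (g₀ : Γ), g₀⁻¹ * a ^ k * g₀ ∈ H → g₀⁻¹ * a ^ k * g₀ = a ^ k := by
    intro k g₀ _
    have h1 := Subgroup.mem_center_iff.mp (Subgroup.pow_mem _ hac k) g₀
    rw [mul_assoc, ← h1, inv_mul_cancel_left]
  have h1 := MonoidHom.transfer_eq_pow (Abelianization.of : H →* Abelianization H) a key
  have h2 : MonoidHom.transfer (Abelianization.of : H →* Abelianization H) a = 1 :=
    Abelianization.commutator_subset_ker _ had
  rw [h2] at h1
  have h3 : (⟨a ^ H.index, MonoidHom.transfer_eq_pow_aux a key⟩ : H) ∈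
      (Abelianization.of : H →* Abelianization H).ker := h1.symm
  rw [Abelianization.ker_of] at h3
  have e : b = ⟨a ^ H.index, MonoidHom.transfer_eq_pow_aux a key⟩ := Subtype.ext hb
  rw [e]; exact h3

end commlemmas

section schur

variable {F : Type*} [Field F] [Fintype F] {m : ℕ} (σ τ : F →+* F)
  (hσ : ∀ x, σ x = x ^ (2 ^ (m + 1)))
  (hσ2 : ∀ x, σ (σ x) = x ^ 2) (hτ : ∀ x, τ x ^ 2 = σ x) (h2 : (2 : F) = 0)

variable {Γ : Type*} [Group Γ] (π : Γ →* Sz F m)

local notation (name := h3uF4) "uF" => uG σ hσ hσ2 h2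
local notation (name := h3dF4) "dF" => dG σ τ hσ hσ2 hτ

theorem uG_central (a e b : F) : uF a e * uF 0 b = uF 0 b * uF a e := by
  rw [uG_mul, uG_mul]
  congr 1
  · ring
  · simp only [map_zero, zero_mul, mul_zero, add_zero]
    ring

theorem szU_comm_central (a e a' e' : F) : ∃ b, ⁅uF a e, uF a' e'⁆ = uF 0 b := by
  rw [commutatorElement_def, uG_inv, uG_inv, uG_mul, uG_mul, uG_mul]
  exact ⟨_, by congr 1; linear_combination (a + a') * h2⟩

theorem conj_dG_uG0 (κ : Fˣ) (a : F) : dF κ * uF a 0 * (dF κ)⁻¹ = uF (κ * a) 0 := by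
  rw [dG_uG, mul_inv_cancel_right, mul_zero]

include hσ hσ2 hτ h2 in
/-- the key lemma: in a central extension of `Sz(q)`, `q ≥ 32`, the kernel meets the derived
subgroup of the preimage of a Sylow `2`-subgroup trivially -/
theorem ker_inf_comm_preimage (hm : 2 ≤ m) (hF : Fintype.card F = 2 ^ (2 * m + 1))
    (hsurj : Function.Surjective π) (hcen : π.ker ≤ Subgroup.center Γ) (z : Γ) (hz : π z = 1)
    (hzc : z ∈ (commutator ((szU σ hσ hσ2 h2).comap π)).map
      ((szU σ hσ hσ2 h2).comap π).subtype) : z = 1 := by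
  have hm1 : 1 ≤ m := by omega
  obtain ⟨lf, hlf⟩ : ∃ lf : Sz F m → Γ, ∀ g, π (lf g) = g :=
    ⟨fun g => Classical.choose (hsurj g), fun g => Classical.choose_spec (hsurj g)⟩
  have hkc : ∀ n : Γ, π n = 1 → ∀ g : Γ, g * n = n * g := fun n hn g =>
    Subgroup.mem_center_iff.mp (hcen (MonoidHom.mem_ker.mpr hn)) g
  have hdiff : ∀ x y : Γ, π x = π y → ∃ n : Γ, π n = 1 ∧ x = y * n := by
    intro x y h
    exact ⟨y⁻¹ * x, by rw [map_mul, map_inv, h, inv_mul_cancel], by group⟩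
  have hcardF : 4 < Fintype.card F := by
    rw [hF]
    calc 4 < 2 ^ 3 := by norm_num
      _ ≤ 2 ^ (2 * m + 1) := Nat.pow_le_pow_right (by norm_num) (by omega)
  -- Step 1: the preimage of the centre of the Sylow subgroup is abelian
  have hW : ∀ (w w' : Γ) (b b' : F), π w = uF 0 b → π w' = uF 0 b' → w * w' = w' * w := by
    obtain ⟨B, hB⟩ : ∃ B : F → F → Γ, ∀ b b', B b b' = ⁅lf (uF 0 b), lf (uF 0 b')⁆ :=
      ⟨_, fun _ _ => rfl⟩
    have hBeq : ∀ (w w' : Γ) (b b' : F), π w = uF 0 b → π w' = uF 0 b' → ⁅w, w'⁆ = B b b' := by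
      intro w w' b b' hw hw'
      obtain ⟨n, hn, rfl⟩ := hdiff w (lf (uF 0 b)) (by rw [hw, hlf])
      obtain ⟨n', hn', rfl⟩ := hdiff w' (lf (uF 0 b')) (by rw [hw', hlf])
      rw [hB, comm_mul_left_of_commute _ _ _ (hkc n hn _).symm,
        comm_mul_right_of_commute _ _ _ (hkc n' hn' _).symm]
    have hBker : ∀ b b', π (B b b') = 1 := by
      intro b b'
      rw [hB, map_commutatorElement, hlf, hlf, commutatorElement_eq_one_iff_mul_comm]
      exact (uG_central σ hσ hσ2 h2 0 b b').symm ▸ rfl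
    have hadd1 : ∀ b b'' b', B (b + b'') b' = B b b' * B b'' b' := by
      intro b b'' b'
      have e : π (lf (uF 0 b) * lf (uF 0 b'')) = uF 0 (b + b'') := by
        rw [map_mul, hlf, hlf, uG_mul]
        congr 1 <;> simp
      rw [← hBeq _ _ _ _ e (hlf _), hB, hB]
      apply comm_mul_left_central
      · exact hkc _ (by rw [← hB]; exact hBker b'' b') _
      · exact hkc _ (by rw [← hB]; exact hBker b'' b') _
    have hadd2 : ∀ b b' b'', B b (b' + b'') = B b b' * B b b'' := by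
      intro b b' b''
      have e : π (lf (uF 0 b') * lf (uF 0 b'')) = uF 0 (b' + b'') := by
        rw [map_mul, hlf, hlf, uG_mul]
        congr 1 <;> simp
      rw [← hBeq _ _ _ _ (hlf _) e, hB, hB]
      apply comm_mul_right_central
      exact hkc _ (by rw [← hB]; exact hBker b b'') _
    have hinv : ∀ μ : F, μ ≠ 0 → ∀ b b', B (μ * b) (μ ^ 1 * b') = B b b' := by
      intro μ hμ b b'
      obtain ⟨κ, hκ⟩ := norm_surj σ hσ2 μ
      have hκ' : κ * σ κ = μ := hκ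
      have hκ0 : κ ≠ 0 := by
        rintro rfl
        rw [zero_mul] at hκ'
        exact hμ hκ'.symm
      obtain ⟨g, hg⟩ : ∃ g : Γ, g = lf (dF (Units.mk0 κ hκ0)) := ⟨_, rfl⟩
      have e1 : ∀ b : F, π (g * lf (uF 0 b) * g⁻¹) = uF 0 (μ * b) := by
        intro b
        rw [map_mul, map_mul, map_inv, hg, hlf, hlf, conj_dG_central, Units.val_mk0, hκ']
      have e3 := hBeq _ _ _ _ (e1 b) (e1 b')
      rw [pow_one, ← e3, ← conj_comm', ← hB, hkc _ (hBker b b') g, mul_inv_cancel_right]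
    obtain ⟨t, ht0, ht1, hne⟩ := exists_good_t (F := F) 1 one_pos (by omega)
    have hB1 := biadd_inv_trivial h2 1 B hadd1 hadd2 hinv t ht0 ht1 hne
    intro w w' b b' hw hw'
    rw [← commutatorElement_eq_one_iff_mul_comm, hBeq w w' b b' hw hw', hB1]
  -- Step 3: it is central in the preimage of the Sylow subgroup
  have hWc : ∀ (s w : Γ) (a e b : F), π s = uF a e → π w = uF 0 b → s * w = w * s := by
    obtain ⟨B, hB⟩ : ∃ B : F → F → Γ, ∀ a b, B a b = ⁅lf (uF a 0), lf (uF 0 b)⁆ :=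
      ⟨_, fun _ _ => rfl⟩
    have hBeq : ∀ (s w : Γ) (a e b : F), π s = uF a e → π w = uF 0 b → ⁅s, w⁆ = B a b := by
      intro s w a e b hs hw
      obtain ⟨n, hn, rfl⟩ := hdiff w (lf (uF 0 b)) (by rw [hw, hlf])
      obtain ⟨w₀, hw₀, rfl⟩ : ∃ w₀ : Γ, π w₀ = uF 0 e ∧ s = lf (uF a 0) * w₀ := by
        refine ⟨(lf (uF a 0))⁻¹ * s, ?_, by group⟩
        rw [map_mul, map_inv, hlf, hs, uG_split σ hσ hσ2 h2 a e, inv_mul_cancel_left]
      rw [hB, comm_mul_left_of_commute _ _ _ (hW _ _ _ _ hw₀ hw),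
        comm_mul_right_of_commute _ _ _ (hkc n hn _).symm]
    have hBker : ∀ a b, π (B a b) = 1 := by
      intro a b
      rw [hB, map_commutatorElement, hlf, hlf, commutatorElement_eq_one_iff_mul_comm]
      exact uG_central σ hσ hσ2 h2 a 0 b
    have hadd1 : ∀ a a' b, B (a + a') b = B a b * B a' b := by
      intro a a' b
      have e : π (lf (uF a 0) * lf (uF a' 0)) = uF (a + a') (0 + 0 + σ a * a') := by
        rw [map_mul, hlf, hlf, uG_mul]
      rw [← hBeq _ _ _ _ _ e (hlf _), hB, hB]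
      apply comm_mul_left_central
      · exact hkc _ (by rw [← hB]; exact hBker a' b) _
      · exact hkc _ (by rw [← hB]; exact hBker a' b) _
    have hadd2 : ∀ a b b', B a (b + b') = B a b * B a b' := by
      intro a b b'
      have e : π (lf (uF 0 b) * lf (uF 0 b')) = uF 0 (b + b') := by
        rw [map_mul, hlf, hlf, uG_mul]
        congr 1 <;> simp
      rw [← hBeq _ _ a 0 _ (hlf _) e, hB, hB]
      apply comm_mul_right_central
      exact hkc _ (by rw [← hB]; exact hBker a b') _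
    have hinv : ∀ μ : F, μ ≠ 0 → ∀ a b, B (μ * a) (μ ^ (1 + 2 ^ (m + 1)) * b) = B a b := by
      intro μ hμ a b
      obtain ⟨g, hg⟩ : ∃ g : Γ, g = lf (dF (Units.mk0 μ hμ)) := ⟨_, rfl⟩
      have e1 : π (g * lf (uF a 0) * g⁻¹) = uF (μ * a) 0 := by
        rw [map_mul, map_mul, map_inv, hg, hlf, hlf, conj_dG_uG0, Units.val_mk0]
      have e2 : π (g * lf (uF 0 b) * g⁻¹) = uF 0 (μ ^ (1 + 2 ^ (m + 1)) * b) := by
        have e : μ * σ μ = μ ^ (1 + 2 ^ (m + 1)) := by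
          rw [hσ]
          generalize 2 ^ (m + 1) = n
          rw [pow_add, pow_one]
        rw [map_mul, map_mul, map_inv, hg, hlf, hlf, conj_dG_central, Units.val_mk0, e]
      have e3 := hBeq _ _ _ _ _ e1 e2
      rw [← e3, ← conj_comm', ← hB, hkc _ (hBker a b) g, mul_inv_cancel_right]
    have hc : 2 * (1 + 2 ^ (m + 1)) + 2 < Fintype.card F := by
      rw [hF]
      obtain ⟨j, rfl⟩ : ∃ j, m = j + 2 := ⟨m - 2, by omega⟩
      have hA : 1 ≤ 2 ^ j := Nat.one_le_two_pow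
      have e1 : 2 ^ (j + 2 + 1) = 8 * 2 ^ j := by ring
      have e2 : 2 ^ (2 * (j + 2) + 1) = 32 * (2 ^ j * 2 ^ j) := by ring
      rw [e1, e2]
      nlinarith
    obtain ⟨t, ht0, ht1, hne⟩ := exists_good_t (F := F) (1 + 2 ^ (m + 1)) (by positivity) hc
    have hB1 := biadd_inv_trivial h2 (1 + 2 ^ (m + 1)) B hadd1 hadd2 hinv t ht0 ht1 hne
    intro s w a e b hs hw
    rw [← commutatorElement_eq_one_iff_mul_comm, hBeq s w a e b hs hw, hB1]
  -- Step 4: commutators in the preimage of the Sylow subgroup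
  obtain ⟨β, hβ⟩ : ∃ β : F → F → Γ, ∀ a a', β a a' = ⁅lf (uF a 0), lf (uF a' 0)⁆ :=
    ⟨_, fun _ _ => rfl⟩
  have hβeq : ∀ (s s' : Γ) (a e a' e' : F), π s = uF a e → π s' = uF a' e' →
      ⁅s, s'⁆ = β a a' := by
    intro s s' a e a' e' hs hs'
    obtain ⟨w₀, hw₀, rfl⟩ : ∃ w₀ : Γ, π w₀ = uF 0 e ∧ s = lf (uF a 0) * w₀ := by
      refine ⟨(lf (uF a 0))⁻¹ * s, ?_, by group⟩
      rw [map_mul, map_inv, hlf, hs, uG_split σ hσ hσ2 h2 a e, inv_mul_cancel_left]
    obtain ⟨w₀', hw₀', rfl⟩ : ∃ w₀' : Γ, π w₀' = uF 0 e' ∧ s' = lf (uF a' 0) * w₀' := by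
      refine ⟨(lf (uF a' 0))⁻¹ * s', ?_, by group⟩
      rw [map_mul, map_inv, hlf, hs', uG_split σ hσ hσ2 h2 a' e', inv_mul_cancel_left]
    rw [hβ, comm_mul_left_of_commute _ _ _ (hWc _ _ _ _ _ hs' hw₀).symm,
      comm_mul_right_of_commute _ _ _ (hWc _ _ _ _ _ (hlf _) hw₀').symm]
  have hβW : ∀ a a', ∃ b, π (β a a') = uF 0 b := by
    intro a a'
    rw [hβ, map_commutatorElement, hlf, hlf]
    exact szU_comm_central σ hσ hσ2 h2 a 0 a' 0
  have hβadd1 : ∀ a a'' a', β (a + a'') a' = β a a' * β a'' a' := by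
    intro a a'' a'
    have e : π (lf (uF a 0) * lf (uF a'' 0)) = uF (a + a'') (0 + 0 + σ a * a'') := by
      rw [map_mul, hlf, hlf, uG_mul]
    obtain ⟨b₁, hb₁⟩ := hβW a'' a'
    obtain ⟨b₂, hb₂⟩ := hβW a a'
    rw [← hβeq _ _ _ _ _ _ e (hlf _), hβ, hβ]
    apply comm_mul_left_central
    · rw [← hβ]
      exact hWc _ _ _ _ _ (hlf _) hb₁
    · rw [← hβ, ← hβ]
      exact hW _ _ _ _ hb₂ hb₁
  have hβadd2 : ∀ a a' a'', β a (a' + a'') = β a a' * β a a'' := by
    intro a a' a''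
    have e : π (lf (uF a' 0) * lf (uF a'' 0)) = uF (a' + a'') (0 + 0 + σ a' * a'') := by
      rw [map_mul, hlf, hlf, uG_mul]
    obtain ⟨b₁, hb₁⟩ := hβW a a''
    rw [← hβeq _ _ a 0 _ _ (hlf _) e, hβ, hβ]
    apply comm_mul_right_central
    rw [← hβ]
    exact hWc _ _ _ _ _ (hlf _) hb₁
  -- a generator of the torus
  obtain ⟨κ₀, hκ₀⟩ := IsCyclic.exists_generator (α := Fˣ)
  have hκ₀1 : κ₀ ≠ 1 := by
    rintro rfl
    obtain ⟨ν, hν⟩ := exists_unit_ne_one (F := F) hm1 hF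
    have h3 := hκ₀ ν
    rw [Subgroup.zpowers_one_eq_bot, Subgroup.mem_bot] at h3
    exact hν h3
  obtain ⟨g₀, hg₀⟩ : ∃ g₀ : Γ, g₀ = lf (dF κ₀) := ⟨_, rfl⟩
  have hconjW : ∀ (w : Γ) (b : F), π w = uF 0 b →
      π (g₀ * w * g₀⁻¹) = uF 0 (κ₀ * σ κ₀ * b) := by
    intro w b hw
    rw [map_mul, map_mul, map_inv, hg₀, hlf, hw, conj_dG_central]
  -- the subgroup `W` and the coinvariants
  obtain ⟨W, hWdef⟩ : ∃ W : Subgroup Γ, ∀ w, w ∈ W ↔ ∃ b, π w = uF 0 b := by
    refine ⟨{ carrier := {w | ∃ b, π w = uF 0 b}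
              mul_mem' := ?_
              one_mem' := ⟨0, by rw [map_one, uG_zero]⟩
              inv_mem' := ?_ }, fun w => Iff.rfl⟩
    · rintro x y ⟨b, hb⟩ ⟨b', hb'⟩
      refine ⟨b + b', ?_⟩
      rw [map_mul, hb, hb', uG_mul]
      congr 1 <;> simp
    · rintro x ⟨b, hb⟩
      refine ⟨b, ?_⟩
      rw [map_inv, hb, uG_inv]
      congr 1
      simp
  have hWcomm : ∀ x y : Γ, x ∈ W → y ∈ W → x * y = y * x := by
    intro x y hx hy
    obtain ⟨b, hb⟩ := (hWdef x).mp hx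
    obtain ⟨b', hb'⟩ := (hWdef y).mp hy
    exact hW x y b b' hb hb'
  have hconjmem : ∀ w : Γ, w ∈ W → g₀ * w * g₀⁻¹ ∈ W := by
    intro w hw
    obtain ⟨b, hb⟩ := (hWdef w).mp hw
    exact (hWdef _).mpr ⟨_, hconjW w b hb⟩
  let ψ : W →* W :=
    MonoidHom.mk' (fun w => ⟨w.1⁻¹ * (g₀ * w.1 * g₀⁻¹),
      W.mul_mem (W.inv_mem w.2) (hconjmem w.1 w.2)⟩) (by
      intro w w'
      apply Subtype.ext
      show (w.1 * w'.1)⁻¹ * (g₀ * (w.1 * w'.1) * g₀⁻¹) =
        w.1⁻¹ * (g₀ * w.1 * g₀⁻¹) * (w'.1⁻¹ * (g₀ * w'.1 * g₀⁻¹))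
      have hA := hWcomm _ _ (W.inv_mem w'.2)
        (W.mul_mem (W.inv_mem w.2) (hconjmem w.1 w.2))
      calc (w.1 * w'.1)⁻¹ * (g₀ * (w.1 * w'.1) * g₀⁻¹)
          = w'.1⁻¹ * (w.1⁻¹ * (g₀ * w.1 * g₀⁻¹)) * (g₀ * w'.1 * g₀⁻¹) := by group
        _ = w.1⁻¹ * (g₀ * w.1 * g₀⁻¹) * w'.1⁻¹ * (g₀ * w'.1 * g₀⁻¹) := by rw [hA]
        _ = _ := by group)
  have hψ : ∀ w : W, (ψ w).1 = w.1⁻¹ * (g₀ * w.1 * g₀⁻¹) := fun w => rfl
  haveI hnorm : (ψ.range).Normal := by
    refine ⟨fun n hn g => ?_⟩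
    have e : g * n * g⁻¹ = n := by
      apply Subtype.ext
      show g.1 * n.1 * g.1⁻¹ = n.1
      rw [hWcomm _ _ g.2 n.2, mul_inv_cancel_right]
    rw [e]
    exact hn
  have hβmem : ∀ a a', β a a' ∈ W := fun a a' => (hWdef _).mpr (hβW a a')
  obtain ⟨B, hB⟩ : ∃ B : F → F → W ⧸ ψ.range,
      ∀ a a', B a a' = QuotientGroup.mk (⟨β a a', hβmem a a'⟩ : W) := ⟨_, fun _ _ => rfl⟩
  have hBadd1 : ∀ a a'' a', B (a + a'') a' = B a a' * B a'' a' := by
    intro a a'' a'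
    rw [hB, hB, hB, ← QuotientGroup.mk_mul]
    congr 1
    exact Subtype.ext (hβadd1 a a'' a')
  have hBadd2 : ∀ a a' a'', B a (a' + a'') = B a a' * B a a'' := by
    intro a a' a''
    rw [hB, hB, hB, ← QuotientGroup.mk_mul]
    congr 1
    exact Subtype.ext (hβadd2 a a' a'')
  have hBstep : ∀ a a', B ((κ₀ : F) * a) ((κ₀ : F) * a') = B a a' := by
    intro a a'
    have e1 : ∀ a : F, π (g₀ * lf (uF a 0) * g₀⁻¹) = uF (κ₀ * a) 0 := by
      intro a
      rw [map_mul, map_mul, map_inv, hg₀, hlf, hlf, conj_dG_uG0]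
    have e3 : β ((κ₀ : F) * a) ((κ₀ : F) * a') = g₀ * β a a' * g₀⁻¹ := by
      rw [← hβeq _ _ _ _ _ _ (e1 a) (e1 a'), ← conj_comm', ← hβ]
    rw [hB, hB]
    symm
    rw [QuotientGroup.eq]
    refine ⟨⟨β a a', hβmem a a'⟩, ?_⟩
    apply Subtype.ext
    rw [hψ]
    show (β a a')⁻¹ * (g₀ * β a a' * g₀⁻¹) = (β a a')⁻¹ * β ((κ₀ : F) * a) ((κ₀ : F) * a')
    rw [e3]
  have hBpow : ∀ (j : ℕ) (a a' : F), B ((κ₀ : F) ^ j * a) ((κ₀ : F) ^ j * a') = B a a' := by
    intro j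
    induction j with
    | zero => intro a a'; rw [pow_zero, one_mul, one_mul]
    | succ j ih =>
      intro a a'
      rw [pow_succ', mul_assoc, mul_assoc, hBstep, ih]
  have hBinv : ∀ μ : F, μ ≠ 0 → ∀ a a', B (μ * a) (μ ^ 1 * a') = B a a' := by
    intro μ hμ a a'
    have h3 := hκ₀ (Units.mk0 μ hμ)
    rw [← mem_powers_iff_mem_zpowers] at h3
    obtain ⟨j, hj⟩ := h3
    have hj' : (κ₀ : F) ^ j = μ := by
      have h4 := congrArg (fun u : Fˣ => (u : F)) hj
      simpa using h4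
    rw [pow_one, ← hj']
    exact hBpow j a a'
  obtain ⟨t, ht0, ht1, hne⟩ := exists_good_t (F := F) 1 one_pos (by omega)
  have hB1 := biadd_inv_trivial h2 1 B hBadd1 hBadd2 hBinv t ht0 ht1 hne
  have hβrange : ∀ a a', ∃ w : W, β a a' = w.1⁻¹ * (g₀ * w.1 * g₀⁻¹) := by
    intro a a'
    have h3 := hB1 a a'
    rw [hB, QuotientGroup.eq_one_iff] at h3
    obtain ⟨w, hw⟩ := h3
    exact ⟨w, by rw [← hψ, hw]⟩
  -- conclusion
  obtain ⟨y, hy, rfl⟩ := hzc
  have hall : commutator ((szU σ hσ hσ2 h2).comap π) ≤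
      (ψ.range.map W.subtype).comap ((szU σ hσ hσ2 h2).comap π).subtype := by
    rw [commutator_def, Subgroup.commutator_le]
    intro g₁ _ g₂ _
    obtain ⟨a, e, hae⟩ := (mem_szU_iff σ hσ hσ2 h2 _).mp g₁.2
    obtain ⟨a', e', hae'⟩ := (mem_szU_iff σ hσ hσ2 h2 _).mp g₂.2
    obtain ⟨w, hw⟩ := hβrange a a'
    refine ⟨ψ w, ⟨w, rfl⟩, ?_⟩
    show (ψ w).1 = ⁅g₁.1, g₂.1⁆
    rw [hψ, ← hw, hβeq g₁.1 g₂.1 a e a' e' hae hae']
  obtain ⟨v, ⟨w, rfl⟩, hv⟩ := hall hy
  have hv' : (ψ w).1 = y.1 := hv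
  rw [hψ] at hv'
  show y.1 = 1
  rw [← hv']
  obtain ⟨b, hb⟩ := (hWdef w.1).mp w.2
  have hπ : π (w.1⁻¹ * (g₀ * w.1 * g₀⁻¹)) = 1 := by rw [hv']; exact hz
  rw [map_mul, map_inv, hconjW w.1 b hb, hb, inv_mul_eq_one] at hπ
  have hb0 : b = 0 := by
    have h3 := (uG_inj σ hσ hσ2 h2 _ _ _ _ hπ).2
    by_contra hb0
    have h4 : (κ₀ : F) * σ κ₀ = 1 := by
      have h5 : (1 : F) * b = κ₀ * σ κ₀ * b := by rw [one_mul]; exact h3
      exact (mul_right_cancel₀ hb0 h5).symm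
    exact hκ₀1 (Units.ext (norm_eq_one σ hσ2 _ h4))
  rw [hb0, uG_zero] at hb
  rw [hkc w.1 hb g₀, mul_inv_cancel_right, inv_mul_cancel]

include hσ hσ2 hτ h2 in
/-- a finite central extension of `Sz(q)`, `q ≥ 32`, whose kernel lies in the derived subgroup
is trivial -/
theorem stem_ker_trivial [Finite Γ] (hm : 2 ≤ m) (hF : Fintype.card F = 2 ^ (2 * m + 1))
    (hsurj : Function.Surjective π)
    (hcen : π.ker ≤ Subgroup.center Γ) (hder : π.ker ≤ commutator Γ) : π.ker = ⊥ := by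
  have hm1 : 1 ≤ m := by omega
  haveI := Sz_finite σ τ hσ hσ2 hτ h2 hm1 hF
  by_contra hne
  have hcard : Nat.card π.ker ≠ 1 := fun h => hne (Subgroup.card_eq_one.mp h)
  obtain ⟨p, hp, hpd⟩ := Nat.exists_prime_and_dvd hcard
  haveI : Fact p.Prime := ⟨hp⟩
  obtain ⟨z, hz⟩ := exists_prime_orderOf_dvd_card' (G := π.ker) p hpd
  have hz1 : z.1 ≠ 1 := by
    intro h
    have h3 : z = 1 := Subtype.ext h
    rw [h3, orderOf_one] at hz
    exact hp.one_lt.ne' hz.symm
  have hzord : orderOf z.1 = p := by rw [Subgroup.orderOf_coe, hz]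
  have hzπ : π z.1 = 1 := MonoidHom.mem_ker.mp z.2
  have hzc := hcen z.2
  have hzd := hder z.2
  by_cases hp2 : p = 2
  · subst hp2
    have hsq : z.1 ^ 2 = 1 := by rw [← hzord]; exact pow_orderOf_eq_one _
    obtain ⟨H, hH⟩ : ∃ H : Subgroup Γ, H = (szU σ hσ hσ2 h2).comap π := ⟨_, rfl⟩
    have hidx : Odd H.index := by
      rw [hH, Subgroup.index_comap_of_surjective _ hsurj]
      have h3 := Subgroup.index_mul_card (szU σ hσ hσ2 h2)
      rw [card_Sz_eq σ τ hσ hσ2 hτ h2 hm1 hF, card_szU, hF] at h3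
      have e : 2 ^ (2 * m + 1) * 2 ^ (2 * m + 1) = 2 ^ (4 * m + 2) := by
        rw [← pow_add]; congr 1; ring
      rw [e, mul_comm] at h3
      have h4 := Nat.eq_of_mul_eq_mul_left (by positivity) h3
      rw [h4]
      exact odd_part m
    have hzH : z.1 ∈ H := by
      rw [hH, Subgroup.mem_comap, hzπ]
      exact Subgroup.one_mem _
    have hpow : z.1 ^ H.index = z.1 := by
      obtain ⟨k, hk⟩ := hidx
      rw [hk, pow_succ, pow_mul, hsq, one_pow, one_mul]
    have h3 := central_pow_index_mem_comm H z.1 hzc hzd ⟨z.1, hzH⟩ hpow.symm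
    apply hz1
    apply ker_inf_comm_preimage σ τ hσ hσ2 hτ h2 π hm hF hsurj hcen z.1 hzπ
    rw [← hH]
    exact ⟨⟨z.1, hzH⟩, h3, rfl⟩
  · have hpg : IsPGroup p (Subgroup.zpowers z.1) := by
      apply IsPGroup.of_card (n := 1)
      rw [Nat.card_zpowers, hzord, pow_one]
    obtain ⟨P, hP⟩ := hpg.exists_le_sylow
    have hzP : z.1 ∈ (P : Subgroup Γ) := hP (Subgroup.mem_zpowers _)
    have hPpg : IsPGroup p ((P : Subgroup Γ).map π) := P.isPGroup'.map π
    obtain ⟨Q, hQ⟩ := hPpg.exists_le_sylow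
    haveI : IsCyclic Q := Sz_sylow_cyclic σ τ hσ hσ2 hτ h2 hm1 hF p hp2 Q
    haveI : IsCyclic ((P : Subgroup Γ).map π) :=
      isCyclic_of_injective (Subgroup.inclusion hQ) (Subgroup.inclusion_injective hQ)
    have hker : (π.subgroupMap (P : Subgroup Γ)).ker ≤ Subgroup.center (P : Subgroup Γ) := by
      intro x hx
      rw [Subgroup.mem_center_iff]
      intro g
      have hx1 : π x.1 = 1 := by
        have h3 := MonoidHom.mem_ker.mp hx
        exact congrArg Subtype.val h3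
      apply Subtype.ext
      exact Subgroup.mem_center_iff.mp (hcen (MonoidHom.mem_ker.mpr hx1)) g.1
    have hcomm : ∀ a b : (P : Subgroup Γ), a * b = b * a := fun a b =>
      commutative_of_cyclic_center_quotient (π.subgroupMap (P : Subgroup Γ)) hker a b
    have h3 := central_pow_index_mem_comm (P : Subgroup Γ) z.1 hzc hzd
      ⟨z.1 ^ (P : Subgroup Γ).index, Subgroup.pow_mem _ hzP _⟩ rfl
    have hbot : commutator (P : Subgroup Γ) = ⊥ := by
      rw [eq_bot_iff, commutator_def, Subgroup.commutator_le]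
      intro a _ b _
      rw [Subgroup.mem_bot, commutatorElement_eq_one_iff_mul_comm]
      exact hcomm a b
    rw [hbot, Subgroup.mem_bot] at h3
    have h4 : z.1 ^ (P : Subgroup Γ).index = 1 := congrArg Subtype.val h3
    have h5 := orderOf_dvd_of_pow_eq_one h4
    rw [hzord] at h5
    exact P.not_dvd_index h5

end schur

/-- the Schur multiplier of `Sz(q)` is trivial for `q ≥ 32` -/
theorem Sz_schur_trivial {F : Type*} [Field F] [Fintype F] {m : ℕ} (hm : 2 ≤ m)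
    (hF : Fintype.card F = 2 ^ (2 * m + 1)) :
    Cfsg.HasCyclicSchurMultiplier ↥(Cfsg.Lie.Sz F (2 ^ (m + 1))) 1 := by
  have hm1 : 1 ≤ m := by omega
  obtain ⟨σ, τ, hσ, hσ2, hτ, h2⟩ := sz_ctx hF
  obtain ⟨e⟩ := Sz_lie_iso' hm1 hF
  haveI := Sz_finite σ τ hσ hσ2 hτ h2 hm1 hF
  haveI : Finite (Lie.Sz F (2 ^ (m + 1))) := Finite.of_equiv _ e.toEquiv
  refine ⟨⟨Lie.Sz F (2 ^ (m + 1)), inferInstance, inferInstance, MonoidHom.id _,
    ⟨Function.surjective_id, ?_, ?_⟩, ⟨?_⟩⟩, ?_⟩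
  · rw [MonoidHom.ker_id]; exact bot_le
  · rw [MonoidHom.ker_id]; exact bot_le
  · exact
      { toFun := fun _ => 1
        invFun := fun _ => 1
        left_inv := fun x => Subtype.ext (by
          have h3 := MonoidHom.mem_ker.mp x.2
          exact h3.symm)
        right_inv := fun y => Subsingleton.elim _ _
        map_mul' := fun _ _ => (mul_one _).symm }
  · intro Γ _ _ σ₀ hstem
    obtain ⟨hs, hc, hd⟩ := hstem
    have hkereq : (e.symm.toMonoidHom.comp σ₀).ker = σ₀.ker := by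
      ext x
      simp [MonoidHom.mem_ker]
    have hker : σ₀.ker = ⊥ := by
      rw [← hkereq]
      apply stem_ker_trivial σ τ hσ hσ2 hτ h2 (e.symm.toMonoidHom.comp σ₀) hm hF
      · exact e.symm.surjective.comp hs
      · rw [hkereq]; exact hc
      · rw [hkereq]; exact hd
    refine ⟨1, fun y => ⟨1, ?_⟩⟩
    have h5 : ∀ x : Γ, x ∈ σ₀.ker → x = 1 := by
      intro x hx
      rw [hker, Subgroup.mem_bot] at hx
      exact hx
    have h3 : y.1 = 1 := h5 _ y.2
    rw [MonoidHom.one_apply]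
    exact Subtype.ext h3.symm

end

end Cfsg.Agent.Helper3
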