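import Mathlib
import Cfsg.Agent.Helper3.BNPair

set_option autoImplicit false
set_option linter.unusedSectionVars false
set_option linter.unusedVariables false

namespace Cfsg.Agent.Helper3

/-! ### Alternating words -/

/-- The alternating word `c, c', c, …` of length `k`. -/
def altW {α : Type*} (c c' : α) : ℕ → List α
  | 0 => []
  | (k + 1) => c :: altW c' c k

theorem altW_length {α : Type*} : ∀ (k : ℕ) (c c' : α), (altW c c' k).length = k
  | 0, _, _ => rfl
  | k + 1, c, c' => by
    show (c :: altW c' c k).length = k + 1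
    rw [List.length_cons, altW_length k c' c]

theorem altW_map {α β : Type*} (f : α → β) : ∀ (k : ℕ) (c c' : α),
    (altW c c' k).map f = altW (f c) (f c') k
  | 0, _, _ => rfl
  | k + 1, c, c' => by
    show (c :: altW c' c k).map f = f c :: altW (f c') (f c) k
    rw [List.map_cons, altW_map f k c' c]

theorem altW_prefix {α : Type*} : ∀ (j i : ℕ) (c c' : α),
    ∃ X, altW c c' (j + i) = altW c c' j ++ X
  | 0, i, c, c' => ⟨altW c c' i, by simp [altW]⟩
  | j + 1, i, c, c' => by
    obtain ⟨X, hX⟩ := altW_prefix j i c' c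
    refine ⟨X, ?_⟩
    have e : j + 1 + i = (j + i) + 1 := by omega
    rw [e]
    show c :: altW c' c (j + i) = (c :: altW c' c j) ++ X
    rw [hX]; rfl

theorem altW_isWordIn {W : Type*} [Group W] {Sb : Set W} : ∀ (k : ℕ) (c c' : W), c ∈ Sb → c' ∈ Sb →
    IsWordIn Sb (altW c c' k)
  | 0, _, _, _, _ => IsWordIn.nil
  | k + 1, c, c', hc, hc' => IsWordIn.cons hc (altW_isWordIn k c' c hc' hc)

theorem mul_pow_succ_swap {Mo : Type*} [Monoid Mo] (a b : Mo) (n : ℕ) :
    (a * b) ^ (n + 1) = a * (b * a) ^ n * b := by
  induction n with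
  | zero => simp
  | succ n ih => rw [pow_succ, ih, pow_succ]; simp only [mul_assoc]

theorem altW_prod_mul_inv {H : Type*} [Group H] {c c' : H} (hc : c * c = 1) (hc' : c' * c' = 1)
    (k : ℕ) :
    (altW c c' k).prod * ((altW c' c k).prod)⁻¹ = (c * c') ^ k ∧
      (altW c' c k).prod * ((altW c c' k).prod)⁻¹ = (c' * c) ^ k := by
  induction k with
  | zero => simp [altW]
  | succ k ih =>
    have e1 : c'⁻¹ = c' := inv_eq_of_mul_eq_one_left hc'
    have e2 : c⁻¹ = c := inv_eq_of_mul_eq_one_left hc
    constructor
    · show (c :: altW c' c k).prod * ((c' :: altW c c' k).prod)⁻¹ = _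
      rw [List.prod_cons, List.prod_cons, mul_inv_rev, mul_pow_succ_swap, ← ih.2, e1]
      group
    · show (c' :: altW c c' k).prod * ((c :: altW c' c k).prod)⁻¹ = _
      rw [List.prod_cons, List.prod_cons, mul_inv_rev, mul_pow_succ_swap, ← ih.1, e2]
      group

/-! ### The word property (Matsumoto / Tits) from the exchange condition -/

section WordProperty

/-- The value of a monoid-valued map on reduced words. -/
noncomputable def gmap {W : Type*} [Group W] {Sb : Set W}
    (hinv : ∀ s ∈ Sb, s * s = 1) (hgen : Subgroup.closure Sb = ⊤)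
    {Mo : Type*} [Monoid Mo] (f : W → Mo) (w : W) : Mo :=
  ((Classical.choose (exists_red hinv hgen w)).map f).prod

variable {W : Type*} [Group W] {Sb : Set W}
  (hinv : ∀ s ∈ Sb, s * s = 1) (hgen : Subgroup.closure Sb = ⊤)
  (hex : ∀ s ∈ Sb, ∀ L, Red Sb L → len Sb (s * L.prod) < len Sb L.prod →
    ∃ L1 x L2, L = L1 ++ x :: L2 ∧ s * L1.prod = L1.prod * x)
include hinv hgen hex

theorem word_property {Mo : Type*} [Monoid Mo] (f : W → Mo)
    (hbraid : ∀ c ∈ Sb, ∀ c' ∈ Sb, c ≠ c' → orderOf (c * c') ≠ 0 →
      ((altW c c' (orderOf (c * c'))).map f).prod = ((altW c' c (orderOf (c * c'))).map f).prod) :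
    ∀ q, ∀ L L' : List W, Red Sb L → Red Sb L' → L.length = q → L'.length = q →
      L.prod = L'.prod → (L.map f).prod = (L'.map f).prod := by
  intro q
  induction q using Nat.strong_induction_on with
  | _ q IH =>
  have A1 : ∀ (a : W) (A A' : List W), Red Sb (a :: A) → Red Sb (a :: A') →
      (a :: A).length = q → (a :: A').length = q → (a :: A).prod = (a :: A').prod →
      ((a :: A).map f).prod = ((a :: A').map f).prod := by
    intro a A A' hA hA' hl hl' hp
    simp only [List.length_cons] at hl hl'
    simp only [List.prod_cons, mul_right_inj] at hp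
    simp only [List.map_cons, List.prod_cons]
    rw [IH (q - 1) (by omega) A A' (Red.tail hinv hgen hA) (Red.tail hinv hgen hA') (by omega)
      (by omega) hp]
  have A2 : ∀ (y : W) (A A' : List W), Red Sb (A ++ [y]) → Red Sb (A' ++ [y]) →
      (A ++ [y]).length = q → (A' ++ [y]).length = q → (A ++ [y]).prod = (A' ++ [y]).prod →
      ((A ++ [y]).map f).prod = ((A' ++ [y]).map f).prod := by
    intro y A A' hA hA' hl hl' hp
    simp only [List.length_append, List.length_cons, List.length_nil] at hl hl'
    simp only [List.prod_append, List.prod_cons, List.prod_nil, mul_one, mul_left_inj] at hp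
    simp only [List.map_append, List.prod_append]
    rw [IH (q - 1) (by omega) A A' (Red.append_left hinv hgen hA) (Red.append_left hinv hgen hA')
      (by omega) (by omega) hp]
  have Common : ∀ (U V' : List W) (c' : W), c' ∈ Sb → Red Sb U → Red Sb (c' :: V') →
      U.length = q → (c' :: V').length = q → U.prod = (c' :: V').prod →
      ((U.map f).prod = ((c' :: V').map f).prod) ∨
      ∃ U1 x, U = U1 ++ [x] ∧ Red Sb (c' :: U1) ∧ (c' :: U1).prod = U.prod ∧
        ((c' :: U1).map f).prod = ((c' :: V').map f).prod := by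
    intro U V' c' hc' hU hV hlU hlV hp
    have hVt := Red.tail hinv hgen hV
    have hlt : len Sb (c' * U.prod) < len Sb U.prod := by
      rw [hp, List.prod_cons, ← mul_assoc, hinv c' hc', one_mul]
      have h1 := hV.2
      have h2 := hVt.2
      simp only [List.prod_cons, List.length_cons] at h1
      omega
    obtain ⟨U1, x, U2, rfl, hx⟩ := hex c' hc' U hU hlt
    have hU''w : IsWordIn Sb (c' :: (U1 ++ U2)) :=
      IsWordIn.cons hc' (hU.1.left.append hU.1.right.tail)
    have hU''p : (c' :: (U1 ++ U2)).prod = (U1 ++ x :: U2).prod := by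
      simp only [List.prod_cons, List.prod_append]
      rw [← mul_assoc, hx, mul_assoc]
    have hU''l : (c' :: (U1 ++ U2)).length = q := by
      simp only [List.length_cons, List.length_append] at hlU ⊢; omega
    have hU''r : Red Sb (c' :: (U1 ++ U2)) := ⟨hU''w, by rw [hU''p, hU.2, hU''l, hlU]⟩
    have hFV : ((c' :: (U1 ++ U2)).map f).prod = ((c' :: V').map f).prod :=
      A1 c' _ _ hU''r hV hU''l hlV (hU''p.trans hp)
    rcases List.eq_nil_or_concat U2 with rfl | ⟨U2', y, rfl⟩
    · right
      exact ⟨U1, x, rfl, by simpa using hU''r, by simpa using hU''p, by simpa using hFV⟩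
    · left
      rw [← hFV]
      have e1 : U1 ++ x :: (U2'.concat y) = (U1 ++ x :: U2') ++ [y] := by simp
      have e2 : c' :: (U1 ++ (U2'.concat y)) = (c' :: (U1 ++ U2')) ++ [y] := by simp
      rw [e1] at hU hlU hU''p ⊢
      rw [e2] at hU''r hU''l hU''p ⊢
      exact A2 y _ _ hU hU''r hlU hU''l hU''p.symm
  have Alt : ∀ d k, k + d = q → 1 ≤ k → ∀ c ∈ Sb, ∀ c' ∈ Sb, c ≠ c' → ∀ Y V' : List W,
      Red Sb (altW c c' k ++ Y) → Red Sb (c' :: V') → (altW c c' k ++ Y).length = q →
      (c' :: V').length = q → (altW c c' k ++ Y).prod = (c' :: V').prod →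
      ((altW c c' k ++ Y).map f).prod = ((c' :: V').map f).prod := by
    intro d
    induction d with
    | zero =>
      intro k hk hk1 c hc c' hc' hcc Y V' hU hV hlU hlV hp
      have hY : Y = [] := by
        have h0 := altW_length k c c'
        simp only [List.length_append] at hlU
        exact List.length_eq_zero_iff.1 (by omega)
      subst hY
      simp only [List.append_nil] at hU hlU hp ⊢
      have hkq : k = q := by omega
      subst hkq
      rcases Common _ V' c' hc' hU hV hlU hlV hp with h | ⟨U1, x, hUx, hr, hpr, hF⟩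
      · exact h
      · rw [← hF]
        obtain ⟨k', rfl⟩ : ∃ k', k = k' + 1 := ⟨k - 1, by omega⟩
        obtain ⟨X, hX⟩ := altW_prefix k' 1 c c'
        have hU1 : U1 = altW c c' k' := by
          have h1 : altW c c' k' ++ X = U1 ++ [x] := by rw [← hX, hUx]
          have hlX : X.length = 1 := by
            have h2 := congrArg List.length hX
            simp only [altW_length, List.length_append] at h2; omega
          exact ((List.append_inj' h1 (by simp [hlX])).1).symm
        subst hU1
        have e : c' :: altW c c' k' = altW c' c (k' + 1) := rfl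
        rw [e] at hr hpr ⊢
        have hcc1 := hinv c hc
        have hc'1 := hinv c' hc'
        have hpow : (c * c') ^ (k' + 1) = 1 := by
          rw [← (altW_prod_mul_inv hcc1 hc'1 (k' + 1)).1, hpr, mul_inv_cancel]
        have hm := orderOf_dvd_of_pow_eq_one hpow
        have hmpos : 0 < orderOf (c * c') := Nat.pos_of_dvd_of_pos hm (by omega)
        have hmle : orderOf (c * c') ≤ k' + 1 := Nat.le_of_dvd (by omega) hm
        have hmeq : orderOf (c * c') = k' + 1 := by
          by_contra hne'
          have hlt : orderOf (c * c') < k' + 1 := lt_of_le_of_ne hmle hne'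
          obtain ⟨m', hm'⟩ : ∃ m', orderOf (c * c') = m' + 1 := ⟨orderOf (c * c') - 1, by omega⟩
          obtain ⟨X', hX'⟩ := altW_prefix (m' + 2) (k' + 1 - (m' + 2)) c c'
          have hsum : m' + 2 + (k' + 1 - (m' + 2)) = k' + 1 := by omega
          rw [hsum] at hX'
          have hred : Red Sb (altW c c' (m' + 2)) := by
            rw [hX'] at hU; exact Red.append_left hinv hgen hU
          have h1 := hred.2
          rw [altW_length] at h1
          have hp1 : (altW c c' (m' + 1)).prod = (altW c' c (m' + 1)).prod := by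
            have h3 := (altW_prod_mul_inv hcc1 hc'1 (m' + 1)).1
            have h6 : (c * c') ^ (m' + 1) = 1 := by rw [← hm']; exact pow_orderOf_eq_one _
            rw [h6] at h3
            exact mul_inv_eq_one.1 h3
          have hp2 : (altW c c' (m' + 2)).prod = (altW c' c m').prod := by
            show (c :: altW c' c (m' + 1)).prod = _
            rw [List.prod_cons, ← hp1]
            show c * (c :: altW c' c m').prod = _
            rw [List.prod_cons, ← mul_assoc, hcc1, one_mul]
          have hle : len Sb (altW c' c m').prod ≤ m' := by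
            have h4 := len_le (altW_isWordIn (Sb := Sb) m' c' c hc' hc)
            rwa [altW_length] at h4
          rw [hp2] at h1
          omega
        have h5 := hbraid c hc c' hc' hcc (by omega)
        rw [hmeq] at h5
        exact h5
    | succ d ihd =>
      intro k hk hk1 c hc c' hc' hcc Y V' hU hV hlU hlV hp
      rcases Common _ V' c' hc' hU hV hlU hlV hp with h | ⟨U1, x, hUx, hr, hpr, hF⟩
      · exact h
      · rw [← hF]
        have hYne : Y ≠ [] := by
          intro h0; subst h0
          simp only [List.append_nil, altW_length] at hlU; omega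
        obtain ⟨Y', y, rfl⟩ : ∃ Y' y, Y = Y' ++ [y] :=
          ⟨Y.dropLast, Y.getLast hYne, (List.dropLast_append_getLast hYne).symm⟩
        have hU1 : U1 = altW c c' k ++ Y' := by
          have h1 : (altW c c' k ++ Y') ++ [y] = U1 ++ [x] := by rw [← hUx]; simp
          exact ((List.append_inj' h1 rfl).1).symm
        subst hU1
        obtain ⟨k', rfl⟩ : ∃ k', k = k' + 1 := ⟨k - 1, by omega⟩
        have e : c' :: (altW c c' (k' + 1) ++ Y') = altW c' c (k' + 1 + 1) ++ Y' := rfl
        have e2 : altW c c' (k' + 1) ++ (Y' ++ [y]) = c :: (altW c' c k' ++ (Y' ++ [y])) := rfl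
        rw [e] at hr hpr ⊢
        rw [e2] at hU hlU hpr ⊢
        have hlen2 : (altW c' c (k' + 1 + 1) ++ Y').length = q := by
          simp only [List.length_append, altW_length, List.length_cons, List.length_nil] at hlU ⊢
          omega
        exact (ihd (k' + 1 + 1) (by omega) (by omega) c' hc' c hc (Ne.symm hcc) Y' _ hr hU hlen2
          hlU hpr).symm
  intro L L' hL hL' hl hl' hp
  cases L with
  | nil =>
    have hq : q = 0 := by simpa using hl.symm
    rw [hq] at hl'
    rw [List.length_eq_zero_iff.1 hl']
  | cons a A =>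
    cases L' with
    | nil =>
      exfalso
      simp only [List.length_cons, List.length_nil] at hl hl'
      omega
    | cons b B =>
      by_cases hab : a = b
      · subst hab
        exact A1 a A B hL hL' hl hl' hp
      · have h1 := Alt (q - 1) 1 (by simp only [List.length_cons] at hl; omega) (le_refl 1)
          a hL.1.head b hL'.1.head hab A B (by exact hL) hL' (by exact hl) hl' (by exact hp)
        exact h1


theorem gmap_red {Mo : Type*} [Monoid Mo] (f : W → Mo)
    (hbraid : ∀ c ∈ Sb, ∀ c' ∈ Sb, c ≠ c' → orderOf (c * c') ≠ 0 →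
      ((altW c c' (orderOf (c * c'))).map f).prod = ((altW c' c (orderOf (c * c'))).map f).prod)
    {L : List W} (hL : Red Sb L) : gmap hinv hgen f L.prod = (L.map f).prod := by
  have hs := Classical.choose_spec (exists_red hinv hgen L.prod)
  refine word_property hinv hgen hex f hbraid _ _ _ hs.1 hL rfl ?_ hs.2
  rw [← hL.2, ← hs.1.2, hs.2]

theorem gmap_mul_left {H : Type*} [Group H] (f : W → H) (hf : ∀ s ∈ Sb, f s * f s = 1)
    (hne : ∀ s ∈ Sb, ∀ w, len Sb (s * w) ≠ len Sb w)
    (hbraid : ∀ c ∈ Sb, ∀ c' ∈ Sb, c ≠ c' → orderOf (c * c') ≠ 0 →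
      ((altW c c' (orderOf (c * c'))).map f).prod = ((altW c' c (orderOf (c * c'))).map f).prod)
    {s : W} (hs : s ∈ Sb) (w : W) :
    gmap hinv hgen f (s * w) = f s * gmap hinv hgen f w := by
  have key : ∀ w : W, len Sb w < len Sb (s * w) →
      gmap hinv hgen f (s * w) = f s * gmap hinv hgen f w := by
    intro w hlt
    obtain ⟨L, hL, rfl⟩ := exists_red hinv hgen w
    have hle := len_mul_le hinv hgen hs L.prod
    have hred : Red Sb (s :: L) := by
      refine ⟨IsWordIn.cons hs hL.1, ?_⟩
      have h1 := hL.2
      simp only [List.prod_cons, List.length_cons]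
      omega
    have h2 := gmap_red hinv hgen hex f hbraid hred
    rw [List.prod_cons] at h2
    rw [h2, gmap_red hinv hgen hex f hbraid hL, List.map_cons, List.prod_cons]
  by_cases hlt : len Sb w < len Sb (s * w)
  · exact key w hlt
  · have hne' := hne s hs w
    have hlt' : len Sb (s * w) < len Sb (s * (s * w)) := by
      rw [← mul_assoc, hinv s hs, one_mul]; omega
    have h3 := key (s * w) hlt'
    rw [← mul_assoc, hinv s hs, one_mul] at h3
    rw [h3, ← mul_assoc, hf s hs, one_mul]

theorem gmap_mul {H : Type*} [Group H] (f : W → H) (hf : ∀ s ∈ Sb, f s * f s = 1)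
    (hne : ∀ s ∈ Sb, ∀ w, len Sb (s * w) ≠ len Sb w)
    (hbraid : ∀ c ∈ Sb, ∀ c' ∈ Sb, c ≠ c' → orderOf (c * c') ≠ 0 →
      ((altW c c' (orderOf (c * c'))).map f).prod = ((altW c' c (orderOf (c * c'))).map f).prod)
    (u w : W) :
    gmap hinv hgen f (u * w) = gmap hinv hgen f u * gmap hinv hgen f w := by
  have key : ∀ (L : List W), IsWordIn Sb L → ∀ w : W,
      gmap hinv hgen f (L.prod * w) = (L.map f).prod * gmap hinv hgen f w := by
    intro L
    induction L with
    | nil => intro _ w; simp
    | cons a L ih =>
      intro hL w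
      rw [List.prod_cons, mul_assoc, gmap_mul_left hinv hgen hex f hf hne hbraid hL.head,
        ih hL.tail, List.map_cons, List.prod_cons, mul_assoc]
  have hone : gmap hinv hgen f 1 = 1 := by
    have h1 := gmap_red hinv hgen hex f hbraid (Red.nil (Sb := Sb))
    simpa using h1
  obtain ⟨L, hL, rfl⟩ := exists_word_of_mem_closure hinv (w := u) (by rw [hgen]; trivial)
  rw [key L hL w]
  have h2 := key L hL 1
  rw [mul_one, hone, mul_one] at h2
  rw [h2]

end WordProperty

end Cfsg.Agent.Helper3
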